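import Cfsg.Agent.Lib.CharExtra.Knorr
import Cfsg.Agent.Lib.Block.Height
import Cfsg.Agent.Lib.Char.Brauer
import Cfsg.Agent.Lib.Char.Burnside
import Mathlib.Analysis.Fourier.FiniteAbelian.PontryaginDuality

/-!
# Normal subgroups of `p`-power index and blocks with abelian defect groups
-/

set_option autoImplicit false
set_option linter.unusedSectionVars false
set_option linter.unusedSimpArgs false
set_option linter.unusedVariables false
set_option linter.style.haveILetI false

open scoped ComplexConjugate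
open Cfsg MonoidAlgebra Cfsg.Agent.Lib.Char

namespace Cfsg.Agent.Lib.Block

section Quot

variable {G : Type*} [Group G] [Fintype G]

/-- The decomposition of a group into cosets. -/
noncomputable def cosetEquiv (I : Subgroup G) : G ≃ (G ⧸ I) × I where
  toFun t := (QuotientGroup.mk t, ⟨(QuotientGroup.mk t : G ⧸ I).out⁻¹ * t, by
    rw [← QuotientGroup.eq]
    exact QuotientGroup.out_eq' _⟩)
  invFun x := x.1.out * x.2
  left_inv t := by simp
  right_inv x := by
    obtain ⟨c, i⟩ := x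
    have h : (QuotientGroup.mk (c.out * (i : G)) : G ⧸ I) = c := by
      rw [QuotientGroup.mk_mul_of_mem _ i.2]
      exact QuotientGroup.out_eq' _
    refine Prod.ext h (Subtype.ext ?_)
    simp only [h]
    group

theorem sum_eq_card_mul_sum_quotient (I : Subgroup G) [Fintype (G ⧸ I)] [Fintype I] (f : G → ℂ)
    (hf : ∀ t, ∀ i ∈ I, f (t * i) = f t) :
    ∑ t, f t = (Nat.card I : ℂ) * ∑ c : G ⧸ I, f c.out := by
  classical
  rw [← Equiv.sum_comp (cosetEquiv I).symm f, Fintype.sum_prod_type, Finset.mul_sum]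
  refine Finset.sum_congr rfl fun c _ => ?_
  have h : ∀ i : I, f ((cosetEquiv I).symm (c, i)) = f c.out := fun i => hf _ _ i.2
  simp only [h, Finset.sum_const, Finset.card_univ, nsmul_eq_mul, Nat.card_eq_fintype_card]

end Quot

section Main

variable {G : Type*} [Group G] [Fintype G] {p : ℕ} [hp : Fact p.Prime] {M : Ideal AlgInt}
  (N : Subgroup G) [hN : N.Normal] [Fintype N]

theorem isConj_mem_of_mem {x₀ u : G} (hx₀ : x₀ ∈ N) (h : IsConj x₀ u) : u ∈ N := by
  obtain ⟨c, rfl⟩ := isConj_iff.1 h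
  exact hN.conj_mem _ hx₀ c

theorem index_centralizer_mul_card {x₀ : G} (hx₀ : x₀ ∈ N) :
    (Subgroup.centralizer ({(⟨x₀, hx₀⟩ : N)} : Set N)).index * Nat.card (Subgroup.centralizer ({x₀} : Set G)) =
      Nat.card (N ⊔ Subgroup.centralizer ({x₀} : Set G) : Subgroup G) := by
  set C := Subgroup.centralizer ({x₀} : Set G) with hC
  have h1 : Subgroup.centralizer ({(⟨x₀, hx₀⟩ : N)} : Set N) = C.subgroupOf N := by
    ext n
    rw [Subgroup.mem_subgroupOf, hC, mem_centralizer_singleton, mem_centralizer_singleton]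
    constructor
    · intro h
      exact congrArg Subtype.val h
    · intro h
      exact Subtype.ext h
  rw [h1]
  have h2 : (C.subgroupOf N).index = C.relIndex N := rfl
  have h3 : Nat.card (N ⊔ C : Subgroup G) = N.relIndex (N ⊔ C) * Nat.card N := by
    have h4 : N ≤ N ⊔ C := le_sup_left
    have h5 := (N.subgroupOf (N ⊔ C)).card_mul_index
    have h6 : Nat.card (N.subgroupOf (N ⊔ C)) = Nat.card N :=
      Nat.card_congr (Subgroup.subgroupOfEquivOfLe h4).toEquiv
    rw [← h5, h6, mul_comm]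
    rfl
  have h7 : Nat.card C = N.relIndex C * Nat.card (N.subgroupOf C) := by
    have h5 := (N.subgroupOf C).card_mul_index
    rw [← h5, mul_comm]
    rfl
  have h8 : Nat.card N = C.relIndex N * Nat.card (C.subgroupOf N) := by
    have h5 := (C.subgroupOf N).card_mul_index
    rw [← h5, mul_comm]
    rfl
  have h9 : Nat.card (N.subgroupOf C) = Nat.card (C.subgroupOf N) := by
    have h9a : Nat.card (N.subgroupOf C) = Nat.card (N ⊓ C : Subgroup G) := by
      rw [← Subgroup.inf_subgroupOf_right]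
      exact Nat.card_congr (Subgroup.subgroupOfEquivOfLe inf_le_right).toEquiv
    have h9b : Nat.card (C.subgroupOf N) = Nat.card (N ⊓ C : Subgroup G) := by
      rw [← Subgroup.inf_subgroupOf_left]
      exact Nat.card_congr (Subgroup.subgroupOfEquivOfLe inf_le_left).toEquiv
    rw [h9a, h9b]
  rw [h2, h3, Subgroup.relIndex_sup_left]
  calc C.relIndex N * Nat.card C = C.relIndex N * (N.relIndex C * Nat.card (N.subgroupOf C)) := by rw [← h7]
    _ = N.relIndex C * (C.relIndex N * Nat.card (C.subgroupOf N)) := by rw [h9]; ring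
    _ = N.relIndex C * Nat.card N := by rw [← h8]

/-- The value of the central character of `χ` at a class inside `N`, in terms of the constituent `θ`. -/
theorem centralChar_eq_sum_conj (χ : IrrCharacter G) (θ : IrrCharacter N)
    (hc : classInner (fun n : N => (χ : G → ℂ) n) (θ : N → ℂ) ≠ 0) {x₀ : G} (hx₀ : x₀ ∈ N)
    [Fintype (G ⧸ (N ⊔ Subgroup.centralizer ({x₀} : Set G)))]
    [Fintype (N ⊔ Subgroup.centralizer ({x₀} : Set G) : Subgroup G)] :
    centralChar (χ : G → ℂ) x₀ = ∑ c : G ⧸ (N ⊔ Subgroup.centralizer ({x₀} : Set G)),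
      centralChar (conjIrr N c.out θ : N → ℂ) (⟨x₀, hx₀⟩ : N) := by
  classical
  have hincl : incl N (resAlg N (classSum x₀)) = classSum x₀ := by
    apply ext_coeff
    intro g
    by_cases hg : g ∈ N
    · have := coeff_incl_coe N (resAlg N (classSum x₀)) ⟨g, hg⟩
      simp only at this
      rw [this, coeff_resAlg]
    · rw [coeff_incl_of_notMem N _ hg, coeff_classSum, if_neg (fun h => hg (isConj_mem_of_mem N hx₀ h))]
  have h1 : centralChar (χ : G → ℂ) x₀ = om (θ : N → ℂ) (resAlg N (classSum x₀)) := by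
    rw [← om_incl_of_constituent N χ θ hc (by rw [hincl]; exact isCentralElt_classSum x₀), hincl,
      om_classSum (IsCharacter.isClassFunction (IsIrrCharacter.isCharacter χ.2))]
  rw [h1]
  have hθcl := IsCharacter.isClassFunction (IsIrrCharacter.isCharacter θ.2)
  -- the function on `G`
  let g₀ : G → ℂ := fun t => (θ : N → ℂ) ⟨t * x₀ * t⁻¹, hN.conj_mem _ hx₀ t⟩
  have hg₀ : ∀ t, ∀ i ∈ (N ⊔ Subgroup.centralizer ({x₀} : Set G)), g₀ (t * i) = g₀ t := by
    intro t i hi
    obtain ⟨n, hn, c, hc', rfl⟩ := Subgroup.mem_sup_of_normal_left.1 hi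
    have hc2 : c * x₀ = x₀ * c := mem_centralizer_singleton.1 hc'
    have hn2 : t * n * t⁻¹ ∈ N := hN.conj_mem _ hn t
    have h3 := hθcl ⟨t * x₀ * t⁻¹, hN.conj_mem _ hx₀ t⟩ ⟨t * n * t⁻¹, hn2⟩
    show (θ : N → ℂ) ⟨(t * (n * c)) * x₀ * (t * (n * c))⁻¹, _⟩ = (θ : N → ℂ) ⟨t * x₀ * t⁻¹, _⟩
    rw [← h3]
    refine congrArg (θ : N → ℂ) (Subtype.ext ?_)
    simp only [Subgroup.coe_mul, InvMemClass.coe_inv]
    calc (t * (n * c)) * x₀ * (t * (n * c))⁻¹ = t * n * (c * x₀) * c⁻¹ * n⁻¹ * t⁻¹ := by group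
      _ = t * n * (x₀ * c) * c⁻¹ * n⁻¹ * t⁻¹ := by rw [hc2]
      _ = t * n * t⁻¹ * (t * x₀ * t⁻¹) * (t * n * t⁻¹)⁻¹ := by group
  have h2 := sum_eq_card_mul_sum_quotient (N ⊔ Subgroup.centralizer ({x₀} : Set G)) g₀ hg₀
  -- the count
  let F : G → ℂ := fun u => if h : u ∈ N then (θ : N → ℂ) ⟨u, h⟩ else 0
  have h4 := sum_conj_eq F x₀
  have h5 : ∑ x : G, F (x⁻¹ * x₀ * x) = ∑ t, g₀ t := by
    rw [← Equiv.sum_comp (Equiv.inv G) g₀]
    refine Finset.sum_congr rfl fun x _ => ?_
    have h6 : x⁻¹ * x₀ * x ∈ N := by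
      have := hN.conj_mem _ hx₀ x⁻¹
      simpa using this
    simp only [F, dif_pos h6, g₀]
    refine congrArg (θ : N → ℂ) (Subtype.ext ?_)
    simp
  have h7 : ∑ u ∈ Finset.univ.filter (fun u => IsConj x₀ u), F u = tr (θ : N → ℂ) (resAlg N (classSum x₀)) := by
    unfold tr
    have h8 : ∀ n : N, (resAlg N (classSum x₀)).coeff n * (θ : N → ℂ) n = if IsConj x₀ (n : G) then (θ : N → ℂ) n else 0 := by
      intro n
      rw [coeff_resAlg, coeff_classSum]
      split_ifs <;> simp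
    simp only [h8]
    rw [← Finset.sum_filter]
    refine Finset.sum_bij' (fun u hu => ⟨u, isConj_mem_of_mem N hx₀ (Finset.mem_filter.1 hu).2⟩) (fun n _ => (n : G)) ?_ ?_ ?_ ?_ ?_
    · intro u hu
      simpa using (Finset.mem_filter.1 hu).2
    · intro n hn
      simpa using (Finset.mem_filter.1 hn).2
    · intro u hu
      rfl
    · intro n hn
      rfl
    · intro u hu
      simp only [F, dif_pos (isConj_mem_of_mem N hx₀ (Finset.mem_filter.1 hu).2)]
  rw [h5, h7, nsmul_eq_mul, h2] at h4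
  have hθ1 : (θ : N → ℂ) 1 ≠ 0 := isIrr_one_ne_zero θ.2
  have hCne : (Nat.card (Subgroup.centralizer ({x₀} : Set G)) : ℂ) ≠ 0 := Nat.cast_ne_zero.2 Nat.card_pos.ne'
  have h9 : ∀ c : G, centralChar (conjIrr N c θ : N → ℂ) (⟨x₀, hx₀⟩ : N) =
      ((Subgroup.centralizer ({(⟨x₀, hx₀⟩ : N)} : Set N)).index : ℂ) * g₀ c / (θ : N → ℂ) 1 := by
    intro c
    unfold centralChar
    rw [conjIrr_coe, conjFn_map_one]
    rfl
  simp only [h9]
  have h10 : ((Subgroup.centralizer ({(⟨x₀, hx₀⟩ : N)} : Set N)).index : ℂ) * (Nat.card (Subgroup.centralizer ({x₀} : Set G)) : ℂ) =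
      (Nat.card (N ⊔ Subgroup.centralizer ({x₀} : Set G) : Subgroup G) : ℂ) := by
    exact_mod_cast index_centralizer_mul_card N hx₀
  unfold om
  rw [← h10] at h4
  rw [← Finset.sum_div, ← Finset.mul_sum]
  congr 1
  apply mul_left_cancel₀ hCne
  rw [← h4]
  ring

/-- A defect class of a block covering a stable block of a normal subgroup of `p`-power index lies in `N`, and
its `G`-class is an `N`-class. -/
theorem sup_centralizer_eq_top (hM : IsPModular p M) (hNi : ∃ k : ℕ, N.index = p ^ k)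
    {b : Set (IrrCharacter N)} (hb : IsPBlock M b) (hst : IsStable N b) {B : Set (IrrCharacter G)} (hB : IsPBlock M B)
    {χ : IrrCharacter G} (hχ : χ ∈ B) {θ : IrrCharacter N} (hθ : θ ∈ b)
    (hc : classInner (fun n : N => (χ : G → ℂ) n) (θ : N → ℂ) ≠ 0) {x₀ : G} (hx : IsDefectClass M B x₀) :
    x₀ ∈ N ∧ N ⊔ Subgroup.centralizer ({x₀} : Set G) = ⊤ := by
  classical
  have := isPModular_isPrime hM
  have hx₀ : x₀ ∈ N := mem_of_regular_of_index N hNi (regular_of_isDefectClass hM hB hx)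
  refine ⟨hx₀, ?_⟩
  by_contra hne
  haveI : Fintype (G ⧸ (N ⊔ Subgroup.centralizer ({x₀} : Set G))) := Fintype.ofFinite _
  haveI : Fintype (N ⊔ Subgroup.centralizer ({x₀} : Set G) : Subgroup G) := Fintype.ofFinite _
  apply hx.2.2 χ hχ
  rw [centralChar_eq_sum_conj N χ θ hc hx₀]
  obtain ⟨k, hk⟩ := hNi
  have hdvd : p ∣ (N ⊔ Subgroup.centralizer ({x₀} : Set G) : Subgroup G).index := by
    have h1 : (N ⊔ Subgroup.centralizer ({x₀} : Set G) : Subgroup G).index ∣ p ^ k := by
      rw [← hk]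
      exact Subgroup.index_dvd_of_le le_sup_left
    obtain ⟨j, -, hj⟩ := (Nat.dvd_prime_pow hp.out).1 h1
    rw [hj]
    rcases Nat.eq_zero_or_pos j with rfl | hj'
    · exfalso
      apply hne
      rw [pow_zero] at hj
      exact Subgroup.index_eq_one.1 hj
    · exact dvd_pow_self p hj'.ne'
  have h1 : ∑ c : G ⧸ (N ⊔ Subgroup.centralizer ({x₀} : Set G)),
      centralChar (conjIrr N c.out θ : N → ℂ) (⟨x₀, hx₀⟩ : N) =
      ∑ c : G ⧸ (N ⊔ Subgroup.centralizer ({x₀} : Set G)),
        (centralChar (conjIrr N c.out θ : N → ℂ) (⟨x₀, hx₀⟩ : N) - centralChar (θ : N → ℂ) (⟨x₀, hx₀⟩ : N)) +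
      ((N ⊔ Subgroup.centralizer ({x₀} : Set G) : Subgroup G).index : ℂ) * centralChar (θ : N → ℂ) (⟨x₀, hx₀⟩ : N) := by
    rw [Finset.sum_sub_distrib]
    simp only [Finset.sum_const, Finset.card_univ, nsmul_eq_mul]
    have h2 : Fintype.card (G ⧸ (N ⊔ Subgroup.centralizer ({x₀} : Set G))) =
        (N ⊔ Subgroup.centralizer ({x₀} : Set G) : Subgroup G).index := by
      rw [Subgroup.index, Nat.card_eq_fintype_card]
    rw [h2]
    ring
  rw [h1]
  refine memLocalIdeal_add (memLocalIdeal_sum _ _ fun c _ => ?_) ?_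
  · exact sameBlock_of_mem hb (hst c.out θ hθ) hθ _
  · exact memLocalIdeal_mul_right ((memLocalIdeal_natCast_iff hM _).2 hdvd) (memLocalRing_centralChar θ.2 _)

/-- Elements of `G` as products, when `G = N C` with `G / N` a `p`-group. -/
theorem exists_mul_of_sup_eq_top (hNi : ∃ k : ℕ, N.index = p ^ k) {C : Subgroup G} (hC : N ⊔ C = ⊤)
    (S : Sylow p C) (g : G) : ∃ n ∈ N, ∃ s ∈ (S : Subgroup C).map C.subtype, n * s = g := by
  classical
  let ψ : C →* G ⧸ N := (QuotientGroup.mk' N).comp C.subtype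
  have hψ : Function.Surjective ψ := by
    intro a
    obtain ⟨g, rfl⟩ := QuotientGroup.mk'_surjective N a
    have hg : g ∈ N ⊔ C := by rw [hC]; exact Subgroup.mem_top g
    obtain ⟨n, hn, c, hc, rfl⟩ := Subgroup.mem_sup_of_normal_left.1 hg
    refine ⟨⟨c, hc⟩, ?_⟩
    simp only [ψ, MonoidHom.comp_apply, Subgroup.coe_subtype, QuotientGroup.mk'_apply]
    rw [QuotientGroup.mk_mul, (QuotientGroup.eq_one_iff n).2 hn, one_mul]
  have h1 : ((S : Subgroup C).map ψ).index = 1 := by
    have h2 : ((S : Subgroup C).map ψ).index ∣ (S : Subgroup C).index := Subgroup.index_map_dvd _ hψ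
    have h3 : ((S : Subgroup C).map ψ).index ∣ N.index := Subgroup.index_dvd_card _
    obtain ⟨k, hk⟩ := hNi
    rw [hk] at h3
    obtain ⟨j, -, hj⟩ := (Nat.dvd_prime_pow hp.out).1 h3
    rcases Nat.eq_zero_or_pos j with rfl | hj'
    · simpa using hj
    · exfalso
      apply S.not_dvd_index
      rw [hj] at h2
      exact (dvd_pow_self p hj'.ne').trans h2
  have h4 : (S : Subgroup C).map ψ = ⊤ := Subgroup.index_eq_one.1 h1
  have h5 : (QuotientGroup.mk g : G ⧸ N) ∈ (S : Subgroup C).map ψ := by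
    rw [h4]
    exact Subgroup.mem_top _
  obtain ⟨s, hs, hsg⟩ := h5
  refine ⟨g * (s : G)⁻¹, ?_, (s : G), ⟨s, hs, rfl⟩, by group⟩
  have h6 : (QuotientGroup.mk (s : G) : G ⧸ N) = QuotientGroup.mk g := hsg
  rw [← QuotientGroup.eq_one_iff]
  rw [QuotientGroup.mk_mul, QuotientGroup.mk_inv, ← h6]
  simp

end Main

section Norm

variable {G : Type*} [Group G] [Fintype G] (N : Subgroup G) [Fintype N]
  {A : Type*} [CommGroup A] [Fintype A]

/-- An additive character of a finite abelian group composed with a homomorphism. -/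
noncomputable def lamOf (π : G →* A) (ψ : AddChar (Additive A) ℂ) : G →* ℂ where
  toFun g := ψ (Additive.ofMul (π g))
  map_one' := by simp
  map_mul' a b := by simp [ofMul_mul, AddChar.map_add_eq_mul]

theorem lamOf_apply (π : G →* A) (ψ : AddChar (Additive A) ℂ) (g : G) : lamOf π ψ g = ψ (Additive.ofMul (π g)) := rfl

/-- The norm of the restriction of an irreducible character to the kernel `N` of a homomorphism onto an abelian group. -/
theorem classInner_restrict_eq_sum (π : G →* A) (hπ : Function.Surjective π) (hker : π.ker = N) (χ : G → ℂ) :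
    classInner (fun n : N => χ n) (fun n : N => χ n) =
      ∑ ψ : AddChar (Additive A) ℂ, classInner (χ * fun g => lamOf π ψ g) χ := by
  classical
  have hcard : (Nat.card N : ℂ) * (Nat.card A : ℂ) = (Nat.card G : ℂ) := by
    have h1 : N.index = Nat.card A := by
      rw [← hker]
      rw [Subgroup.index_ker, MonoidHom.range_eq_top.2 hπ]
      simp
    have h2 := N.card_mul_index
    rw [h1] at h2
    exact_mod_cast h2
  have hNne : (Nat.card N : ℂ) ≠ 0 := Nat.cast_ne_zero.2 Nat.card_pos.ne'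
  have hAne : (Nat.card A : ℂ) ≠ 0 := Nat.cast_ne_zero.2 Nat.card_pos.ne'
  simp only [classInner_def, Pi.mul_apply, lamOf_apply]
  rw [← Finset.mul_sum, Finset.sum_comm]
  have h1 : ∀ g : G, ∑ ψ : AddChar (Additive A) ℂ, χ g * ψ (Additive.ofMul (π g)) * conj (χ g) =
      if g ∈ N then (Nat.card A : ℂ) * (χ g * conj (χ g)) else 0 := by
    intro g
    have h2 : ∀ ψ : AddChar (Additive A) ℂ, χ g * ψ (Additive.ofMul (π g)) * conj (χ g) =
        (χ g * conj (χ g)) * ψ (Additive.ofMul (π g)) := fun ψ => by ring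
    simp only [h2]
    rw [← Finset.mul_sum, AddChar.sum_apply_eq_ite]
    by_cases hg : g ∈ N
    · have h3 : π g = 1 := by
        rw [← hker] at hg
        exact hg
      rw [if_pos hg, if_pos (ofMul_eq_zero.2 h3), Nat.card_eq_fintype_card (α := A)]
      have : Fintype.card (Additive A) = Fintype.card A := Fintype.card_congr Additive.ofMul.symm
      rw [this]
      ring
    · have h3 : π g ≠ 1 := by
        rw [← hker] at hg
        exact hg
      rw [if_neg hg, if_neg (fun h => h3 (ofMul_eq_zero.1 h)), mul_zero]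
  simp only [h1]
  have h2 : ∑ g : G, (if g ∈ N then (Nat.card A : ℂ) * (χ g * conj (χ g)) else 0) =
      (Nat.card A : ℂ) * ∑ n : N, χ n * conj (χ n) := by
    rw [Finset.mul_sum, ← Finset.sum_filter]
    refine Finset.sum_bij' (fun g hg => ⟨g, (Finset.mem_filter.1 hg).2⟩) (fun n _ => (n : G)) ?_ ?_ ?_ ?_ ?_
    · intro g _
      exact Finset.mem_univ _
    · intro n _
      exact Finset.mem_filter.2 ⟨Finset.mem_univ _, n.2⟩
    · intro g _
      rfl
    · intro n _
      rfl
    · intro g _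
      rfl
  rw [h2, ← hcard]
  field_simp

/-- If an irreducible character does not vanish on enough elements its restriction has norm one. -/
theorem classInner_restrict_self_eq_one (π : G →* A) (hπ : Function.Surjective π) (hker : π.ker = N) {χ : G → ℂ}
    (hχ : IsIrrCharacter G χ) (hnv : ∀ ψ : AddChar (Additive A) ℂ, ψ ≠ 0 → ∃ g, lamOf π ψ g ≠ 1 ∧ χ g ≠ 0) :
    classInner (fun n : N => χ n) (fun n : N => χ n) = 1 := by
  classical
  rw [classInner_restrict_eq_sum N π hπ hker, Finset.sum_eq_single (0 : AddChar (Additive A) ℂ)]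
  · have h1 : (χ * fun g => lamOf π (0 : AddChar (Additive A) ℂ) g) = χ := by
      funext g
      simp [lamOf_apply]
    rw [h1]
    exact classInner_irr_self hχ
  · intro ψ _ hψ
    have hirr : IsIrrCharacter G (χ * fun g => lamOf π ψ g) := by
      refine isIrr_mul_linear hχ ?_ (by simp)
      have h2 := IsIrrCharacter.isCharacter (isIrrCharacter_of_hom (MonoidHom.toHomUnits (lamOf π ψ)))
      simpa using h2
    refine classInner_irr_of_ne hirr hχ ?_
    intro h3
    obtain ⟨g, hg1, hg2⟩ := hnv ψ hψ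
    have h4 := congrFun h3 g
    simp only [Pi.mul_apply] at h4
    apply hg1
    exact mul_left_cancel₀ hg2 (by rw [h4, mul_one])
  · intro h
    exact absurd (Finset.mem_univ _) h

end Norm

section Assembly

variable {G : Type*} [Group G] [Fintype G] {p : ℕ} [hp : Fact p.Prime] {M : Ideal AlgInt}
  (N : Subgroup G) [hN : N.Normal] [Fintype N]

theorem isStable_of_stabilizes {b : Set (IrrCharacter N)} (hstab : ∀ g : G, StabilizesBlock N b g) :
    IsStable N b := by
  intro g θ hθ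
  obtain ⟨-, h⟩ := hstab g⁻¹
  obtain ⟨χ', hχ', hc⟩ := h θ hθ
  have h1 : conjIrr N g θ = χ' := by
    apply Subtype.ext
    funext n
    rw [conjIrr_coe]
    have h2 := hc ⟨g * n * g⁻¹, hN.conj_mem _ n.2 g⟩ n (by simp; group)
    exact h2.symm
  rw [h1]
  exact hχ'

/-- The quotient is commutative. -/
theorem quotient_comm_of_mul {P : Subgroup G} (hPab : ∀ x ∈ P, ∀ y ∈ P, x * y = y * x)
    (h : ∀ g : G, ∃ n ∈ N, ∃ s ∈ P, n * s = g) (a b : G ⧸ N) : a * b = b * a := by
  have key : ∀ a : G ⧸ N, ∃ s ∈ P, (QuotientGroup.mk s : G ⧸ N) = a := by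
    intro a
    obtain ⟨g, rfl⟩ := QuotientGroup.mk'_surjective N a
    obtain ⟨n, hn, s, hs, rfl⟩ := h g
    refine ⟨s, hs, ?_⟩
    simp only [QuotientGroup.mk'_apply]
    rw [QuotientGroup.mk_mul, (QuotientGroup.eq_one_iff n).2 hn, one_mul]
  obtain ⟨s, hs, rfl⟩ := key a
  obtain ⟨t, ht, rfl⟩ := key b
  rw [← QuotientGroup.mk_mul, ← QuotientGroup.mk_mul, hPab s hs t ht]

/-- The restriction of a member of a block with abelian defect group, covering a stable block of a normal subgroup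
of `p`-power index, is irreducible. -/
theorem isIrr_restrict_of_abelian (hM : IsPModular p M) (hNi : ∃ k : ℕ, N.index = p ^ k)
    {b : Set (IrrCharacter N)} (hb : IsPBlock M b) (hst : IsStable N b) {B : Set (IrrCharacter G)} (hB : IsPBlock M B)
    (hcov : ∃ χ ∈ B, ∃ θ ∈ b, classInner (fun n : N => (χ : G → ℂ) n) (θ : N → ℂ) ≠ 0)
    {P : Subgroup G} (hPD : IsDefectGroup p M B P) (hPab : ∀ x ∈ P, ∀ y ∈ P, x * y = y * x)
    {χ : IrrCharacter G} (hχ : χ ∈ B) :
    IsIrrCharacter N (fun n : N => (χ : G → ℂ) n) := by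
  classical
  have := isPModular_isPrime hM
  obtain ⟨χ₀, hχ₀, θ₀, hθ₀, hc₀⟩ := hcov
  obtain ⟨x₀, hx, S, rfl⟩ := hPD
  obtain ⟨hx₀, hsup⟩ := sup_centralizer_eq_top N hM hNi hb hst hB hχ₀ hθ₀ hc₀ hx
  have hmul := exists_mul_of_sup_eq_top N hNi hsup S
  letI : CommGroup (G ⧸ N) := { (inferInstance : Group (G ⧸ N)) with mul_comm := quotient_comm_of_mul N hPab hmul }
  haveI : Fintype (G ⧸ N) := Fintype.ofFinite _
  refine isIrr_of_character_norm_one (IsCharacter.restrict N (IsIrrCharacter.isCharacter χ.2)) ?_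
  refine classInner_restrict_self_eq_one N (A := G ⧸ N) (QuotientGroup.mk' N) (QuotientGroup.mk'_surjective N)
    (QuotientGroup.ker_mk' N) χ.2 ?_
  intro ψ hψ
  obtain ⟨a, ha⟩ := AddChar.ne_zero_iff.1 hψ
  obtain ⟨g, hg⟩ := QuotientGroup.mk'_surjective N (Additive.toMul a)
  have ha' : a = Additive.ofMul (QuotientGroup.mk' N g) := by
    rw [hg]
    rfl
  obtain ⟨n, hn, s, hs, rfl⟩ := hmul g
  obtain ⟨s', hs', rfl⟩ := hs
  have hnmk : QuotientGroup.mk' N n = 1 := (QuotientGroup.eq_one_iff n).2 hn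
  have hx₀mk : QuotientGroup.mk' N x₀ = 1 := (QuotientGroup.eq_one_iff x₀).2 hx₀
  refine ⟨(s' : G) * x₀, ?_, ?_⟩
  · intro h1
    apply ha
    rw [ha']
    have h2 : lamOf (QuotientGroup.mk' N) ψ ((s' : G) * x₀) = lamOf (QuotientGroup.mk' N) ψ (n * (s' : G)) := by
      rw [map_mul, map_mul]
      have h3 : lamOf (QuotientGroup.mk' N) ψ x₀ = 1 := by
        rw [lamOf_apply, hx₀mk]
        simp
      have h4 : lamOf (QuotientGroup.mk' N) ψ n = 1 := by
        rw [lamOf_apply, hnmk]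
        simp
      rw [h3, h4, one_mul, mul_one]
    rw [h2] at h1
    exact h1
  · intro h0
    have hcen : ∀ w ∈ (S : Subgroup (Subgroup.centralizer ({x₀} : Set G))), s' * w = w * s' := by
      intro w hw
      apply Subtype.ext
      exact hPab _ ⟨s', hs', rfl⟩ _ ⟨w, hw, rfl⟩
    apply not_memLocalIdeal_centralChar_mul hM hB hx S s' hs' hcen hχ
    unfold centralChar
    rw [h0, mul_zero, zero_div]
    exact memLocalIdeal_zero

/-- The restriction of a member of `B`. -/
noncomputable def resIrr (hM : IsPModular p M) (hNi : ∃ k : ℕ, N.index = p ^ k)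
    {b : Set (IrrCharacter N)} (hb : IsPBlock M b) (hst : IsStable N b) {B : Set (IrrCharacter G)} (hB : IsPBlock M B)
    (hcov : ∃ χ ∈ B, ∃ θ ∈ b, classInner (fun n : N => (χ : G → ℂ) n) (θ : N → ℂ) ≠ 0)
    {P : Subgroup G} (hPD : IsDefectGroup p M B P) (hPab : ∀ x ∈ P, ∀ y ∈ P, x * y = y * x)
    (χ : B) : IrrCharacter N :=
  ⟨fun n : N => (χ.1 : G → ℂ) n, isIrr_restrict_of_abelian N hM hNi hb hst hB hcov hPD hPab χ.2⟩

theorem resIrr_mem (hM : IsPModular p M) (hNi : ∃ k : ℕ, N.index = p ^ k)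
    {b : Set (IrrCharacter N)} (hb : IsPBlock M b) (hst : IsStable N b) {B : Set (IrrCharacter G)} (hB : IsPBlock M B)
    (hcov : ∃ χ ∈ B, ∃ θ ∈ b, classInner (fun n : N => (χ : G → ℂ) n) (θ : N → ℂ) ≠ 0)
    {P : Subgroup G} (hPD : IsDefectGroup p M B P) (hPab : ∀ x ∈ P, ∀ y ∈ P, x * y = y * x)
    (χ : B) : resIrr N hM hNi hb hst hB hcov hPD hPab χ ∈ b := by
  have := isPModular_isPrime hM
  obtain ⟨χ₀, hχ₀, θ₀, hθ₀, hc₀⟩ := id hcov
  refine constituent_mem_of_sameBlock N hst (isBlockUnion_of_isPBlock hb) (sameBlock_of_mem hB hχ₀ χ.2)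
    ⟨θ₀, hθ₀, hc₀⟩ ?_
  have h1 := classInner_irr_self (resIrr N hM hNi hb hst hB hcov hPD hPab χ).2
  rw [show (fun n : N => ((χ.1 : IrrCharacter G) : G → ℂ) n) = ((resIrr N hM hNi hb hst hB hcov hPD hPab χ : IrrCharacter N) : N → ℂ) from rfl, h1]
  exact one_ne_zero

/-- The number of extensions of a member of `b`. -/
theorem card_ext_eq_index (hM : IsPModular p M) (hNi : ∃ k : ℕ, N.index = p ^ k)
    {b : Set (IrrCharacter N)} (hb : IsPBlock M b) (hst : IsStable N b) {B : Set (IrrCharacter G)} (hB : IsPBlock M B)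
    (hcov : ∃ χ ∈ B, ∃ θ ∈ b, classInner (fun n : N => (χ : G → ℂ) n) (θ : N → ℂ) ≠ 0)
    {P : Subgroup G} (hPD : IsDefectGroup p M B P) (hPab : ∀ x ∈ P, ∀ y ∈ P, x * y = y * x)
    {θ : IrrCharacter N} (hθ : θ ∈ b) :
    Nat.card {χ : IrrCharacter G // χ ∈ B ∧ ∀ n : N, (χ : G → ℂ) n = (θ : N → ℂ) n} = N.index := by
  classical
  have := isPModular_isPrime hM
  obtain ⟨χ₀, hχ₀, θ₀, hθ₀, hc₀⟩ := id hcov
  rw [Nat.subtype_card (Finset.univ.filter fun χ : IrrCharacter G => χ ∈ B ∧ ∀ n : N, (χ : G → ℂ) n = (θ : N → ℂ) n)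
    (by simp)]
  have hval : ∀ χ : IrrCharacter G, classInner (indFun N (θ : N → ℂ)) (χ : G → ℂ) =
      if χ ∈ Finset.univ.filter (fun χ : IrrCharacter G => χ ∈ B ∧ ∀ n : N, (χ : G → ℂ) n = (θ : N → ℂ) n) then 1 else 0 := by
    intro χ
    rw [frobenius_reciprocity N (θ : N → ℂ) (χ : G → ℂ) (IsCharacter.isClassFunction (IsIrrCharacter.isCharacter χ.2))]
    split_ifs with h
    · obtain ⟨-, h2⟩ := Finset.mem_filter.1 h
      have h3 : (fun n : N => (χ : G → ℂ) n) = (θ : N → ℂ) := funext h2.2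
      rw [h3]
      exact classInner_irr_self θ.2
    · by_contra hne
      apply h
      have hne' : classInner (fun n : N => (χ : G → ℂ) n) (θ : N → ℂ) ≠ 0 := by
        intro h0
        apply hne
        rw [← conj_classInner, h0, map_zero]
      have hχB : χ ∈ B := by
        obtain ⟨χ₁, rfl⟩ := hB
        have h1 := sameBlock_of_sameBlock_constituent N hM hNi hc₀ hne' (sameBlock_of_mem hb hθ₀ hθ)
        have h2 := sameBlock_of_mem (isPBlock_blockOf χ₁) (mem_blockOf_self χ₁) hχ₀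
        exact sameBlock_trans h2 h1
      have hirr := isIrr_restrict_of_abelian N hM hNi hb hst hB hcov hPD hPab hχB
      refine Finset.mem_filter.2 ⟨Finset.mem_univ _, hχB, fun n => ?_⟩
      by_contra hn
      have h4 : (fun n : N => (χ : G → ℂ) n) ≠ (θ : N → ℂ) := fun h5 => hn (congrFun h5 n)
      exact hne' (classInner_irr_of_ne hirr θ.2 h4)
  have h1 := congrFun (classFunction_eq_sum _ (indFun_isClassFunction N (θ : N → ℂ))) 1
  rw [Finset.sum_apply] at h1
  simp only [Pi.smul_apply, smul_eq_mul, hval] at h1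
  have hθ1 : (θ : N → ℂ) 1 ≠ 0 := isIrr_one_ne_zero θ.2
  have h2 : indFun N (θ : N → ℂ) 1 = (N.index : ℂ) * (θ : N → ℂ) 1 := by
    rw [indFun_apply]
    have h3 : ∀ x : G, extendByZero N (θ : N → ℂ) (x⁻¹ * 1 * x) = (θ : N → ℂ) 1 := by
      intro x
      have h4 : x⁻¹ * 1 * x = ((1 : N) : G) := by simp
      rw [h4, extendByZero_coe]
    simp only [h3, Finset.sum_const, Finset.card_univ, nsmul_eq_mul]
    have h5 : (Nat.card N : ℂ) * (N.index : ℂ) = (Fintype.card G : ℂ) := by
      rw [← Nat.card_eq_fintype_card]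
      exact_mod_cast N.card_mul_index
    have h6 : (Nat.card N : ℂ) ≠ 0 := Nat.cast_ne_zero.2 Nat.card_pos.ne'
    rw [← h5]
    field_simp
  have h3 : ∑ χ : IrrCharacter G, (if χ ∈ Finset.univ.filter (fun χ : IrrCharacter G => χ ∈ B ∧ ∀ n : N, (χ : G → ℂ) n = (θ : N → ℂ) n) then (1 : ℂ) else 0) * (χ : G → ℂ) 1 =
      ((Finset.univ.filter (fun χ : IrrCharacter G => χ ∈ B ∧ ∀ n : N, (χ : G → ℂ) n = (θ : N → ℂ) n)).card : ℂ) * (θ : N → ℂ) 1 := by
    have h4 : ∀ χ : IrrCharacter G, (if χ ∈ Finset.univ.filter (fun χ : IrrCharacter G => χ ∈ B ∧ ∀ n : N, (χ : G → ℂ) n = (θ : N → ℂ) n) then (1 : ℂ) else 0) * (χ : G → ℂ) 1 =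
        if χ ∈ Finset.univ.filter (fun χ : IrrCharacter G => χ ∈ B ∧ ∀ n : N, (χ : G → ℂ) n = (θ : N → ℂ) n) then (θ : N → ℂ) 1 else 0 := by
      intro χ
      split_ifs with h
      · have h5 := (Finset.mem_filter.1 h).2.2 1
        rw [one_mul, ← h5]
        simp
      · simp
    simp only [h4]
    rw [Finset.sum_ite_mem, Finset.univ_inter, Finset.sum_const, nsmul_eq_mul]
  rw [h2, h3] at h1
  have h4 := mul_right_cancel₀ hθ1 h1
  exact_mod_cast h4.symm

/-- The size of `B`. -/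
theorem card_block_eq_index_mul (hM : IsPModular p M) (hNi : ∃ k : ℕ, N.index = p ^ k)
    {b : Set (IrrCharacter N)} (hb : IsPBlock M b) (hst : IsStable N b) {B : Set (IrrCharacter G)} (hB : IsPBlock M B)
    (hcov : ∃ χ ∈ B, ∃ θ ∈ b, classInner (fun n : N => (χ : G → ℂ) n) (θ : N → ℂ) ≠ 0)
    {P : Subgroup G} (hPD : IsDefectGroup p M B P) (hPab : ∀ x ∈ P, ∀ y ∈ P, x * y = y * x) :
    Nat.card B = N.index * Nat.card b := by
  classical
  let f : B → b := fun χ => ⟨resIrr N hM hNi hb hst hB hcov hPD hPab χ, resIrr_mem N hM hNi hb hst hB hcov hPD hPab χ⟩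
  have h1 : Nat.card B = Nat.card (Σ y : b, {x : B // f x = y}) :=
    Nat.card_congr (Equiv.sigmaFiberEquiv f).symm
  have h2 : ∀ y : b, Nat.card {x : B // f x = y} = N.index := by
    intro y
    rw [← card_ext_eq_index N hM hNi hb hst hB hcov hPD hPab y.2]
    refine Nat.card_congr ⟨fun x => ⟨x.1.1, x.1.2, fun n => ?_⟩, fun x => ⟨⟨x.1, x.2.1⟩, ?_⟩, fun x => rfl, fun x => rfl⟩
    · have h3 := congrArg (fun t : b => ((t.1 : IrrCharacter N) : N → ℂ) n) x.2
      exact h3
    · apply Subtype.ext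
      apply Subtype.ext
      funext n
      exact x.2.2 n
  rw [h1, Nat.card_sigma]
  simp only [h2, Finset.sum_const, Finset.card_univ, smul_eq_mul, Nat.card_eq_fintype_card (α := b)]
  ring

/-- Extension by zero from `N` to `G`, as a linear map. -/
noncomputable def extZero : (N → ℂ) →ₗ[ℂ] (G → ℂ) := by
  classical
  exact {
    toFun := fun f g => if h : g ∈ N then f ⟨g, h⟩ else 0
    map_add' := by
      intro f f'
      funext g
      by_cases h : g ∈ N <;> simp [h]
    map_smul' := by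
      intro c f
      funext g
      by_cases h : g ∈ N <;> simp [h] }

theorem extZero_of_mem (f : N → ℂ) {g : G} (h : g ∈ N) : extZero N f g = f ⟨g, h⟩ := by
  classical
  simp [extZero, h]

theorem extZero_of_notMem (f : N → ℂ) {g : G} (h : g ∉ N) : extZero N f g = 0 := by
  classical
  simp [extZero, h]

theorem extZero_injective : Function.Injective (extZero N) := by
  intro f f' h
  funext n
  have := congrFun h (n : G)
  rwa [extZero_of_mem N f n.2, extZero_of_mem N f' n.2] at this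

theorem extZero_pRegularPart (hNi : ∃ k : ℕ, N.index = p ^ k) {χ : G → ℂ} :
    extZero N (pRegularPart p (fun n : N => χ n)) = pRegularPart p χ := by
  classical
  funext g
  by_cases hg : g ∈ N
  · rw [extZero_of_mem N _ hg]
    unfold pRegularPart IsPRegular
    have h1 : orderOf (⟨g, hg⟩ : N) = orderOf g := Subgroup.orderOf_mk _ _
    simp only [h1]
    split_ifs <;> rfl
  · rw [extZero_of_notMem N _ hg]
    unfold pRegularPart IsPRegular
    rw [if_neg]
    intro h
    exact hg (mem_of_regular_of_index N hNi h)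

/-- The ranks agree. -/
theorem blockRank_eq_of_abelian (hM : IsPModular p M) (hNi : ∃ k : ℕ, N.index = p ^ k)
    {b : Set (IrrCharacter N)} (hb : IsPBlock M b) (hst : IsStable N b) {B : Set (IrrCharacter G)} (hB : IsPBlock M B)
    (hcov : ∃ χ ∈ B, ∃ θ ∈ b, classInner (fun n : N => (χ : G → ℂ) n) (θ : N → ℂ) ≠ 0)
    {P : Subgroup G} (hPD : IsDefectGroup p M B P) (hPab : ∀ x ∈ P, ∀ y ∈ P, x * y = y * x) :
    blockRank p B = blockRank p b := by
  classical
  unfold blockRank
  have h1 : Submodule.span ℂ ((fun χ : IrrCharacter G => pRegularPart p (χ : G → ℂ)) '' B) =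
      (Submodule.span ℂ ((fun χ : IrrCharacter N => pRegularPart p (χ : N → ℂ)) '' b)).map (extZero N) := by
    rw [Submodule.map_span]
    congr 1
    ext f
    constructor
    · rintro ⟨χ, hχ, rfl⟩
      refine ⟨pRegularPart p (fun n : N => (χ : G → ℂ) n), ⟨_, resIrr_mem N hM hNi hb hst hB hcov hPD hPab ⟨χ, hχ⟩, rfl⟩, ?_⟩
      exact extZero_pRegularPart N hNi
    · rintro ⟨_, ⟨θ, hθ, rfl⟩, rfl⟩
      have h2 := card_ext_eq_index N hM hNi hb hst hB hcov hPD hPab hθ
      have h3 : Nonempty {χ : IrrCharacter G // χ ∈ B ∧ ∀ n : N, (χ : G → ℂ) n = (θ : N → ℂ) n} := by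
        by_contra hne
        rw [not_nonempty_iff] at hne
        rw [Nat.card_of_isEmpty] at h2
        exact Subgroup.index_ne_zero_of_finite h2.symm
      obtain ⟨⟨χ, hχ, hχθ⟩⟩ := h3
      refine ⟨χ, hχ, ?_⟩
      have h4 : (θ : N → ℂ) = fun n : N => (χ : G → ℂ) n := funext fun n => (hχθ n).symm
      show pRegularPart p (χ : G → ℂ) = extZero N (pRegularPart p (θ : N → ℂ))
      rw [h4, extZero_pRegularPart N hNi]
  rw [h1]
  exact (LinearEquiv.finrank_eq (Submodule.equivMapOfInjective (extZero N) (extZero_injective N) _)).symm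

/-- **Blocks with abelian defect group covering a stable block of a normal subgroup of `p`-power index.** -/
theorem abelian_cover_main (hM : IsPModular p M) (hNi : ∃ k : ℕ, N.index = p ^ k)
    (b : Set (IrrCharacter N)) (hb : IsPBlock M b) (hstab : ∀ g : G, StabilizesBlock N b g)
    (B : Set (IrrCharacter G)) (hB : IsPBlock M B)
    (hcov : ∃ χ ∈ B, ∃ θ ∈ b, classInner (fun n : N => (χ : G → ℂ) n) (θ : N → ℂ) ≠ 0)
    (P : Subgroup G) (hPD : IsDefectGroup p M B P) (hPab : ∀ x ∈ P, ∀ y ∈ P, x * y = y * x) :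
    N ⊔ P = ⊤ ∧ IsDefectGroup p M b ((P ⊓ N).subgroupOf N) ∧
      (∀ χ ∈ B, ∃ θ ∈ b, ∀ n : N, (χ : G → ℂ) n = (θ : N → ℂ) n) ∧
      (∀ θ ∈ b, Nat.card {χ : IrrCharacter G // χ ∈ B ∧ ∀ n : N, (χ : G → ℂ) n = (θ : N → ℂ) n} = N.index) ∧
      Nat.card B = N.index * Nat.card b ∧ blockRank p B = blockRank p b := by
  classical
  have := isPModular_isPrime hM
  have hst := isStable_of_stabilizes N hstab
  refine ⟨?_, ?_, ?_, ?_, card_block_eq_index_mul N hM hNi hb hst hB hcov hPD hPab,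
    blockRank_eq_of_abelian N hM hNi hb hst hB hcov hPD hPab⟩
  · obtain ⟨χ₀, hχ₀, θ₀, hθ₀, hc₀⟩ := id hcov
    obtain ⟨x₀, hx, S, rfl⟩ := id hPD
    obtain ⟨hx₀, hsup⟩ := sup_centralizer_eq_top N hM hNi hb hst hB hχ₀ hθ₀ hc₀ hx
    rw [eq_top_iff]
    intro g _
    obtain ⟨n, hn, s, hs, rfl⟩ := exists_mul_of_sup_eq_top N hNi hsup S g
    exact Subgroup.mul_mem_sup hn hs
  · obtain ⟨c, hc, hcsub, -, -, hdef⟩ := Cfsg.Agent.Lib.CharExtra.exists_stable_block_defect N hM hB hPD hb hcov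
    have hsat : sat N b ⊆ b := by
      rintro _ ⟨g, θ, hθ, rfl⟩
      exact hst g θ hθ
    obtain ⟨θ, hθ⟩ := IsPBlock_nonempty hc
    have h1 : c = b := by
      rw [blockOf_eq_of_mem hc hθ, ← blockOf_eq_of_mem hb (hsat (hcsub hθ))]
    rw [← h1]
    exact hdef
  · intro χ hχ
    exact ⟨resIrr N hM hNi hb hst hB hcov hPD hPab ⟨χ, hχ⟩, resIrr_mem N hM hNi hb hst hB hcov hPD hPab ⟨χ, hχ⟩,
      fun n => rfl⟩
  · intro θ hθ
    exact card_ext_eq_index N hM hNi hb hst hB hcov hPD hPab hθ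

end Assembly

end Cfsg.Agent.Lib.Block
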