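import Cfsg.Agent.Lib.Block.ChainEuler
import Cfsg.Agent.Lib.Block.Subsect
import Cfsg.Agent.Lib.Block.Extended
import Cfsg.Agent.Lib.Block.BrauerSub
import Cfsg.Agent.Lib.Degree.UniqueDvd3

/-!
# Sections of the stabilizers of chains
-/

set_option autoImplicit false
set_option linter.unusedSectionVars false
set_option linter.unusedSimpArgs false
set_option linter.unusedVariables false

open Cfsg MonoidAlgebra Module

namespace Cfsg.Agent.Lib.Block

section Transport

variable {H K : Type*} [Group H] [Group K] {p : ℕ}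

/-- Precomposition with an isomorphism of groups, as a linear equivalence. -/
noncomputable def precompEquiv (e : H ≃* K) : (H → ℂ) ≃ₗ[ℂ] (K → ℂ) :=
  LinearEquiv.funCongrLeft ℂ ℂ e.symm.toEquiv

theorem precompEquiv_apply (e : H ≃* K) (f : H → ℂ) (k : K) : precompEquiv e f k = f (e.symm k) := rfl

theorem precomp_pRegularPart (e : H ≃* K) (f : H → ℂ) :
    precompEquiv e (pRegularPart p f) = pRegularPart p (f ∘ e.symm) := by
  classical
  ext k
  rw [precompEquiv_apply]
  by_cases hk : p ∣ orderOf k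
  · have : p ∣ orderOf (e.symm k) := by rwa [MulEquiv.orderOf_eq]
    rw [pRegularPart_of_sing this, pRegularPart_of_sing hk]
  · have : ¬ p ∣ orderOf (e.symm k) := by rwa [MulEquiv.orderOf_eq]
    rw [pRegularPart_of_reg this, pRegularPart_of_reg hk]
    rfl

/-- The `p`-regular rank under an isomorphism. -/
theorem blockRank_congr_equiv (e : H ≃* K) {S : Set (IrrCharacter H)} {S' : Set (IrrCharacter K)}
    (h : ∀ ξ : IrrCharacter K, ξ ∈ S' ↔ pull e ξ ∈ S) : blockRank p S = blockRank p S' := by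
  classical
  unfold blockRank
  have himg : (fun χ : IrrCharacter K => pRegularPart p (χ : K → ℂ)) '' S' =
      (precompEquiv e : (H → ℂ) →ₗ[ℂ] (K → ℂ)) '' ((fun χ : IrrCharacter H => pRegularPart p (χ : H → ℂ)) '' S) := by
    ext f
    constructor
    · rintro ⟨ξ, hξ, rfl⟩
      refine ⟨_, ⟨pull e ξ, (h ξ).1 hξ, rfl⟩, ?_⟩
      show precompEquiv e (pRegularPart p (pull e ξ : H → ℂ)) = _
      rw [precomp_pRegularPart, pull_coe]
      congr 1
      ext k
      simp
    · rintro ⟨_, ⟨χ, hχ, rfl⟩, rfl⟩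
      refine ⟨pull e.symm χ, (h _).2 ?_, ?_⟩
      · convert hχ using 1
        apply Subtype.ext
        ext k
        simp [pull_coe]
      · show _ = precompEquiv e (pRegularPart p (χ : H → ℂ))
        rw [precomp_pRegularPart]
        rfl
  rw [himg, ← Submodule.map_span]
  exact (LinearEquiv.finrank_map_eq (precompEquiv e) _).symm

end Transport

section TransG

open scoped Classical

variable {G : Type*} [Group G] [Fintype G] {p : ℕ} [hp : Fact p.Prime] {M : Ideal AlgInt}
  (L : Subgroup G) (K : Subgroup L)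

/-- The induced central character from a subgroup `K` of `L`, computed in `G`, as a sum over the classes of `L`. -/
theorem induced_map_eq_sum [Fintype L] [Fintype K] [Fintype (K.map L.subtype)] [Fintype (ConjClasses L)]
    (ξ' : K.map L.subtype → ℂ) (ξ : K → ℂ)
    (hξ : ∀ k : K, ξ' ⟨((k : L) : G), (k : L), k.2, rfl⟩ = ξ k) (g : G) :
    inducedCentralChar (K.map L.subtype) ξ' g =
      ∑ c : ConjClasses L, if IsConj g (c.out : G) then inducedCentralChar K ξ c.out else 0 := by
  rw [inducedCentralChar_eq_sum]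
  let e : K ≃ K.map L.subtype := (Subgroup.equivMapOfInjective K L.subtype (Subgroup.subtype_injective L)).toEquiv
  have he : ∀ k : K, e k = ⟨((k : L) : G), (k : L), k.2, rfl⟩ := fun k => rfl
  rw [← Equiv.sum_comp e]
  have h1 : (1 : K.map L.subtype) = ⟨(((1 : K) : L) : G), ((1 : K) : L), (1 : K).2, rfl⟩ := rfl
  have hone : ξ' 1 = ξ 1 := by
    rw [h1, hξ]
  have hrhs : ∀ c : ConjClasses L, (if IsConj g (c.out : G) then inducedCentralChar K ξ c.out else 0) =
      ∑ k : K, if IsConj g (c.out : G) then (if IsConj c.out (k : L) then ξ k / ξ 1 else 0) else 0 := by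
    intro c
    rw [inducedCentralChar_eq_sum]
    split_ifs <;> simp
  rw [Finset.sum_congr rfl fun c _ => hrhs c]
  rw [Finset.sum_comm]
  refine Finset.sum_congr rfl fun k _ => ?_
  rw [Finset.sum_eq_single (ConjClasses.mk (k : L))]
  · have h2 : IsConj (ConjClasses.mk (k : L)).out (k : L) := by
      rw [← ConjClasses.mk_eq_mk_iff_isConj]
      exact Quotient.out_eq' _
    rw [if_pos h2, he, hξ, hone]
    have h3 : IsConj ((ConjClasses.mk (k : L)).out : G) ((k : L) : G) := by
      obtain ⟨a, ha⟩ := isConj_iff.1 h2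
      exact isConj_iff.2 ⟨a, congrArg Subtype.val ha⟩
    by_cases h4 : IsConj g ((k : L) : G)
    · rw [if_pos h4, if_pos (h4.trans h3.symm)]
    · rw [if_neg h4, if_neg fun h5 => h4 (h5.trans h3)]
  · intro c _ hc
    have hnc : ¬ IsConj c.out (k : L) := by
      intro h1
      apply hc
      rw [← ConjClasses.mk_eq_mk_iff_isConj] at h1
      rw [← h1]
      exact (Quotient.out_eq' _).symm
    rw [if_neg hnc, ite_self]
  · simp

/-- The induced central character from `L` as a sum over the classes of `L`. -/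
theorem induced_eq_sum_classes [Fintype L] [Fintype (ConjClasses L)] (ψ : L → ℂ) (hψ : IsClassFunction L ψ) (g : G) :
    inducedCentralChar L ψ g = ∑ c : ConjClasses L, if IsConj g (c.out : G) then centralChar ψ c.out else 0 := by
  rw [inducedCentralChar_eq_sum]
  rw [← Finset.sum_fiberwise_of_maps_to (s := Finset.univ) (t := Finset.univ) (g := fun l : L => ConjClasses.mk l) (fun _ _ => Finset.mem_univ _)]
  refine Finset.sum_congr rfl fun c _ => ?_
  obtain ⟨hfib⟩ : PLift (∀ l ∈ Finset.univ.filter (fun l : L => ConjClasses.mk l = c), IsConj c.out l) := ⟨by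
    intro l hl
    have h1 : ConjClasses.mk l = c := (Finset.mem_filter.1 hl).2
    rw [← ConjClasses.mk_eq_mk_iff_isConj, h1]
    exact Quotient.out_eq' _⟩
  have hterm : ∀ l ∈ Finset.univ.filter (fun l : L => ConjClasses.mk l = c),
      (if IsConj g (l : G) then ψ l / ψ 1 else 0) = if IsConj g (c.out : G) then ψ c.out / ψ 1 else 0 := by
    intro l hl
    have h2 := hfib l hl
    obtain ⟨a, ha⟩ := isConj_iff.1 h2
    have h3 : IsConj ((c.out : L) : G) (l : G) := isConj_iff.2 ⟨a, congrArg Subtype.val ha⟩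
    have h4 : ψ l = ψ c.out := by
      rw [← ha]
      exact hψ c.out a
    rw [h4]
    by_cases h5 : IsConj g (l : G)
    · rw [if_pos h5, if_pos (h5.trans h3.symm)]
    · rw [if_neg h5, if_neg fun h6 => h5 (h6.trans h3)]
  rw [Finset.sum_congr rfl hterm, Finset.sum_const, nsmul_eq_mul]
  have hcard : (Finset.univ.filter (fun l : L => ConjClasses.mk l = c)).card = (Subgroup.centralizer ({c.out} : Set L)).index := by
    have h1 := Cfsg.Agent.Lib.Degree.card_carrier_eq_index (c.out : L)
    rw [← h1]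
    have h2 : ConjClasses.mk (c.out : L) = c := Quotient.out_eq' _
    rw [h2, Nat.card_eq_fintype_card, ← Set.toFinset_card]
    congr 1
    ext l
    simp [ConjClasses.mem_carrier_iff_mk_eq]
  rw [hcard]
  unfold centralChar
  split_ifs
  · ring
  · simp

theorem memLocalIdeal_induced_trans [M.IsPrime] [Fintype L] [Fintype K] [Fintype (K.map L.subtype)] [Fintype (ConjClasses L)]
    (ξ' : K.map L.subtype → ℂ) (ξ : K → ℂ)
    (hξ : ∀ k : K, ξ' ⟨((k : L) : G), (k : L), k.2, rfl⟩ = ξ k) (ψ : L → ℂ) (hψ : IsClassFunction L ψ)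
    (h : ∀ l : L, MemLocalIdeal M (inducedCentralChar K ξ l - centralChar ψ l)) (g : G) :
    MemLocalIdeal M (inducedCentralChar (K.map L.subtype) ξ' g - inducedCentralChar L ψ g) := by
  rw [induced_map_eq_sum L K ξ' ξ hξ, induced_eq_sum_classes L ψ hψ, ← Finset.sum_sub_distrib]
  refine memLocalIdeal_sum _ _ fun c _ => ?_
  split_ifs
  · exact h _
  · simpa using memLocalIdeal_zero

/-- The irreducible characters of `L` in blocks inducing `b`. -/
def blocksOver (M : Ideal AlgInt) (L : Subgroup G) (b : Set (IrrCharacter G)) : Set (IrrCharacter L) :=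
  {ψ | ∃ β : Set (IrrCharacter L), ψ ∈ β ∧ IsInducedBlock M L β b}

theorem isBlockUnion_blocksOver [M.IsPrime] (b : Set (IrrCharacter G)) [Fintype L] :
    IsBlockUnion M (blocksOver M L b) := by
  rintro ψ ⟨β, hψ, hind⟩ ψ' hψ' hs
  apply hψ'
  refine ⟨β, ?_, hind⟩
  have h1 := blockOf_eq_of_mem hind.1 hψ
  rw [h1]
  exact hs

/-- Membership in `indSet` across the subgroup tower. -/
theorem mem_indSet_transport (hM : IsPModular p M) {b : Set (IrrCharacter G)} (hb : IsPBlock M b) [Fintype L]
    {T : Subgroup G} (hT : IsPGroup p T) (hTL : T ≤ L) (hCL : Subgroup.centralizer (T : Set G) ≤ L)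
    (hLN : L ≤ Subgroup.normalizer (T : Set G)) (u : L) (hu : ∃ k : ℕ, orderOf u = p ^ k)
    (ξ' : IrrCharacter ((Subgroup.centralizer ({u} : Set L)).map L.subtype)) :
    ξ' ∈ indSet M ((Subgroup.centralizer ({u} : Set L)).map L.subtype) b ↔
      pull (Subgroup.equivMapOfInjective (Subgroup.centralizer ({u} : Set L)) L.subtype (Subgroup.subtype_injective L)) ξ' ∈
        indSet M (Subgroup.centralizer ({u} : Set L)) (blocksOver M L b) := by
  have := isPModular_isPrime hM
  haveI : Fintype (ConjClasses L) := Fintype.ofFinite _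
  haveI : Fintype (Subgroup.centralizer ({u} : Set L)) := Fintype.ofFinite _
  haveI : Fintype ((Subgroup.centralizer ({u} : Set L)).map L.subtype) := Fintype.ofFinite _
  obtain ⟨e, he⟩ : ∃ e, e = Subgroup.equivMapOfInjective (Subgroup.centralizer ({u} : Set L)) L.subtype (Subgroup.subtype_injective L) := ⟨_, rfl⟩
  rw [← he]
  have hξ : ∀ k : Subgroup.centralizer ({u} : Set L), ξ'.1 ⟨((k : L) : G), (k : L), k.2, rfl⟩ = (pull e ξ').1 k := by
    intro k
    rw [he]
    rfl
  have hcf : ∀ ψ : IrrCharacter L, IsClassFunction L (ψ : L → ℂ) := fun ψ => Cfsg.Agent.Lib.Char.IsCharacter.isClassFunction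
    (Cfsg.Agent.Lib.Char.IsIrrCharacter.isCharacter ψ.2)
  constructor
  · rintro ⟨χ, hχ, hc⟩
    have hPg := isPGroup_zpowers_of_orderOf (p := p) hu
    obtain ⟨ψ, hψ⟩ := exists_irr_congruent (M := M) hM hPg (zpowers_le_centralizer u)
      (centralizer_zpowers_eq u).le (centralizer_le_normalizer_zpowers u) (pull e ξ')
    obtain ⟨B, hB⟩ := inducedBlockDefined_of_normalizer hM hT hTL hCL hLN (isPBlock_blockOf (M := M) ψ)
    refine ⟨ψ, ⟨blockOf M (ψ : L → ℂ), mem_blockOf_self ψ, ?_⟩, hψ⟩
    obtain ⟨χ', hχ'⟩ := IsPBlock_nonempty hB.2.1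
    have h1 := hB.2.2 ψ (mem_blockOf_self ψ) χ' hχ'
    have htr := memLocalIdeal_induced_trans L _ ξ'.1 _ hξ (ψ : L → ℂ) (hcf ψ) hψ
    have hs : SameBlock M (χ : G → ℂ) (χ' : G → ℂ) := by
      intro g
      exact memLocalIdeal_sub_trans (memLocalIdeal_sub_comm.1 (hc g)) (memLocalIdeal_sub_trans (htr g) (h1 g))
    have hBb : B = b := by
      have h2 : χ' ∈ b := by
        rw [blockOf_eq_of_mem hb hχ]
        exact hs
      rw [blockOf_eq_of_mem hB.2.1 hχ', blockOf_eq_of_mem hb h2]
    rw [← hBb]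
    exact hB
  · rintro ⟨ψ, ⟨β, hψβ, hind⟩, hc⟩
    obtain ⟨χ, hχ⟩ := IsPBlock_nonempty hb
    refine ⟨χ, hχ, fun g => ?_⟩
    have htr := memLocalIdeal_induced_trans L _ ξ'.1 _ hξ (ψ : L → ℂ) (hcf ψ) hc
    exact memLocalIdeal_sub_trans (htr g) (hind.2.2 ψ hψβ χ hχ g)

end TransG

end Cfsg.Agent.Lib.Block
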