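import Mathlib

/-!
# Euler characteristic of the complex of normal chains of `p`-subgroups

Sign-reversing involutions showing that the signed count of normal chains of `p`-subgroups stable under a subgroup `A`
with a nontrivial normal `p`-subgroup is `1`.
-/

set_option autoImplicit false
set_option linter.unusedSectionVars false
set_option linter.unusedSimpArgs false
set_option linter.unusedVariables false

namespace Cfsg.Agent.Lib.Block

section

open scoped Classical

variable {G : Type*} [Group G] [Finite G] [Fintype (Subgroup G)] {p : ℕ} [hp : Fact p.Prime]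

/-- The normal chains of nontrivial `p`-subgroups. -/
def IsNC (p : ℕ) (s : Finset (Subgroup G)) : Prop :=
  s.Nonempty ∧ (∀ Q ∈ s, ∀ R ∈ s, Q ≤ R ∨ R ≤ Q) ∧ (∀ Q ∈ s, Q ≠ ⊥ ∧ IsPGroup p Q) ∧
    ∃ T ∈ s, ∀ Q ∈ s, Q ≤ T ∧ T ≤ Subgroup.normalizer ((Q : Subgroup G) : Set G)

theorem exists_top_of_chain (t : Finset (Subgroup G)) (ht : t.Nonempty)
    (hc : ∀ Q ∈ t, ∀ R ∈ t, Q ≤ R ∨ R ≤ Q) : ∃ X ∈ t, ∀ Y ∈ t, Y ≤ X := by
  classical
  obtain ⟨X, hX, hmax⟩ := t.exists_maximal ht
  refine ⟨X, hX, fun Y hY => ?_⟩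
  rcases hc X hX Y hY with h | h
  · exact hmax hY h
  · exact h

theorem sup_eq_of_top {t : Finset (Subgroup G)} {X : Subgroup G} (hX : X ∈ t) (h : ∀ Y ∈ t, Y ≤ X) :
    t.sup id = X :=
  le_antisymm (Finset.sup_le h) (Finset.le_sup (f := id) hX)

theorem mem_normalizer_sup {g : G} {X Y : Subgroup G} (hX : g ∈ Subgroup.normalizer (X : Set G))
    (hY : g ∈ Subgroup.normalizer (Y : Set G)) : g ∈ Subgroup.normalizer ((X ⊔ Y : Subgroup G) : Set G) := by
  rw [Subgroup.mem_normalizer_iff_map_conj_eq] at hX hY ⊢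
  rw [Subgroup.map_sup, hX, hY]

theorem mem_normalizer_bot (g : G) : g ∈ Subgroup.normalizer ((⊥ : Subgroup G) : Set G) := by
  rw [Subgroup.mem_normalizer_iff_map_conj_eq, Subgroup.map_bot]

theorem mem_normalizer_finset_sup {g : G} (t : Finset (Subgroup G))
    (h : ∀ X ∈ t, g ∈ Subgroup.normalizer ((X : Subgroup G) : Set G)) :
    g ∈ Subgroup.normalizer ((t.sup id : Subgroup G) : Set G) := by
  refine Finset.sup_induction (p := fun X : Subgroup G => g ∈ Subgroup.normalizer ((X : Subgroup G) : Set G))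
    (mem_normalizer_bot g) (fun a ha b hb => mem_normalizer_sup ha hb) h

/-- The subgroup toggled by the sign-reversing involution. -/
noncomputable def togW (Z : Subgroup G) (s : Finset (Subgroup G)) : Subgroup G :=
  (s.filter fun X => ¬ Z ≤ X).sup id ⊔ Z

theorem le_togW (Z : Subgroup G) (s : Finset (Subgroup G)) : Z ≤ togW Z s := le_sup_right

theorem togW_le {Z : Subgroup G} {s : Finset (Subgroup G)} (hc : ∀ Q ∈ s, ∀ R ∈ s, Q ≤ R ∨ R ≤ Q) {X : Subgroup G}
    (hX : X ∈ s) (hZ : Z ≤ X) : togW Z s ≤ X := by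
  classical
  refine sup_le (Finset.sup_le fun Y hY => ?_) hZ
  obtain ⟨hYs, hYZ⟩ := Finset.mem_filter.1 hY
  rcases hc X hX Y hYs with h | h
  · exact absurd (hZ.trans h) hYZ
  · exact h

theorem le_togW_of_not {Z : Subgroup G} {s : Finset (Subgroup G)} {X : Subgroup G} (hX : X ∈ s) (hZ : ¬ Z ≤ X) :
    X ≤ togW Z s := by
  classical
  exact le_trans (Finset.le_sup (f := id) (Finset.mem_filter.2 ⟨hX, hZ⟩)) le_sup_left

theorem togW_le_of_le {Z Q : Subgroup G} {s : Finset (Subgroup G)} (hZ : Z ≤ Q) (h : ∀ X ∈ s, X ≤ Q) : togW Z s ≤ Q := by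
  classical
  exact sup_le (Finset.sup_le fun Y hY => h Y (Finset.mem_filter.1 hY).1) hZ

theorem mem_normalizer_togW {Z : Subgroup G} {s : Finset (Subgroup G)} {g : G}
    (hZ : g ∈ Subgroup.normalizer ((Z : Subgroup G) : Set G))
    (h : ∀ X ∈ s, g ∈ Subgroup.normalizer ((X : Subgroup G) : Set G)) :
    g ∈ Subgroup.normalizer ((togW Z s : Subgroup G) : Set G) := by
  classical
  exact mem_normalizer_sup (mem_normalizer_finset_sup _ fun X hX => h X (Finset.mem_filter.1 hX).1) hZ

theorem togW_insert (Z : Subgroup G) (s : Finset (Subgroup G)) : togW Z (insert (togW Z s) s) = togW Z s := by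
  classical
  unfold togW
  rw [Finset.filter_insert, if_neg]
  exact not_not.2 le_sup_right

theorem togW_erase (Z : Subgroup G) (s : Finset (Subgroup G)) : togW Z (s.erase (togW Z s)) = togW Z s := by
  classical
  unfold togW
  rw [Finset.filter_erase, Finset.erase_eq_of_notMem]
  intro h
  exact (Finset.mem_filter.1 h).2 le_sup_right

/-- The toggle. -/
noncomputable def togS (Z : Subgroup G) (s : Finset (Subgroup G)) : Finset (Subgroup G) :=
  if togW Z s ∈ s then s.erase (togW Z s) else insert (togW Z s) s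

theorem togW_togS (Z : Subgroup G) (s : Finset (Subgroup G)) : togW Z (togS Z s) = togW Z s := by
  classical
  unfold togS
  split_ifs
  · exact togW_erase Z s
  · exact togW_insert Z s

theorem togS_togS (Z : Subgroup G) (s : Finset (Subgroup G)) : togS Z (togS Z s) = s := by
  rw [show togS Z (togS Z s) = if togW Z (togS Z s) ∈ togS Z s then (togS Z s).erase (togW Z (togS Z s))
    else insert (togW Z (togS Z s)) (togS Z s) from rfl, togW_togS]
  by_cases h : togW Z s ∈ s
  · have hs : togS Z s = s.erase (togW Z s) := if_pos h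
    rw [hs, if_neg (Finset.notMem_erase _ _), Finset.insert_erase h]
  · have hs : togS Z s = insert (togW Z s) s := if_neg h
    rw [hs, if_pos (Finset.mem_insert_self _ _), Finset.erase_insert h]

theorem sign_togS (Z : Subgroup G) {s : Finset (Subgroup G)} (hs : s.Nonempty) (hs' : (togS Z s).Nonempty) :
    (-1 : ℤ) ^ (s.card - 1) + (-1 : ℤ) ^ ((togS Z s).card - 1) = 0 := by
  classical
  unfold togS at hs' ⊢
  have h1 : 0 < s.card := Finset.card_pos.2 hs
  by_cases h : togW Z s ∈ s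
  · rw [if_pos h] at hs' ⊢
    have h2 := Finset.card_pos.2 hs'
    rw [Finset.card_erase_of_mem h] at h2 ⊢
    obtain ⟨k, hk⟩ : ∃ k, s.card = k + 2 := ⟨s.card - 2, by omega⟩
    rw [hk]
    simp [pow_succ]
  · rw [if_neg h] at hs' ⊢
    rw [Finset.card_insert_of_notMem h]
    obtain ⟨k, hk⟩ : ∃ k, s.card = k + 1 := ⟨s.card - 1, by omega⟩
    rw [hk]
    simp [pow_succ]

/-- The center of `Q`, as a subgroup of `G`. -/
def cenZ (Q : Subgroup G) : Subgroup G := Q ⊓ Subgroup.centralizer (Q : Set G)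

theorem cenZ_le (Q : Subgroup G) : cenZ Q ≤ Q := inf_le_left

theorem cenZ_ne_bot {Q : Subgroup G} (hQ : Q ≠ ⊥) (hQp : IsPGroup p Q) : cenZ Q ≠ ⊥ := by
  have hnt : Nontrivial Q := (Subgroup.nontrivial_iff_ne_bot Q).2 hQ
  have := hQp.center_nontrivial
  obtain ⟨z, hz⟩ := exists_ne (1 : Subgroup.center Q)
  intro h
  have hm : ((z : Q) : G) ∈ cenZ Q := by
    refine ⟨(z : Q).2, Subgroup.mem_centralizer_iff.2 fun q hq => ?_⟩
    have := (Subgroup.mem_center_iff.1 z.2) ⟨q, hq⟩
    exact congrArg Subtype.val this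
  rw [h, Subgroup.mem_bot] at hm
  apply hz
  ext
  exact hm

theorem cenZ_le_normalizer {Q X : Subgroup G} (hX : X ≤ Q) :
    cenZ Q ≤ Subgroup.normalizer ((X : Subgroup G) : Set G) := by
  intro z hz
  rw [Subgroup.mem_normalizer_iff]
  intro x
  constructor
  · intro hx
    have h1 := (Subgroup.mem_centralizer_iff.1 hz.2) x (hX hx)
    have : z * x * z⁻¹ = x := by rw [← h1]; group
    rwa [this]
  · intro hx
    have h1 := (Subgroup.mem_centralizer_iff.1 hz.2) (z * x * z⁻¹) (hX hx)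
    have h2 : x = z * x * z⁻¹ := by
      calc x = z⁻¹ * (z * x * z⁻¹ * z) := by group
        _ = z⁻¹ * (z * (z * x * z⁻¹)) := by rw [h1]
        _ = z * x * z⁻¹ := by group
    rw [h2]
    exact hx

theorem mem_normalizer_cenZ {Q : Subgroup G} {a : G} (ha : a ∈ Subgroup.normalizer ((Q : Subgroup G) : Set G)) :
    a ∈ Subgroup.normalizer ((cenZ Q : Subgroup G) : Set G) := by
  have key : ∀ b ∈ Subgroup.normalizer ((Q : Subgroup G) : Set G), ∀ z ∈ cenZ Q, b * z * b⁻¹ ∈ cenZ Q := by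
    intro b hb z hz
    refine ⟨(Subgroup.mem_normalizer_iff.1 hb z).1 hz.1, Subgroup.mem_centralizer_iff.2 fun q hq => ?_⟩
    have hq' : b⁻¹ * q * b ∈ Q := by
      have := (Subgroup.mem_normalizer_iff.1 (inv_mem hb) q).1 hq
      simpa using this
    have h1 := (Subgroup.mem_centralizer_iff.1 hz.2) _ hq'
    calc q * (b * z * b⁻¹) = b * ((b⁻¹ * q * b) * z) * b⁻¹ := by group
      _ = b * (z * (b⁻¹ * q * b)) * b⁻¹ := by rw [h1]
      _ = b * z * b⁻¹ * q := by group
  rw [Subgroup.mem_normalizer_iff]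
  intro z
  refine ⟨fun hz => key a ha z hz, fun hz => ?_⟩
  have := key a⁻¹ (inv_mem ha) _ hz
  simpa [mul_assoc] using this

/-- The chains stable under `A` with all members in `Q`. -/
noncomputable def ncIn (p : ℕ) (A Q : Subgroup G) : Finset (Finset (Subgroup G)) :=
  Finset.univ.filter fun s => IsNC p s ∧ (∀ X ∈ s, X ≤ Q) ∧ ∀ X ∈ s, A ≤ Subgroup.normalizer ((X : Subgroup G) : Set G)

theorem mem_ncIn {A Q : Subgroup G} {s : Finset (Subgroup G)} : s ∈ ncIn p A Q ↔
    IsNC p s ∧ (∀ X ∈ s, X ≤ Q) ∧ ∀ X ∈ s, A ≤ Subgroup.normalizer ((X : Subgroup G) : Set G) := by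
  simp [ncIn]

theorem togS_mem {A Q : Subgroup G} (hQ : Q ≠ ⊥) (hQp : IsPGroup p Q)
    (hA : A ≤ Subgroup.normalizer ((Q : Subgroup G) : Set G)) {s : Finset (Subgroup G)} (hs : s ∈ ncIn p A Q)
    (hne : s ≠ {cenZ Q}) : togS (cenZ Q) s ∈ ncIn p A Q := by
  obtain ⟨⟨hs0, hc, hmem, T, hT, htop⟩, hsQ, hsA⟩ := mem_ncIn.1 hs
  obtain ⟨hZne⟩ : PLift (cenZ Q ≠ ⊥) := ⟨cenZ_ne_bot hQ hQp⟩
  have hZQ := cenZ_le Q
  have hZA : A ≤ Subgroup.normalizer ((cenZ Q : Subgroup G) : Set G) := fun a ha => mem_normalizer_cenZ (hA ha)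
  have hWQ : togW (cenZ Q) s ≤ Q := togW_le_of_le hZQ hsQ
  have hWA : A ≤ Subgroup.normalizer ((togW (cenZ Q) s : Subgroup G) : Set G) :=
    fun a ha => mem_normalizer_togW (hZA ha) fun X hX => hsA X hX ha
  have hWne : togW (cenZ Q) s ≠ ⊥ := by
    intro h
    exact hZne (le_antisymm (h ▸ le_togW (cenZ Q) s) bot_le)
  have hTQ : T ≤ Q := hsQ T hT
  have hTN : ∀ X ∈ s, T ≤ Subgroup.normalizer ((X : Subgroup G) : Set G) := fun X hX => (htop X hX).2
  by_cases hW : togW (cenZ Q) s ∈ s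
  · -- erase
    have hts : togS (cenZ Q) s = s.erase (togW (cenZ Q) s) := if_pos hW
    rw [hts]
    have hsub : s.erase (togW (cenZ Q) s) ⊆ s := Finset.erase_subset _ _
    have hne' : (s.erase (togW (cenZ Q) s)).Nonempty := by
      by_contra hcon
      rw [Finset.not_nonempty_iff_eq_empty, Finset.erase_eq_empty_iff] at hcon
      rcases hcon with h | h
      · exact (Finset.not_nonempty_iff_eq_empty.2 h) hs0
      · apply hne
        rw [h]
        congr 1
        unfold togW
        have : (s.filter fun X => ¬ cenZ Q ≤ X) = ∅ := by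
          rw [h, Finset.filter_singleton, if_neg]
          exact not_not.2 (le_togW _ _)
        rw [this]
        simp
    refine mem_ncIn.2 ⟨⟨hne', fun Y hY R hR => hc Y (hsub hY) R (hsub hR),
      fun Y hY => hmem Y (hsub hY), ?_⟩, fun Y hY => hsQ Y (hsub hY), fun Y hY => hsA Y (hsub hY)⟩
    by_cases hTW : T = togW (cenZ Q) s
    · -- the top is removed
      have hall : ∀ Y ∈ s.erase (togW (cenZ Q) s), ¬ cenZ Q ≤ Y := by
        intro Y hY hZY
        have h1 := togW_le hc (hsub hY) hZY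
        have h2 := (htop Y (hsub hY)).1
        rw [hTW] at h2
        exact (Finset.mem_erase.1 hY).1 (le_antisymm h2 h1)
      obtain ⟨X, hX, hXtop⟩ := exists_top_of_chain _ hne' (fun Y hY R hR => hc Y (hsub hY) R (hsub hR))
      refine ⟨X, hX, fun Y hY => ⟨hXtop Y hY, ?_⟩⟩
      exact ((htop X (hsub hX)).1).trans (hTN Y (hsub hY))
    · exact ⟨T, Finset.mem_erase.2 ⟨hTW, hT⟩, fun Y hY => htop Y (hsub hY)⟩
  · -- insert
    have hts : togS (cenZ Q) s = insert (togW (cenZ Q) s) s := if_neg hW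
    rw [hts]
    have hcmp : ∀ X ∈ s, X ≤ togW (cenZ Q) s ∨ togW (cenZ Q) s ≤ X := by
      intro X hX
      by_cases hZX : cenZ Q ≤ X
      · exact Or.inr (togW_le hc hX hZX)
      · exact Or.inl (le_togW_of_not hX hZX)
    refine mem_ncIn.2 ⟨⟨Finset.insert_nonempty _ _, ?_, ?_, ?_⟩, ?_, ?_⟩
    · intro Y hY R hR
      rcases Finset.mem_insert.1 hY with rfl | hY <;> rcases Finset.mem_insert.1 hR with rfl | hR
      · exact Or.inl le_rfl
      · exact (hcmp R hR).symm
      · exact hcmp Y hY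
      · exact hc Y hY R hR
    · intro Y hY
      rcases Finset.mem_insert.1 hY with rfl | hY
      · exact ⟨hWne, hQp.to_le hWQ⟩
      · exact hmem Y hY
    · by_cases hZT : cenZ Q ≤ T
      · refine ⟨T, Finset.mem_insert_of_mem hT, fun Y hY => ?_⟩
        rcases Finset.mem_insert.1 hY with rfl | hY
        · exact ⟨togW_le hc hT hZT, fun t ht => mem_normalizer_togW
            (mem_normalizer_cenZ (Subgroup.le_normalizer (hTQ ht))) fun X hX => hTN X hX ht⟩
        · exact htop Y hY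
      · have hall : ∀ Y ∈ s, ¬ cenZ Q ≤ Y := fun Y hY hZY => hZT (hZY.trans (htop Y hY).1)
        refine ⟨togW (cenZ Q) s, Finset.mem_insert_self _ _, fun Y hY => ?_⟩
        rcases Finset.mem_insert.1 hY with rfl | hY
        · exact ⟨le_rfl, Subgroup.le_normalizer⟩
        · refine ⟨le_togW_of_not hY (hall Y hY), ?_⟩
          have hTsup : (s.filter fun X => ¬ cenZ Q ≤ X) = s := Finset.filter_true_of_mem hall
          have h1 : togW (cenZ Q) s = T ⊔ cenZ Q := by
            unfold togW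
            rw [hTsup, sup_eq_of_top hT fun Y hY => (htop Y hY).1]
          rw [h1]
          exact sup_le (hTN Y hY) (cenZ_le_normalizer (hsQ Y hY))
    · intro Y hY
      rcases Finset.mem_insert.1 hY with rfl | hY
      · exact hWQ
      · exact hsQ Y hY
    · intro Y hY
      rcases Finset.mem_insert.1 hY with rfl | hY
      · exact hWA
      · exact hsA Y hY

/-- **The signed count of the chains inside `Q` is one.** -/
theorem euler_ncIn {A Q : Subgroup G} (hQ : Q ≠ ⊥) (hQp : IsPGroup p Q)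
    (hA : A ≤ Subgroup.normalizer ((Q : Subgroup G) : Set G)) :
    ∑ s ∈ ncIn p A Q, (-1 : ℤ) ^ (s.card - 1) = 1 := by
  have hZ : ({cenZ Q} : Finset (Subgroup G)) ∈ ncIn p A Q := by
    refine mem_ncIn.2 ⟨⟨Finset.singleton_nonempty _, ?_, ?_, cenZ Q, Finset.mem_singleton_self _, ?_⟩, ?_, ?_⟩
    · intro Y hY R hR
      rw [Finset.mem_singleton] at hY hR
      subst hY hR
      exact Or.inl le_rfl
    · intro Y hY
      rw [Finset.mem_singleton] at hY
      subst hY
      exact ⟨cenZ_ne_bot hQ hQp, hQp.to_le (cenZ_le Q)⟩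
    · intro Y hY
      rw [Finset.mem_singleton] at hY
      subst hY
      exact ⟨le_rfl, Subgroup.le_normalizer⟩
    · intro Y hY
      rw [Finset.mem_singleton] at hY
      subst hY
      exact cenZ_le Q
    · intro Y hY
      rw [Finset.mem_singleton] at hY
      subst hY
      exact fun a ha => mem_normalizer_cenZ (hA ha)
  rw [← Finset.add_sum_erase _ _ hZ]
  have h0 : ∑ s ∈ (ncIn p A Q).erase {cenZ Q}, (-1 : ℤ) ^ (s.card - 1) = 0 := by
    have hmem : ∀ s ∈ (ncIn p A Q).erase {cenZ Q}, togS (cenZ Q) s ∈ (ncIn p A Q).erase {cenZ Q} := by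
      intro s hs
      obtain ⟨hs1, hs2⟩ := Finset.mem_erase.1 hs
      refine Finset.mem_erase.2 ⟨?_, togS_mem hQ hQp hA hs2 hs1⟩
      intro h
      apply hs1
      have := togS_togS (cenZ Q) s
      rw [h] at this
      rw [← this]
      have h2 : togW (cenZ Q) ({cenZ Q} : Finset (Subgroup G)) = cenZ Q := by
        unfold togW
        have : (({cenZ Q} : Finset (Subgroup G)).filter fun X => ¬ cenZ Q ≤ X) = ∅ := by
          rw [Finset.filter_singleton, if_neg]
          exact not_not.2 le_rfl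
        rw [this]
        simp
      have hs3 : togS (cenZ Q) ({cenZ Q} : Finset (Subgroup G)) = ∅ := by
        unfold togS
        rw [h2, if_pos (Finset.mem_singleton_self _)]
        simp
      exfalso
      rw [hs3] at this
      exact (mem_ncIn.1 hs2).1.1.ne_empty this.symm
    refine Finset.sum_involution (fun s _ => togS (cenZ Q) s) ?_ ?_ hmem (fun s _ => togS_togS _ s)
    · intro s hs
      obtain ⟨hs1, hs2⟩ := Finset.mem_erase.1 hs
      have h1 := (mem_ncIn.1 hs2).1.1
      have h2 := (mem_ncIn.1 (Finset.mem_erase.1 (hmem s hs)).2).1.1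
      exact sign_togS _ h1 h2
    · intro s hs _ h
      obtain ⟨hs1, hs2⟩ := Finset.mem_erase.1 hs
      have h1 := (mem_ncIn.1 hs2).1.1
      have h2 := (mem_ncIn.1 (Finset.mem_erase.1 (hmem s hs)).2).1.1
      have h3 := sign_togS (cenZ Q) h1 h2
      rw [h] at h3
      have h4 : (-1 : ℤ) ^ (s.card - 1) = 1 ∨ (-1 : ℤ) ^ (s.card - 1) = -1 := neg_one_pow_eq_or ℤ _
      rcases h4 with h4 | h4 <;> rw [h4] at h3 <;> omega
  rw [h0, add_zero, Finset.card_singleton]
  simp

/-- The chains stable under `A`. -/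
noncomputable def ncAll (p : ℕ) (A : Subgroup G) : Finset (Finset (Subgroup G)) :=
  Finset.univ.filter fun s => IsNC p s ∧ ∀ X ∈ s, A ≤ Subgroup.normalizer ((X : Subgroup G) : Set G)

theorem mem_ncAll {A : Subgroup G} {s : Finset (Subgroup G)} : s ∈ ncAll p A ↔
    IsNC p s ∧ ∀ X ∈ s, A ≤ Subgroup.normalizer ((X : Subgroup G) : Set G) := by
  simp [ncAll]

/-- **The signed count of the chains stable under a subgroup with a nontrivial normal `p`-subgroup is one.** -/
theorem euler_ncAll {A U : Subgroup G} (hU : U ≠ ⊥) (hUp : IsPGroup p U) (hUA : U ≤ A)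
    (hA : A ≤ Subgroup.normalizer ((U : Subgroup G) : Set G)) :
    ∑ s ∈ ncAll p A, (-1 : ℤ) ^ (s.card - 1) = 1 := by
  -- the fibres over `top ⊔ U`
  let Rs : Finset (Subgroup G) → Subgroup G := fun s => s.sup id ⊔ U
  let P₁ : Finset (Subgroup G) := Finset.univ.filter fun R => U ≤ R ∧ IsPGroup p R ∧ A ≤ Subgroup.normalizer ((R : Subgroup G) : Set G)
  have hP : ∀ R, R ∈ P₁ ↔ U ≤ R ∧ IsPGroup p R ∧ A ≤ Subgroup.normalizer ((R : Subgroup G) : Set G) := by
    intro R
    simp [P₁]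
  have hRmem : ∀ s ∈ ncAll p A, Rs s ∈ P₁ := by
    intro s hs
    obtain ⟨⟨hs0, hc, hmem, T, hT, htop⟩, hsA⟩ := mem_ncAll.1 hs
    have h1 : s.sup id = T := sup_eq_of_top hT fun Y hY => (htop Y hY).1
    refine (hP _).2 ⟨le_sup_right, ?_, ?_⟩
    · show IsPGroup p (s.sup id ⊔ U : Subgroup G)
      rw [h1]
      exact (hmem T hT).2.to_sup_of_normal_left' hUp (hUA.trans (hsA T hT))
    · intro a ha
      exact mem_normalizer_sup (mem_normalizer_finset_sup _ fun X hX => hsA X hX ha) (hA ha)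
  let e : Subgroup G → ℤ := fun R => ∑ s ∈ (ncAll p A).filter fun s => Rs s = R, (-1 : ℤ) ^ (s.card - 1)
  have htotal : ∑ s ∈ ncAll p A, (-1 : ℤ) ^ (s.card - 1) = ∑ R ∈ P₁, e R :=
    (Finset.sum_fiberwise_of_maps_to hRmem _).symm
  have hle : ∀ R ∈ P₁, ∑ R' ∈ P₁.filter (· ≤ R), e R' = 1 := by
    intro R hR
    obtain ⟨h1, h2, h3⟩ := (hP R).1 hR
    have hRne : R ≠ ⊥ := fun h => hU (le_antisymm (h ▸ h1) bot_le)
    rw [← euler_ncIn (A := A) hRne h2 h3]
    have hsub : ncIn p A R = (ncAll p A).filter fun s => Rs s ≤ R := by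
      ext s
      rw [mem_ncIn, Finset.mem_filter, mem_ncAll]
      constructor
      · rintro ⟨h4, h5, h6⟩
        exact ⟨⟨h4, h6⟩, sup_le (Finset.sup_le h5) h1⟩
      · rintro ⟨⟨h4, h6⟩, h5⟩
        exact ⟨h4, fun X hX => (Finset.le_sup (f := id) hX).trans (le_sup_left.trans h5), h6⟩
    rw [hsub]
    have hmaps : ∀ s ∈ (ncAll p A).filter (fun s => Rs s ≤ R), Rs s ∈ P₁.filter (· ≤ R) := by
      intro s hs
      obtain ⟨h4, h5⟩ := Finset.mem_filter.1 hs
      exact Finset.mem_filter.2 ⟨hRmem s h4, h5⟩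
    rw [← Finset.sum_fiberwise_of_maps_to hmaps]
    refine Finset.sum_congr rfl fun R' hR' => ?_
    show ∑ s ∈ (ncAll p A).filter fun s => Rs s = R', (-1 : ℤ) ^ (s.card - 1) = _
    refine Finset.sum_congr ?_ fun _ _ => rfl
    ext s
    simp only [Finset.mem_filter]
    constructor
    · rintro ⟨h4, h5⟩
      refine ⟨⟨h4, ?_⟩, h5⟩
      rw [h5]
      exact (Finset.mem_filter.1 hR').2
    · rintro ⟨⟨h4, _⟩, h5⟩
      exact ⟨h4, h5⟩
  have hUP : U ∈ P₁ := (hP U).2 ⟨le_rfl, hUp, hA⟩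
  have hval : ∀ R : Subgroup G, R ∈ P₁ → e R = if R = U then 1 else 0 := by
    intro R
    induction R using WellFoundedLT.induction with
    | ind R ih =>
      intro hR
      have h1 := hle R hR
      have hRm : R ∈ P₁.filter (· ≤ R) := Finset.mem_filter.2 ⟨hR, le_rfl⟩
      rw [← Finset.add_sum_erase _ _ hRm] at h1
      by_cases hRU : R = U
      · subst hRU
        rw [if_pos rfl]
        rw [Finset.sum_eq_zero, add_zero] at h1
        · exact h1
        · intro R' hR'
          obtain ⟨h2, h3⟩ := Finset.mem_erase.1 hR'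
          obtain ⟨h4, h5⟩ := Finset.mem_filter.1 h3
          exact absurd (le_antisymm h5 ((hP R').1 h4).1) h2
      · rw [if_neg hRU]
        have hU' : U ∈ ((P₁.filter (· ≤ R)).erase R) :=
          Finset.mem_erase.2 ⟨Ne.symm hRU, Finset.mem_filter.2 ⟨hUP, ((hP R).1 hR).1⟩⟩
        rw [← Finset.add_sum_erase _ _ hU'] at h1
        have hlt : U < R := lt_of_le_of_ne ((hP R).1 hR).1 (Ne.symm hRU)
        rw [ih U hlt hUP, if_pos rfl, Finset.sum_eq_zero, add_zero] at h1
        · omega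
        · intro R' hR'
          obtain ⟨h2, h3⟩ := Finset.mem_erase.1 hR'
          obtain ⟨h4, h5⟩ := Finset.mem_erase.1 h3
          obtain ⟨h6, h7⟩ := Finset.mem_filter.1 h5
          rw [ih R' (lt_of_le_of_ne h7 h4) h6, if_neg h2]
  rw [htotal, ← Finset.add_sum_erase _ _ hUP, hval U hUP, if_pos rfl, Finset.sum_eq_zero, add_zero]
  intro R hR
  obtain ⟨h1, h2⟩ := Finset.mem_erase.1 hR
  rw [hval R h2, if_neg h1]

/-- **Brown-type formula.**  Summing any function of the stabilizers over the chains normalized by a `p`-element. -/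
theorem sum_chains_stabilizer (F : Subgroup G → ℤ) {u : G} (hu : u ≠ 1) (hup : ∃ k : ℕ, orderOf u = p ^ k)
    (H : Subgroup G) (hH : H ≤ Subgroup.centralizer ({u} : Set G)) :
    ∑ s ∈ ncAll p (Subgroup.zpowers u), (-1 : ℤ) ^ (s.card - 1) *
        F ((⨅ Q ∈ s, Subgroup.normalizer ((Q : Subgroup G) : Set G)) ⊓ H) = F H := by
  obtain ⟨L, hL⟩ : ∃ L : Finset (Subgroup G) → Subgroup G,
      L = fun s => ⨅ Q ∈ s, Subgroup.normalizer ((Q : Subgroup G) : Set G) := ⟨_, rfl⟩
  have hLle : ∀ (K : Subgroup G) (s : Finset (Subgroup G)), K ≤ L s ↔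
      ∀ X ∈ s, K ≤ Subgroup.normalizer ((X : Subgroup G) : Set G) := by
    intro K s
    rw [hL]
    simp only [le_iInf_iff]
  have hUne : Subgroup.zpowers u ≠ ⊥ := by
    rw [Ne, Subgroup.zpowers_eq_bot]
    exact hu
  have hUp : IsPGroup p (Subgroup.zpowers u) := by
    obtain ⟨k, hk⟩ := hup
    refine IsPGroup.of_card (n := k) ?_
    rw [Nat.card_zpowers, hk]
  have hUN : H ≤ Subgroup.normalizer ((Subgroup.zpowers u : Subgroup G) : Set G) := by
    intro c hc
    have hc' : c * u = u * c := by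
      have := hH hc
      rw [Subgroup.mem_centralizer_singleton_iff] at this
      exact this
    rw [Subgroup.mem_normalizer_iff_map_conj_eq, MonoidHom.map_zpowers]
    congr 1
    show c * u * c⁻¹ = u
    rw [hc']
    group
  -- the fibres over the stabilizers
  let S := ncAll p (Subgroup.zpowers u)
  let I : Finset (Subgroup G) := Finset.univ.filter (· ≤ H)
  let a : Subgroup G → ℤ := fun K => ∑ s ∈ S.filter fun s => L s ⊓ H = K, (-1 : ℤ) ^ (s.card - 1)
  have hmaps : ∀ s ∈ S, L s ⊓ H ∈ I := fun s _ => Finset.mem_filter.2 ⟨Finset.mem_univ _, inf_le_right⟩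
  have hsum : ∀ K ∈ I, ∑ K' ∈ I.filter (K ≤ ·), a K' = 1 := by
    intro K hK
    have hKH : K ≤ H := (Finset.mem_filter.1 hK).2
    have h1 := euler_ncAll (A := K ⊔ Subgroup.zpowers u) (U := Subgroup.zpowers u) hUne hUp le_sup_right
      (sup_le (hKH.trans hUN) Subgroup.le_normalizer)
    rw [← h1]
    have hset : ncAll p (K ⊔ Subgroup.zpowers u) = S.filter fun s => K ≤ L s ⊓ H := by
      ext s
      rw [Finset.mem_filter, mem_ncAll, mem_ncAll]
      constructor
      · rintro ⟨h2, h3⟩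
        refine ⟨⟨h2, fun X hX => le_sup_right.trans (h3 X hX)⟩, le_inf ?_ hKH⟩
        exact (hLle _ _).2 fun X hX => le_sup_left.trans (h3 X hX)
      · rintro ⟨⟨h2, h3⟩, h4⟩
        refine ⟨h2, fun X hX => sup_le ?_ (h3 X hX)⟩
        exact (hLle _ _).1 (h4.trans inf_le_left) X hX
    rw [hset]
    have hmaps' : ∀ s ∈ S.filter (fun s => K ≤ L s ⊓ H), L s ⊓ H ∈ I.filter (K ≤ ·) := by
      intro s hs
      obtain ⟨h2, h3⟩ := Finset.mem_filter.1 hs
      exact Finset.mem_filter.2 ⟨hmaps s h2, h3⟩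
    rw [← Finset.sum_fiberwise_of_maps_to hmaps']
    refine Finset.sum_congr rfl fun K' hK' => ?_
    show ∑ s ∈ S.filter fun s => L s ⊓ H = K', (-1 : ℤ) ^ (s.card - 1) = _
    refine Finset.sum_congr ?_ fun _ _ => rfl
    ext s
    simp only [Finset.mem_filter]
    constructor
    · rintro ⟨h4, h5⟩
      refine ⟨⟨h4, ?_⟩, h5⟩
      rw [h5]
      exact (Finset.mem_filter.1 hK').2
    · rintro ⟨⟨h4, _⟩, h5⟩
      exact ⟨h4, h5⟩
  have hHI : H ∈ I := Finset.mem_filter.2 ⟨Finset.mem_univ _, le_rfl⟩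
  have hval : ∀ K : Subgroup G, K ∈ I → a K = if K = H then 1 else 0 := by
    intro K
    induction K using WellFoundedGT.induction with
    | ind K ih =>
      intro hK
      have h1 := hsum K hK
      have hKm : K ∈ I.filter (K ≤ ·) := Finset.mem_filter.2 ⟨hK, le_rfl⟩
      rw [← Finset.add_sum_erase _ _ hKm] at h1
      by_cases hKH : K = H
      · subst hKH
        rw [if_pos rfl]
        rw [Finset.sum_eq_zero, add_zero] at h1
        · exact h1
        · intro R' hR'
          obtain ⟨h2, h3⟩ := Finset.mem_erase.1 hR'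
          obtain ⟨h4, h5⟩ := Finset.mem_filter.1 h3
          exact absurd (le_antisymm (Finset.mem_filter.1 h4).2 h5) h2
      · rw [if_neg hKH]
        have hKle : K ≤ H := (Finset.mem_filter.1 hK).2
        have hU' : H ∈ ((I.filter (K ≤ ·)).erase K) :=
          Finset.mem_erase.2 ⟨Ne.symm hKH, Finset.mem_filter.2 ⟨hHI, hKle⟩⟩
        rw [← Finset.add_sum_erase _ _ hU'] at h1
        have hlt : K < H := lt_of_le_of_ne hKle hKH
        rw [ih H hlt hHI, if_pos rfl, Finset.sum_eq_zero, add_zero] at h1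
        · omega
        · intro R' hR'
          obtain ⟨h2, h3⟩ := Finset.mem_erase.1 hR'
          obtain ⟨h4, h5⟩ := Finset.mem_erase.1 h3
          obtain ⟨h6, h7⟩ := Finset.mem_filter.1 h5
          rw [ih R' (lt_of_le_of_ne h7 (Ne.symm h4)) h6, if_neg h2]
  have hfinal : ∑ s ∈ S, (-1 : ℤ) ^ (s.card - 1) * F (L s ⊓ H) = ∑ K ∈ I, a K * F K := by
    rw [← Finset.sum_fiberwise_of_maps_to hmaps]
    refine Finset.sum_congr rfl fun K _ => ?_
    show _ = (∑ s ∈ S.filter fun s => L s ⊓ H = K, (-1 : ℤ) ^ (s.card - 1)) * F K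
    rw [Finset.sum_mul]
    refine Finset.sum_congr rfl fun s hs => ?_
    rw [(Finset.mem_filter.1 hs).2]
  have h2 : ∑ K ∈ I, a K * F K = F H := by
    rw [← Finset.add_sum_erase _ _ hHI, hval H hHI, if_pos rfl, Finset.sum_eq_zero, add_zero, one_mul]
    intro K hK
    obtain ⟨h3, h4⟩ := Finset.mem_erase.1 hK
    rw [hval K h4, if_neg h3, zero_mul]
  rw [← h2, ← hfinal, hL]

end

end Cfsg.Agent.Lib.Block
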