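import Cfsg.Agent.Lib.Block.ChainChar

/-!
# The alternating sum over normal chains for `k(b) - l(b)`
-/

set_option autoImplicit false
set_option linter.unusedSectionVars false
set_option linter.unusedSimpArgs false
set_option linter.unusedVariables false

open Cfsg MonoidAlgebra Module

namespace Cfsg.Agent.Lib.Block

section Sections

open scoped Classical

variable {L : Type*} [Group L] [Fintype L] {p : ℕ} [hp : Fact p.Prime] {M : Ideal AlgInt}

/-- `Σ_l 1[g ~ l] ξ(l)/ξ(1)` is the central character. -/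
theorem sum_conj_eq_centralChar (ξ : L → ℂ) (hξ : IsClassFunction L ξ) (g : L) :
    (∑ l : L, if IsConj g l then ξ l / ξ 1 else 0) = centralChar ξ g := by
  have hterm : ∀ l ∈ Finset.univ.filter (fun l : L => IsConj g l), ξ l / ξ 1 = ξ g / ξ 1 := by
    intro l hl
    obtain ⟨a, ha⟩ := isConj_iff.1 (Finset.mem_filter.1 hl).2
    rw [← ha, hξ g a]
  rw [← Finset.sum_filter, Finset.sum_congr rfl hterm, Finset.sum_const, nsmul_eq_mul]
  have hcard : (Finset.univ.filter (fun l : L => IsConj g l)).card = (Subgroup.centralizer ({g} : Set L)).index := by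
    have h1 := Cfsg.Agent.Lib.Degree.card_carrier_eq_index g
    rw [← h1, Nat.card_eq_fintype_card, ← Set.toFinset_card]
    congr 1
    ext l
    rw [Set.mem_toFinset, ConjClasses.mem_carrier_iff_mk_eq, Finset.mem_filter, ConjClasses.mk_eq_mk_iff_isConj]
    simp only [Finset.mem_univ, true_and]
    exact isConj_comm
  rw [hcard]
  unfold centralChar
  ring

/-- The isomorphism `C_L(1) ≃ L`. -/
noncomputable def centralizerOneEquiv (L : Type*) [Group L] : Subgroup.centralizer ({(1 : L)} : Set L) ≃* L :=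
  MulEquiv.ofBijective (Subgroup.centralizer ({(1 : L)} : Set L)).subtype
    ⟨Subgroup.subtype_injective _, fun y => ⟨⟨y, by
      rw [Subgroup.mem_centralizer_singleton_iff]
      simp⟩, rfl⟩⟩

/-- The term of the identity in the formula of Brauer. -/
theorem blockRank_indSet_one [M.IsPrime] {A : Set (IrrCharacter L)} (hA : IsBlockUnion M A) :
    blockRank p (indSet M (Subgroup.centralizer ({(1 : L)} : Set L)) A) = blockRank p A := by
  haveI : Fintype (Subgroup.centralizer ({(1 : L)} : Set L)) := Fintype.ofFinite _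
  refine blockRank_congr_equiv (centralizerOneEquiv L) fun ξ => ?_
  have hcf : IsClassFunction L (ξ : L → ℂ) := Cfsg.Agent.Lib.Char.IsCharacter.isClassFunction
    (Cfsg.Agent.Lib.Char.IsIrrCharacter.isCharacter ξ.2)
  have hval : ∀ g : L, inducedCentralChar (Subgroup.centralizer ({(1 : L)} : Set L)) (pull (centralizerOneEquiv L) ξ : _ → ℂ) g =
      centralChar (ξ : L → ℂ) g := by
    intro g
    rw [inducedCentralChar_eq_sum, ← sum_conj_eq_centralChar _ hcf g,
      ← Equiv.sum_comp (centralizerOneEquiv L).toEquiv]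
    refine Finset.sum_congr rfl fun h _ => ?_
    have h1 : (pull (centralizerOneEquiv L) ξ).1 1 = ξ.1 1 := by
      rw [pull_coe]
      simp
    show (if IsConj g (h : L) then (pull (centralizerOneEquiv L) ξ).1 h / (pull (centralizerOneEquiv L) ξ).1 1 else 0) = _
    rw [h1]
    rfl
  constructor
  · intro hξ
    refine ⟨ξ, hξ, fun g => ?_⟩
    rw [hval, sub_self]
    exact memLocalIdeal_zero
  · rintro ⟨χ, hχ, hc⟩
    by_contra hcon
    refine hA χ hχ ξ hcon fun g => ?_
    have := hc g
    rw [hval] at this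
    exact memLocalIdeal_sub_comm.1 this

theorem card_centralizer_conj {u v : L} (h : IsConj u v) :
    Nat.card (Subgroup.centralizer ({u} : Set L)) = Nat.card (Subgroup.centralizer ({v} : Set L)) := by
  obtain ⟨a, rfl⟩ := isConj_iff.1 h
  refine Nat.card_congr ((MulAut.conj a).subgroupMap _ |>.toEquiv.trans (Equiv.setCongr ?_))
  ext x
  simp only [SetLike.mem_coe, Subgroup.mem_map, MulEquiv.coe_toMonoidHom, MulAut.conj_apply, Subgroup.mem_centralizer_singleton_iff]
  constructor
  · rintro ⟨y, hy, rfl⟩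
    calc a * y * a⁻¹ * (a * u * a⁻¹) = a * (y * u) * a⁻¹ := by group
      _ = a * (u * y) * a⁻¹ := by rw [hy]
      _ = a * u * a⁻¹ * (a * y * a⁻¹) := by group
  · intro hx
    refine ⟨a⁻¹ * x * a, ?_, by show a * (a⁻¹ * x * a) * a⁻¹ = x; group⟩
    calc a⁻¹ * x * a * u = a⁻¹ * (x * (a * u * a⁻¹)) * a := by group
      _ = a⁻¹ * ((a * u * a⁻¹) * x) * a := by rw [hx]
      _ = u * (a⁻¹ * x * a) := by group

/-- The formula of Brauer from a section of the classes. -/
theorem card_eq_sum_section (hM : IsPModular p M) {A : Set (IrrCharacter L)} (hA : IsBlockUnion M A)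
    (r : ConjClasses L → L) (hr : ∀ c, ConjClasses.mk (r c) = c) :
    (Nat.card A : ℕ) = ∑ c ∈ Finset.univ.filter (fun c : ConjClasses L => ∃ k : ℕ, orderOf (r c) = p ^ k),
      blockRank p (indSet M (Subgroup.centralizer ({r c} : Set L)) A) := by
  have hinj : Function.Injective r := Function.LeftInverse.injective hr
  have hord : ∀ {a b : L}, IsConj a b → orderOf a = orderOf b := by
    intro a b h
    obtain ⟨c, rfl⟩ := isConj_iff.1 h
    exact ((MulAut.conj c).orderOf_eq a).symm
  rw [card_eq_finrank_irrSpan, finrank_irrSpan_eq hM hA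
    ((Finset.univ.filter (fun c : ConjClasses L => ∃ k : ℕ, orderOf (r c) = p ^ k)).image r)]
  · rw [Finset.sum_image fun a _ b _ h => hinj h]
  · intro x hx
    obtain ⟨c, hc, rfl⟩ := Finset.mem_image.1 hx
    exact (Finset.mem_filter.1 hc).2
  · intro g hg
    have h1 : IsConj g (r (ConjClasses.mk g)) := by
      rw [← ConjClasses.mk_eq_mk_iff_isConj, hr]
    refine ⟨r (ConjClasses.mk g), ⟨Finset.mem_image.2 ⟨_, Finset.mem_filter.2 ⟨Finset.mem_univ _, ?_⟩, rfl⟩, h1⟩, ?_⟩
    · rwa [← hord h1]
    · rintro y ⟨hy, hy2⟩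
      obtain ⟨c, hc, rfl⟩ := Finset.mem_image.1 hy
      have h2 : ConjClasses.mk g = c := by
        rw [← hr c]
        exact ConjClasses.mk_eq_mk_iff_isConj.2 hy2
      rw [h2]

/-- Conjugate `p`-elements give the same rank. -/
theorem blockRank_indSet_conj (hM : IsPModular p M) {A : Set (IrrCharacter L)} (hA : IsBlockUnion M A) {x y : L}
    (hx : ∃ k : ℕ, orderOf x = p ^ k) (h : IsConj x y) :
    blockRank p (indSet M (Subgroup.centralizer ({x} : Set L)) A) =
      blockRank p (indSet M (Subgroup.centralizer ({y} : Set L)) A) := by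
  have hord : ∀ {a b : L}, IsConj a b → orderOf a = orderOf b := by
    intro a b h
    obtain ⟨c, rfl⟩ := isConj_iff.1 h
    exact ((MulAut.conj c).orderOf_eq a).symm
  have hmk : ConjClasses.mk x = ConjClasses.mk y := ConjClasses.mk_eq_mk_iff_isConj.2 h
  let r₀ : ConjClasses L → L := fun c => Quotient.out c
  have hr₀ : ∀ c, ConjClasses.mk (r₀ c) = c := fun c => Quotient.out_eq' c
  let r : L → ConjClasses L → L := fun z => Function.update r₀ (ConjClasses.mk x) z
  have hr1 : ∀ z, ConjClasses.mk z = ConjClasses.mk x → ∀ c, ConjClasses.mk (r z c) = c := by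
    intro z hz c
    by_cases hc : c = ConjClasses.mk x
    · subst hc
      simp only [r, Function.update_self]
      exact hz
    · simp only [r, Function.update_of_ne hc]
      exact hr₀ c
  have h1 := card_eq_sum_section (p := p) hM hA (r x) (hr1 x rfl)
  have h2 := card_eq_sum_section (p := p) hM hA (r y) (hr1 y hmk.symm)
  have hfilter : ∀ z, ConjClasses.mk z = ConjClasses.mk x →
      Finset.univ.filter (fun c : ConjClasses L => ∃ k : ℕ, orderOf (r z c) = p ^ k) =
        Finset.univ.filter (fun c : ConjClasses L => ∃ k : ℕ, orderOf (r₀ c) = p ^ k) := by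
    intro z hz
    ext c
    simp only [Finset.mem_filter, Finset.mem_univ, true_and]
    have : orderOf (r z c) = orderOf (r₀ c) := by
      apply hord
      rw [← ConjClasses.mk_eq_mk_iff_isConj, hr1 z hz, hr₀]
    rw [this]
  rw [hfilter x rfl] at h1
  rw [hfilter y hmk.symm] at h2
  have hmem : ConjClasses.mk x ∈ Finset.univ.filter (fun c : ConjClasses L => ∃ k : ℕ, orderOf (r₀ c) = p ^ k) := by
    refine Finset.mem_filter.2 ⟨Finset.mem_univ _, ?_⟩
    have : orderOf (r₀ (ConjClasses.mk x)) = orderOf x := by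
      apply hord
      rw [← ConjClasses.mk_eq_mk_iff_isConj, hr₀]
    rwa [this]
  rw [← Finset.add_sum_erase _ _ hmem] at h1 h2
  have hrest : ∀ z, ∑ c ∈ (Finset.univ.filter (fun c : ConjClasses L => ∃ k : ℕ, orderOf (r₀ c) = p ^ k)).erase (ConjClasses.mk x),
      blockRank p (indSet M (Subgroup.centralizer ({r z c} : Set L)) A) =
      ∑ c ∈ (Finset.univ.filter (fun c : ConjClasses L => ∃ k : ℕ, orderOf (r₀ c) = p ^ k)).erase (ConjClasses.mk x),
      blockRank p (indSet M (Subgroup.centralizer ({r₀ c} : Set L)) A) := by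
    intro z
    refine Finset.sum_congr rfl fun c hc => ?_
    have hne := (Finset.mem_erase.1 hc).1
    have h7 : r z c = r₀ c := Function.update_of_ne hne _ _
    rw [h7]
  rw [hrest] at h1 h2
  have hx' : r x (ConjClasses.mk x) = x := by simp [r]
  have hy' : r y (ConjClasses.mk x) = y := by simp [r]
  rw [hx'] at h1
  rw [hy'] at h2
  omega

/-- Nontrivial `p`-elements. -/
def IsNPE (p : ℕ) {L : Type*} [Group L] (u : L) : Prop := u ≠ 1 ∧ ∃ k : ℕ, orderOf u = p ^ k

/-- **The weighted form of Brauer's formula.** -/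
theorem sum_sections (hM : IsPModular p M) {A : Set (IrrCharacter L)} (hA : IsBlockUnion M A) :
    (Nat.card L : ℤ) * ((Nat.card A : ℤ) - (blockRank p A : ℤ)) =
      ∑ u ∈ Finset.univ.filter (IsNPE p),
        (Nat.card (Subgroup.centralizer ({u} : Set L)) : ℤ) *
          (blockRank p (indSet M (Subgroup.centralizer ({u} : Set L)) A) : ℤ) := by
  have := isPModular_isPrime hM
  have hord : ∀ {a b : L}, IsConj a b → orderOf a = orderOf b := by
    intro a b h
    obtain ⟨c, rfl⟩ := isConj_iff.1 h
    exact ((MulAut.conj c).orderOf_eq a).symm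
  -- the representatives are `out`, with `1` for the class of `1`
  let r : ConjClasses L → L := fun c => Quotient.out c
  have hr : ∀ c, ConjClasses.mk (r c) = c := fun c => Quotient.out_eq' c
  have hconj : ∀ u : L, IsConj u (r (ConjClasses.mk u)) := by
    intro u
    rw [← ConjClasses.mk_eq_mk_iff_isConj, hr]
  have h1 := card_eq_sum_section (p := p) hM hA r hr
  let Cl := Finset.univ.filter (fun c : ConjClasses L => ∃ k : ℕ, orderOf (r c) = p ^ k)
  have hone : ConjClasses.mk (1 : L) ∈ Cl := by
    refine Finset.mem_filter.2 ⟨Finset.mem_univ _, 0, ?_⟩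
    rw [← hord (hconj 1)]
    simp
  have hr1 : r (ConjClasses.mk (1 : L)) = 1 := by
    have := hconj 1
    exact (isConj_one_right.1 this)
  have h2 : Nat.card A = blockRank p A + ∑ c ∈ Cl.erase (ConjClasses.mk (1 : L)),
      blockRank p (indSet M (Subgroup.centralizer ({r c} : Set L)) A) := by
    rw [h1, ← Finset.add_sum_erase _ _ hone, hr1, blockRank_indSet_one hA]
  have h3 : (Nat.card A : ℤ) - (blockRank p A : ℤ) = ∑ c ∈ Cl.erase (ConjClasses.mk (1 : L)),
      (blockRank p (indSet M (Subgroup.centralizer ({r c} : Set L)) A) : ℤ) := by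
    rw [h2]
    push_cast
    ring
  rw [h3, Finset.mul_sum]
  have hmaps : ∀ u ∈ Finset.univ.filter (IsNPE p),
      ConjClasses.mk u ∈ Cl.erase (ConjClasses.mk (1 : L)) := by
    intro u hu
    obtain ⟨hu1, hu2⟩ := (Finset.mem_filter.1 hu).2
    refine Finset.mem_erase.2 ⟨?_, Finset.mem_filter.2 ⟨Finset.mem_univ _, ?_⟩⟩
    · intro h
      exact hu1 (isConj_one_right.1 (ConjClasses.mk_eq_mk_iff_isConj.1 h.symm))
    · rwa [← hord (hconj u)]
  rw [← Finset.sum_fiberwise_of_maps_to hmaps]
  refine Finset.sum_congr rfl fun c hc => ?_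
  have hcne := (Finset.mem_erase.1 hc).1
  have hcCl := (Finset.mem_erase.1 hc).2
  have hcp := (Finset.mem_filter.1 hcCl).2
  have hterm : ∀ u ∈ (Finset.univ.filter (IsNPE p)).filter (fun u => ConjClasses.mk u = c),
      (Nat.card (Subgroup.centralizer ({u} : Set L)) : ℤ) * (blockRank p (indSet M (Subgroup.centralizer ({u} : Set L)) A) : ℤ) =
      (Nat.card (Subgroup.centralizer ({r c} : Set L)) : ℤ) * (blockRank p (indSet M (Subgroup.centralizer ({r c} : Set L)) A) : ℤ) := by
    intro u hu
    have hu2 := (Finset.mem_filter.1 hu).2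
    have hu3 := (Finset.mem_filter.1 (Finset.mem_filter.1 hu).1).2.2
    have hcon : IsConj u (r c) := by
      rw [← ConjClasses.mk_eq_mk_iff_isConj, hr, hu2]
    rw [card_centralizer_conj hcon, blockRank_indSet_conj hM hA hu3 hcon]
  rw [Finset.sum_congr rfl hterm, Finset.sum_const, nsmul_eq_mul, ← mul_assoc]
  congr 1
  have hfil : (Finset.univ.filter (IsNPE p)).filter (fun u => ConjClasses.mk u = c) =
      Finset.univ.filter (fun u : L => IsConj (r c) u) := by
    ext u
    simp only [Finset.mem_filter, Finset.mem_univ, true_and]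
    constructor
    · rintro ⟨_, h⟩
      rw [← ConjClasses.mk_eq_mk_iff_isConj, hr, h]
    · intro h
      have h5 : ConjClasses.mk u = c := by
        have := ConjClasses.mk_eq_mk_iff_isConj.2 h
        rw [hr] at this
        exact this.symm
      refine ⟨⟨?_, ?_⟩, h5⟩
      · rintro rfl
        exact hcne h5.symm
      · rwa [hord h.symm]
  rw [hfil]
  have hcard : (Finset.univ.filter (fun l : L => IsConj (r c) l)).card = (Subgroup.centralizer ({r c} : Set L)).index := by
    have h1 := Cfsg.Agent.Lib.Degree.card_carrier_eq_index (r c)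
    rw [← h1, Nat.card_eq_fintype_card, ← Set.toFinset_card]
    congr 1
    ext l
    rw [Set.mem_toFinset, ConjClasses.mem_carrier_iff_mk_eq, Finset.mem_filter, ConjClasses.mk_eq_mk_iff_isConj]
    simp only [Finset.mem_univ, true_and]
    exact isConj_comm
  rw [hcard]
  have := Subgroup.card_mul_index (Subgroup.centralizer ({r c} : Set L))
  exact_mod_cast this.symm.trans (mul_comm _ _)

end Sections

section Final

open scoped Classical

variable {G : Type*} [Group G] [Fintype G] {p : ℕ} [hp : Fact p.Prime] {M : Ideal AlgInt}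

/-- The weight of a subgroup. -/
noncomputable def chainF (p : ℕ) (M : Ideal AlgInt) (b : Set (IrrCharacter G)) (K : Subgroup G) : ℤ :=
  (Nat.card K : ℤ) * (blockRank p (indSet M K b) : ℤ)

theorem map_centralizer_eq (L : Subgroup G) (v : L) :
    (Subgroup.centralizer ({v} : Set L)).map L.subtype = L ⊓ Subgroup.centralizer ({(v : G)} : Set G) := by
  ext x
  simp only [Subgroup.mem_map, Subgroup.mem_inf, Subgroup.mem_centralizer_singleton_iff]
  constructor
  · rintro ⟨y, hy, rfl⟩
    exact ⟨y.2, congrArg Subtype.val hy⟩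
  · rintro ⟨hx, hc⟩
    exact ⟨⟨x, hx⟩, Subtype.ext hc, rfl⟩

theorem term_formula (hM : IsPModular p M) {b : Set (IrrCharacter G)} (hb : IsPBlock M b) (L : Subgroup G)
    {T : Subgroup G} (hT : IsPGroup p T) (hTL : T ≤ L) (hCL : Subgroup.centralizer (T : Set G) ≤ L)
    (hLN : L ≤ Subgroup.normalizer (T : Set G)) :
    (Nat.card L : ℤ) * ((Nat.card (blocksOver M L b) : ℤ) - (blockRank p (blocksOver M L b) : ℤ)) =
      ∑ u ∈ Finset.univ.filter (fun u : G => IsNPE p u ∧ u ∈ L),
        chainF p M b (L ⊓ Subgroup.centralizer ({u} : Set G)) := by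
  have := isPModular_isPrime hM
  haveI : Fintype L := Fintype.ofFinite _
  rw [sum_sections hM (isBlockUnion_blocksOver L b)]
  refine Finset.sum_bij (fun (v : L) _ => (v : G)) ?_ ?_ ?_ ?_
  · intro v hv
    obtain ⟨h1, h2⟩ := (Finset.mem_filter.1 hv).2
    refine Finset.mem_filter.2 ⟨Finset.mem_univ _, ⟨?_, ?_⟩, v.2⟩
    · intro h
      exact h1 (Subtype.ext h)
    · rwa [Subgroup.orderOf_coe]
  · intro v _ w _ h
    exact Subtype.ext h
  · intro u hu
    obtain ⟨⟨h1, h2⟩, h3⟩ := (Finset.mem_filter.1 hu).2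
    refine ⟨⟨u, h3⟩, Finset.mem_filter.2 ⟨Finset.mem_univ _, ?_, ?_⟩, rfl⟩
    · intro h
      exact h1 (congrArg Subtype.val h)
    · rwa [Subgroup.orderOf_mk]
  · intro v hv
    obtain ⟨h1, h2⟩ := (Finset.mem_filter.1 hv).2
    unfold chainF
    rw [← map_centralizer_eq]
    have h3 : Nat.card (Subgroup.centralizer ({v} : Set L)) = Nat.card ((Subgroup.centralizer ({v} : Set L)).map L.subtype) :=
      Nat.card_congr (Subgroup.equivMapOfInjective _ _ (Subgroup.subtype_injective L)).toEquiv
    rw [h3]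
    congr 2
    exact blockRank_congr_equiv (Subgroup.equivMapOfInjective _ _ (Subgroup.subtype_injective L))
      (mem_indSet_transport L hM hb hT hTL hCL hLN v h2)

/-- **Knörr–Robinson: the alternating sum for `k(b) - l(b)`.** -/
theorem chain_identity (hM : IsPModular p M) {b : Set (IrrCharacter G)} (hb : IsPBlock M b) [Fintype (Subgroup G)] :
    (Nat.card G : ℤ) * ((Nat.card b : ℤ) - (blockRank p b : ℤ)) =
      ∑ s ∈ Finset.univ.filter (fun s : Finset (Subgroup G) => IsNC p s), (-1 : ℤ) ^ (s.card - 1) *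
        ((Nat.card (⨅ Q ∈ s, Subgroup.normalizer ((Q : Subgroup G) : Set G) : Subgroup G) : ℤ) *
          ((Nat.card (blocksOver M (⨅ Q ∈ s, Subgroup.normalizer ((Q : Subgroup G) : Set G) : Subgroup G) b) : ℤ) -
            (blockRank p (blocksOver M (⨅ Q ∈ s, Subgroup.normalizer ((Q : Subgroup G) : Set G) : Subgroup G) b) : ℤ))) := by
  have := isPModular_isPrime hM
  rw [sum_sections hM (isBlockUnion_of_isPBlock hb)]
  have hterm : ∀ s ∈ Finset.univ.filter (fun s : Finset (Subgroup G) => IsNC p s),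
      (Nat.card (⨅ Q ∈ s, Subgroup.normalizer ((Q : Subgroup G) : Set G) : Subgroup G) : ℤ) *
          ((Nat.card (blocksOver M (⨅ Q ∈ s, Subgroup.normalizer ((Q : Subgroup G) : Set G) : Subgroup G) b) : ℤ) -
            (blockRank p (blocksOver M (⨅ Q ∈ s, Subgroup.normalizer ((Q : Subgroup G) : Set G) : Subgroup G) b) : ℤ)) =
      ∑ u ∈ Finset.univ.filter (IsNPE p),
        if u ∈ (⨅ Q ∈ s, Subgroup.normalizer ((Q : Subgroup G) : Set G) : Subgroup G) then
          chainF p M b ((⨅ Q ∈ s, Subgroup.normalizer ((Q : Subgroup G) : Set G) : Subgroup G) ⊓ Subgroup.centralizer ({u} : Set G)) else 0 := by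
    intro s hs
    obtain ⟨hs0, hc, hmem, T, hT, htop⟩ := (Finset.mem_filter.1 hs).2
    have hTL : T ≤ (⨅ Q ∈ s, Subgroup.normalizer ((Q : Subgroup G) : Set G) : Subgroup G) := by
      simp only [le_iInf_iff]
      exact fun Q hQ => (htop Q hQ).2
    have hCL : Subgroup.centralizer (T : Set G) ≤ (⨅ Q ∈ s, Subgroup.normalizer ((Q : Subgroup G) : Set G) : Subgroup G) := by
      simp only [le_iInf_iff]
      intro Q hQ c hc'
      have hQT := (htop Q hQ).1
      rw [Subgroup.mem_normalizer_iff]
      intro x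
      constructor
      · intro hx
        have h1 := (Subgroup.mem_centralizer_iff.1 hc') x (hQT hx)
        have : c * x * c⁻¹ = x := by rw [← h1]; group
        rwa [this]
      · intro hx
        have h1 := (Subgroup.mem_centralizer_iff.1 hc') _ (hQT hx)
        have h2 : x = c * x * c⁻¹ := by
          calc x = c⁻¹ * (c * x * c⁻¹ * c) := by group
            _ = c⁻¹ * (c * (c * x * c⁻¹)) := by rw [h1]
            _ = c * x * c⁻¹ := by group
        rw [h2]
        exact hx
    have hLN : (⨅ Q ∈ s, Subgroup.normalizer ((Q : Subgroup G) : Set G) : Subgroup G) ≤ Subgroup.normalizer (T : Set G) :=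
      iInf₂_le T hT
    have hfil : Finset.univ.filter (fun u : G => IsNPE p u ∧ u ∈ (⨅ Q ∈ s, Subgroup.normalizer ((Q : Subgroup G) : Set G) : Subgroup G)) =
        (Finset.univ.filter (IsNPE p)).filter (fun u => u ∈ (⨅ Q ∈ s, Subgroup.normalizer ((Q : Subgroup G) : Set G) : Subgroup G)) := by
      ext u
      simp only [Finset.mem_filter, Finset.mem_univ, true_and]
    rw [term_formula hM hb _ (hmem T hT).2 hTL hCL hLN, hfil, Finset.sum_filter]
  have hR : ∑ s ∈ Finset.univ.filter (fun s : Finset (Subgroup G) => IsNC p s), (-1 : ℤ) ^ (s.card - 1) *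
        ((Nat.card (⨅ Q ∈ s, Subgroup.normalizer ((Q : Subgroup G) : Set G) : Subgroup G) : ℤ) *
          ((Nat.card (blocksOver M (⨅ Q ∈ s, Subgroup.normalizer ((Q : Subgroup G) : Set G) : Subgroup G) b) : ℤ) -
            (blockRank p (blocksOver M (⨅ Q ∈ s, Subgroup.normalizer ((Q : Subgroup G) : Set G) : Subgroup G) b) : ℤ))) =
      ∑ s ∈ Finset.univ.filter (fun s : Finset (Subgroup G) => IsNC p s), ∑ u ∈ Finset.univ.filter (IsNPE p), (-1 : ℤ) ^ (s.card - 1) *
        if u ∈ (⨅ Q ∈ s, Subgroup.normalizer ((Q : Subgroup G) : Set G) : Subgroup G) then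
          chainF p M b ((⨅ Q ∈ s, Subgroup.normalizer ((Q : Subgroup G) : Set G) : Subgroup G) ⊓ Subgroup.centralizer ({u} : Set G)) else 0 :=
    Finset.sum_congr rfl fun s hs => by rw [hterm s hs, Finset.mul_sum]
  rw [hR, Finset.sum_comm]
  refine Finset.sum_congr rfl fun u hu => ?_
  obtain ⟨hu1, hu2⟩ := (Finset.mem_filter.1 hu).2
  have h1 := sum_chains_stabilizer (p := p) (chainF p M b) hu1 hu2 (Subgroup.centralizer ({u} : Set G)) le_rfl
  have h2 : ∑ s ∈ ncAll p (Subgroup.zpowers u), (-1 : ℤ) ^ (s.card - 1) *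
        chainF p M b ((⨅ Q ∈ s, Subgroup.normalizer ((Q : Subgroup G) : Set G)) ⊓ Subgroup.centralizer ({u} : Set G)) =
      ∑ s ∈ Finset.univ.filter (fun s : Finset (Subgroup G) => IsNC p s), (-1 : ℤ) ^ (s.card - 1) *
        if u ∈ (⨅ Q ∈ s, Subgroup.normalizer ((Q : Subgroup G) : Set G) : Subgroup G) then
          chainF p M b ((⨅ Q ∈ s, Subgroup.normalizer ((Q : Subgroup G) : Set G) : Subgroup G) ⊓ Subgroup.centralizer ({u} : Set G)) else 0 := by
    have hset : ncAll p (Subgroup.zpowers u) = (Finset.univ.filter (fun s : Finset (Subgroup G) => IsNC p s)).filter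
        (fun s => u ∈ (⨅ Q ∈ s, Subgroup.normalizer ((Q : Subgroup G) : Set G) : Subgroup G)) := by
      ext s
      rw [mem_ncAll]
      simp only [Finset.mem_filter, Finset.mem_univ, true_and, Subgroup.mem_iInf, Subgroup.zpowers_le]
    rw [hset, Finset.sum_filter]
    refine Finset.sum_congr rfl fun s _ => ?_
    split_ifs <;> simp
  rw [← h2, h1]
  rfl

end Final

end Cfsg.Agent.Lib.Block
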