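import Cfsg.Agent.Lib.Block.CycSum
import Cfsg.Agent.Lib.Block.Defect

/-!
# The coefficients of a block idempotent lie in the `p'`-part cyclotomic field
-/

set_option autoImplicit false
set_option linter.unusedSectionVars false
set_option linter.unusedVariables false

open scoped ComplexConjugate

namespace Cfsg.Agent.Lib.Block

open Cfsg Cfsg.Agent.Lib.Char

theorem mem_adjoin_exp_of_isCyc {m : ℕ} [NeZero m] {x : ℂ} (h : IsCyc m x) :
    x ∈ IntermediateField.adjoin ℚ ({Complex.exp (2 * Real.pi * Complex.I / (m : ℂ))} : Set ℂ) := by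
  obtain ⟨a, rfl⟩ := h
  have hζ := IsCyclotomicExtension.zeta_spec m ℚ (CyclotomicField m ℚ)
  have hη := Complex.isPrimitiveRoot_exp m (NeZero.ne m)
  have htop := IsCyclotomicExtension.adjoin_primitive_root_eq_top (A := ℚ) hζ
  have ha : a ∈ Algebra.adjoin ℚ ({IsCyclotomicExtension.zeta m ℚ (CyclotomicField m ℚ)} : Set (CyclotomicField m ℚ)) := by
    rw [htop]
    exact Algebra.mem_top
  have himg : cycEmb m (IsCyclotomicExtension.zeta m ℚ (CyclotomicField m ℚ)) ∈
      IntermediateField.adjoin ℚ ({Complex.exp (2 * Real.pi * Complex.I / (m : ℂ))} : Set ℂ) := by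
    have h1 : cycEmb m (IsCyclotomicExtension.zeta m ℚ (CyclotomicField m ℚ)) ^ m = 1 := by
      rw [← map_pow, hζ.pow_eq_one, map_one]
    obtain ⟨j, -, hj⟩ := hη.eq_pow_of_pow_eq_one h1
    rw [← hj]
    exact pow_mem (IntermediateField.mem_adjoin_simple_self _ _) _
  induction ha using Algebra.adjoin_induction with
  | mem x hx =>
    rw [Set.mem_singleton_iff] at hx
    rw [hx]
    exact himg
  | algebraMap x =>
    rw [AlgHom.commutes]
    exact IntermediateField.algebraMap_mem _ _
  | add x y _ _ hx hy =>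
    rw [map_add]
    exact add_mem hx hy
  | mul x y _ _ hx hy =>
    rw [map_mul]
    exact mul_mem hx hy

variable {G : Type*} [Group G] [Fintype G] {p : ℕ} [hp : Fact p.Prime] {M : Ideal AlgInt}

/-- **The coefficients of a block idempotent lie in the cyclotomic field of the `p'`-part.** -/
theorem blockCoeff_mem_adjoin (hM : IsPModular p M) {B : Set (IrrCharacter G)} (hB : IsPBlock M B) (g : G) :
    blockCoeff B g ∈ IntermediateField.adjoin ℚ
      ({Complex.exp (2 * Real.pi * Complex.I / ((Nat.card G / p ^ (Nat.card G).factorization p : ℕ) : ℂ))} : Set ℂ) := by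
  classical
  have := isPModular_isPrime hM
  by_cases h0 : blockCoeff B g = 0
  · rw [h0]
    exact zero_mem _
  have hreg := regular_of_blockCoeff_ne_zero hM (isBlockUnion_of_isPBlock hB) h0
  obtain ⟨m, hm⟩ : ∃ m, m = Nat.card G / p ^ (Nat.card G).factorization p := ⟨_, rfl⟩
  rw [← hm]
  have hcard : Nat.card G = p ^ (Nat.card G).factorization p * m := by
    rw [hm]
    exact (Nat.ordProj_mul_ordCompl_eq_self _ _).symm
  have hm0 : m ≠ 0 := by
    intro h
    rw [h, mul_zero] at hcard
    exact Nat.card_pos.ne' hcard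
  haveI : NeZero m := ⟨hm0⟩
  have hdvd : orderOf g ∣ m := by
    have h1 : orderOf g ∣ p ^ (Nat.card G).factorization p * m := by
      rw [← hcard]
      exact orderOf_dvd_natCard g
    refine Nat.Coprime.dvd_of_dvd_mul_left ?_ h1
    apply Nat.Coprime.pow_right
    rw [Nat.coprime_comm]
    exact (Nat.Prime.coprime_iff_not_dvd hp.out).2 hreg
  have hg : g⁻¹ ^ m = 1 := by
    rw [inv_pow, orderOf_dvd_iff_pow_eq_one.1 hdvd, inv_one]
  have h1' : (1 : G) ^ m = 1 := one_pow _
  rw [blockCoeff_eq_sum_inv]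
  refine mul_mem (inv_mem (natCast_mem _ _)) (sum_mem fun χ _ => ?_)
  split_ifs
  · exact mul_mem (mem_adjoin_exp_of_isCyc (isCyc_of_isCharacter (IsIrrCharacter.isCharacter χ.2) h1'))
      (mem_adjoin_exp_of_isCyc (isCyc_of_isCharacter (IsIrrCharacter.isCharacter χ.2) hg))
  · exact zero_mem _

end Cfsg.Agent.Lib.Block
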