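import Mathlib

/-!
# Integer matrices with columns of norm three meeting in two
-/

set_option autoImplicit false
set_option linter.unusedSectionVars false
set_option linter.unusedSimpArgs false
set_option linter.unusedVariables false

namespace Cfsg.Agent.Lib.Block

section Sunflower

variable {ι : Type*} [DecidableEq ι]

theorem no_four_sets (C : Finset ι) (hC : C.card = 3) (x : ι) (hx : x ∉ C) {J : Type*} [DecidableEq J]
    (T : Finset J) (hT : 4 ≤ T.card) (A : J → Finset ι) (hxA : ∀ j ∈ T, x ∈ A j) (hA3 : ∀ j ∈ T, (A j).card = 3)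
    (hAC : ∀ j ∈ T, (A j ∩ C).card = 2) (hne : ∀ i ∈ T, ∀ j ∈ T, i ≠ j → A i ≠ A j) : False := by
  have hmaps : ∀ j ∈ T, (A j).erase x ∈ C.powersetCard 2 := by
    intro j hj
    have h1 : A j ∩ C ⊆ (A j).erase x := by
      intro y hy
      rw [Finset.mem_inter] at hy
      refine Finset.mem_erase.2 ⟨?_, hy.1⟩
      rintro rfl
      exact hx hy.2
    have h2 : ((A j).erase x).card = 2 := by
      rw [Finset.card_erase_of_mem (hxA j hj), hA3 j hj]
    have h3 : A j ∩ C = (A j).erase x := Finset.eq_of_subset_of_card_le h1 (by rw [h2, hAC j hj])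
    rw [Finset.mem_powersetCard]
    refine ⟨?_, h2⟩
    rw [← h3]
    exact Finset.inter_subset_right
  have hcard : (C.powersetCard 2).card < T.card := by
    rw [Finset.card_powersetCard, hC]
    have : Nat.choose 3 2 = 3 := by decide
    omega
  obtain ⟨i, hi, j, hj, hij, he⟩ := Finset.exists_ne_map_eq_of_card_lt_of_maps_to hcard hmaps
  apply hne i hi j hj hij
  rw [← Finset.insert_erase (hxA i hi), ← Finset.insert_erase (hxA j hj), he]

/-- Five three-sets pairwise meeting in two elements contain a common pair. -/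
theorem sunflower_five (S : Fin 5 → Finset ι) (h3 : ∀ i, (S i).card = 3)
    (h2 : ∀ i j, i ≠ j → (S i ∩ S j).card = 2) (i j k : Fin 5) (hij : i ≠ j) : S i ∩ S j ⊆ S k := by
  intro x hx
  rw [Finset.mem_inter] at hx
  by_contra hxk
  have hne : ∀ a b, a ≠ b → S a ≠ S b := by
    intro a b hab h
    have := h2 a b hab
    rw [← h, Finset.inter_self, h3] at this
    omega
  -- every other set contains `x`
  have hall : ∀ l, l ≠ k → x ∈ S l := by
    intro l hlk
    by_contra hxl
    have hil : i ≠ l := by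
      rintro rfl
      exact hxl hx.1
    have hjl : j ≠ l := by
      rintro rfl
      exact hxl hx.2
    have hik : i ≠ k := by
      rintro rfl
      exact hxk hx.1
    have hjk : j ≠ k := by
      rintro rfl
      exact hxk hx.2
    have hsub : ∀ s t, x ∈ S s → x ∉ S t → s ≠ t → (S s).erase x ⊆ S t := by
      intro s t hs ht hst
      have h1 : S s ∩ S t ⊆ (S s).erase x := by
        intro y hy
        rw [Finset.mem_inter] at hy
        refine Finset.mem_erase.2 ⟨?_, hy.1⟩
        rintro rfl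
        exact ht hy.2
      have h4 : ((S s).erase x).card = 2 := by
        rw [Finset.card_erase_of_mem hs, h3]
      have h5 : S s ∩ S t = (S s).erase x := Finset.eq_of_subset_of_card_le h1 (by rw [h4, h2 s t hst])
      rw [← h5]
      exact Finset.inter_subset_right
    have hU : (S i).erase x ∪ (S j).erase x ⊆ S k ∩ S l := by
      intro y hy
      rw [Finset.mem_inter]
      rcases Finset.mem_union.1 hy with hy | hy
      · exact ⟨hsub i k hx.1 hxk hik hy, hsub i l hx.1 hxl hil hy⟩
      · exact ⟨hsub j k hx.2 hxk hjk hy, hsub j l hx.2 hxl hjl hy⟩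
    have hcard : ((S i).erase x ∪ (S j).erase x).card ≤ 2 := by
      have := Finset.card_le_card hU
      rwa [h2 k l (Ne.symm hlk)] at this
    have h6 : ((S i).erase x).card = 2 := by
      rw [Finset.card_erase_of_mem hx.1, h3]
    have h7 : ((S j).erase x).card = 2 := by
      rw [Finset.card_erase_of_mem hx.2, h3]
    have h8 : (S i).erase x = (S i).erase x ∪ (S j).erase x :=
      Finset.eq_of_subset_of_card_le Finset.subset_union_left (by rw [h6]; exact hcard)
    have h9 : (S j).erase x = (S i).erase x ∪ (S j).erase x :=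
      Finset.eq_of_subset_of_card_le Finset.subset_union_right (by rw [h7]; exact hcard)
    apply hne i j hij
    rw [← Finset.insert_erase hx.1, ← Finset.insert_erase hx.2, h8, ← h9]
  refine no_four_sets (S k) (h3 k) x hxk (Finset.univ.erase k) ?_ S ?_ ?_ ?_ ?_
  · rw [Finset.card_erase_of_mem (Finset.mem_univ _)]
    simp
  · intro l hl
    exact hall l (Finset.ne_of_mem_erase hl)
  · intro l _
    exact h3 l
  · intro l hl
    exact h2 l k (Finset.ne_of_mem_erase hl)
  · intro a _ b _ hab
    exact hne a b hab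

end Sunflower

section Signs

theorem sum_sign_two {ι : Type*} (T : Finset ι) (f : ι → ℤ) (hf : ∀ i ∈ T, f i = 1 ∨ f i = -1)
    (hsum : ∑ i ∈ T, f i = 2) (hcard : T.card ≤ 3) : T.card = 2 ∧ ∀ i ∈ T, f i = 1 := by
  classical
  have hle : ∑ i ∈ T, f i ≤ T.card := by
    have := Finset.sum_le_card_nsmul T f 1 (fun i hi => by rcases hf i hi with h | h <;> omega)
    simpa using this
  have hpar : ∀ (T : Finset ι), (∀ i ∈ T, f i = 1 ∨ f i = -1) → ((∑ i ∈ T, f i) - T.card) % 2 = 0 := by
    intro T hT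
    classical
    induction T using Finset.induction_on with
    | empty => simp
    | insert a s ha ih =>
      rw [Finset.sum_insert ha, Finset.card_insert_of_notMem ha]
      have h1 := ih (fun i hi => hT i (Finset.mem_insert_of_mem hi))
      have h2 := hT a (Finset.mem_insert_self _ _)
      push_cast
      rcases h2 with h2 | h2 <;> rw [h2] <;> omega
  have hp := hpar T hf
  rw [hsum] at hp hle
  have hc2 : T.card = 2 := by omega
  refine ⟨hc2, ?_⟩
  -- all are `1`
  intro i hi
  by_contra hne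
  have hi' : f i = -1 := (hf i hi).resolve_left hne
  have h3 := Finset.add_sum_erase T f hi
  have h4 : ∑ j ∈ T.erase i, f j ≤ (T.erase i).card := by
    have := Finset.sum_le_card_nsmul (T.erase i) f 1
      (fun j hj => by rcases hf j (Finset.mem_of_mem_erase hj) with h | h <;> omega)
    simpa using this
  rw [Finset.card_erase_of_mem hi, hc2] at h4
  rw [hsum, hi'] at h3
  push_cast at h4
  omega

theorem sum_sign_three {ι : Type*} (S : Finset ι) (a : ι → ℤ) (hne : ∀ i ∈ S, a i ≠ 0)
    (hsum : ∑ i ∈ S, (a i) ^ 2 = 3) : S.card = 3 ∧ ∀ i ∈ S, a i = 1 ∨ a i = -1 := by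
  have h1 : ∀ i ∈ S, (a i) ^ 2 = 1 := by
    intro i hi
    have h2 : (a i) ^ 2 ≤ 3 := by
      rw [← hsum]
      exact Finset.single_le_sum (f := fun i => (a i) ^ 2) (fun j _ => sq_nonneg _) hi
    have h3 : a i ≠ 0 := hne i hi
    have h4 : |a i| < 2 := by
      by_contra hc
      push Not at hc
      have : (2 : ℤ) ^ 2 ≤ |a i| ^ 2 := pow_le_pow_left₀ (by norm_num) hc 2
      rw [sq_abs] at this
      omega
    have h5 : -2 < a i ∧ a i < 2 := abs_lt.1 h4
    have h6 : a i = 1 ∨ a i = -1 := by omega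
    rcases h6 with h6 | h6 <;> rw [h6] <;> norm_num
  constructor
  · rw [Finset.sum_congr rfl h1] at hsum
    simp only [Finset.sum_const, nsmul_eq_mul, mul_one] at hsum
    exact_mod_cast hsum
  · intro i hi
    have := h1 i hi
    have h2 : (a i - 1) * (a i + 1) = 0 := by ring_nf; omega
    rcases mul_eq_zero.1 h2 with h3 | h3
    · left; omega
    · right; omega

end Signs

section Matrix

variable {ι Λ : Type*} [DecidableEq ι]

/-- The structure of an integer matrix whose columns have norm three and meet in two. -/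
theorem coherence_matrix (R : Finset ι) (I : Finset Λ) (a : ι → Λ → ℤ) (Rel : Λ → Λ → Prop)
    (hrel : ∀ l ∈ I, ∀ m ∈ I, Rel l m → ∀ x ∈ R, a x l = a x m)
    (hnorm : ∀ l ∈ I, ∑ x ∈ R, a x l ^ 2 = 3)
    (hoff : ∀ l ∈ I, ∀ m ∈ I, ¬ Rel l m → ∑ x ∈ R, a x l * a x m = 2)
    (l₀ : Fin 5 → Λ) (hl₀ : ∀ i, l₀ i ∈ I) (hl₀2 : ∀ i j, i ≠ j → ¬ Rel (l₀ i) (l₀ j)) :
    ∃ x₁ ∈ R, ∃ x₂ ∈ R, x₁ ≠ x₂ ∧ ∃ s₁ s₂ : ℤ, (s₁ = 1 ∨ s₁ = -1) ∧ (s₂ = 1 ∨ s₂ = -1) ∧
      ∀ l ∈ I, a x₁ l = s₁ ∧ a x₂ l = s₂ ∧ ∃ y ∈ R, y ≠ x₁ ∧ y ≠ x₂ ∧ (a y l = 1 ∨ a y l = -1) ∧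
        ∀ x ∈ R, x ≠ x₁ → x ≠ x₂ → x ≠ y → a x l = 0 := by
  classical
  set S : Λ → Finset ι := fun l => R.filter (fun x => a x l ≠ 0) with hS
  have hmemS : ∀ l x, x ∈ S l ↔ x ∈ R ∧ a x l ≠ 0 := by
    intro l x
    simp [hS]
  have hS3 : ∀ l ∈ I, (S l).card = 3 ∧ ∀ x ∈ S l, a x l = 1 ∨ a x l = -1 := by
    intro l hl
    apply sum_sign_three (S l) (fun x => a x l)
    · intro x hx
      exact ((hmemS l x).1 hx).2
    · rw [← hnorm l hl, hS, Finset.sum_filter]
      refine Finset.sum_congr rfl fun x _ => ?_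
      by_cases h : a x l = 0
      · simp [h]
      · simp [h]
  have hoff2 : ∀ l ∈ I, ∀ m ∈ I, ¬ Rel l m → (S l ∩ S m).card = 2 ∧ ∀ x ∈ S l ∩ S m, a x l = a x m := by
    intro l hl m hm hlm
    have h1 : ∑ x ∈ S l ∩ S m, a x l * a x m = 2 := by
      rw [← hoff l hl m hm hlm]
      apply Finset.sum_subset
      · intro x hx
        exact ((hmemS l x).1 (Finset.mem_inter.1 hx).1).1
      · intro x hxR hx
        by_cases h1 : a x l = 0
        · rw [h1, zero_mul]
        by_cases h2 : a x m = 0
        · rw [h2, mul_zero]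
        exact absurd (Finset.mem_inter.2 ⟨(hmemS l x).2 ⟨hxR, h1⟩, (hmemS m x).2 ⟨hxR, h2⟩⟩) hx
    have h2 : (S l ∩ S m).card ≤ 3 := by
      calc (S l ∩ S m).card ≤ (S l).card := Finset.card_le_card Finset.inter_subset_left
        _ = 3 := (hS3 l hl).1
    have h3 := sum_sign_two (S l ∩ S m) (fun x => a x l * a x m) (by
      intro x hx
      have e1 := (hS3 l hl).2 x (Finset.mem_inter.1 hx).1
      have e2 := (hS3 m hm).2 x (Finset.mem_inter.1 hx).2
      rcases e1 with e1 | e1 <;> rcases e2 with e2 | e2 <;> rw [e1, e2] <;> norm_num) h1 h2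
    refine ⟨h3.1, fun x hx => ?_⟩
    have h4 := h3.2 x hx
    have e1 := (hS3 l hl).2 x (Finset.mem_inter.1 hx).1
    have e2 := (hS3 m hm).2 x (Finset.mem_inter.1 hx).2
    rcases e1 with e1 | e1 <;> rcases e2 with e2 | e2 <;> simp only [e1, e2] at h4 ⊢ <;> norm_num at h4
  -- the core
  have hF := sunflower_five (fun i => S (l₀ i)) (fun i => (hS3 _ (hl₀ i)).1)
    (fun i j hij => (hoff2 _ (hl₀ i) _ (hl₀ j) (hl₀2 i j hij)).1)
  have h01 : (0 : Fin 5) ≠ 1 := by decide
  set K := S (l₀ 0) ∩ S (l₀ 1) with hK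
  have hK2 : K.card = 2 := (hoff2 _ (hl₀ 0) _ (hl₀ 1) (hl₀2 0 1 h01)).1
  have hKall : ∀ l ∈ I, K ⊆ S l := by
    intro l hl
    by_cases hr : ∃ i, Rel l (l₀ i)
    · obtain ⟨i, hi⟩ := hr
      have h1 := hF 0 1 i h01
      intro x hx
      have h2 := h1 hx
      rw [hmemS] at h2 ⊢
      have h3 := hrel l hl _ (hl₀ i) hi x h2.1
      exact ⟨h2.1, by rw [h3]; exact h2.2⟩
    · push Not at hr
      intro x hx
      by_contra hxl
      refine no_four_sets (S l) (hS3 l hl).1 x hxl (Finset.univ : Finset (Fin 5)) (by simp)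
        (fun i => S (l₀ i)) ?_ ?_ ?_ ?_
      · intro i _
        exact hF 0 1 i h01 hx
      · intro i _
        exact (hS3 _ (hl₀ i)).1
      · intro i _
        rw [Finset.inter_comm]
        exact (hoff2 l hl _ (hl₀ i) (hr i)).1
      · intro i _ j _ hij h
        have := (hoff2 _ (hl₀ i) _ (hl₀ j) (hl₀2 i j hij)).1
        rw [← h, Finset.inter_self, (hS3 _ (hl₀ i)).1] at this
        omega
  obtain ⟨x₁, x₂, hne, hKe⟩ := Finset.card_eq_two.1 hK2
  have hx₁K : x₁ ∈ K := by rw [hKe]; simp
  have hx₂K : x₂ ∈ K := by rw [hKe]; simp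
  have hl0 := hl₀ 0
  have hx₁0 := hKall _ hl0 hx₁K
  have hx₂0 := hKall _ hl0 hx₂K
  have hconst : ∀ x ∈ K, ∀ l ∈ I, a x l = a x (l₀ 0) := by
    intro x hx l hl
    have hxl := hKall l hl hx
    have hx0 := hKall _ hl0 hx
    by_cases hr : Rel l (l₀ 0)
    · exact hrel l hl _ hl0 hr x ((hmemS _ _).1 hx0).1
    · exact (hoff2 l hl _ hl0 hr).2 x (Finset.mem_inter.2 ⟨hxl, hx0⟩)
  refine ⟨x₁, ((hmemS _ _).1 hx₁0).1, x₂, ((hmemS _ _).1 hx₂0).1, hne, a x₁ (l₀ 0), a x₂ (l₀ 0),
    (hS3 _ hl0).2 _ hx₁0, (hS3 _ hl0).2 _ hx₂0, ?_⟩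
  intro l hl
  refine ⟨hconst x₁ hx₁K l hl, hconst x₂ hx₂K l hl, ?_⟩
  have hcard1 : (((S l).erase x₁).erase x₂).card = 1 := by
    rw [Finset.card_erase_of_mem (Finset.mem_erase.2 ⟨Ne.symm hne, hKall l hl hx₂K⟩),
      Finset.card_erase_of_mem (hKall l hl hx₁K), (hS3 l hl).1]
  obtain ⟨y, hy⟩ := Finset.card_eq_one.1 hcard1
  have hym : y ∈ ((S l).erase x₁).erase x₂ := by rw [hy]; simp
  have hy2 : y ≠ x₂ := Finset.ne_of_mem_erase hym
  have hy1 : y ≠ x₁ := Finset.ne_of_mem_erase (Finset.mem_of_mem_erase hym)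
  have hyS : y ∈ S l := Finset.mem_of_mem_erase (Finset.mem_of_mem_erase hym)
  refine ⟨y, ((hmemS _ _).1 hyS).1, hy1, hy2, (hS3 l hl).2 y hyS, ?_⟩
  intro x hxR h1 h2 h3
  by_contra h0
  have hxS : x ∈ S l := (hmemS _ _).2 ⟨hxR, h0⟩
  have : x ∈ ((S l).erase x₁).erase x₂ := Finset.mem_erase.2 ⟨h2, Finset.mem_erase.2 ⟨h1, hxS⟩⟩
  rw [hy] at this
  exact h3 (by simpa using this)

end Matrix

section Dioph

/-- The Diophantine equation for the degrees. -/
theorem dioph_coherent (N a b : ℤ) (hN : 16 ≤ N)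
    (h : 2 * (a + b) ^ 2 = a * b * (6 - N * (a + b))) : a = 0 ∧ b = 0 := by
  by_cases hs : a + b = 0
  · have hb : b = -a := by linarith
    subst hb
    have h1 : a * a = 0 := by
      have : a * -a * (6 - N * (a + -a)) = -6 * (a * a) := by ring
      rw [this] at h
      have h2 : (a + -a) = 0 := by ring
      rw [h2] at h
      nlinarith
    have h3 : a = 0 := by simpa using h1
    simp [h3]
  · exfalso
    have hpos : 0 < (a + b) ^ 2 := by positivity
    rcases lt_or_gt_of_ne hs with hlt | hgt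
    · -- `a + b < 0`: both negative
      set s := -(a + b) with hsdef
      have hs1 : 1 ≤ s := by omega
      have e : a * b * (6 + N * s) = 2 * s ^ 2 := by
        rw [hsdef] at *
        have h2 : 6 - N * (a + b) = 6 + N * -(a + b) := by ring
        rw [← h2, ← h]
        ring
      have hpos2 : 0 < 6 + N * s := by nlinarith
      have hab : 0 < a * b := by
        by_contra hc
        push Not at hc
        have := mul_nonpos_of_nonpos_of_nonneg hc hpos2.le
        rw [e] at this
        nlinarith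
      have ha : a < 0 := by
        by_contra hc
        push Not at hc
        have hb' : 0 < b := by
          by_contra hc2
          push Not at hc2
          nlinarith
        omega
      have hb : b < 0 := by
        by_contra hc
        push Not at hc
        nlinarith
      have hA : 1 ≤ -a := by omega
      have hB : 1 ≤ -b := by omega
      have hab2 : s - 1 ≤ a * b := by
        have : (-a - 1) * (-b - 1) ≥ 0 := mul_nonneg (by omega) (by omega)
        nlinarith
      have hs2 : 2 ≤ s := by omega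
      have h3 : (s - 1) * (6 + N * s) ≤ a * b * (6 + N * s) :=
        mul_le_mul_of_nonneg_right hab2 hpos2.le
      rw [e] at h3
      have h4 : (s - 1) * (6 + 16 * s) ≤ (s - 1) * (6 + N * s) := by
        apply mul_le_mul_of_nonneg_left _ (by omega)
        nlinarith
      nlinarith
    · -- `a + b > 0`: opposite signs
      set s := a + b with hsdef
      have hs1 : 1 ≤ s := by omega
      have hN2 : 16 * s ≤ N * s := by nlinarith
      have e : a * b * (N * s - 6) = - (2 * s ^ 2) := by
        have h2 : N * s - 6 = -(6 - N * s) := by ring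
        rw [h2, mul_neg, ← h]
      have hpos2 : 0 < N * s - 6 := by linarith
      have hab : a * b < 0 := by
        by_contra hc
        push Not at hc
        have := mul_nonneg hc hpos2.le
        rw [e] at this
        nlinarith
      -- `|ab| ≥ s + 1`
      have hab2 : s + 1 ≤ -(a * b) := by
        rcases lt_or_ge a 0 with ha | ha
        · have hb : 0 < b := by omega
          have : (-a - 1) * (s + (-a)) ≥ 0 := by
            apply mul_nonneg <;> omega
          have e2 : b = s + -a := by omega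
          rw [e2]
          nlinarith
        · have hb : b < 0 := by
            by_contra hc
            push Not at hc
            have := mul_nonneg ha hc
            linarith
          have : (-b - 1) * (s + (-b)) ≥ 0 := by
            apply mul_nonneg <;> omega
          have e2 : a = s + -b := by omega
          rw [e2]
          nlinarith
      have h3 : (s + 1) * (N * s - 6) ≤ -(a * b) * (N * s - 6) :=
        mul_le_mul_of_nonneg_right hab2 hpos2.le
      have e3 : -(a * b) * (N * s - 6) = 2 * s ^ 2 := by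
        rw [neg_mul, e]
        ring
      rw [e3] at h3
      have h4 : (s + 1) * (16 * s - 6) ≤ (s + 1) * (N * s - 6) := by
        apply mul_le_mul_of_nonneg_left _ (by omega)
        linarith
      nlinarith

end Dioph

end Cfsg.Agent.Lib.Block
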