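import Cfsg.Agent.Lib.Block.FirstMain2

/-!
# Counting blocks

The number of blocks of defect at least `d` is at most the number of `p`-regular classes of defect at least `d`.
-/

set_option autoImplicit false
set_option linter.unusedSectionVars false
set_option linter.unusedSimpArgs false
set_option linter.unusedVariables false

open scoped ComplexConjugate
open Cfsg MonoidAlgebra Cfsg.Agent.Lib.Char

namespace Cfsg.Agent.Lib.Block

section Count

variable {G : Type*} [Group G] [Fintype G] {p : ℕ} [hp : Fact p.Prime] {M : Ideal AlgInt}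

/-- Central characters of blocks of defect larger than that of a class are trivial. -/
theorem memLocalIdeal_centralChar_of_defect_lt (hM : IsPModular p M) {B : Set (IrrCharacter G)} (hB : IsPBlock M B)
    {χ : IrrCharacter G} (hχ : χ ∈ B) {c : G}
    (h : (Nat.card (Subgroup.centralizer ({c} : Set G))).factorization p < blockDefect p B) :
    MemLocalIdeal M (centralChar (χ : G → ℂ) c) := by
  classical
  have := isPModular_isPrime hM
  by_contra hcon
  obtain ⟨D, hD⟩ := exists_isDefectGroup hM hB
  have hcard := card_defect_group hM hB hD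
  obtain ⟨y, hy, Q, hQ⟩ := id hD
  have hDp : IsPGroup p D := by
    rw [hQ]
    exact (Q.isPGroup').map _
  have hDy : D ≤ Subgroup.centralizer ({y} : Set G) := by
    rw [hQ]
    rintro _ ⟨a, _, rfl⟩
    exact a.2
  obtain ⟨c', hc', hDc'⟩ := exists_centralize_of_units hM hB hχ hcon hy.2.1 hDp hDy
  have h1 : Nat.card (Subgroup.centralizer ({c} : Set G)) = Nat.card (Subgroup.centralizer ({c'} : Set G)) :=
    card_centralizer_of_isConj hc'
  have h2 : p ^ blockDefect p B ∣ Nat.card (Subgroup.centralizer ({c} : Set G)) := by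
    rw [h1, ← hcard]
    exact Subgroup.card_dvd_of_le hDc'
  have h3 := (hp.out.pow_dvd_iff_le_factorization Nat.card_pos.ne').1 h2
  omega

/-- **The number of blocks of defect at least `d`.** -/
theorem card_blocks_le (hM : IsPModular p M) (d : ℕ) :
    Nat.card {B : Set (IrrCharacter G) // IsPBlock M B ∧ d ≤ blockDefect p B} ≤
      Nat.card {C : ConjClasses G // ∃ g : G, ConjClasses.mk g = C ∧ IsPRegular p g ∧
        d ≤ (Nat.card (Subgroup.centralizer ({g} : Set G))).factorization p} := by
  classical
  have := isPModular_isPrime hM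
  have : Fintype (ConjClasses G) := Fintype.ofFinite _
  by_contra hlt
  push Not at hlt
  haveI : M.IsMaximal := hM.2.1
  letI : Field (AlgInt ⧸ M) := Ideal.Quotient.field M
  set S := {B : Set (IrrCharacter G) // IsPBlock M B ∧ d ≤ blockDefect p B} with hS
  set T := {C : ConjClasses G // ∃ g : G, ConjClasses.mk g = C ∧ IsPRegular p g ∧
        d ≤ (Nat.card (Subgroup.centralizer ({g} : Set G))).factorization p} with hT
  haveI : Fintype S := Fintype.ofFinite _
  haveI : Fintype T := Fintype.ofFinite _
  choose χB hχB using (fun B : S => IsPBlock_nonempty B.2.1)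
  have hint : ∀ (B : S) (g : G), IsIntegral ℤ (centralChar ((χB B : IrrCharacter G) : G → ℂ) g) :=
    fun B g => isIntegral_centralChar (χB B).2 g
  let A : Matrix S T (AlgInt ⧸ M) := fun B C =>
    Ideal.Quotient.mk M ⟨centralChar ((χB B : IrrCharacter G) : G → ℂ) C.1.out, hint B _⟩
  have hdep : ∃ a : S → (AlgInt ⧸ M), a ≠ 0 ∧ Matrix.vecMul a A = 0 := by
    have hker : LinearMap.ker (Matrix.vecMulLinear A) ≠ ⊥ := by
      apply LinearMap.ker_ne_bot_of_finrank_lt
      simp only [Module.finrank_fintype_fun_eq_card]
      rw [← Nat.card_eq_fintype_card, ← Nat.card_eq_fintype_card]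
      exact hlt
    obtain ⟨a, ha, ha0⟩ := Submodule.exists_mem_ne_zero_of_ne_bot hker
    exact ⟨a, ha0, ha⟩
  obtain ⟨a, ha0, ha⟩ := hdep
  obtain ⟨B₀, hB₀⟩ := Function.ne_iff.1 ha0
  choose a' ha' using (fun B : S => Ideal.Quotient.mk_surjective (a B))
  -- the key element
  set L : ConjClasses G → ℂ := fun c => ∑ B : S, ((a' B : AlgInt) : ℂ) *
    centralChar ((χB B : IrrCharacter G) : G → ℂ) c.out with hL
  have hU : IsBlockUnion M (B₀.1) := isBlockUnion_of_isPBlock B₀.2.1
  have hLm : ∀ c : ConjClasses G, ¬ p ∣ orderOf c.out → MemLocalIdeal M (L c) := by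
    intro c hc
    by_cases hcd : d ≤ (Nat.card (Subgroup.centralizer ({c.out} : Set G))).factorization p
    · -- class in `T`
      have hcT : ∃ g : G, ConjClasses.mk g = c ∧ IsPRegular p g ∧
          d ≤ (Nat.card (Subgroup.centralizer ({g} : Set G))).factorization p :=
        ⟨c.out, Quotient.out_eq' c, hc, hcd⟩
      have h1 := congrFun ha ⟨c, hcT⟩
      simp only [Matrix.vecMul, dotProduct, Pi.zero_apply] at h1
      have h2 : Ideal.Quotient.mk M (∑ B : S, a' B * ⟨centralChar ((χB B : IrrCharacter G) : G → ℂ) c.out, hint B _⟩) = 0 := by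
        rw [map_sum, ← h1]
        refine Finset.sum_congr rfl fun B _ => ?_
        rw [map_mul, ha']
      have h3 := Ideal.Quotient.eq_zero_iff_mem.1 h2
      have h4 := memLocalIdeal_of_mem h3
      convert h4 using 1
      simp only [hL, AddSubmonoidClass.coe_finsetSum, MulMemClass.coe_mul]
    · refine memLocalIdeal_sum _ _ fun B _ => memLocalIdeal_mul_left (memLocalRing_of_algInt _) ?_
      have hlt' : (Nat.card (Subgroup.centralizer ({c.out} : Set G))).factorization p < blockDefect p B.1 := by
        have := B.2.2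
        omega
      exact memLocalIdeal_centralChar_of_defect_lt hM B.2.1 (hχB B) hlt'
  have hsum : ((a' B₀ : AlgInt) : ℂ) = ∑ c : ConjClasses G, (blockElt B₀.1).coeff c.out * L c := by
    have h1 : ∀ B : S, om ((χB B : IrrCharacter G) : G → ℂ) (blockElt B₀.1) = if B = B₀ then 1 else 0 := by
      intro B
      by_cases hB : B = B₀
      · rw [if_pos hB, om_blockElt_of_mem]
        rw [← hB]
        exact hχB B
      · rw [if_neg hB, om_blockElt_of_notMem]
        intro hmem
        apply hB
        apply Subtype.ext
        rw [blockOf_eq_of_mem B.2.1 (hχB B), blockOf_eq_of_mem B₀.2.1 hmem]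
    have h2 : ((a' B₀ : AlgInt) : ℂ) = ∑ B : S, ((a' B : AlgInt) : ℂ) * om ((χB B : IrrCharacter G) : G → ℂ) (blockElt B₀.1) := by
      rw [Finset.sum_eq_single B₀]
      · rw [h1, if_pos rfl, mul_one]
      · intro B _ hB
        rw [h1, if_neg hB, mul_zero]
      · simp
    rw [h2]
    simp only [hL, Finset.mul_sum]
    rw [Finset.sum_comm]
    refine Finset.sum_congr rfl fun B _ => ?_
    rw [om_eq_sum_conjClasses (isCentralElt_blockElt _)
      (IsCharacter.isClassFunction (IsIrrCharacter.isCharacter (χB B).2)), Finset.mul_sum]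
    refine Finset.sum_congr rfl fun c _ => ?_
    ring
  have hmem : MemLocalIdeal M ((a' B₀ : AlgInt) : ℂ) := by
    rw [hsum]
    refine memLocalIdeal_sum _ _ fun c _ => ?_
    by_cases hc : p ∣ orderOf c.out
    · have h1 : (blockElt B₀.1).coeff c.out = 0 := by
        rw [coeff_blockElt]
        by_contra hne
        exact regular_of_blockCoeff_ne_zero hM hU hne hc
      rw [h1, zero_mul]
      exact memLocalIdeal_zero
    · rw [coeff_blockElt]
      exact memLocalIdeal_mul_left (memLocalRing_blockCoeff hU _) (hLm c hc)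
  rw [memLocalIdeal_algInt_iff] at hmem
  apply hB₀
  rw [← ha' B₀]
  exact Ideal.Quotient.eq_zero_iff_mem.2 hmem

end Count

end Cfsg.Agent.Lib.Block
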