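import Mathlib
import Cfsg.Agent.Lib.Modular.PimDual
import Cfsg.Agent.Lib.Block.Height

/-!
# The sum of the squares of the degrees of a block

The sum of the squares of the degrees of the members of a block is `p ^ (2 a - d) u ^ 2 v`, where `p ^ (a - d) u` is the
greatest common divisor of the degrees and `v` is prime to `p` and at least the number of irreducible Brauer characters.
-/

set_option autoImplicit false
set_option linter.unusedSectionVars false
set_option linter.unusedSimpArgs false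
set_option linter.unusedVariables false
set_option linter.style.haveILetI false
set_option linter.unnecessarySimpa false

namespace Cfsg.Agent.Lib.Modular

open Module Cfsg Cfsg.Agent.Lib.Block Cfsg.Agent.Lib.CharExtra Cfsg.Agent.Lib.Char
open scoped ComplexConjugate

section Dual

variable {H : Type*} [Group H] [Fintype H] {p : ℕ}

theorem eq_zero_of_orth {s : ℕ} {Φ : Fin s → H → ℂ}
    (h4 : regSpan p (Set.univ : Set (IrrCharacter H)) ≤ Submodule.span ℂ (Set.range Φ)) {f : H → ℂ}
    (hf : f ∈ regSpan p (Set.univ : Set (IrrCharacter H))) (h0 : ∀ j, classInner f (Φ j) = 0) : f = 0 := by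
  obtain ⟨c, hc⟩ := (Submodule.mem_span_range_iff_exists_fun ℂ).1 (h4 hf)
  apply classInner_self_eq_zero.1
  conv_lhs => arg 2; rw [← hc]
  rw [classInner_sum_right]
  refine Finset.sum_eq_zero fun j _ => ?_
  rw [classInner_smul_right, h0, mul_zero]

theorem exists_dual {s : ℕ} {Φ : Fin s → H → ℂ} (hind : LinearIndependent ℂ Φ)
    (hΦ : ∀ j, Φ j ∈ regSpan p (Set.univ : Set (IrrCharacter H)))
    (h4 : regSpan p (Set.univ : Set (IrrCharacter H)) ≤ Submodule.span ℂ (Set.range Φ)) :
    ∃ φ : Fin s → H → ℂ, (∀ i, φ i ∈ regSpan p (Set.univ : Set (IrrCharacter H))) ∧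
      ∀ i j, classInner (φ i) (Φ j) = if i = j then 1 else 0 := by
  classical
  let P : regSpan p (Set.univ : Set (IrrCharacter H)) →ₗ[ℂ] (Fin s → ℂ) :=
    { toFun := fun f j => classInner f.1 (Φ j)
      map_add' := by
        intro a b
        funext j
        exact classInner_add_left _ _ _
      map_smul' := by
        intro c a
        funext j
        exact classInner_smul_left _ _ _ }
  have hinj : Function.Injective P := by
    rw [← LinearMap.ker_eq_bot, LinearMap.ker_eq_bot']
    rintro ⟨f, hf⟩ h0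
    apply Subtype.ext
    exact eq_zero_of_orth h4 hf fun j => congrFun h0 j
  have hV : regSpan p (Set.univ : Set (IrrCharacter H)) = Submodule.span ℂ (Set.range Φ) := by
    refine le_antisymm h4 ?_
    rw [Submodule.span_le]
    rintro _ ⟨j, rfl⟩
    exact hΦ j
  have hfin : finrank ℂ (regSpan p (Set.univ : Set (IrrCharacter H))) = finrank ℂ (Fin s → ℂ) := by
    rw [hV, finrank_span_eq_card hind]
    simp
  have hsurj : Function.Surjective P := (LinearMap.injective_iff_surjective_of_finrank_eq_finrank hfin).1 hinj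
  choose φ hφ using fun i : Fin s => hsurj (Pi.single i 1)
  refine ⟨fun i => (φ i).1, fun i => (φ i).2, fun i j => ?_⟩
  have h1 := congrFun (hφ i) j
  have h2 : P (φ i) j = classInner (φ i).1 (Φ j) := rfl
  rw [← h2, h1, Pi.single_apply]
  by_cases h : i = j
  · rw [if_pos h, if_pos h.symm]
  · rw [if_neg h, if_neg (Ne.symm h)]

end Dual

section Blocks

variable {H : Type*} [Group H] [Fintype H] {p : ℕ} [hp : Fact p.Prime] {M : Ideal AlgInt} [hMp : M.IsPrime]

theorem pimFun_blockElt_sing (hM : IsPModular p M) {A : Set (IrrCharacter H)} (hA : IsBlockUnion M A) {y : H}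
    (hy : p ∣ orderOf y) : pimFun (blockElt A) y = 0 := by
  classical
  have hone : ¬ p ∣ orderOf (1 : H) := by
    rw [orderOf_one]
    exact hp.out.one_lt.ne' ∘ Nat.dvd_one.1
  have h1 := sum_block_eq_zero hM hA (x := 1) (y := y⁻¹) hone (by rwa [orderOf_inv])
  rw [pimFun_eq_sum, Finset.sum_apply, ← h1]
  refine Finset.sum_congr rfl fun χ _ => ?_
  rw [Pi.smul_apply, tr_blockElt, smul_eq_mul]
  by_cases h : χ ∈ A
  · rw [if_pos h, if_pos h, IsCharacter.map_inv' (IsIrrCharacter.isCharacter χ.2), Complex.conj_conj, mul_comm]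
  · rw [if_neg h, if_neg h, zero_mul]

open Classical in
theorem classInner_trunc_blockElt (hM : IsPModular p M) {A : Set (IrrCharacter H)} (hA : IsBlockUnion M A)
    (χ : IrrCharacter H) :
    classInner (pRegularPart p (χ : H → ℂ)) (pim0 p (blockElt A)) =
      if χ ∈ A then (charDegree (χ : H → ℂ) : ℂ) else 0 := by
  classical
  have h1 : classInner (pRegularPart p (χ : H → ℂ)) (pim0 p (blockElt A)) =
      classInner (χ : H → ℂ) (pimFun (blockElt A)) := by
    simp only [classInner_def]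
    congr 1
    refine Finset.sum_congr rfl fun y _ => ?_
    unfold pim0
    by_cases hy : p ∣ orderOf y
    · rw [pRegularPart_of_sing hy, pimFun_blockElt_sing hM hA hy]
      simp
    · rw [pRegularPart_of_reg hy, pRegularPart_of_reg hy]
  rw [h1, ← conj_classInner, classInner_pimFun, tr_blockElt]
  by_cases h : χ ∈ A
  · rw [if_pos h, if_pos h, map_one_eq_charDegree (IsIrrCharacter.isCharacter χ.2), Complex.conj_natCast]
  · rw [if_neg h, if_neg h, map_zero]

/-- A rank one idempotent belongs to a block union or its complement. -/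
theorem rankOne_block (hM : IsPModular p M) {A : Set (IrrCharacter H)} (hA : IsBlockUnion M A)
    {e : MonoidAlgebra ℂ H} (he1 : LocalCoeff M e) (he2 : e * e = e) (he3 : IsRankOneIdem (ResField M) (rd M e)) :
    e * blockElt A = 0 ∨ e * blockElt A = e := by
  classical
  haveI := charP_resField hM
  haveI : FiniteDimensional (ResField M) (MonoidAlgebra (ResField M) H) :=
    Module.Finite.of_basis (MonoidAlgebra.basis H _)
  obtain ⟨s, d, hd, Θ, hs, hR, m, hm⟩ := exists_wedderburn (F := ResField M) (T := MonoidAlgebra (ResField M) H)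
  set z := blockElt A with hz
  have hzl : LocalCoeff M z := localCoeff_blockElt hA
  have hzz : z * z = z := blockElt_mul_self A
  have hzc : IsCentralElt z := isCentralElt_blockElt A
  have hcomm : e * z = z * e := (isCentralElt_commute hzc e).symm
  have hrc : rd M e * rd M z = rd M z * rd M e := by
    rw [← rd_mul he1 hzl, ← rd_mul hzl he1, hcomm]
  have hez : (e * z) * (e * z) = e * z := by
    calc (e * z) * (e * z) = (e * e) * (z * z) := by
          rw [mul_assoc, ← mul_assoc z, ← hcomm]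
          simp only [mul_assoc]
      _ = e * z := by rw [he2, hzz]
  rcases rankOne_mul_idem Θ hR hs he3 (rd_idem hzl hzz) hrc with h | h
  · left
    refine idem_zero_of_rad hM (localCoeff_mul he1 hzl) hez ?_
    rw [rd_mul he1 hzl]
    exact (hR _).1 h
  · right
    have h0 : e - e * z = 0 := by
      have hl : LocalCoeff M (e - e * z) := localCoeff_sub he1 (localCoeff_mul he1 hzl)
      refine idem_zero_of_rad hM hl ?_ ?_
      · have e1 : e * (e * z) = e * z := by rw [← mul_assoc, he2]
        have e2 : (e * z) * e = e * z := by rw [hcomm, mul_assoc, he2]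
        rw [mul_sub, sub_mul, sub_mul, he2, e1, e2, hez]
        abel
      · rw [rd_sub he1 (localCoeff_mul he1 hzl), ← hR, map_sub, rd_mul he1 hzl, h, sub_self]
    exact (sub_eq_zero.1 h0).symm

theorem tr_eq_zero_of_mul_self {A : Set (IrrCharacter H)} {e : MonoidAlgebra ℂ H} (h : e * blockElt A = e)
    {χ : IrrCharacter H} (hχ : χ ∉ A) : tr (χ : H → ℂ) e = 0 := by
  have h1 := tr_mul_central χ.2 (isCentralElt_blockElt A) e
  rw [om_blockElt_of_notMem hχ, zero_mul, isCentralElt_commute (isCentralElt_blockElt A) e, h] at h1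
  exact h1

theorem tr_eq_zero_of_mul_zero {A : Set (IrrCharacter H)} {e : MonoidAlgebra ℂ H} (h : e * blockElt A = 0)
    {χ : IrrCharacter H} (hχ : χ ∈ A) : tr (χ : H → ℂ) e = 0 := by
  have h1 := tr_mul_central χ.2 (isCentralElt_blockElt A) e
  rw [om_blockElt_of_mem hχ, one_mul, isCentralElt_commute (isCentralElt_blockElt A) e, h, tr_zero] at h1
  exact h1.symm

theorem one_regular : ¬ p ∣ orderOf (1 : H) := by
  rw [orderOf_one]
  exact hp.out.one_lt.ne' ∘ Nat.dvd_one.1

variable (p) in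
theorem pim0_one (e : MonoidAlgebra ℂ H) : pim0 p e 1 = (Nat.card H : ℂ) * e.coeff 1 := by
  unfold pim0
  rw [pRegularPart_of_reg one_regular]
  unfold pimFun
  simp [Nat.card_eq_fintype_card]

theorem dvd_of_memLocalRing_div (hM : IsPModular p M) (N k : ℕ) (h : MemLocalRing M ((N : ℂ) / (p : ℂ) ^ k)) :
    p ^ k ∣ N := by
  induction k generalizing N with
  | zero => simp
  | succ k ih =>
    have hp0 : (p : ℂ) ≠ 0 := by exact_mod_cast hp.out.ne_zero
    have h1 : MemLocalIdeal M ((p : ℂ)) := (memLocalIdeal_natCast_iff hM p).2 dvd_rfl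
    have h2 : MemLocalIdeal M (N : ℂ) := by
      have h3 : (N : ℂ) = (p : ℂ) ^ (k + 1) * ((N : ℂ) / (p : ℂ) ^ (k + 1)) := by
        field_simp
      rw [h3, pow_succ, mul_assoc, mul_comm]
      refine memLocalIdeal_mul_right ?_ ?_
      · rw [mul_comm]
        exact memLocalIdeal_mul_left h h1
      · exact memLocalRing_pow (memLocalRing_natCast p) k
    obtain ⟨N', rfl⟩ := (memLocalIdeal_natCast_iff hM N).1 h2
    have h4 : MemLocalRing M ((N' : ℂ) / (p : ℂ) ^ k) := by
      have h5 : ((N' : ℂ) / (p : ℂ) ^ k) = ((p * N' : ℕ) : ℂ) / (p : ℂ) ^ (k + 1) := by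
        push_cast
        field_simp
        ring
      rw [h5]
      exact h
    have h6 := ih N' h4
    rw [pow_succ, mul_comm]
    exact mul_dvd_mul_left p h6

end Blocks

section Unit

variable {G : Type*} [Group G] [Fintype G] {p : ℕ} [hp : Fact p.Prime] {M : Ideal AlgInt}

open Classical in
/-- The unit property forcing the sum of squares to have exact `p`-part. -/
theorem block_unit (hM : IsPModular p M) {B : Set (IrrCharacter G)} (hB : IsPBlock M B) {y : G}
    (hy : IsDefectClass M B y) (r : IrrCharacter G → ℤ) (w : IrrCharacter G → ℕ)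
    (hw : ∀ χ ∈ B, charDegree (χ : G → ℂ) = p ^ (minExp p B) * w χ) {a : ℕ} (ha : (Nat.card G).factorization p = a)
    (heq : ∀ x : G, ¬ p ∣ orderOf x →
      (∑ χ : IrrCharacter G, if χ ∈ B then (charDegree (χ : G → ℂ) : ℂ) * (χ : G → ℂ) x else 0) =
        (p : ℂ) ^ a * ∑ χ : IrrCharacter G, if χ ∈ B then (r χ : ℂ) * (χ : G → ℂ) x else 0) :
    ¬ MemLocalIdeal M (((∑ χ : IrrCharacter G, if χ ∈ B then r χ * (w χ : ℤ) else 0 : ℤ)) : ℂ) := by
  classical
  have hMp := isPModular_isPrime hM
  have hpp := hp.out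
  have hp0 : (p : ℂ) ≠ 0 := by exact_mod_cast hpp.ne_zero
  set m := minExp p B with hm
  have hBne : B.Nonempty := IsPBlock_nonempty hB
  have hma : m ≤ a := ha ▸ minExp_le_factorization_card hBne
  obtain ⟨χ₀, hχ₀⟩ := hBne
  have hyreg : ¬ p ∣ orderOf y⁻¹ := by
    rw [orderOf_inv]
    exact regular_of_isDefectClass hM hB hy
  have h0 := heq y⁻¹ hyreg
  -- the left side
  have hleft : (∑ χ : IrrCharacter G, if χ ∈ B then (charDegree (χ : G → ℂ) : ℂ) * (χ : G → ℂ) y⁻¹ else 0) =
      (Nat.card G : ℂ) * blockCoeff B y := by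
    rw [blockCoeff_eq_sum, ← mul_assoc, mul_inv_cancel₀ (by exact_mod_cast Nat.card_pos.ne'), one_mul]
    refine Finset.sum_congr rfl fun χ _ => ?_
    by_cases h : χ ∈ B
    · rw [if_pos h, if_pos h, IsCharacter.map_inv' (IsIrrCharacter.isCharacter χ.2),
        map_one_eq_charDegree (IsIrrCharacter.isCharacter χ.2)]
    · rw [if_neg h, if_neg h]
  set c := Nat.card G / p ^ a with hc
  have hcard : (Nat.card G : ℂ) = (p : ℂ) ^ a * c := by
    have h1 : p ^ a * c = Nat.card G := by
      rw [hc, ← ha]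
      exact Nat.ordProj_mul_ordCompl_eq_self _ _
    rw [← h1]
    push_cast
    rfl
  have hpc : ¬ p ∣ c := by
    rw [hc, ← ha]
    exact Nat.not_dvd_ordCompl hpp Nat.card_pos.ne'
  set S : ℂ := ∑ χ : IrrCharacter G, if χ ∈ B then (r χ : ℂ) * (χ : G → ℂ) y⁻¹ else 0 with hS
  have h1 : (c : ℂ) * blockCoeff B y = S := by
    rw [hleft, hcard, mul_assoc] at h0
    exact mul_left_cancel₀ (pow_ne_zero _ hp0) h0
  have hSnot : ¬ MemLocalIdeal M S := by
    rw [← h1]
    exact not_memLocalIdeal_mul (memLocalRing_natCast c) hy.1 (not_memLocalIdeal_natCast hM hpc) hy.2.1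
  -- central characters
  have hcent : Subgroup.centralizer ({y⁻¹} : Set G) = Subgroup.centralizer ({y} : Set G) := by
    ext t
    rw [Subgroup.mem_centralizer_singleton_iff, Subgroup.mem_centralizer_singleton_iff]
    exact Commute.inv_right_iff
  set K := (Subgroup.centralizer ({y⁻¹} : Set G)).index with hK
  have hKfac : K.factorization p = m := by
    rw [hK, hcent]
    refine factorization_index_of_centralizer (ha ▸ hma) ?_
    exact factorization_centralizer_of_defectClass hM hB hy
  have hK0 : K ≠ 0 := by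
    rw [hK]
    exact Subgroup.index_ne_zero_of_finite
  have hKc : (K : ℂ) ≠ 0 := by exact_mod_cast hK0
  obtain ⟨htl, htn⟩ := localUnit_natCast_div hM (n₁ := p ^ m) (n₂ := K) (pow_ne_zero _ hpp.ne_zero) hK0 (by
    rw [hKfac, Nat.factorization_pow]
    simp [hpp.factorization_self])
  set t : ℂ := ((p ^ m : ℕ) : ℂ) / (K : ℂ) with ht
  set κ : IrrCharacter G → ℂ := fun χ => centralChar (χ : G → ℂ) y⁻¹ with hκ
  have hκl : ∀ χ, MemLocalRing M (κ χ) := fun χ => memLocalRing_centralChar χ.2 _
  have hval : ∀ χ ∈ B, (χ : G → ℂ) y⁻¹ = κ χ * (w χ : ℂ) * t := by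
    intro χ hχ
    have h2 := centralChar_eq_div_mul (χ := χ) y⁻¹
    have hdeg : (charDegree (χ : G → ℂ) : ℂ) = ((p ^ m : ℕ) : ℂ) * (w χ : ℂ) := by
      rw [hw χ hχ]
      push_cast
      ring
    have hdeg0 : (charDegree (χ : G → ℂ) : ℂ) ≠ 0 := by exact_mod_cast charDegree_ne_zero
    show (χ : G → ℂ) y⁻¹ = centralChar (χ : G → ℂ) y⁻¹ * (w χ : ℂ) * t
    rw [h2, ht]
    rw [← hK]
    have e3 : (K : ℂ) / (charDegree (χ : G → ℂ) : ℂ) * (χ : G → ℂ) y⁻¹ * (w χ : ℂ) * (((p ^ m : ℕ) : ℂ) / (K : ℂ)) =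
        (χ : G → ℂ) y⁻¹ * ((((p ^ m : ℕ) : ℂ) * (w χ : ℂ)) / (charDegree (χ : G → ℂ) : ℂ)) := by
      field_simp
    rw [e3, ← hdeg, div_self hdeg0, mul_one]
  set W : ℤ := ∑ χ : IrrCharacter G, if χ ∈ B then r χ * (w χ : ℤ) else 0 with hW
  intro hWI
  apply hSnot
  have hexp : S = t * κ χ₀ * (W : ℂ) +
      t * ∑ χ : IrrCharacter G, if χ ∈ B then (r χ : ℂ) * (w χ : ℂ) * (κ χ - κ χ₀) else 0 := by
    rw [hS, hW]
    push_cast
    rw [Finset.mul_sum, Finset.mul_sum, ← Finset.sum_add_distrib]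
    refine Finset.sum_congr rfl fun χ _ => ?_
    by_cases h : χ ∈ B
    · rw [if_pos h, if_pos h, if_pos h, hval χ h]
      push_cast
      ring
    · rw [if_neg h, if_neg h, if_neg h]
      push_cast
      ring
  rw [hexp]
  refine memLocalIdeal_add (memLocalIdeal_mul_left (memLocalRing_mul htl (hκl χ₀)) hWI)
    (memLocalIdeal_mul_left htl (memLocalIdeal_sum _ _ fun χ _ => ?_))
  by_cases h : χ ∈ B
  · rw [if_pos h]
    refine memLocalIdeal_mul_left (memLocalRing_mul (memLocalRing_intCast _) (memLocalRing_natCast _)) ?_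
    exact sameBlock_of_mem hB h hχ₀ _
  · rw [if_neg h]
    exact memLocalIdeal_zero

end Unit

section Main

variable {G : Type*} [Group G] [Fintype G] {p : ℕ} [hp : Fact p.Prime] {M : Ideal AlgInt}

open Classical in
theorem degSquare_main (hM : IsPModular p M) {B : Set (IrrCharacter G)} (hB : IsPBlock M B) {y : G}
    (hy : IsDefectClass M B y) {a d g : ℕ} (ha : (Nat.card G).factorization p = a)
    (hd : (Nat.card (Subgroup.centralizer ({y} : Set G))).factorization p = d)
    (hg1 : ∀ χ ∈ B, g ∣ charDegree (χ : G → ℂ))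
    (hg2 : ∀ g' : ℕ, (∀ χ ∈ B, g' ∣ charDegree (χ : G → ℂ)) → g' ∣ g) :
    g.factorization p = a - d ∧ ∃ v : ℕ, 0 < v ∧ ¬ p ∣ v ∧ blockRank p B ≤ v ∧
      (∑ χ : IrrCharacter G, if χ ∈ B then charDegree (χ : G → ℂ) ^ 2 else 0) =
        p ^ (2 * a - d) * (g / p ^ (a - d)) ^ 2 * v := by
  have hMp := isPModular_isPrime hM
  have hpp := hp.out
  have hp0 : (p : ℂ) ≠ 0 := by exact_mod_cast hpp.ne_zero
  have hBne : B.Nonempty := IsPBlock_nonempty hB
  set m := minExp p B with hm
  have hma : m ≤ a := ha ▸ minExp_le_factorization_card hBne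
  have hd' : d = a - m := by rw [← hd, factorization_centralizer_of_defectClass hM hB hy, ha]
  have hamd : a - d = m := by omega
  have hda : d ≤ a := by omega
  obtain ⟨χ₀, hχ₀, hχ₀m⟩ := exists_height_zero (p := p) hBne
  have hg0 : g ≠ 0 := by
    rintro rfl
    exact charDegree_ne_zero (zero_dvd_iff.1 (hg1 χ₀ hχ₀))
  have hpm : p ^ m ∣ g := by
    refine hg2 _ fun χ hχ => ?_
    exact (hpp.pow_dvd_iff_le_factorization charDegree_ne_zero).2 (minExp_le hχ)
  have hgfac : g.factorization p = m := by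
    apply le_antisymm
    · have h := (Nat.factorization_le_iff_dvd hg0 charDegree_ne_zero).2 (hg1 χ₀ hχ₀) p
      rw [hχ₀m] at h
      exact h
    · exact (hpp.pow_dvd_iff_le_factorization hg0).1 hpm
  obtain ⟨u, hu⟩ := hpm
  have hpu : ¬ p ∣ u := by
    intro h
    have h1 : p ^ (m + 1) ∣ g := by
      rw [hu, pow_succ]
      exact mul_dvd_mul_left _ h
    have h2 := (hpp.pow_dvd_iff_le_factorization hg0).1 h1
    omega
  refine ⟨by rw [hgfac, hamd], ?_⟩
  -- the family
  obtain ⟨s, e, h1, hind, h3, h4⟩ := exists_pim_family (H := G) (p := p) hM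
  set Φ : Fin s → G → ℂ := fun i => pim0 p (e i) with hΦ
  have hΦmem : ∀ j, Φ j ∈ regSpan p (Set.univ : Set (IrrCharacter G)) :=
    fun j => pim0_mem p fun χ hχ => absurd (Set.mem_univ χ) hχ
  obtain ⟨φ, hφ1, hφ2⟩ := exists_dual hind hΦmem h4
  have hint : ∀ i, ∃ mm : IrrCharacter G → ℤ, φ i = ∑ χ : IrrCharacter G, (mm χ : ℂ) • pRegularPart p (χ : G → ℂ) := by
    intro i
    refine exists_int_expansion hM (hφ1 i) fun ε hl hh => ?_
    obtain ⟨n, hn⟩ := pim0_nat_comb hM h3 hl hh
    refine ⟨n i, ?_⟩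
    rw [hn, classInner_sum_right]
    have h5 : ∀ j, classInner (φ i) ((n j : ℂ) • pim0 p (e j)) = if i = j then (n j : ℂ) else 0 := by
      intro j
      rw [classInner_smul_right, Complex.conj_natCast]
      have h6 : classInner (φ i) (pim0 p (e j)) = if i = j then 1 else 0 := hφ2 i j
      rw [h6]
      split_ifs <;> simp
    simp only [h5]
    simp
  choose mm hmm using hint
  set z := blockElt B with hz
  have hA : IsBlockUnion M B := isBlockUnion_of_isPBlock hB
  have hzl : LocalCoeff M z := localCoeff_blockElt hA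
  have hzz : z * z = z := blockElt_mul_self B
  have hzc : IsCentralElt z := isCentralElt_blockElt B
  set ρ := pim0 p z with hρ
  have hρB : ρ ∈ regSpan p B := pim0_mem p fun χ hχ => by rw [hz, tr_blockElt, if_neg hχ]
  obtain ⟨n, hn⟩ := pim0_nat_comb hM h3 hzl hzz
  have hn' : ρ = ∑ i, (n i : ℂ) • Φ i := hn
  -- degrees
  have hdd : ∀ i (χ : IrrCharacter G), ∃ k : ℕ, tr (χ : G → ℂ) (e i) = k :=
    fun i χ => tr_idem_nat (IsIrrCharacter.isCharacter χ.2) (h1 i).2.1
  choose dd hdd using hdd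
  set D : Fin s → ℕ := fun i => ∑ χ : IrrCharacter G, dd i χ * charDegree (χ : G → ℂ) with hDdef
  have hΦsum : ∀ i, Φ i = ∑ χ : IrrCharacter G, (dd i χ : ℂ) • pRegularPart p (χ : G → ℂ) := by
    intro i
    show pim0 p (e i) = _
    rw [pim0_eq_sum]
    simp only [hdd]
  have hD1 : ∀ i, Φ i 1 = D i := by
    intro i
    rw [hΦsum, Finset.sum_apply, hDdef]
    push_cast
    refine Finset.sum_congr rfl fun χ _ => ?_
    rw [Pi.smul_apply, pRegularPart_of_reg one_regular, smul_eq_mul,
      map_one_eq_charDegree (IsIrrCharacter.isCharacter χ.2)]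
  have hpa : ∀ i, p ^ a ∣ D i := by
    intro i
    refine dvd_of_memLocalRing_div hM _ _ ?_
    rw [← hD1]
    have h5 : Φ i 1 = (Nat.card G : ℂ) * (e i).coeff 1 := pim0_one p (e i)
    have h6 : p ^ a * (Nat.card G / p ^ a) = Nat.card G := by
      rw [← ha]
      exact Nat.ordProj_mul_ordCompl_eq_self _ _
    have h7 : (Nat.card G : ℂ) = (p : ℂ) ^ a * ((Nat.card G / p ^ a : ℕ) : ℂ) := by
      conv_lhs => rw [← h6]
      push_cast
      rfl
    have h8 : Φ i 1 / (p : ℂ) ^ a = ((Nat.card G / p ^ a : ℕ) : ℂ) * (e i).coeff 1 := by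
      rw [h5, h7]
      field_simp
    rw [h8]
    exact memLocalRing_mul (memLocalRing_natCast _) ((h1 i).1 1)
  -- the dichotomy
  have hdich : ∀ i, e i * z = 0 ∨ e i * z = e i := fun i => rankOne_block hM hA (h1 i).1 (h1 i).2.1 (h1 i).2.2
  have hzero_of : ∀ i, e i * z = 0 → Φ i ∈ regSpan p Bᶜ :=
    fun i hi => pim0_mem p fun χ hχ => tr_eq_zero_of_mul_zero hi (not_not.1 hχ)
  have hself_of : ∀ i, e i * z = e i → Φ i ∈ regSpan p B :=
    fun i hi => pim0_mem p fun χ hχ => tr_eq_zero_of_mul_self hi hχ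
  have hdisj : regSpan p B ⊓ regSpan p Bᶜ = ⊥ := regSpan_inf_eq_bot hM hA disjoint_compl_right
  have hne : ∀ i, Φ i ≠ 0 := fun i => hind.ne_zero i
  have hIin : ∀ i, Φ i ∈ regSpan p B → e i * z = e i := by
    intro i hi
    rcases hdich i with h | h
    · exfalso
      have h5 : Φ i ∈ regSpan p B ⊓ regSpan p Bᶜ := ⟨hi, hzero_of i h⟩
      rw [hdisj] at h5
      exact hne i h5
    · exact h
  have hIout : ∀ i, Φ i ∉ regSpan p B → e i * z = 0 := by
    intro i hi
    rcases hdich i with h | h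
    · exact h
    · exact absurd (hself_of i h) hi
  set I := Finset.univ.filter (fun i => Φ i ∈ regSpan p B) with hI
  have hmemI : ∀ i, i ∈ I ↔ Φ i ∈ regSpan p B := by
    intro i
    simp [hI]
  have hn0 : ∀ i, i ∉ I → n i = 0 := by
    have hsplit : ρ = ∑ i ∈ I, (n i : ℂ) • Φ i + ∑ i ∈ Iᶜ, (n i : ℂ) • Φ i := by
      rw [hn', Finset.sum_add_sum_compl]
    have hb1 : ∑ i ∈ Iᶜ, (n i : ℂ) • Φ i ∈ regSpan p Bᶜ := by
      refine Submodule.sum_mem _ fun i hi => Submodule.smul_mem _ _ (hzero_of i (hIout i ?_))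
      rw [← hmemI]
      exact Finset.mem_compl.1 hi
    have ha1 : ∑ i ∈ I, (n i : ℂ) • Φ i ∈ regSpan p B :=
      Submodule.sum_mem _ fun i hi => Submodule.smul_mem _ _ ((hmemI i).1 hi)
    have hb2 : ∑ i ∈ Iᶜ, (n i : ℂ) • Φ i ∈ regSpan p B := by
      have h5 := Submodule.sub_mem _ hρB ha1
      rwa [hsplit, add_sub_cancel_left] at h5
    have hb3 : ∑ i ∈ Iᶜ, (n i : ℂ) • Φ i = 0 := by
      have h5 : ∑ i ∈ Iᶜ, (n i : ℂ) • Φ i ∈ regSpan p B ⊓ regSpan p Bᶜ := ⟨hb2, hb1⟩
      rw [hdisj] at h5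
      exact h5
    intro i hi
    have h6 := linearIndependent_iff'.1 hind Iᶜ (fun j => (n j : ℂ)) hb3 i (Finset.mem_compl.2 hi)
    exact_mod_cast h6
  have hn1 : ∀ i, i ∈ I → 1 ≤ n i := by
    intro i hi
    have hiz : e i * z = e i := hIin i ((hmemI i).1 hi)
    have hzi : z * e i = e i := by rw [isCentralElt_commute hzc, hiz]
    have hl : LocalCoeff M (z - e i) := localCoeff_sub hzl (h1 i).1
    have hh : (z - e i) * (z - e i) = z - e i := by
      rw [mul_sub, sub_mul, sub_mul, hzz, hiz, hzi, (h1 i).2.1]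
      abel
    obtain ⟨n', hn''⟩ := pim0_nat_comb hM h3 hl hh
    have h7 : ρ = Φ i + pim0 p (z - e i) := by
      show pim0 p z = pim0 p (e i) + _
      rw [← pim0_add]
      congr 1
      abel
    have h8 := linearIndependent_iff'.1 hind Finset.univ
      (fun j => (n j : ℂ) - n' j - if j = i then 1 else 0) (by
        simp only [sub_smul, Finset.sum_sub_distrib, ite_smul, one_smul, zero_smul, Finset.sum_ite_eq',
          Finset.mem_univ, if_true]
        rw [← hn']
        have h9 : ∑ x, (n' x : ℂ) • Φ x = pim0 p (z - e i) := hn''.symm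
        rw [h9, h7]
        abel) i (Finset.mem_univ i)
    simp only [if_true] at h8
    have h10 : (n i : ℂ) = ((n' i + 1 : ℕ) : ℂ) := by
      push_cast
      linear_combination h8
    have h11 : n i = n' i + 1 := by exact_mod_cast h10
    omega
  -- divisibility of the multiplicities
  have hinner := fun χ : IrrCharacter G => classInner_trunc_blockElt (p := p) hM hA χ
  have hni : ∀ i, classInner (φ i) ρ = n i := by
    intro i
    rw [hn', classInner_sum_right]
    have h5 : ∀ j, classInner (φ i) ((n j : ℂ) • Φ j) = if i = j then (n j : ℂ) else 0 := by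
      intro j
      rw [classInner_smul_right, Complex.conj_natCast, hφ2 i j]
      split_ifs <;> simp
    simp only [h5]
    simp
  have hgn : ∀ i, g ∣ n i := by
    intro i
    have h9 := hni i
    rw [hmm i, classInner_sum_left] at h9
    simp only [classInner_smul_left] at h9
    have h10 : ((n i : ℕ) : ℤ) = ∑ χ : IrrCharacter G, mm i χ * (if χ ∈ B then (charDegree (χ : G → ℂ) : ℤ) else 0) := by
      have h12 : (((n i : ℕ) : ℤ) : ℂ) =
          ((∑ χ : IrrCharacter G, mm i χ * (if χ ∈ B then (charDegree (χ : G → ℂ) : ℤ) else 0) : ℤ) : ℂ) := by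
        push_cast
        rw [← h9]
        refine Finset.sum_congr rfl fun χ _ => ?_
        rw [show classInner (pRegularPart p (χ : G → ℂ)) ρ = _ from hinner χ]
      exact_mod_cast h12
    have h11 : (g : ℤ) ∣ ((n i : ℕ) : ℤ) := by
      rw [h10]
      refine Finset.dvd_sum fun χ _ => ?_
      split_ifs with h
      · exact Dvd.dvd.mul_left (by exact_mod_cast hg1 χ h) _
      · simp
    exact_mod_cast h11
  have hgD : ∀ i ∈ I, g ∣ D i := by
    intro i hi
    refine Finset.dvd_sum fun χ _ => ?_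
    by_cases hχ : χ ∈ B
    · exact Dvd.dvd.mul_left (hg1 χ hχ) _
    · have h12 : dd i χ = 0 := by
        have h13 := tr_eq_zero_of_mul_self (hIin i ((hmemI i).1 hi)) hχ
        rw [hdd] at h13
        exact_mod_cast h13
      rw [h12, zero_mul]
      exact dvd_zero _
  have hcop : Nat.Coprime (p ^ a) u := Nat.Coprime.pow_left _ ((Nat.Prime.coprime_iff_not_dvd hpp).2 hpu)
  have hug : u ∣ g := Dvd.intro_left _ hu.symm
  have hbig : ∀ i ∈ I, p ^ a * u ∣ D i := fun i hi =>
    hcop.mul_dvd_of_dvd_of_dvd (hpa i) (hug.trans (hgD i hi))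
  have hDpos : ∀ i, 0 < D i := by
    intro i
    by_contra hc
    have h13 : D i = 0 := by omega
    have h14 : ∀ χ, dd i χ = 0 := by
      intro χ
      have h15 := (Finset.sum_eq_zero_iff.1 h13) χ (Finset.mem_univ χ)
      exact (mul_eq_zero.1 h15).resolve_right charDegree_ne_zero
    apply hne i
    rw [hΦsum]
    refine Finset.sum_eq_zero fun χ _ => ?_
    rw [h14]
    simp
  -- the sum of squares
  set Sg : ℕ := ∑ χ : IrrCharacter G, if χ ∈ B then charDegree (χ : G → ℂ) ^ 2 else 0 with hSg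
  have hSg1 : ρ 1 = Sg := by
    show pim0 p z 1 = _
    rw [pim0_eq_sum, Finset.sum_apply, hSg]
    push_cast
    refine Finset.sum_congr rfl fun χ _ => ?_
    rw [Pi.smul_apply, pRegularPart_of_reg one_regular, hz, tr_blockElt, smul_eq_mul]
    by_cases h : χ ∈ B
    · rw [if_pos h, if_pos h, map_one_eq_charDegree (IsIrrCharacter.isCharacter χ.2)]
      push_cast
      ring
    · rw [if_neg h, if_neg h]
      simp
  have hSg2 : Sg = ∑ i ∈ I, n i * D i := by
    have h5 : (Sg : ℂ) = ((∑ i, n i * D i : ℕ) : ℂ) := by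
      rw [← hSg1, hn', Finset.sum_apply]
      push_cast
      refine Finset.sum_congr rfl fun i _ => ?_
      rw [Pi.smul_apply, smul_eq_mul, hD1]
    have h6 : Sg = ∑ i, n i * D i := by exact_mod_cast h5
    rw [h6]
    symm
    refine Finset.sum_subset (Finset.subset_univ I) fun i _ hi => ?_
    rw [hn0 i hi, zero_mul]
  set v : ℕ := ∑ i ∈ I, (n i / g) * (D i / (p ^ a * u)) with hv
  have hSg3 : Sg = g * (p ^ a * u) * v := by
    rw [hSg2, hv, Finset.mul_sum]
    refine Finset.sum_congr rfl fun i hi => ?_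
    calc n i * D i = (g * (n i / g)) * ((p ^ a * u) * (D i / (p ^ a * u))) := by
          rw [Nat.mul_div_cancel' (hgn i), Nat.mul_div_cancel' (hbig i hi)]
      _ = _ := by ring
  have hupos : 0 < u := by
    rcases Nat.eq_zero_or_pos u with h | h
    · exact absurd (h ▸ dvd_zero p) hpu
    · exact h
  have hvI : I.card ≤ v := by
    rw [Finset.card_eq_sum_ones, hv]
    refine Finset.sum_le_sum fun i hi => ?_
    exact Nat.mul_pos (Nat.div_pos (Nat.le_of_dvd (hn1 i hi) (hgn i)) (Nat.pos_of_ne_zero hg0))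
      (Nat.div_pos (Nat.le_of_dvd (hDpos i) (hbig i hi)) (Nat.mul_pos (pow_pos hpp.pos _) hupos))
  have hrank : blockRank p B = I.card := by
    have hs' : regSpan p B = Submodule.span ℂ (Set.range fun i : I => Φ i) := by
      rw [← span_pimSet_inter hM hA, pimSet_eq_range hM h1 h3]
      congr 1
      ext f
      constructor
      · rintro ⟨⟨i, rfl⟩, h⟩
        exact ⟨⟨i, (hmemI i).2 h⟩, rfl⟩
      · rintro ⟨⟨i, hi⟩, rfl⟩
        exact ⟨⟨i, rfl⟩, (hmemI i).1 hi⟩
    have h5 : LinearIndependent ℂ (fun i : I => Φ i) := hind.comp _ Subtype.val_injective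
    rw [blockRank_eq_finrank, hs', finrank_span_eq_card h5]
    simp
  -- the expansion of the block part
  have hρV : ρ ∈ regSpan p (Set.univ : Set (IrrCharacter G)) := pim0_mem p fun χ hχ => absurd (Set.mem_univ χ) hχ
  have hexp : ρ = ∑ j, classInner ρ (Φ j) • φ j := by
    have h5 : ρ - ∑ j, classInner ρ (Φ j) • φ j = 0 := by
      refine eq_zero_of_orth h4 (Submodule.sub_mem _ hρV (Submodule.sum_mem _ fun j _ =>
        Submodule.smul_mem _ _ (hφ1 j))) fun k => ?_
      rw [classInner_sub_left, classInner_sum_left]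
      simp only [classInner_smul_left, hφ2]
      simp
    exact sub_eq_zero.1 h5
  set D' : Fin s → ℕ := fun j => if j ∈ I then D j / p ^ a else 0 with hD'
  have hc : ∀ j, classInner ρ (Φ j) = (p : ℂ) ^ a * (D' j : ℂ) := by
    intro j
    rw [hΦsum j, classInner_sum_right]
    have h5 : ∀ χ : IrrCharacter G, classInner ρ ((dd j χ : ℂ) • pRegularPart p (χ : G → ℂ)) =
        if χ ∈ B then ((dd j χ * charDegree (χ : G → ℂ) : ℕ) : ℂ) else 0 := by
      intro χ
      rw [classInner_smul_right, Complex.conj_natCast, ← conj_classInner, show classInner (pRegularPart p (χ : G → ℂ)) ρ = _ from hinner χ]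
      by_cases h : χ ∈ B
      · rw [if_pos h, if_pos h, Complex.conj_natCast]
        push_cast
        rfl
      · rw [if_neg h, if_neg h, map_zero, mul_zero]
    simp only [h5]
    by_cases hj : j ∈ I
    · have h6 : (p : ℂ) ^ a * (D' j : ℂ) = (D j : ℂ) := by
        have h7 : D' j = D j / p ^ a := if_pos hj
        have h8 := Nat.mul_div_cancel' (hpa j)
        rw [h7]
        conv_rhs => rw [← h8]
        push_cast
        rfl
      rw [h6, hDdef]
      push_cast
      refine Finset.sum_congr rfl fun χ _ => ?_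
      by_cases h : χ ∈ B
      · rw [if_pos h]
      · rw [if_neg h]
        have h13 := tr_eq_zero_of_mul_self (hIin j ((hmemI j).1 hj)) h
        rw [hdd] at h13
        rw [h13, zero_mul]
    · have h7 : D' j = 0 := if_neg hj
      rw [h7]
      simp only [Nat.cast_zero, mul_zero]
      refine Finset.sum_eq_zero fun χ _ => ?_
      by_cases h : χ ∈ B
      · rw [if_pos h]
        have h13 := tr_eq_zero_of_mul_zero (hIout j (fun h' => hj ((hmemI j).2 h'))) h
        rw [hdd] at h13
        push_cast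
        rw [h13, zero_mul]
      · rw [if_neg h]
  set r : IrrCharacter G → ℤ := fun χ => ∑ j, (D' j : ℤ) * mm j χ with hr
  have hρexp : ρ = ((p : ℂ) ^ a) • ∑ χ : IrrCharacter G, (r χ : ℂ) • pRegularPart p (χ : G → ℂ) := by
    conv_lhs => rw [hexp]
    simp only [hc]
    funext x
    simp only [Finset.sum_apply, Pi.smul_apply, smul_eq_mul, hmm, hr]
    push_cast
    simp only [Finset.mul_sum, Finset.sum_mul]
    rw [Finset.sum_comm]
    refine Finset.sum_congr rfl fun χ _ => Finset.sum_congr rfl fun j _ => ?_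
    ring
  set a' : G → ℂ := ∑ χ : IrrCharacter G, (if χ ∈ B then (r χ : ℂ) else 0) • pRegularPart p (χ : G → ℂ) with ha'
  set b' : G → ℂ := ∑ χ : IrrCharacter G, (if χ ∈ B then 0 else (r χ : ℂ)) • pRegularPart p (χ : G → ℂ) with hb'
  have hab : ∑ χ : IrrCharacter G, (r χ : ℂ) • pRegularPart p (χ : G → ℂ) = a' + b' := by
    rw [ha', hb', ← Finset.sum_add_distrib]
    refine Finset.sum_congr rfl fun χ _ => ?_
    rw [← add_smul]
    congr 1
    split_ifs <;> simp
  have ha'mem : a' ∈ regSpan p B := by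
    refine Submodule.sum_mem _ fun χ _ => ?_
    by_cases h : χ ∈ B
    · rw [if_pos h]
      exact Submodule.smul_mem _ _ (Submodule.subset_span ⟨χ, h, rfl⟩)
    · rw [if_neg h, zero_smul]
      exact Submodule.zero_mem _
  have hb'mem : b' ∈ regSpan p Bᶜ := by
    refine Submodule.sum_mem _ fun χ _ => ?_
    by_cases h : χ ∈ B
    · rw [if_pos h, zero_smul]
      exact Submodule.zero_mem _
    · rw [if_neg h]
      exact Submodule.smul_mem _ _ (Submodule.subset_span ⟨χ, h, rfl⟩)
  have hpa0 : (p : ℂ) ^ a ≠ 0 := pow_ne_zero _ hp0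
  have hb'0 : b' = 0 := by
    have h5 : ((p : ℂ) ^ a) • b' = ρ - ((p : ℂ) ^ a) • a' := by
      rw [hρexp, hab, smul_add]
      abel
    have h6 : ((p : ℂ) ^ a) • b' ∈ regSpan p B := by
      rw [h5]
      exact Submodule.sub_mem _ hρB (Submodule.smul_mem _ _ ha'mem)
    have h7 : b' ∈ regSpan p B := by
      have h8 := Submodule.smul_mem _ ((p : ℂ) ^ a)⁻¹ h6
      rwa [smul_smul, inv_mul_cancel₀ hpa0, one_smul] at h8
    have h8 : b' ∈ regSpan p B ⊓ regSpan p Bᶜ := ⟨h7, hb'mem⟩
    rw [hdisj] at h8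
    exact h8
  have hρa' : ρ = ((p : ℂ) ^ a) • a' := by
    rw [hρexp, hab, hb'0, add_zero]
  -- degrees over `p ^ m`
  set w : IrrCharacter G → ℕ := fun χ => charDegree (χ : G → ℂ) / p ^ m with hwdef
  have hw : ∀ χ ∈ B, charDegree (χ : G → ℂ) = p ^ (minExp p B) * w χ := by
    intro χ hχ
    rw [hwdef]
    exact (Nat.mul_div_cancel' ((hpp.pow_dvd_iff_le_factorization charDegree_ne_zero).2 (minExp_le hχ))).symm
  have hval : ∀ x : G, ¬ p ∣ orderOf x → ρ x =
      ∑ χ : IrrCharacter G, if χ ∈ B then (charDegree (χ : G → ℂ) : ℂ) * (χ : G → ℂ) x else 0 := by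
    intro x hx
    show pim0 p z x = _
    rw [pim0_eq_sum, Finset.sum_apply]
    refine Finset.sum_congr rfl fun χ _ => ?_
    rw [Pi.smul_apply, pRegularPart_of_reg hx, hz, tr_blockElt, smul_eq_mul]
    by_cases h : χ ∈ B
    · rw [if_pos h, if_pos h, map_one_eq_charDegree (IsIrrCharacter.isCharacter χ.2)]
    · rw [if_neg h, if_neg h, zero_mul]
  have ha'val : ∀ x : G, ¬ p ∣ orderOf x → a' x =
      ∑ χ : IrrCharacter G, if χ ∈ B then (r χ : ℂ) * (χ : G → ℂ) x else 0 := by
    intro x hx
    rw [ha', Finset.sum_apply]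
    refine Finset.sum_congr rfl fun χ _ => ?_
    rw [Pi.smul_apply, pRegularPart_of_reg hx, smul_eq_mul]
    by_cases h : χ ∈ B
    · rw [if_pos h, if_pos h]
    · rw [if_neg h, if_neg h, zero_mul]
  have hunit := block_unit hM hB hy r w hw ha (fun x hx => by
    rw [← hval x hx, ← ha'val x hx, hρa']
    rfl)
  set W : ℤ := ∑ χ : IrrCharacter G, if χ ∈ B then r χ * (w χ : ℤ) else 0 with hW
  have hSgW : (Sg : ℂ) = (p : ℂ) ^ a * (p : ℂ) ^ m * (W : ℂ) := by
    rw [← hSg1, hρa', Pi.smul_apply, smul_eq_mul, ha'val 1 one_regular, mul_assoc]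
    congr 1
    rw [hW]
    push_cast
    rw [Finset.mul_sum]
    refine Finset.sum_congr rfl fun χ _ => ?_
    by_cases h : χ ∈ B
    · rw [if_pos h, if_pos h, map_one_eq_charDegree (IsIrrCharacter.isCharacter χ.2), hw χ h]
      push_cast
      ring
    · rw [if_neg h, if_neg h, mul_zero]
  have hWv : (W : ℂ) = ((u ^ 2 * v : ℕ) : ℂ) := by
    have h5 : (Sg : ℂ) = (p : ℂ) ^ a * (p : ℂ) ^ m * ((u ^ 2 * v : ℕ) : ℂ) := by
      rw [hSg3, hu]
      push_cast
      ring
    rw [hSgW] at h5
    exact mul_left_cancel₀ (mul_ne_zero hpa0 (pow_ne_zero _ hp0)) h5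
  have hpv : ¬ p ∣ v := by
    intro h
    apply hunit
    rw [hWv]
    exact (memLocalIdeal_natCast_iff hM _).2 (Dvd.dvd.mul_left h _)
  refine ⟨v, Nat.pos_of_ne_zero (fun h => hpv (h ▸ dvd_zero p)), hpv, hrank ▸ hvI, ?_⟩
  have h2a : 2 * a - d = a + m := by omega
  rw [hamd, h2a, hu, Nat.mul_div_cancel_left _ (pow_pos hpp.pos m)]
  rw [hSg3, hu]
  ring

end Main

end Cfsg.Agent.Lib.Modular
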