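import Mathlib

/-!
# Fixed point free automorphisms of order 3 (Neumann)

A finite group with a fixed point free automorphism `σ` of order 3: every element commutes with all
its conjugates (2-Engel), and if the group is a 2-group it has class at most 2.  If moreover an
automorphism `τ` inverts `σ` and all products `τσⁱ` satisfy `(τσⁱ(n) n)² = 1`, the group is elementary abelian.
-/

set_option autoImplicit false

namespace Cfsg.Agent.Lib.Block.EO34

variable {N : Type*} [Group N]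

/-- The commutator `a b a⁻¹ b⁻¹`. -/
abbrev cm (a b : N) : N := a * b * a⁻¹ * b⁻¹

section Fpf

variable [Finite N] (σ : N ≃* N)

theorem surj_lang (hf : ∀ v, σ v = v → v = 1) : Function.Surjective (fun m : N => m⁻¹ * σ m) := by
  apply Finite.injective_iff_surjective.mp
  intro a b hab
  simp only at hab
  have h : σ (b * a⁻¹) = b * a⁻¹ := by
    rw [map_mul, map_inv]
    have h1 : σ a = a * (b⁻¹ * σ b) := by
      rw [← hab]; group
    rw [h1]; group
  have := hf _ h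
  exact (mul_inv_eq_one.mp this).symm

theorem norm_eq_one (h3 : ∀ v, σ (σ (σ v)) = v) (hf : ∀ v, σ v = v → v = 1) (n : N) :
    n * σ n * σ (σ n) = 1 := by
  obtain ⟨m, rfl⟩ := surj_lang σ hf n
  simp only [map_mul, map_inv, h3]
  group

theorem comm_self (h3 : ∀ v, σ (σ (σ v)) = v) (hf : ∀ v, σ v = v → v = 1) (n : N) :
    n * σ n = σ n * n := by
  -- from the norm identity at `σ⁻¹ n`
  obtain ⟨w, rfl⟩ := σ.surjective n
  have h1 := norm_eq_one σ h3 hf w
  have h2 := norm_eq_one σ h3 hf w⁻¹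
  simp only [map_inv] at h2
  -- `σ²w σw w = 1`
  have h2' : σ (σ w) * σ w * w = 1 := by
    have : (w⁻¹ * (σ w)⁻¹ * (σ (σ w))⁻¹)⁻¹ = 1 := by rw [h2, inv_one]
    simpa [mul_assoc] using this
  have h1' : σ w * σ (σ w) * w = 1 := by
    have : w⁻¹ * (w * σ w * σ (σ w)) * w = 1 := by rw [h1]; group
    simpa [mul_assoc] using this
  have : σ (σ w) * σ w * w = σ w * σ (σ w) * w := by rw [h2', h1']
  exact (mul_right_cancel this).symm

theorem comm_conj_image (h3 : ∀ v, σ (σ (σ v)) = v) (hf : ∀ v, σ v = v → v = 1) (y g : N) :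
    y * (g * σ y * g⁻¹) = (g * σ y * g⁻¹) * y := by
  obtain ⟨h, rfl⟩ := surj_lang σ hf g
  simp only
  have := comm_self σ h3 hf (h * y * h⁻¹)
  simp only [map_mul, map_inv] at this
  have h2 : h⁻¹ * (h * y * h⁻¹ * (σ h * σ y * (σ h)⁻¹)) * h = h⁻¹ * ((σ h * σ y * (σ h)⁻¹) * (h * y * h⁻¹)) * h := by
    rw [this]
  have e1 : h⁻¹ * (h * y * h⁻¹ * (σ h * σ y * (σ h)⁻¹)) * h = y * (h⁻¹ * σ h * σ y * (h⁻¹ * σ h)⁻¹) := by group
  have e2 : h⁻¹ * ((σ h * σ y * (σ h)⁻¹) * (h * y * h⁻¹)) * h = (h⁻¹ * σ h * σ y * (h⁻¹ * σ h)⁻¹) * y := by group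
  rwa [e1, e2] at h2

/-- Every element commutes with all its conjugates. -/
theorem engel (h3 : ∀ v, σ (σ (σ v)) = v) (hf : ∀ v, σ v = v → v = 1) (y g : N) :
    y * (g * y * g⁻¹) = (g * y * g⁻¹) * y := by
  -- `y` commutes with conjugates of `σ y` and of `σ² y`
  have c1 : Commute y (g * σ y * g⁻¹) := comm_conj_image σ h3 hf y g
  have c2 : Commute y (g * σ (σ y) * g⁻¹) := by
    have := comm_conj_image σ h3 hf (σ (σ y)) g⁻¹
    rw [h3] at this
    -- `σ² y` commutes with `g⁻¹ y g`; conjugate by `g`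
    have h4 : g * (σ (σ y) * (g⁻¹ * y * g⁻¹⁻¹)) * g⁻¹ = g * ((g⁻¹ * y * g⁻¹⁻¹) * σ (σ y)) * g⁻¹ := by rw [this]
    have e1 : g * (σ (σ y) * (g⁻¹ * y * g⁻¹⁻¹)) * g⁻¹ = (g * σ (σ y) * g⁻¹) * y := by group
    have e2 : g * ((g⁻¹ * y * g⁻¹⁻¹) * σ (σ y)) * g⁻¹ = y * (g * σ (σ y) * g⁻¹) := by group
    rw [e1, e2] at h4
    exact h4.symm
  have hn : y⁻¹ = σ y * σ (σ y) := by
    have := norm_eq_one σ h3 hf y
    rw [mul_assoc] at this
    exact inv_eq_of_mul_eq_one_right this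
  have c3 : Commute y (g * y⁻¹ * g⁻¹) := by
    have e : g * y⁻¹ * g⁻¹ = (g * σ y * g⁻¹) * (g * σ (σ y) * g⁻¹) := by rw [hn]; group
    rw [e]
    exact c1.mul_right c2
  have c4 : Commute y (g * y⁻¹ * g⁻¹)⁻¹ := c3.inv_right
  have e : (g * y⁻¹ * g⁻¹)⁻¹ = g * y * g⁻¹ := by group
  rw [e] at c4
  exact c4

end Fpf

theorem cm_swap (a b : N) : cm b a = (cm a b)⁻¹ := by simp only [cm]; group

section Engel

variable (E : ∀ y g : N, y * (g * y * g⁻¹) = (g * y * g⁻¹) * y)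
include E

theorem cm_comm_left (a b : N) : Commute a (cm a b) := by
  have h1 : Commute a (b * a * b⁻¹) := E a b
  have h2 : Commute a (b * a * b⁻¹)⁻¹ := h1.inv_right
  have e : cm a b = a * (b * a * b⁻¹)⁻¹ := by simp only [cm]; group
  rw [e]
  exact (Commute.refl a).mul_right h2

theorem cm_comm_right (a b : N) : Commute b (cm a b) := by
  have h1 : Commute b (a * b * a⁻¹) := E b a
  have e : cm a b = (a * b * a⁻¹) * b⁻¹ := rfl
  rw [e]
  exact h1.mul_right (Commute.refl b).inv_right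

theorem cm_inv_left (a b : N) : cm a⁻¹ b = (cm a b)⁻¹ := by
  have h := (cm_comm_left E a b).inv_left
  have e : cm a⁻¹ b = a⁻¹ * (cm a b)⁻¹ * a := by simp only [cm]; group
  rw [e, h.inv_right.eq]
  group

theorem cm_inv_right (a b : N) : cm a b⁻¹ = (cm a b)⁻¹ := by
  have e1 : cm a b⁻¹ = (cm b⁻¹ a)⁻¹ := by simp only [cm]; group
  rw [e1, cm_inv_left E b a, inv_inv]
  simp only [cm]; group

theorem tau_swap23 (x y z : N) : cm (cm x z) y = (cm (cm x y) z)⁻¹ := by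
  set A := cm x y with hA
  set B := cm x z with hB
  have h0 : Commute (y * z) (cm x (y * z)) := cm_comm_right E x (y * z)
  have e0 : cm x (y * z) = A * (y * B * y⁻¹) := by simp only [hA, hB, cm]; group
  rw [e0] at h0
  have hAy : Commute y A := cm_comm_right E x y
  have hBz : Commute z B := cm_comm_right E x z
  -- conjugate by `y⁻¹`
  have h1 : Commute (z * y) (A * B) := by
    have e1 : z * y = y⁻¹ * (y * z) * y := by group
    have e2 : A * B = y⁻¹ * (A * (y * B * y⁻¹)) * y := by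
      have : y⁻¹ * A * y = A := by
        rw [mul_assoc, hAy.symm.eq]; group
      calc A * B = (y⁻¹ * A * y) * B := by rw [this]
        _ = _ := by group
    rw [e1, e2]
    have := h0.eq
    show _ = _
    calc y⁻¹ * (y * z) * y * (y⁻¹ * (A * (y * B * y⁻¹)) * y) = y⁻¹ * ((y * z) * (A * (y * B * y⁻¹))) * y := by group
      _ = y⁻¹ * ((A * (y * B * y⁻¹)) * (y * z)) * y := by rw [this]
      _ = _ := by group
  have h2 : z * y * (A * B) = A * B * (z * y) := h1.eq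
  -- `z A y B = A z B y`
  have h3 : z * A * y * B = A * z * B * y := by
    calc z * A * y * B = z * (A * y) * B := by group
      _ = z * (y * A) * B := by rw [← hAy.eq]
      _ = z * y * (A * B) := by group
      _ = A * B * (z * y) := h2
      _ = A * (B * z) * y := by group
      _ = A * (z * B) * y := by rw [hBz.eq]
      _ = A * z * B * y := by group
  have h4 : cm B y = cm z⁻¹ A⁻¹ := by
    simp only [cm]
    have : z⁻¹ * A⁻¹ * z * A = B * y * B⁻¹ * y⁻¹ := by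
      have h5 : A⁻¹ * (z * A * y * B) = A⁻¹ * (A * z * B * y) := by rw [h3]
      have e3 : A⁻¹ * (A * z * B * y) = z * B * y := by group
      rw [e3] at h5
      have h6 : z⁻¹ * (A⁻¹ * (z * A * y * B)) = B * y := by rw [h5]; group
      have e4 : z⁻¹ * A⁻¹ * z * A = (z⁻¹ * (A⁻¹ * (z * A * y * B))) * B⁻¹ * y⁻¹ := by group
      rw [e4, h6]
    simpa using this.symm
  rw [h4, cm_inv_left E, cm_inv_right E, inv_inv, cm_swap]

theorem tau_swap12 (x y z : N) : cm (cm y x) z = (cm (cm x y) z)⁻¹ := by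
  rw [cm_swap x y, cm_inv_left E]

/-- Levi: in a 2-Engel group the triple commutators have cube 1. -/
theorem tau_cube (x y z : N) : (cm (cm x y) z) ^ 3 = 1 := by
  set T := cm (cm x y) z with hT
  have t2 : cm (cm y z) x = T := by
    rw [tau_swap23 E y x z, tau_swap12 E x y z, inv_inv]
  have t3 : cm (cm z x) y = T := by
    rw [tau_swap12 E x z y, tau_swap23 E x y z, inv_inv]
  have cz : Commute z T := cm_comm_right E (cm x y) z
  have cx : Commute x T := by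
    rw [← t2]; exact cm_comm_right E (cm y z) x
  have cy : Commute y T := by
    rw [← t3]; exact cm_comm_right E (cm z x) y
  -- Hall--Witt
  have hw : cm (cm x y) (y * z * y⁻¹) * cm (cm y z) (z * x * z⁻¹) * cm (cm z x) (x * y * x⁻¹) = 1 := by
    simp only [cm]; group
  have a1 : cm (cm x y) (y * z * y⁻¹) = y * T * y⁻¹ := by
    have hA : Commute y (cm x y) := cm_comm_right E x y
    rw [hT]
    simp only [cm] at hA ⊢
    have h1 : (x * y * x⁻¹ * y⁻¹)⁻¹ = y⁻¹ * (x * y * x⁻¹ * y⁻¹)⁻¹ * y := by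
      have := hA.inv_right
      rw [mul_assoc y⁻¹, ← this.eq]; group
    have h2 : x * y * x⁻¹ * y⁻¹ = y⁻¹ * (x * y * x⁻¹ * y⁻¹) * y := by
      rw [mul_assoc y⁻¹, ← hA.eq]; group
    calc _ = (x * y * x⁻¹ * y⁻¹) * (y * z * y⁻¹) * (x * y * x⁻¹ * y⁻¹)⁻¹ * (y * z * y⁻¹)⁻¹ := rfl
      _ = (y * (x * y * x⁻¹ * y⁻¹) * y⁻¹) * (y * z * y⁻¹) * (y * (x * y * x⁻¹ * y⁻¹)⁻¹ * y⁻¹) * (y * z * y⁻¹)⁻¹ := by
          have e1 : y * (x * y * x⁻¹ * y⁻¹) * y⁻¹ = x * y * x⁻¹ * y⁻¹ := by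
            rw [hA.eq]; group
          have e2 : y * (x * y * x⁻¹ * y⁻¹)⁻¹ * y⁻¹ = (x * y * x⁻¹ * y⁻¹)⁻¹ := by
            rw [hA.inv_right.eq]; group
          rw [e1, e2]
      _ = _ := by group
  have a2 : cm (cm y z) (z * x * z⁻¹) = z * T * z⁻¹ := by
    rw [← t2]
    have hA : Commute z (cm y z) := cm_comm_right E y z
    simp only [cm] at hA ⊢
    calc _ = (y * z * y⁻¹ * z⁻¹) * (z * x * z⁻¹) * (y * z * y⁻¹ * z⁻¹)⁻¹ * (z * x * z⁻¹)⁻¹ := rfl
      _ = (z * (y * z * y⁻¹ * z⁻¹) * z⁻¹) * (z * x * z⁻¹) * (z * (y * z * y⁻¹ * z⁻¹)⁻¹ * z⁻¹) * (z * x * z⁻¹)⁻¹ := by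
          have e1 : z * (y * z * y⁻¹ * z⁻¹) * z⁻¹ = y * z * y⁻¹ * z⁻¹ := by
            rw [hA.eq]; group
          have e2 : z * (y * z * y⁻¹ * z⁻¹)⁻¹ * z⁻¹ = (y * z * y⁻¹ * z⁻¹)⁻¹ := by
            rw [hA.inv_right.eq]; group
          rw [e1, e2]
      _ = _ := by group
  have a3 : cm (cm z x) (x * y * x⁻¹) = x * T * x⁻¹ := by
    rw [← t3]
    have hA : Commute x (cm z x) := cm_comm_right E z x
    simp only [cm] at hA ⊢
    calc _ = (z * x * z⁻¹ * x⁻¹) * (x * y * x⁻¹) * (z * x * z⁻¹ * x⁻¹)⁻¹ * (x * y * x⁻¹)⁻¹ := rfl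
      _ = (x * (z * x * z⁻¹ * x⁻¹) * x⁻¹) * (x * y * x⁻¹) * (x * (z * x * z⁻¹ * x⁻¹)⁻¹ * x⁻¹) * (x * y * x⁻¹)⁻¹ := by
          have e1 : x * (z * x * z⁻¹ * x⁻¹) * x⁻¹ = z * x * z⁻¹ * x⁻¹ := by
            rw [hA.eq]; group
          have e2 : x * (z * x * z⁻¹ * x⁻¹)⁻¹ * x⁻¹ = (z * x * z⁻¹ * x⁻¹)⁻¹ := by
            rw [hA.inv_right.eq]; group
          rw [e1, e2]
      _ = _ := by group
  rw [a1, a2, a3] at hw
  have b1 : y * T * y⁻¹ = T := by rw [cy.eq]; group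
  have b2 : z * T * z⁻¹ = T := by rw [cz.eq]; group
  have b3 : x * T * x⁻¹ = T := by rw [cx.eq]; group
  rw [b1, b2, b3] at hw
  rw [pow_three, ← mul_assoc]; exact hw

end Engel

end Cfsg.Agent.Lib.Block.EO34
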