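import Cfsg.Agent.Lib.Block.EO34A

/-!
# Class 2 and elementary abelian conclusions for fixed point free automorphisms of order 3
-/

set_option autoImplicit false

namespace Cfsg.Agent.Lib.Block.EO34

variable {N : Type*} [Group N]

theorem class_two [Finite N] (hN : IsPGroup 2 N) (σ : N ≃* N) (h3 : ∀ v, σ (σ (σ v)) = v)
    (hf : ∀ v, σ v = v → v = 1) (a b c : N) : cm (cm a b) c = 1 := by
  have hT := tau_cube (engel σ h3 hf) a b c
  obtain ⟨k, hk⟩ := hN (cm (cm a b) c)
  have h1 := orderOf_dvd_of_pow_eq_one hT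
  have h2 := orderOf_dvd_of_pow_eq_one hk
  have h4 : orderOf (cm (cm a b) c) ∣ Nat.gcd 3 (2 ^ k) := Nat.dvd_gcd h1 h2
  have h5 : Nat.gcd 3 (2 ^ k) = 1 := by
    apply Nat.Coprime.pow_right; norm_num
  rw [h5, Nat.dvd_one, orderOf_eq_one_iff] at h4
  exact h4

section Class2

variable (hc : ∀ a b c : N, cm (cm a b) c = 1)
include hc

theorem cm_central (a b m : N) : cm a b * m = m * cm a b := by
  have := hc a b m
  simp only [cm] at this ⊢
  have h : (a * b * a⁻¹ * b⁻¹) * m * (a * b * a⁻¹ * b⁻¹)⁻¹ * m⁻¹ = 1 := this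
  have h2 := mul_inv_eq_one.mp h
  exact mul_inv_eq_iff_eq_mul.mp h2

theorem cm_mem_center (a b : N) : cm a b ∈ Subgroup.center N := by
  rw [Subgroup.mem_center_iff]
  intro m
  exact (cm_central hc a b m).symm

theorem cm_mul_left' (a b d : N) : cm (a * b) d = cm a d * cm b d := by
  have h := cm_central hc b d a
  have e : cm (a * b) d = a * (cm b d) * d * a⁻¹ * d⁻¹ := by simp only [cm]; group
  rw [e, ← h, cm_central hc a d (cm b d)]
  simp only [cm]; group

theorem cm_mul_right' (a b d : N) : cm a (b * d) = cm a b * cm a d := by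
  have e1 : cm a (b * d) = (cm (b * d) a)⁻¹ := cm_swap _ _
  rw [e1, cm_mul_left' hc, mul_inv_rev, ← cm_swap, ← cm_swap, cm_central hc a d]

theorem sq_mul (u v : N) : (u * v) ^ 2 = u ^ 2 * v ^ 2 * cm v u := by
  have h := cm_central hc v u u
  have h2 := cm_central hc v u v
  have e : v * u = cm v u * (u * v) := by simp only [cm]; group
  calc (u * v) ^ 2 = u * (v * u) * v := by rw [pow_two]; simp only [mul_assoc]
    _ = u * (cm v u * (u * v)) * v := by rw [← e]
    _ = (u * cm v u) * u * v * v := by simp only [mul_assoc]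
    _ = (cm v u * u) * u * v * v := by rw [h]
    _ = cm v u * (u ^ 2 * v ^ 2) := by rw [pow_two, pow_two]; simp only [mul_assoc]
    _ = _ := by rw [cm_central hc v u]

end Class2

theorem ten_id {A : Type*} [CommGroup A] (a1 a2 a3 b1 b2 b3 x1 x2 x3 x4 : A)
    (ha : a1 * a2 * a3 = 1) (hb : b1 * b2 * b3 = 1)
    (hab : (a1 * b1 * x1) * (a2 * b2 * x2) * (a3 * x3 * x4 * b3) = 1) : x1 * x2 * x3 * x4 = 1 := by
  have e : (a1 * a2 * a3) * (b1 * b2 * b3) * (x1 * x2 * x3 * x4) =
      (a1 * b1 * x1) * (a2 * b2 * x2) * (a3 * x3 * x4 * b3) := by ac_rfl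
  rw [ha, hb, hab] at e
  simpa using e

theorem nine_id {A : Type*} [CommGroup A] (u u1 u2 v v1 v2 w w1 w2 r : A)
    (h0 : u * r * v * w = 1) (h1 : u2 * r * v1 * w1 = 1) (h2 : u1 * r * v2 * w2 = 1)
    (hu : u * u1 * u2 = 1) (hv : v * v1 * v2 = 1) (hw : w * w1 * w2 = 1) : r ^ 3 = 1 := by
  have e : (u * r * v * w) * (u2 * r * v1 * w1) * (u1 * r * v2 * w2) =
      (u * u1 * u2) * (v * v1 * v2) * (w * w1 * w2) * r ^ 3 := by
    rw [pow_three]; ac_rfl
  rw [h0, h1, h2, hu, hv, hw] at e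
  simpa using e.symm

/-- The centre as a commutative group. -/
abbrev centerCG (N : Type*) [Group N] : CommGroup (Subgroup.center N) :=
  { (inferInstance : Group (Subgroup.center N)) with
    mul_comm := fun a b => Subtype.ext (Subgroup.mem_center_iff.mp a.2 b.1).symm }

theorem elem_abelian [Finite N] (hN : IsPGroup 2 N) (σ τ : N ≃* N) (h3 : ∀ v, σ (σ (σ v)) = v)
    (hf : ∀ v, σ v = v → v = 1) (hτσ : ∀ v, τ (σ v) = σ (σ (τ v))) (h4 : ∀ n : N, n ^ 4 = 1)
    (C0 : ∀ n, (τ n * n) ^ 2 = 1) (C1 : ∀ n, (τ (σ n) * n) ^ 2 = 1)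
    (C2 : ∀ n, (τ (σ (σ n)) * n) ^ 2 = 1) : (∀ a b : N, a * b = b * a) ∧ ∀ n : N, n ^ 2 = 1 := by
  have hc := class_two hN σ h3 hf
  have hz := cm_mem_center hc
  letI := centerCG N
  -- (i) squares are central
  have hτZ : ∀ w, τ w ∈ Subgroup.center N → w ∈ Subgroup.center N := by
    intro w hw
    rw [Subgroup.mem_center_iff] at hw ⊢
    intro m
    apply τ.injective
    rw [map_mul, map_mul]
    exact hw (τ m)
  have hC : ∀ (ρ : N → N) (n : N), (ρ n * n) ^ 2 = 1 → (ρ n) ^ 2 * n ^ 2 ∈ Subgroup.center N := by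
    intro ρ n h
    rw [sq_mul hc] at h
    have : (ρ n) ^ 2 * n ^ 2 = (cm n (ρ n))⁻¹ := eq_inv_of_mul_eq_one_left h
    rw [this]
    exact Subgroup.inv_mem _ (hz _ _)
  have hsq : ∀ n : N, n ^ 2 ∈ Subgroup.center N := by
    intro n
    set s := n ^ 2 with hs
    have z0 : τ s * s ∈ Subgroup.center N := by
      have := hC τ n (C0 n); rwa [← map_pow] at this
    have z1 : τ (σ s) * s ∈ Subgroup.center N := by
      have := hC (fun x => τ (σ x)) n (C1 n)
      simp only [← map_pow] at this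
      exact this
    have z2 : τ (σ (σ s)) * s ∈ Subgroup.center N := by
      have := hC (fun x => τ (σ (σ x))) n (C2 n)
      simp only [← map_pow] at this
      exact this
    have d1 : σ s * s⁻¹ ∈ Subgroup.center N := by
      apply hτZ
      have e : τ (σ s * s⁻¹) = (τ (σ s) * s) * (τ s * s)⁻¹ := by
        simp only [map_mul, map_inv]; group
      rw [e]
      exact Subgroup.mul_mem _ z1 (Subgroup.inv_mem _ z0)
    have d2 : σ (σ s) * s⁻¹ ∈ Subgroup.center N := by
      apply hτZ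
      have e : τ (σ (σ s) * s⁻¹) = (τ (σ (σ s)) * s) * (τ s * s)⁻¹ := by
        simp only [map_mul, map_inv]; group
      rw [e]
      exact Subgroup.mul_mem _ z2 (Subgroup.inv_mem _ z0)
    have hnorm := norm_eq_one σ h3 hf s
    have hcub : s ^ 3 ∈ Subgroup.center N := by
      obtain ⟨p, hp⟩ : ∃ p, p = σ s * s⁻¹ := ⟨_, rfl⟩
      obtain ⟨q, hq⟩ : ∃ q, q = σ (σ s) * s⁻¹ := ⟨_, rfl⟩
      rw [← hp] at d1
      rw [← hq] at d2
      have ep : p * s = σ s := by rw [hp]; group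
      have eq : q * s = σ (σ s) := by rw [hq]; group
      have hpc := Subgroup.mem_center_iff.mp d1
      have hqc := Subgroup.mem_center_iff.mp d2
      have hn : s * (p * s) * (q * s) = 1 := by rw [ep, eq]; exact hnorm
      have e4 : s * (p * s) * (q * s) = p * q * s ^ 3 := by
        calc s * (p * s) * (q * s) = (s * p) * s * q * s := by simp only [mul_assoc]
          _ = (p * s) * s * q * s := by rw [hpc s]
          _ = p * ((s * s) * q) * s := by simp only [mul_assoc]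
          _ = p * (q * (s * s)) * s := by rw [hqc (s * s)]
          _ = p * q * s ^ 3 := by rw [pow_three]; simp only [mul_assoc]
      rw [e4] at hn
      have e3 : s ^ 3 = (p * q)⁻¹ := eq_inv_of_mul_eq_one_right hn
      rw [e3]
      exact Subgroup.inv_mem _ (Subgroup.mul_mem _ d1 d2)
    have h8 : s ^ 4 = 1 := by
      rw [hs, ← pow_mul]
      have : (8 : ℕ) = 4 * 2 := rfl
      show n ^ (2 * 4) = 1
      rw [show 2 * 4 = 4 * 2 from rfl, pow_mul, h4, one_pow]
    have e : s = (s ^ 3)⁻¹ := by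
      apply eq_inv_of_mul_eq_one_left
      rw [← pow_succ']; exact h8
    rw [e]
    exact Subgroup.inv_mem _ hcub
  -- (ii) the linearised identity
  have hD : ∀ (ρ : N ≃* N), (∀ n, (ρ n * n) ^ 2 = 1) → ∀ a b : N,
      cm (ρ b) (ρ a) * cm b a * cm a (ρ b) * cm b (ρ a) = 1 := by
    intro ρ hρ a b
    have ha := hρ a
    have hb := hρ b
    have hab := hρ (a * b)
    rw [sq_mul hc] at ha hb hab
    rw [map_mul, sq_mul hc, sq_mul hc, cm_mul_left' hc, cm_mul_right' hc, cm_mul_right' hc] at hab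
    have key := ten_id (A := Subgroup.center N)
      ⟨_, hsq (ρ a)⟩ ⟨_, hsq a⟩ ⟨_, hz a (ρ a)⟩ ⟨_, hsq (ρ b)⟩ ⟨_, hsq b⟩ ⟨_, hz b (ρ b)⟩
      ⟨_, hz (ρ b) (ρ a)⟩ ⟨_, hz b a⟩ ⟨_, hz a (ρ b)⟩ ⟨_, hz b (ρ a)⟩
      (Subtype.ext ha) (Subtype.ext hb)
      (Subtype.ext (by
        show (ρ a ^ 2 * ρ b ^ 2 * cm (ρ b) (ρ a)) * (a ^ 2 * b ^ 2 * cm b a) *
          (cm a (ρ a) * cm a (ρ b) * cm b (ρ a) * cm b (ρ b)) = 1
        have e : (cm a (ρ a) * cm a (ρ b) * (cm b (ρ a) * cm b (ρ b))) =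
          (cm a (ρ a) * cm a (ρ b) * cm b (ρ a) * cm b (ρ b)) := by group
        rw [← e]; exact hab))
    exact congrArg Subtype.val key
  -- (iii) adjointness of `σ`
  have hself := fun n => comm_self σ h3 hf n
  have hself1 : ∀ n, cm n (σ n) = 1 := by
    intro n
    simp only [cm]
    rw [hself n]; group
  have hadj : ∀ a b : N, cm (σ a) b = cm a (σ b) := by
    intro a b
    have h := hself1 (a * b)
    rw [map_mul, cm_mul_left' hc, cm_mul_right' hc, cm_mul_right' hc, hself1, hself1] at h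
    simp only [one_mul, mul_one] at h
    have h2 : cm a (σ b) = (cm b (σ a))⁻¹ := eq_inv_of_mul_eq_one_left h
    rw [h2, ← cm_swap]
  have hs2 : ∀ a d : N, cm a (σ (σ d)) = σ (cm a d) := by
    intro a d
    rw [← hadj]
    simp only [cm, map_mul, map_inv]
  have hs1 : ∀ a d : N, cm a (σ d) = σ (σ (cm a d)) := by
    intro a d
    rw [← hs2, ← hs2, h3]
  -- (iv) the commutators are trivial
  have hτ1 : ∀ v, (τ.trans σ.symm.symm) v = σ (τ v) := fun v => rfl
  have hcomm : ∀ a b : N, cm b a = 1 := by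
    intro a b
    have D0 := hD τ C0 a b
    let ρ1 : N ≃* N := σ.trans τ
    let ρ2 : N ≃* N := σ.trans (σ.trans τ)
    have hρ1 : ∀ v, ρ1 v = σ (σ (τ v)) := fun v => hτσ v
    have hρ2 : ∀ v, ρ2 v = σ (τ v) := by
      intro v
      show τ (σ (σ v)) = _
      rw [hτσ, hτσ, h3]
    have D1 := hD ρ1 (fun n => C1 n) a b
    have D2 := hD ρ2 (fun n => C2 n) a b
    rw [hρ1, hρ1] at D1
    rw [hρ2, hρ2] at D2
    set a' := τ a
    set b' := τ b
    have e1 : cm (σ (σ b')) (σ (σ a')) = σ (σ (cm b' a')) := by simp only [cm, map_mul, map_inv]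
    have e2 : cm (σ b') (σ a') = σ (cm b' a') := by simp only [cm, map_mul, map_inv]
    rw [e1, hs2, hs2] at D1
    rw [e2, hs1, hs1] at D2
    have zσ : ∀ w, w ∈ Subgroup.center N → σ w ∈ Subgroup.center N := by
      intro w hw
      rw [Subgroup.mem_center_iff] at hw ⊢
      intro m
      obtain ⟨m', rfl⟩ := σ.surjective m
      rw [← map_mul, ← map_mul, hw]
    have hr3 := nine_id (A := Subgroup.center N)
      ⟨_, hz b' a'⟩ ⟨_, zσ _ (hz b' a')⟩ ⟨_, zσ _ (zσ _ (hz b' a'))⟩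
      ⟨_, hz a b'⟩ ⟨_, zσ _ (hz a b')⟩ ⟨_, zσ _ (zσ _ (hz a b'))⟩
      ⟨_, hz b a'⟩ ⟨_, zσ _ (hz b a')⟩ ⟨_, zσ _ (zσ _ (hz b a'))⟩
      ⟨_, hz b a⟩
      (Subtype.ext D0) (Subtype.ext D1) (Subtype.ext D2)
      (Subtype.ext (norm_eq_one σ h3 hf _)) (Subtype.ext (norm_eq_one σ h3 hf _))
      (Subtype.ext (norm_eq_one σ h3 hf _))
    have hr3' : (cm b a) ^ 3 = 1 := congrArg Subtype.val hr3
    have hr2 : (cm b a) ^ 2 = 1 := by
      have h1 : cm (b * b) a = cm b a * cm b a := cm_mul_left' hc b b a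
      have h2 : cm (b * b) a = 1 := by
        have hbb : b * b ∈ Subgroup.center N := by
          have := hsq b; rwa [pow_two] at this
        have := Subgroup.mem_center_iff.mp hbb a
        simp only [cm]
        rw [← this]; group
      rw [pow_two, ← h1, h2]
    have : cm b a = (cm b a) ^ 3 * ((cm b a) ^ 2)⁻¹ := by group
    rw [this, hr3', hr2]; simp
  have hab : ∀ a b : N, a * b = b * a := by
    intro a b
    have := hcomm a b
    simp only [cm] at this
    have h2 := mul_inv_eq_one.mp this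
    exact (mul_inv_eq_iff_eq_mul.mp h2).symm
  refine ⟨hab, fun n => ?_⟩
  have h0 := C0 n
  have h1 := C1 n
  rw [sq_mul hc, show cm n (τ n) = 1 by simp only [cm]; rw [hab n (τ n)]; group, mul_one, ← map_pow] at h0
  rw [sq_mul hc, show cm n (τ (σ n)) = 1 by simp only [cm]; rw [hab n (τ (σ n))]; group, mul_one, ← map_pow, ← map_pow] at h1
  have h2 : τ (σ (n ^ 2)) = τ (n ^ 2) := by
    have := h0.trans h1.symm
    exact (mul_right_cancel this).symm
  exact hf _ (τ.injective h2)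

end Cfsg.Agent.Lib.Block.EO34
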