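import Cfsg.Agent.Lib.Block.EO34B
import Cfsg.Agent.Lib.Core.Solvable
import Cfsg.Agent.Lib.GS1.EqOrdPair

/-!
# Groups with element orders exactly `{1,2,3,4}`: basic facts and the case `O₃(G) ≠ 1`
-/

set_option autoImplicit false

namespace Cfsg.Agent.Lib.Block.EO34

open Cfsg Cfsg.Agent.Lib.Core

variable {G : Type*} [Group G]

/-- All element orders lie in `{1,2,3,4}` and `2,3,4` occur. -/
structure Ord34 (G : Type*) [Group G] : Prop where
  ord : ∀ g : G, orderOf g = 1 ∨ orderOf g = 2 ∨ orderOf g = 3 ∨ orderOf g = 4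
  e2 : ∃ g : G, orderOf g = 2
  e3 : ∃ g : G, orderOf g = 3
  e4 : ∃ g : G, orderOf g = 4

variable (H : Ord34 G)
include H

theorem Ord34.pow34 (g : G) : g ^ 4 = 1 ∨ g ^ 3 = 1 := by
  rcases H.ord g with h | h | h | h
  · left; rw [orderOf_eq_one_iff] at h; simp [h]
  · left
    have := pow_orderOf_eq_one g
    rw [h] at this
    calc g ^ 4 = (g ^ 2) ^ 2 := by rw [← pow_mul]
      _ = 1 := by rw [this, one_pow]
  · right; have := pow_orderOf_eq_one g; rwa [h] at this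
  · left; have := pow_orderOf_eq_one g; rwa [h] at this

theorem Ord34.three_pow {a : G} {k : ℕ} (h : a ^ (3 ^ k) = 1) : a ^ 3 = 1 := by
  have hd := orderOf_dvd_of_pow_eq_one h
  rcases H.ord a with h1 | h1 | h1 | h1
  · rw [orderOf_eq_one_iff] at h1; simp [h1]
  · rw [h1] at hd
    have := Nat.Prime.dvd_of_dvd_pow Nat.prime_two hd
    omega
  · have := pow_orderOf_eq_one a; rwa [h1] at this
  · rw [h1] at hd
    have h2 : 2 ∣ 3 ^ k := Dvd.dvd.trans (by norm_num) hd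
    have := Nat.Prime.dvd_of_dvd_pow Nat.prime_two h2
    omega

theorem Ord34.two_pow {a : G} {k : ℕ} (h : a ^ (2 ^ k) = 1) : a ^ 4 = 1 := by
  have hd := orderOf_dvd_of_pow_eq_one h
  rcases H.pow34 a with h1 | h1
  · exact h1
  · have h2 : orderOf a ∣ Nat.gcd 3 (2 ^ k) := Nat.dvd_gcd (orderOf_dvd_of_pow_eq_one h1) hd
    have h5 : Nat.gcd 3 (2 ^ k) = 1 := by
      apply Nat.Coprime.pow_right; norm_num
    rw [h5, Nat.dvd_one, orderOf_eq_one_iff] at h2
    simp [h2]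

theorem Ord34.no6 {t a : G} (ht : t ^ 2 = 1) (ht1 : t ≠ 1) (ha : a ^ 3 = 1) (ha1 : a ≠ 1)
    (hc : Commute t a) : False := by
  have h2 : orderOf t = 2 := orderOf_eq_prime ht ht1
  have h3 : orderOf a = 3 := orderOf_eq_prime ha ha1
  have h6 := hc.orderOf_mul_eq_mul_orderOf_of_coprime (by rw [h2, h3]; norm_num)
  rw [h2, h3] at h6
  rcases H.ord (t * a) with h | h | h | h <;> rw [h] at h6 <;> omega

theorem Ord34.fpf {g a : G} (hg4 : g ^ 4 = 1) (hg : g ≠ 1) (ha3 : a ^ 3 = 1) (hc : Commute g a) :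
    a = 1 := by
  by_contra ha1
  by_cases h2 : g ^ 2 = 1
  · exact H.no6 h2 hg ha3 ha1 hc
  · have h3 : (g ^ 2) ^ 2 = 1 := by rw [← pow_mul]; exact hg4
    exact H.no6 h3 h2 ha3 ha1 (hc.pow_left 2)

omit H in
theorem inv_of_fpf_invol {N : Type*} [Group N] [Finite N] (σ : N ≃* N) (h2 : ∀ v, σ (σ v) = v)
    (hf : ∀ v, σ v = v → v = 1) (n : N) : σ n = n⁻¹ := by
  obtain ⟨m, rfl⟩ := surj_lang σ hf n
  simp only [map_mul, map_inv, h2]
  group

/-- The case `O₃(G) ≠ 1`. -/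
theorem caseA [Finite G] (N : Subgroup G) [hN : N.Normal] (hp : IsPGroup 3 N)
    (hmax : ∀ K : Subgroup G, K.Normal → IsPGroup 3 K → K ≤ N) (hne : N ≠ ⊥) :
    IsElementaryAbelian 3 N ∧ ((IsCyclic (G ⧸ N) ∧ N.index = 4) ∨ Nonempty (G ⧸ N ≃* QuaternionGroup 2)) := by
  have h3N : ∀ a ∈ N, a ^ 3 = 1 := by
    intro a ha
    obtain ⟨k, hk⟩ := hp ⟨a, ha⟩
    apply H.three_pow (k := k)
    simpa using congrArg Subtype.val hk
  obtain ⟨t₀, ht₀⟩ := H.e2
  have ht₀2 : t₀ ^ 2 = 1 := by rw [← ht₀]; exact pow_orderOf_eq_one _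
  have ht₀1 : t₀ ≠ 1 := by
    intro h; rw [h, orderOf_one] at ht₀; omega
  have hinv : ∀ t : G, t ^ 2 = 1 → t ≠ 1 → ∀ a ∈ N, t * a * t⁻¹ = a⁻¹ := by
    intro t ht ht1 a ha
    let σ : N ≃* N := MulAut.conjNormal t
    have hσ : ∀ v : N, ((σ v : N) : G) = t * v * t⁻¹ := fun v => MulAut.conjNormal_apply t v
    have h2 : ∀ v, σ (σ v) = v := by
      intro v
      apply Subtype.ext
      rw [hσ, hσ]
      have : t⁻¹ = t := by
        rw [inv_eq_iff_mul_eq_one, ← pow_two]; exact ht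
      rw [this]
      calc t * (t * ↑v * t) * t = (t * t) * ↑v * (t * t) := by group
        _ = _ := by rw [← pow_two, ht]; group
    have hf : ∀ v, σ v = v → v = 1 := by
      intro v hv
      have h1 : t * (v : G) * t⁻¹ = v := by rw [← hσ, hv]
      have hc : Commute t (v : G) := mul_inv_eq_iff_eq_mul.mp h1
      by_contra hv1
      exact H.no6 ht ht1 (h3N _ v.2) (fun h => hv1 (Subtype.ext h)) hc
    have := inv_of_fpf_invol σ h2 hf ⟨a, ha⟩
    have h3 := congrArg Subtype.val this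
    rw [hσ] at h3
    exact h3
  have hcomm : ∀ a ∈ N, ∀ b ∈ N, a * b = b * a := by
    intro a ha b hb
    have h1 := hinv t₀ ht₀2 ht₀1 _ (N.mul_mem ha hb)
    have e : t₀ * (a * b) * t₀⁻¹ = (t₀ * a * t₀⁻¹) * (t₀ * b * t₀⁻¹) := by group
    rw [e, hinv t₀ ht₀2 ht₀1 a ha, hinv t₀ ht₀2 ht₀1 b hb, mul_inv_rev] at h1
    have h2 := congrArg (·⁻¹) h1
    simp only [mul_inv_rev, inv_inv] at h2
    exact h2.symm
  have hel : IsElementaryAbelian 3 N :=
    ⟨⟨⟨fun a b => Subtype.ext (hcomm _ a.2 _ b.2)⟩⟩, h3N⟩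
  refine ⟨hel, ?_⟩
  obtain ⟨a₀, ha₀, ha₀1⟩ : ∃ a ∈ N, a ≠ 1 := by
    by_contra hh
    push Not at hh
    exact hne ((Subgroup.eq_bot_iff_forall N).mpr hh)
  have hcent : ∀ c : G, (∀ a ∈ N, Commute c a) → c ∈ N := by
    intro c hc
    have hK : (Subgroup.centralizer (N : Set G)).Normal := inferInstance
    have hpK : IsPGroup 3 (Subgroup.centralizer (N : Set G)) := by
      rintro ⟨d, hd⟩
      refine ⟨1, Subtype.ext ?_⟩
      have hd' : ∀ a ∈ N, Commute a d := fun a ha => Subgroup.mem_centralizer_iff.mp hd a ha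
      show d ^ 3 ^ 1 = 1
      rw [pow_one]
      rcases H.pow34 d with h | h
      · by_cases hd1 : d = 1
        · simp [hd1]
        · exact absurd (H.fpf h hd1 (h3N _ ha₀) (hd' a₀ ha₀).symm) ha₀1
      · exact h
    have := hmax _ hK hpK
    apply this
    rw [Subgroup.mem_centralizer_iff]
    intro a ha
    exact (hc a ha).symm
  have hy : ∀ y : G, y ^ 3 = 1 → y ∈ N := by
    intro y hy3
    set s := y * t₀ * y⁻¹ with hs
    have hs2 : s ^ 2 = 1 := by
      rw [hs, conj_pow, ht₀2]; group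
    have hs1 : s ≠ 1 := by
      intro h
      apply ht₀1
      rw [hs, mul_inv_eq_one, mul_eq_left] at h
      exact h
    have htinv : t₀⁻¹ = t₀ := by
      rw [inv_eq_iff_mul_eq_one, ← pow_two]; exact ht₀2
    have hn1 : t₀ * s ∈ N := by
      apply hcent
      intro a ha
      have h1 := hinv s hs2 hs1 a ha
      have h2 := hinv t₀ ht₀2 ht₀1 a⁻¹ (N.inv_mem ha)
      rw [inv_inv] at h2
      have h3 : (t₀ * s) * a * (t₀ * s)⁻¹ = a := by
        calc (t₀ * s) * a * (t₀ * s)⁻¹ = t₀ * (s * a * s⁻¹) * t₀⁻¹ := by group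
          _ = a := by rw [h1]; exact h2
      exact mul_inv_eq_iff_eq_mul.mp h3
    set n := t₀ * s with hn
    have hn3 := h3N n hn1
    have hnn : n * n = n⁻¹ := by
      apply eq_inv_of_mul_eq_one_left
      rw [← hn3, pow_three, mul_assoc]
    set z := n⁻¹ * y with hz
    have hty : t₀ * y * t₀⁻¹ = n * y := by
      rw [hn, hs, htinv]; group
    have hcz : t₀ * z * t₀⁻¹ = z := by
      have h1 : t₀ * n⁻¹ * t₀⁻¹ = n := by
        have := hinv t₀ ht₀2 ht₀1 n⁻¹ (N.inv_mem hn1)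
        rwa [inv_inv] at this
      calc t₀ * z * t₀⁻¹ = (t₀ * n⁻¹ * t₀⁻¹) * (t₀ * y * t₀⁻¹) := by rw [hz]; group
        _ = n * (n * y) := by rw [h1, hty]
        _ = (n * n) * y := by group
        _ = z := by rw [hnn]
    have hcz' : Commute t₀ z := mul_inv_eq_iff_eq_mul.mp hcz
    have hz4 : z ^ 4 = 1 := by
      rcases H.pow34 z with h | h
      · exact h
      · by_cases hz1 : z = 1
        · simp [hz1]
        · exact (H.no6 ht₀2 ht₀1 h hz1 hcz').elim
    have hq : ((y : G) : G ⧸ N) = ((z : G) : G ⧸ N) := by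
      rw [QuotientGroup.eq]
      have e : y⁻¹ * z = y⁻¹ * n⁻¹ * y⁻¹⁻¹ := by rw [hz]; group
      rw [e]
      exact hN.conj_mem _ (N.inv_mem hn1) _
    have h4 : ((y : G) : G ⧸ N) ^ 4 = 1 := by
      rw [hq, ← QuotientGroup.mk_pow, hz4]; rfl
    have h3 : ((y : G) : G ⧸ N) ^ 3 = 1 := by
      rw [← QuotientGroup.mk_pow, hy3]; rfl
    have h1 : ((y : G) : G ⧸ N) = 1 := by
      calc ((y : G) : G ⧸ N) = ((y : G) : G ⧸ N) ^ 4 * (((y : G) : G ⧸ N) ^ 3)⁻¹ := by group
        _ = 1 := by rw [h4, h3]; simp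
    exact (QuotientGroup.eq_one_iff y).mp h1
  have h4Γ : ∀ q : G ⧸ N, q ^ 4 = 1 := by
    intro q
    induction q using QuotientGroup.induction_on with
    | H g =>
      rcases H.pow34 g with h | h
      · rw [← QuotientGroup.mk_pow, h]; rfl
      · have := (QuotientGroup.eq_one_iff g).mpr (hy g h)
        rw [this, one_pow]
  -- an element of order 4
  obtain ⟨w, hw⟩ := H.e4
  have hw4 : w ^ 4 = 1 := by rw [← hw]; exact pow_orderOf_eq_one _
  have hw2 : w ^ 2 ≠ 1 := by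
    intro h
    have := orderOf_dvd_of_pow_eq_one h
    rw [hw] at this
    omega
  have hwΓ : ((w : G) : G ⧸ N) ^ 2 ≠ 1 := by
    intro h
    rw [← QuotientGroup.mk_pow, QuotientGroup.eq_one_iff] at h
    have h1 := h3N _ h
    apply hw2
    have h2 : (w ^ 2) ^ 2 = 1 := by rw [← pow_mul]; exact hw4
    calc w ^ 2 = (w ^ 2) ^ 3 * ((w ^ 2) ^ 2)⁻¹ := by group
      _ = 1 := by rw [h1, h2]; simp
  haveI : Fact (Nat.Prime 2) := ⟨Nat.prime_two⟩
  have hwo : orderOf ((w : G) : G ⧸ N) = 4 := by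
    have := orderOf_eq_prime_pow (p := 2) (n := 1) (x := ((w : G) : G ⧸ N)) (by simpa using hwΓ) (by simpa using h4Γ _)
    simpa using this
  have hcardΓ : 4 ∣ Nat.card (G ⧸ N) := by
    rw [← hwo]; exact orderOf_dvd_natCard _
  -- the action
  letI cg : CommGroup N := { (inferInstance : Group N) with mul_comm := fun a b => Subtype.ext (hcomm _ a.2 _ b.2) }
  have hker : ∀ x ∈ N, (MulAut.conjNormal : G →* MulAut N) x = 1 := by
    intro x hx
    ext v
    rw [MulAut.conjNormal_apply]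
    show x * (v : G) * x⁻¹ = v
    rw [hcomm x hx v v.2]; group
  let ψ : G ⧸ N →* MulAut N := QuotientGroup.lift N (MulAut.conjNormal : G →* MulAut N) hker
  have hψ : ∀ (g : G) (v : N), ((ψ (g : G ⧸ N) v : N) : G) = g * v * g⁻¹ := by
    intro g v
    show ((MulAut.conjNormal g v : N) : G) = _
    exact MulAut.conjNormal_apply g v
  have hfpf : ∀ h : G ⧸ N, h ≠ 1 → ∀ v : N, ψ h v = v → v = 1 := by
    intro h
    induction h using QuotientGroup.induction_on with
    | H g =>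
      intro hg v hv
      have hgN : g ∉ N := fun hh => hg ((QuotientGroup.eq_one_iff g).mpr hh)
      have hg4 : g ^ 4 = 1 := by
        rcases H.pow34 g with h | h
        · exact h
        · exact absurd (hy g h) hgN
      have hg1 : g ≠ 1 := fun hh => hgN (hh ▸ N.one_mem)
      have h1 : g * (v : G) * g⁻¹ = v := by
        rw [← hψ, hv]
      have hc : Commute g (v : G) := mul_inv_eq_iff_eq_mul.mp h1
      exact Subtype.ext (H.fpf hg4 hg1 (h3N _ v.2) hc)
  haveI : Nontrivial N := (Subgroup.nontrivial_iff_ne_bot N).mpr hne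
  have hpΓ : IsPGroup 2 (G ⧸ N) := fun q => ⟨2, by simpa using h4Γ q⟩
  rcases Cfsg.Agent.Lib.GS1.cyclic_or_quat_of_fpf_action hpΓ ψ hfpf with hcyc | ⟨-, n, ⟨e⟩⟩
  · left
    refine ⟨hcyc, ?_⟩
    obtain ⟨g₀, hg₀⟩ := hcyc.exists_generator
    have h1 : Nat.card (G ⧸ N) = orderOf g₀ := (orderOf_eq_card_of_forall_mem_zpowers hg₀).symm
    have h2 : orderOf g₀ ∣ 4 := orderOf_dvd_of_pow_eq_one (h4Γ g₀)
    rw [← h1] at h2
    rw [Subgroup.index_eq_card]
    exact Nat.dvd_antisymm h2 hcardΓ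
  · -- `n ≤ 1`
    have hne0 : NeZero (2 ^ n) := ⟨by positivity⟩
    have hq4 : (QuaternionGroup.a (1 : ZMod (2 * 2 ^ n)) : QuaternionGroup (2 ^ n)) ^ 4 = 1 := by
      have := h4Γ (e.symm (QuaternionGroup.a 1))
      rw [← map_pow] at this
      have h2 := congrArg e this
      simpa using h2
    have ho : orderOf (QuaternionGroup.a (1 : ZMod (2 * 2 ^ n)) : QuaternionGroup (2 ^ n)) = 2 * 2 ^ n :=
      QuaternionGroup.orderOf_a_one
    have h5 := orderOf_dvd_of_pow_eq_one hq4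
    rw [ho] at h5
    have hcardq : Nat.card (QuaternionGroup (2 ^ n)) = 4 * 2 ^ n := by rw [Nat.card_eq_fintype_card, QuaternionGroup.card]
    have hcΓ : Nat.card (G ⧸ N) = 4 * 2 ^ n := by rw [Nat.card_congr e.toEquiv, hcardq]
    have hn1 : n = 0 ∨ n = 1 := by
      have h6 : 2 * 2 ^ n ≤ 4 := Nat.le_of_dvd (by norm_num) h5
      have h7 : 2 ^ n ≤ 2 := by omega
      have h8 : n < 2 := by
        by_contra hh
        have : 2 ^ 2 ≤ 2 ^ n := Nat.pow_le_pow_right (by norm_num) (by omega)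
        omega
      omega
    rcases hn1 with rfl | rfl
    · left
      have h4c : Nat.card (G ⧸ N) = 4 := by simpa using hcΓ
      refine ⟨isCyclic_of_orderOf_eq_card _ (by rw [hwo, h4c]), ?_⟩
      rw [Subgroup.index_eq_card]; exact h4c
    · right
      exact ⟨e⟩

end Cfsg.Agent.Lib.Block.EO34
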