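import Cfsg.Agent.Lib.Block.EO34C
import Cfsg.Agent.Lib.Char.Burnside

/-!
# Groups with element orders exactly `{1,2,3,4}`: the case `O₂(G) ≠ 1`
-/

set_option autoImplicit false

namespace Cfsg.Agent.Lib.Block.EO34

open Cfsg Cfsg.Agent.Lib.Core

variable {G : Type*} [Group G]

/-- A group of order 6 generated by an involution inverting an element of order 3 is `S₃`. -/
theorem iso_S3 {Γ : Type*} [Group Γ] [Finite Γ] (hc : Nat.card Γ = 6) (t x : Γ) (ht : t ^ 2 = 1)
    (ht1 : t ≠ 1) (hx3 : x ^ 3 = 1) (hx1 : x ≠ 1) (htx : t * x * t⁻¹ = x⁻¹) :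
    Nonempty (Γ ≃* Equiv.Perm (Fin 3)) := by
  classical
  let K : Subgroup Γ := Subgroup.zpowers t
  have hKc : Nat.card K = 2 := by
    show Nat.card (Subgroup.zpowers t) = 2
    rw [Nat.card_zpowers]; exact orderOf_eq_prime ht ht1
  have hidx : Nat.card (Γ ⧸ K) = 3 := by
    have h := Subgroup.card_eq_card_quotient_mul_card_subgroup K
    rw [hKc, hc] at h
    omega
  let e : Γ ⧸ K ≃ Fin 3 := Finite.equivFinOfCardEq hidx
  let φ : Γ →* Equiv.Perm (Γ ⧸ K) := MulAction.toPermHom Γ (Γ ⧸ K)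
  have hK2 : ∀ g ∈ K, g = 1 ∨ g = t := by
    intro g hg
    obtain ⟨k, rfl⟩ := Subgroup.mem_zpowers_iff.mp hg
    rcases Int.even_or_odd' k with ⟨m, rfl | rfl⟩
    · left
      rw [zpow_mul, zpow_two, ← pow_two, ht, one_zpow]
    · right
      rw [zpow_add, zpow_mul, zpow_two, ← pow_two, ht, one_zpow]; simp
  have hinj : Function.Injective φ := by
    rw [injective_iff_map_eq_one]
    intro g hg
    have h1 : ∀ a : Γ, ((g * a : Γ) : Γ ⧸ K) = (a : Γ ⧸ K) := by
      intro a
      have := congrArg (fun f : Equiv.Perm (Γ ⧸ K) => f (a : Γ ⧸ K)) hg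
      simpa [φ, MulAction.toPermHom_apply, MulAction.Quotient.smul_mk] using this
    have h2 : g ∈ K := by
      have := h1 1
      rw [mul_one, eq_comm, QuotientGroup.eq] at this
      simpa using this
    rcases hK2 g h2 with h3 | h3
    · exact h3
    · exfalso
      have h4 := h1 x
      rw [eq_comm, QuotientGroup.eq] at h4
      have h5 : x⁻¹ * (g * x) = x⁻¹ * t * x := by rw [h3]; group
      rw [h5] at h4
      rcases hK2 _ h4 with h6 | h6
      · apply ht1
        have : t = x * (x⁻¹ * t * x) * x⁻¹ := by group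
        rw [this, h6]; group
      · -- `t` commutes with `x`
        have h7 : t * x = x * t := by
          calc t * x = x * (x⁻¹ * t * x) := by group
            _ = x * t := by rw [h6]
        have h8 : t * x * t⁻¹ = x := by rw [h7]; group
        rw [h8] at htx
        -- `x = x⁻¹`
        apply hx1
        have h9 : x ^ 2 = 1 := by
          rw [pow_two]; nth_rewrite 1 [htx]; group
        calc x = x ^ 3 * (x ^ 2)⁻¹ := by group
          _ = 1 := by rw [hx3, h9]; simp
  let ψ : Γ →* Equiv.Perm (Fin 3) := (e.permCongrHom).toMonoidHom.comp φ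
  have hψinj : Function.Injective ψ := by
    intro a b hab
    apply hinj
    exact (e.permCongrHom).injective hab
  have hcardP : Nat.card (Equiv.Perm (Fin 3)) = 6 := by
    rw [Nat.card_eq_fintype_card, Fintype.card_perm, Fintype.card_fin]; rfl
  have hbij : Function.Bijective ψ := by
    apply Function.Injective.bijective_of_nat_card_le hψinj
    rw [hc, hcardP]
  exact ⟨MulEquiv.ofBijective ψ hbij⟩

variable (H : Ord34 G)
include H

/-- Sylow 3-subgroups have order 3 if a nontrivial normal 2-subgroup exists. -/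
theorem sylow_three [Finite G] (N : Subgroup G) [hN : N.Normal] (hp : IsPGroup 2 N) (hne : N ≠ ⊥)
    (S : Sylow 3 G) : Nat.card S = 3 := by
  haveI : Fact (Nat.Prime 3) := ⟨Nat.prime_three⟩
  haveI : Fact (Nat.Prime 2) := ⟨Nat.prime_two⟩
  haveI : Nontrivial N := (Subgroup.nontrivial_iff_ne_bot N).mpr hne
  let A : Subgroup G := (Subgroup.center N).map N.subtype
  haveI hAn : A.Normal := ConjAct.normal_of_characteristic_of_normal
  have hAN : A ≤ N := by
    rintro _ ⟨v, -, rfl⟩; exact v.2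
  have hAc : ∀ a b : A, a * b = b * a := by
    rintro ⟨_, ⟨a, ha, rfl⟩⟩ ⟨_, ⟨b, hb, rfl⟩⟩
    apply Subtype.ext
    have := Subgroup.mem_center_iff.mp (show a ∈ Subgroup.center N from ha) b
    exact (congrArg Subtype.val this).symm
  letI cg : CommGroup A := { (inferInstance : Group A) with mul_comm := hAc }
  haveI : Nontrivial (Subgroup.center N) := hp.center_nontrivial
  haveI : Nontrivial A := by
    obtain ⟨z, hz⟩ := exists_ne (1 : Subgroup.center N)
    refine ⟨⟨⟨(z : N), ⟨z.1, z.2, rfl⟩⟩, 1, fun h => hz ?_⟩⟩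
    apply Subtype.ext; apply Subtype.ext
    exact congrArg (fun w : A => (w : G)) h
  let ψ : S →* MulAut A := (MulAut.conjNormal : G →* MulAut A).comp (S : Subgroup G).subtype
  have hS3 : ∀ h : S, (h : G) ^ 3 = 1 := by
    intro h
    obtain ⟨k, hk⟩ := S.isPGroup' h
    apply H.three_pow (k := k)
    simpa using congrArg Subtype.val hk
  have hfpf : ∀ h : S, h ≠ 1 → ∀ v : A, ψ h v = v → v = 1 := by
    intro h hh v hv
    have h1 : (h : G) * (v : G) * (h : G)⁻¹ = v := by
      have := congrArg Subtype.val hv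
      rwa [show ((ψ h v : A) : G) = (h : G) * v * (h : G)⁻¹ from MulAut.conjNormal_apply (h : G) v] at this
    have hc : Commute (h : G) (v : G) := mul_inv_eq_iff_eq_mul.mp h1
    by_contra hv1
    have hv1' : (v : G) ≠ 1 := fun hh' => hv1 (Subtype.ext hh')
    have hv4 : (v : G) ^ 4 = 1 := by
      obtain ⟨k, hk⟩ := hp ⟨v, hAN v.2⟩
      apply H.two_pow (k := k)
      simpa using congrArg Subtype.val hk
    exact hh (Subtype.ext (H.fpf hv4 hv1' (hS3 h) hc.symm))
  rcases Cfsg.Agent.Lib.GS1.cyclic_or_quat_of_fpf_action S.isPGroup' ψ hfpf with hcyc | ⟨h32, -⟩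
  · obtain ⟨g₀, hg₀⟩ := hcyc.exists_generator
    have h1 : Nat.card S = orderOf g₀ := (orderOf_eq_card_of_forall_mem_zpowers hg₀).symm
    have h2 : orderOf (g₀ : G) ∣ 3 := orderOf_dvd_of_pow_eq_one (hS3 g₀)
    rw [Subgroup.orderOf_coe, ← h1] at h2
    obtain ⟨x, hx⟩ := H.e3
    have h3 : 3 ^ 1 ∣ Nat.card G := by
      rw [pow_one, ← hx]; exact orderOf_dvd_natCard x
    have h4 := S.pow_dvd_card_of_pow_dvd_card h3
    rw [pow_one] at h4
    exact Nat.dvd_antisymm h2 h4
  · omega

/-- The case `O₂(G) ≠ 1`. -/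
theorem caseB [Finite G] [Group.IsSolvable G] (N : Subgroup G) [hN : N.Normal] (hcore : N = pCore 2 G)
    (hne : N ≠ ⊥) :
    (IsPGroup 2 N ∧ Monoid.exponent N = 4 ∧ Group.nilpotencyClass N ≤ 2 ∧ N.index = 3) ∨
      (IsElementaryAbelian 2 N ∧ Nonempty (G ⧸ N ≃* Equiv.Perm (Fin 3))) := by
  classical
  haveI : Fact (Nat.Prime 3) := ⟨Nat.prime_three⟩
  haveI : Fact (Nat.Prime 2) := ⟨Nat.prime_two⟩
  have hp : IsPGroup 2 N := hcore ▸ pCore_isPGroup 2 G
  have h4N : ∀ v ∈ N, v ^ 4 = 1 := by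
    intro v hv
    obtain ⟨k, hk⟩ := hp ⟨v, hv⟩
    apply H.two_pow (k := k)
    simpa using congrArg Subtype.val hk
  have hfpfN : ∀ x : G, x ^ 3 = 1 → x ≠ 1 → ∀ v ∈ N, Commute x v → v = 1 := by
    intro x hx3 hx1 v hv hc
    by_contra hv1
    exact hx1 (H.fpf (h4N v hv) hv1 hx3 hc.symm)
  have hS := sylow_three H N hp hne
  have hnine : ¬ 9 ∣ Nat.card G := by
    intro h
    have h2 := (default : Sylow 3 G).pow_dvd_card_of_pow_dvd_card (n := 2) (by simpa using h)
    rw [hS] at h2
    norm_num at h2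
  have hpK : ∀ K : Subgroup G, IsPGroup 3 K → Nat.card K ∣ 3 := by
    intro K hK
    obtain ⟨S, hS'⟩ := hK.exists_le_sylow
    have := Subgroup.card_dvd_of_le hS'
    rwa [hS] at this
  have hord3 : ∀ x : G, x ^ 3 = 1 → x ≠ 1 → Nat.card (Subgroup.zpowers x) = 3 := by
    intro x hx3 hx1
    rw [Nat.card_zpowers]; exact orderOf_eq_prime hx3 hx1
  have hC : ∀ x : G, x ^ 3 = 1 → x ≠ 1 → ∀ c : G, Commute c x → c ∈ Subgroup.zpowers x := by
    intro x hx3 hx1 c hc
    let K : Subgroup G := Subgroup.centralizer {x}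
    have hKp : IsPGroup 3 K := by
      rintro ⟨d, hd⟩
      refine ⟨1, Subtype.ext ?_⟩
      have hd' : d * x = x * d := Subgroup.mem_centralizer_singleton_iff.mp hd
      show d ^ 3 ^ 1 = 1
      rw [pow_one]
      rcases H.pow34 d with h | h
      · by_cases hd1 : d = 1
        · simp [hd1]
        · exact absurd (H.fpf h hd1 hx3 hd') hx1
      · exact h
    have hle : Subgroup.zpowers x ≤ K := by
      rw [Subgroup.zpowers_le]
      exact Subgroup.mem_centralizer_singleton_iff.mpr rfl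
    have heq : Subgroup.zpowers x = K := by
      apply Subgroup.eq_of_le_of_card_ge hle
      rw [hord3 x hx3 hx1]
      exact Nat.le_of_dvd (by norm_num) (hpK K hKp)
    rw [heq]
    exact Subgroup.mem_centralizer_singleton_iff.mpr hc.eq
  have hz3 : ∀ x : G, x ^ 3 = 1 → ∀ y ∈ Subgroup.zpowers x, y ^ 3 = 1 := by
    intro x hx3 y hy
    obtain ⟨k, rfl⟩ := Subgroup.mem_zpowers_iff.mp hy
    rw [← zpow_natCast, ← zpow_mul, mul_comm, zpow_mul]
    simp [hx3]
  have hz3' : ∀ x : G, x ^ 3 = 1 → ∀ y ∈ Subgroup.zpowers x, y = 1 ∨ y = x ∨ y = x⁻¹ := by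
    intro x hx3 y hy
    obtain ⟨k, rfl⟩ := Subgroup.mem_zpowers_iff.mp hy
    have hk : k = 3 * (k / 3) + k % 3 := (Int.mul_ediv_add_emod k 3).symm
    have hpw : x ^ k = x ^ (k % 3) := by
      conv_lhs => rw [hk]
      rw [zpow_add, zpow_mul]
      have : x ^ (3 : ℤ) = 1 := by exact_mod_cast hx3
      rw [this]; simp
    have hx2 : x ^ (2 : ℤ) = x⁻¹ := by
      apply eq_inv_of_mul_eq_one_left
      have : x ^ (2 : ℤ) * x = x ^ 3 := by
        rw [zpow_ofNat, ← pow_succ]
      rw [this, hx3]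
    have : k % 3 = 0 ∨ k % 3 = 1 ∨ k % 3 = 2 := by omega
    rcases this with h | h | h <;> rw [hpw, h]
    · left; simp
    · right; left; simp
    · right; right; exact hx2
  -- the quotient
  obtain ⟨x₀, hx₀⟩ := H.e3
  have hx₀3 : x₀ ^ 3 = 1 := by rw [← hx₀]; exact pow_orderOf_eq_one _
  have hnotN : ∀ y : G, y ^ 3 = 1 → y ≠ 1 → y ∉ N := by
    intro y hy3 hy1 hyN
    apply hy1
    have h4 := h4N y hyN
    calc y = y ^ 4 * (y ^ 3)⁻¹ := by group
      _ = 1 := by rw [h4, hy3]; simp
  have hx₀1 : x₀ ≠ 1 := by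
    intro h; rw [h, orderOf_one] at hx₀; omega
  have hΓ2 : pCore 2 (G ⧸ N) = ⊥ := by
    subst hcore
    exact pCore_quotient_pCore_eq_bot
  haveI : Nontrivial (G ⧸ N) :=
    ⟨⟨(x₀ : G ⧸ N), 1, fun h => hnotN x₀ hx₀3 hx₀1 ((QuotientGroup.eq_one_iff x₀).mp h)⟩⟩
  obtain ⟨q, hq, hqc⟩ := exists_prime_pCore_ne_bot (G := G ⧸ N)
  haveI : Fact q.Prime := ⟨hq⟩
  obtain ⟨lb, hlb, hlb1⟩ : ∃ l ∈ pCore q (G ⧸ N), l ≠ 1 := by
    by_contra hh
    push Not at hh
    exact hqc ((Subgroup.eq_bot_iff_forall _).mpr hh)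
  obtain ⟨x, rfl⟩ := QuotientGroup.mk_surjective lb
  obtain ⟨k, hk⟩ := (pCore_isPGroup q (G ⧸ N)) ⟨_, hlb⟩
  have hk' : ((x : G) : G ⧸ N) ^ (q ^ k) = 1 := by
    simpa using congrArg Subtype.val hk
  have hdq : q ∣ orderOf ((x : G) : G ⧸ N) := by
    have hd := orderOf_dvd_of_pow_eq_one hk'
    obtain ⟨j, -, hj⟩ := (Nat.dvd_prime_pow hq).mp hd
    have hj0 : j ≠ 0 := by
      rintro rfl
      rw [pow_zero, orderOf_eq_one_iff] at hj
      exact hlb1 hj
    rw [hj]
    exact dvd_pow_self q hj0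
  have hqcase : (q = 2 ∨ q = 3) ∧ (q = 3 → x ^ 3 = 1) := by
    rcases H.pow34 x with h | h
    · have h1 : ((x : G) : G ⧸ N) ^ 4 = 1 := by rw [← QuotientGroup.mk_pow, h]; rfl
      have h2 := hdq.trans (orderOf_dvd_of_pow_eq_one h1)
      have h3 : q ∣ 2 ^ 2 := by simpa using h2
      have h4 := (Nat.prime_dvd_prime_iff_eq hq Nat.prime_two).mp (hq.dvd_of_dvd_pow h3)
      exact ⟨Or.inl h4, fun h5 => by omega⟩
    · have h1 : ((x : G) : G ⧸ N) ^ 3 = 1 := by rw [← QuotientGroup.mk_pow, h]; rfl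
      have h2 := hdq.trans (orderOf_dvd_of_pow_eq_one h1)
      have h4 := (Nat.prime_dvd_prime_iff_eq hq Nat.prime_three).mp h2
      exact ⟨Or.inr h4, fun _ => h⟩
  have hq3 : q = 3 := by
    rcases hqcase.1 with h | h
    · subst h; exact absurd hΓ2 hqc
    · exact h
  subst hq3
  have hx3 : x ^ 3 = 1 := hqcase.2 rfl
  have hxN : x ∉ N := fun h => hlb1 ((QuotientGroup.eq_one_iff x).mpr h)
  have hx1 : x ≠ 1 := fun h => hxN (h ▸ N.one_mem)
  -- the normal subgroup `L = N⟨x⟩`
  have hLc : Nat.card (pCore 3 (G ⧸ N)) = 3 := by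
    obtain ⟨j, hj⟩ := IsPGroup.iff_card.mp (pCore_isPGroup 3 (G ⧸ N))
    have hd1 : Nat.card (pCore 3 (G ⧸ N)) ∣ Nat.card (G ⧸ N) := Subgroup.card_subgroup_dvd_card _
    have hd2 : Nat.card (G ⧸ N) ∣ Nat.card G := by
      rw [← Subgroup.index_eq_card]; exact Subgroup.index_dvd_card N
    have hd3 := hd1.trans hd2
    rw [hj] at hd3
    have hj2 : j < 2 := by
      by_contra hh
      exact hnine (Dvd.dvd.trans (pow_dvd_pow 3 (by omega : 2 ≤ j)) hd3)
    have hj0 : j ≠ 0 := by
      rintro rfl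
      rw [pow_zero, Subgroup.card_eq_one] at hj
      rw [hj] at hlb
      exact hlb1 ((Subgroup.mem_bot).mp hlb)
    have : j = 1 := by omega
    rw [hj, this, pow_one]
  have hxbar3 : ((x : G) : G ⧸ N) ^ 3 = 1 := by rw [← QuotientGroup.mk_pow, hx3]; rfl
  have hLz : Subgroup.zpowers ((x : G) : G ⧸ N) = pCore 3 (G ⧸ N) := by
    apply Subgroup.eq_of_le_of_card_ge
    · rw [Subgroup.zpowers_le]; exact hlb
    · rw [hLc, Nat.card_zpowers, orderOf_eq_prime hxbar3 hlb1]
  let L : Subgroup G := (pCore 3 (G ⧸ N)).comap (QuotientGroup.mk' N)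
  haveI hLn : L.Normal := Subgroup.Normal.comap (pCore_normal 3 (G ⧸ N)) _
  have hxL : x ∈ L := hlb
  -- the Frattini argument
  have hzxL : IsPGroup 3 (Subgroup.zpowers (⟨x, hxL⟩ : L)) := by
    rintro ⟨d, hd⟩
    refine ⟨1, Subtype.ext ?_⟩
    obtain ⟨k, rfl⟩ := Subgroup.mem_zpowers_iff.mp hd
    apply Subtype.ext
    show (x ^ k) ^ 3 ^ 1 = (1 : G)
    simp only [pow_one]
    rw [← zpow_natCast, ← zpow_mul, mul_comm, zpow_mul]
    simp [hx3]
  obtain ⟨P, hP⟩ := hzxL.exists_le_sylow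
  have hPm : (P : Subgroup L).map L.subtype = Subgroup.zpowers x := by
    symm
    apply Subgroup.eq_of_le_of_card_ge
    · rw [Subgroup.zpowers_le]
      exact ⟨⟨x, hxL⟩, hP (Subgroup.mem_zpowers _), rfl⟩
    · rw [hord3 x hx3 hx1]
      exact Nat.le_of_dvd (by norm_num) (hpK _ (P.isPGroup'.map L.subtype))
  have hFr := Sylow.normalizer_sup_eq_top P
  rw [hPm] at hFr
  set D : Subgroup G := (Subgroup.normalizer (Subgroup.zpowers x : Set G)) with hD
  have hxD : x ∈ D := by
    rw [hD, Subgroup.mem_normalizer_iff]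
    intro h
    constructor
    · intro hh
      exact Subgroup.mul_mem _ (Subgroup.mul_mem _ (Subgroup.mem_zpowers x) hh)
        (Subgroup.inv_mem _ (Subgroup.mem_zpowers x))
    · intro hh
      have : h = x⁻¹ * (x * h * x⁻¹) * x := by group
      rw [this]
      exact Subgroup.mul_mem _ (Subgroup.mul_mem _ (Subgroup.inv_mem _ (Subgroup.mem_zpowers x)) hh)
        (Subgroup.mem_zpowers x)
  have hcov : ∀ g : G, ∃ d ∈ D, (g : G ⧸ N) = (d : G ⧸ N) := by
    intro g
    have hg : g ∈ (↑(D ⊔ L) : Set G) := by rw [hFr]; trivial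
    rw [Subgroup.mul_normal] at hg
    obtain ⟨d, hd, l, hl, rfl⟩ := Set.mem_mul.mp hg
    have hl' : ((l : G) : G ⧸ N) ∈ Subgroup.zpowers ((x : G) : G ⧸ N) := by
      rw [hLz]; exact hl
    obtain ⟨k, hk⟩ := Subgroup.mem_zpowers_iff.mp hl'
    refine ⟨d * x ^ k, D.mul_mem hd (D.zpow_mem hxD k), ?_⟩
    rw [QuotientGroup.mk_mul, QuotientGroup.mk_mul, QuotientGroup.mk_zpow, hk]
  have hDx : ∀ d ∈ D, d * x * d⁻¹ ∈ Subgroup.zpowers x := by
    intro d hd
    rw [hD, Subgroup.mem_normalizer_iff] at hd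
    exact (hd x).mp (Subgroup.mem_zpowers x)
  have hcl : ∀ d ∈ D, d * x * d⁻¹ = x ∨ d * x * d⁻¹ = x⁻¹ := by
    intro d hd
    rcases hz3' x hx3 _ (hDx d hd) with h | h | h
    · exfalso
      apply hx1
      have : x = d⁻¹ * (d * x * d⁻¹) * d := by group
      rw [this, h]; group
    · exact Or.inl h
    · exact Or.inr h
  by_cases hall : ∀ d ∈ D, d * x * d⁻¹ = x
  · -- index 3
    left
    have hDz : ∀ d ∈ D, d ∈ Subgroup.zpowers x := by
      intro d hd
      exact hC x hx3 hx1 d (mul_inv_eq_iff_eq_mul.mp (hall d hd))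
    have hallz : ∀ q : G ⧸ N, q ∈ Subgroup.zpowers ((x : G) : G ⧸ N) := by
      intro q
      induction q using QuotientGroup.induction_on with
      | H g =>
        obtain ⟨d, hd, hgd⟩ := hcov g
        obtain ⟨k, hk⟩ := Subgroup.mem_zpowers_iff.mp (hDz d hd)
        rw [hgd, ← hk, QuotientGroup.mk_zpow]
        exact Subgroup.zpow_mem _ (Subgroup.mem_zpowers _) k
    have hcΓ : Nat.card (G ⧸ N) = 3 := by
      rw [← orderOf_eq_card_of_forall_mem_zpowers hallz]
      exact orderOf_eq_prime hxbar3 hlb1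
    have hidx : N.index = 3 := by rw [Subgroup.index_eq_card]; exact hcΓ
    refine ⟨hp, ?_, ?_, hidx⟩
    · -- exponent
      obtain ⟨w, hw⟩ := H.e4
      have hw4 : w ^ 4 = 1 := by rw [← hw]; exact pow_orderOf_eq_one _
      have hwN : w ∈ N := by
        rw [← QuotientGroup.eq_one_iff]
        have h3 : ((w : G) : G ⧸ N) ^ 3 = 1 := by
          have := pow_card_eq_one' (x := ((w : G) : G ⧸ N))
          rwa [hcΓ] at this
        have h4 : ((w : G) : G ⧸ N) ^ 4 = 1 := by rw [← QuotientGroup.mk_pow, hw4]; rfl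
        calc ((w : G) : G ⧸ N) = ((w : G) : G ⧸ N) ^ 4 * (((w : G) : G ⧸ N) ^ 3)⁻¹ := by group
          _ = 1 := by rw [h4, h3]; simp
      apply Nat.dvd_antisymm
      · apply Monoid.exponent_dvd_of_forall_pow_eq_one
        intro v
        exact Subtype.ext (h4N v v.2)
      · have := Monoid.order_dvd_exponent (⟨w, hwN⟩ : N)
        rwa [Subgroup.orderOf_mk, hw] at this
    · -- class
      let σ : N ≃* N := MulAut.conjNormal x
      have hσ : ∀ v : N, ((σ v : N) : G) = x * v * x⁻¹ := fun v => MulAut.conjNormal_apply x v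
      have h3σ : ∀ v, σ (σ (σ v)) = v := by
        intro v
        apply Subtype.ext
        rw [hσ, hσ, hσ]
        have e : x * (x * (x * ↑v * x⁻¹) * x⁻¹) * x⁻¹ = x ^ 3 * ↑v * (x ^ 3)⁻¹ := by
          rw [pow_three]; group
        rw [e, hx3]; group
      have hfσ : ∀ v, σ v = v → v = 1 := by
        intro v hv
        have h1 : x * (v : G) * x⁻¹ = v := by rw [← hσ, hv]
        exact Subtype.ext (hfpfN x hx3 hx1 v v.2 (mul_inv_eq_iff_eq_mul.mp h1))
      have hc := class_two hp σ h3σ hfσ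
      haveI : Group.IsNilpotent N := hp.isNilpotent
      rw [← Subgroup.lowerCentralSeries_eq_bot_iff_nilpotencyClass_le]
      rw [eq_bot_iff]
      simp only [Subgroup.lowerCentralSeries_succ, Subgroup.lowerCentralSeries_zero]
      rw [Subgroup.commutator_le]
      intro a ha b _
      have hA : ⁅(⊤ : Subgroup N), (⊤ : Subgroup N)⁆ ≤ Subgroup.center N := by
        rw [Subgroup.commutator_le]
        intro u _ v _
        exact cm_mem_center hc u v
      have := Subgroup.mem_center_iff.mp (hA ha) b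
      rw [Subgroup.mem_bot, commutatorElement_def, ← this]
      group
  · -- index 6
    right
    push Not at hall
    obtain ⟨t, htD, htne⟩ := hall
    have htx : t * x * t⁻¹ = x⁻¹ := (hcl t htD).resolve_left htne
    have htnc : ¬ Commute t x := fun h => htne (by rw [h.eq]; group)
    have hx2 : x * x = x⁻¹ := by
      apply eq_inv_of_mul_eq_one_left
      rw [← hx3, pow_three, mul_assoc]
    have ht4 : t ^ 4 = 1 := by
      rcases H.pow34 t with h | h
      · exact h
      · exfalso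
        have e : t ^ 3 * x * (t ^ 3)⁻¹ = t * (t * (t * x * t⁻¹) * t⁻¹) * t⁻¹ := by
          rw [pow_three]; group
        have e2 : t * (t * (t * x * t⁻¹) * t⁻¹) * t⁻¹ = x⁻¹ := by
          rw [htx]
          have : t * x⁻¹ * t⁻¹ = x := by
            have : t * x⁻¹ * t⁻¹ = (t * x * t⁻¹)⁻¹ := by group
            rw [this, htx, inv_inv]
          rw [this, htx]
        rw [e2, h] at e
        have e3 : x = x⁻¹ := by simpa using e
        apply hx1
        have h9 : x * x = 1 := by nth_rewrite 1 [e3]; group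
        calc x = x ^ 3 * (x * x)⁻¹ := by rw [pow_three]; group
          _ = 1 := by rw [hx3, h9]; simp
    have ht2 : t ^ 2 = 1 := by
      have hc2 : Commute (t ^ 2) x := by
        have : t ^ 2 * x * (t ^ 2)⁻¹ = x := by
          have e : t ^ 2 * x * (t ^ 2)⁻¹ = t * (t * x * t⁻¹) * t⁻¹ := by
            rw [pow_two]; group
          rw [e, htx]
          have : t * x⁻¹ * t⁻¹ = (t * x * t⁻¹)⁻¹ := by group
          rw [this, htx, inv_inv]
        exact mul_inv_eq_iff_eq_mul.mp this
      have h3 := hz3 x hx3 _ (hC x hx3 hx1 _ hc2)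
      have h4 : (t ^ 2) ^ 2 = 1 := by rw [← pow_mul]; exact ht4
      calc t ^ 2 = (t ^ 2) ^ 3 * ((t ^ 2) ^ 2)⁻¹ := by group
        _ = 1 := by rw [h3, h4]; simp
    have ht1 : t ≠ 1 := by
      intro h
      apply htnc
      rw [h]
      exact Commute.one_left x
    have htinv : t⁻¹ = t := by
      rw [inv_eq_iff_mul_eq_one, ← pow_two]; exact ht2
    have htx' : t * x = x * x * t := by
      rw [hx2]
      have := mul_inv_eq_iff_eq_mul.mp htx
      exact this
    have htN : ∀ k : ℤ, ((t : G) : G ⧸ N) ≠ ((x : G) : G ⧸ N) ^ k := by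
      intro k hk
      have h2 : ((t : G) : G ⧸ N) ^ 2 = 1 := by rw [← QuotientGroup.mk_pow, ht2]; rfl
      have h3 : ((t : G) : G ⧸ N) ^ 3 = 1 := by
        rw [hk, ← zpow_natCast, ← zpow_mul, mul_comm, zpow_mul]
        have : ((x : G) : G ⧸ N) ^ ((3 : ℕ) : ℤ) = 1 := by
          rw [zpow_natCast]; exact hxbar3
        rw [this, one_zpow]
      have h1 : ((t : G) : G ⧸ N) = 1 := by
        calc ((t : G) : G ⧸ N) = ((t : G) : G ⧸ N) ^ 3 * (((t : G) : G ⧸ N) ^ 2)⁻¹ := by group
          _ = 1 := by rw [h3, h2]; simp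
      have htNm : t ∈ N := (QuotientGroup.eq_one_iff t).mp h1
      apply hxN
      have e1 : x = t * (x * t⁻¹ * x⁻¹) := by
        have h5 : t * (x * t⁻¹ * x⁻¹) = (t * x * t⁻¹) * x⁻¹ := by group
        rw [h5, htx]
        have h6 : x⁻¹ * x⁻¹ = x := by
          rw [← mul_inv_rev, hx2, inv_inv]
        exact h6.symm
      rw [e1]
      refine N.mul_mem htNm ?_
      exact hN.conj_mem _ (N.inv_mem htNm) x
    -- the order of the quotient
    have hcΓ : Nat.card (G ⧸ N) = 6 := by
      have hd2 : 2 ∣ Nat.card (G ⧸ N) := by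
        have h1 : orderOf ((t : G) : G ⧸ N) = 2 := by
          apply orderOf_eq_prime
          · rw [← QuotientGroup.mk_pow, ht2]; rfl
          · intro h
            exact htN 0 (by simpa using h)
        rw [← h1]; exact orderOf_dvd_natCard _
      have hd3 : 3 ∣ Nat.card (G ⧸ N) := by
        have h1 : orderOf ((x : G) : G ⧸ N) = 3 := orderOf_eq_prime hxbar3 hlb1
        rw [← h1]; exact orderOf_dvd_natCard _
      have hd6 : 6 ∣ Nat.card (G ⧸ N) := by
        have := Nat.Coprime.mul_dvd_of_dvd_of_dvd (show Nat.Coprime 2 3 by norm_num) hd2 hd3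
        simpa using this
      let f : Fin 2 × Fin 3 → G ⧸ N :=
        fun p => ((t : G) : G ⧸ N) ^ (p.1 : ℕ) * ((x : G) : G ⧸ N) ^ (p.2 : ℕ)
      have hf : Function.Surjective f := by
        intro q
        induction q using QuotientGroup.induction_on with
        | H g =>
          obtain ⟨d, hd, hgd⟩ := hcov g
          have hcases : d ∈ Subgroup.zpowers x ∨ t * d ∈ Subgroup.zpowers x := by
            rcases hcl d hd with h | h
            · exact Or.inl (hC x hx3 hx1 d (mul_inv_eq_iff_eq_mul.mp h))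
            · right
              apply hC x hx3 hx1
              have : (t * d) * x * (t * d)⁻¹ = x := by
                have e : (t * d) * x * (t * d)⁻¹ = t * (d * x * d⁻¹) * t⁻¹ := by group
                rw [e, h]
                have : t * x⁻¹ * t⁻¹ = (t * x * t⁻¹)⁻¹ := by group
                rw [this, htx, inv_inv]
              exact mul_inv_eq_iff_eq_mul.mp this
          have hmk : ∀ y ∈ Subgroup.zpowers x, ∃ j : Fin 3, (y : G ⧸ N) = ((x : G) : G ⧸ N) ^ (j : ℕ) := by
            intro y hy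
            rcases hz3' x hx3 y hy with h | h | h
            · exact ⟨0, by simp [h]⟩
            · exact ⟨1, by simp [h]⟩
            · refine ⟨2, ?_⟩
              rw [h, ← hx2]
              simp [pow_two]
          rcases hcases with h | h
          · obtain ⟨j, hj⟩ := hmk d h
            refine ⟨(0, j), ?_⟩
            simp only [f, Fin.val_zero, pow_zero, one_mul]
            rw [hgd, hj]
          · obtain ⟨j, hj⟩ := hmk _ h
            refine ⟨(1, j), ?_⟩
            simp only [f, Fin.val_one, pow_one]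
            rw [← hj, hgd, ← QuotientGroup.mk_mul, ← mul_assoc, ← pow_two, ht2, one_mul]
      have hle : Nat.card (G ⧸ N) ≤ Nat.card (Fin 2 × Fin 3) := Nat.card_le_card_of_surjective f hf
      have h6 : Nat.card (Fin 2 × Fin 3) = 6 := by simp
      rw [h6] at hle
      exact Nat.le_antisymm hle (Nat.le_of_dvd (Nat.card_pos) hd6)
    have hiso := iso_S3 hcΓ ((t : G) : G ⧸ N) ((x : G) : G ⧸ N)
      (by rw [← QuotientGroup.mk_pow, ht2]; rfl) (fun h => htN 0 (by simpa using h)) hxbar3 hlb1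
      (by rw [← QuotientGroup.mk_inv, ← QuotientGroup.mk_mul, ← QuotientGroup.mk_mul, htx]; simp)
    refine ⟨?_, hiso⟩
    -- the elementary abelian conclusion
    let σ : N ≃* N := MulAut.conjNormal x
    let τ : N ≃* N := MulAut.conjNormal t
    have hσ : ∀ v : N, ((σ v : N) : G) = x * v * x⁻¹ := fun v => MulAut.conjNormal_apply x v
    have hτ : ∀ v : N, ((τ v : N) : G) = t * v * t⁻¹ := fun v => MulAut.conjNormal_apply t v
    have h3σ : ∀ v, σ (σ (σ v)) = v := by
      intro v
      apply Subtype.ext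
      rw [hσ, hσ, hσ]
      have e : x * (x * (x * ↑v * x⁻¹) * x⁻¹) * x⁻¹ = x ^ 3 * ↑v * (x ^ 3)⁻¹ := by
        rw [pow_three]; group
      rw [e, hx3]; group
    have hfσ : ∀ v, σ v = v → v = 1 := by
      intro v hv
      have h1 : x * (v : G) * x⁻¹ = v := by rw [← hσ, hv]
      exact Subtype.ext (hfpfN x hx3 hx1 v v.2 (mul_inv_eq_iff_eq_mul.mp h1))
    have hτσ : ∀ v, τ (σ v) = σ (σ (τ v)) := by
      intro v
      apply Subtype.ext
      rw [hτ, hσ, hσ, hσ, hτ]
      have e1 : t * (x * ↑v * x⁻¹) * t⁻¹ = (t * x) * ↑v * (t * x)⁻¹ := by group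
      have e2 : x * (x * (t * ↑v * t⁻¹) * x⁻¹) * x⁻¹ = (x * x * t) * ↑v * (x * x * t)⁻¹ := by group
      rw [e1, e2, htx']
    have hC_gen : ∀ s : G, s ^ 2 = 1 → ((s : G) : G ⧸ N) ≠ 1 → ∀ n : N,
        ((s * n * s⁻¹) * n) ^ 2 = 1 := by
      intro s hs hs1 n
      have hsinv : s⁻¹ = s := by
        rw [inv_eq_iff_mul_eq_one, ← pow_two]; exact hs
      have h4 : (s * n) ^ 4 = 1 := by
        rcases H.pow34 (s * n) with h | h
        · exact h
        · exfalso
          apply hs1
          have hn1 : (((n : N) : G) : G ⧸ N) = 1 := (QuotientGroup.eq_one_iff _).mpr n.2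
          have h3 : ((s : G) : G ⧸ N) ^ 3 = 1 := by
            have := congrArg (fun g : G => (g : G ⧸ N)) h
            simp only [QuotientGroup.mk_pow, QuotientGroup.mk_mul, hn1, mul_one] at this
            simpa using this
          have h2 : ((s : G) : G ⧸ N) ^ 2 = 1 := by rw [← QuotientGroup.mk_pow, hs]; rfl
          calc ((s : G) : G ⧸ N) = ((s : G) : G ⧸ N) ^ 3 * (((s : G) : G ⧸ N) ^ 2)⁻¹ := by group
            _ = 1 := by rw [h3, h2]; simp
      have e : (s * n * s⁻¹) * n = (s * n) ^ 2 := by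
        rw [hsinv, pow_two]; simp only [mul_assoc]
      rw [e, ← pow_mul]
      exact h4
    have hs0 : ((t : G) : G ⧸ N) ≠ 1 := fun h => htN 0 (by simpa using h)
    have hs1sq : (t * x) ^ 2 = 1 := by
      rw [pow_two]
      have : t * x * (t * x) = (t * x * t⁻¹) * (t * t) * x := by group
      rw [this, htx, ← pow_two, ht2]; group
    have hs2sq : (t * x * x) ^ 2 = 1 := by
      rw [pow_two]
      have : t * x * x * (t * x * x) = (t * x * t⁻¹) * (t * x * t⁻¹) * (t * t) * x * x := by group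
      rw [this, htx, ← pow_two t, ht2]; group
    have hs1 : ((t * x : G) : G ⧸ N) ≠ 1 := by
      intro h
      rw [QuotientGroup.mk_mul] at h
      apply htN (-1)
      rw [zpow_neg_one]
      exact eq_inv_of_mul_eq_one_left h
    have hs2 : ((t * x * x : G) : G ⧸ N) ≠ 1 := by
      intro h
      rw [QuotientGroup.mk_mul, QuotientGroup.mk_mul, mul_assoc] at h
      apply htN (-2)
      have := eq_inv_of_mul_eq_one_left h
      rw [this, ← zpow_two, zpow_neg]
    have res := elem_abelian hp σ τ h3σ hfσ hτσ (fun n => Subtype.ext (h4N n n.2))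
      (fun n => Subtype.ext (by
        have := hC_gen t ht2 hs0 n
        simpa [hτ] using this))
      (fun n => Subtype.ext (by
        have := hC_gen (t * x) hs1sq hs1 n
        have e : (t * x) * (n : G) * (t * x)⁻¹ = ((τ (σ n) : N) : G) := by
          rw [hτ, hσ]; group
        rw [e] at this
        simpa using this))
      (fun n => Subtype.ext (by
        have := hC_gen (t * x * x) hs2sq hs2 n
        have e : (t * x * x) * (n : G) * (t * x * x)⁻¹ = ((τ (σ (σ n)) : N) : G) := by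
          rw [hτ, hσ, hσ]; group
        rw [e] at this
        simpa using this))
    refine ⟨⟨⟨fun a b => res.1 a b⟩⟩, fun a ha => ?_⟩
    exact congrArg Subtype.val (res.2 ⟨a, ha⟩)

/-- The theorem on groups with element orders exactly `{1,2,3,4}`. -/
theorem main [Finite G] :
    ∃ (N : Subgroup G) (_ : N.Normal),
      (IsPGroup 2 ↥N ∧ Monoid.exponent ↥N = 4 ∧ Group.nilpotencyClass ↥N ≤ 2 ∧ N.index = 3) ∨
      (Cfsg.IsElementaryAbelian 2 N ∧ Nonempty (G ⧸ N ≃* Equiv.Perm (Fin 3))) ∨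
      (Cfsg.IsElementaryAbelian 3 N ∧ ((IsCyclic (G ⧸ N) ∧ N.index = 4) ∨ Nonempty (G ⧸ N ≃* QuaternionGroup 2))) := by
  classical
  -- solvability
  have hprimes : ∀ r : ℕ, r.Prime → r ∣ Nat.card G → r = 2 ∨ r = 3 := by
    intro r hr hd
    haveI : Fact r.Prime := ⟨hr⟩
    obtain ⟨g, hg⟩ := exists_prime_orderOf_dvd_card' r hd
    rcases H.ord g with h | h | h | h <;> rw [h] at hg
    · subst hg; exact absurd hr Nat.not_prime_one
    · exact Or.inl hg.symm
    · exact Or.inr hg.symm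
    · subst hg; norm_num at hr
  have hne0 : Nat.card G ≠ 0 := Nat.card_pos.ne'
  have hcard : Nat.card G = 2 ^ (Nat.card G).factorization 2 * 3 ^ (Nat.card G).factorization 3 := by
    conv_lhs => rw [← Nat.prod_factorization_pow_eq_self hne0]
    have hsub : (Nat.card G).factorization.support ⊆ {2, 3} := by
      intro r hr
      have h1 := Nat.support_factorization _ ▸ hr
      have h2 := (Nat.mem_primeFactors.mp h1)
      rcases hprimes r h2.1 h2.2.1 with h | h <;> simp [h]
    rw [Finsupp.prod_of_support_subset _ hsub _ (by simp)]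
    simp
  have hsolv : Group.IsSolvable G := Cfsg.Agent.Lib.Char.isSolvable_of_card 2 3 _ _ Nat.prime_two Nat.prime_three hcard
  obtain ⟨t₀, ht₀⟩ := H.e2
  haveI : Nontrivial G := by
    refine ⟨⟨t₀, 1, fun h => ?_⟩⟩
    rw [h, orderOf_one] at ht₀; omega
  obtain ⟨q, hq, hqc⟩ := exists_prime_pCore_ne_bot (G := G)
  haveI : Fact q.Prime := ⟨hq⟩
  have hq23 : q = 2 ∨ q = 3 := by
    apply hprimes q hq
    obtain ⟨l, hl, hl1⟩ : ∃ l ∈ pCore q G, l ≠ 1 := by
      by_contra hh
      push Not at hh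
      exact hqc ((Subgroup.eq_bot_iff_forall _).mpr hh)
    obtain ⟨k, hk⟩ := (pCore_isPGroup q G) ⟨l, hl⟩
    have hk' : l ^ (q ^ k) = 1 := by simpa using congrArg Subtype.val hk
    have hd := orderOf_dvd_of_pow_eq_one hk'
    obtain ⟨j, -, hj⟩ := (Nat.dvd_prime_pow hq).mp hd
    have hj0 : j ≠ 0 := by
      rintro rfl
      rw [pow_zero, orderOf_eq_one_iff] at hj
      exact hl1 hj
    have : q ∣ orderOf l := by rw [hj]; exact dvd_pow_self q hj0
    exact this.trans (orderOf_dvd_natCard l)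
  rcases hq23 with rfl | rfl
  · rcases caseB H (pCore 2 G) rfl hqc with h | h
    · exact ⟨pCore 2 G, inferInstance, Or.inl h⟩
    · exact ⟨pCore 2 G, inferInstance, Or.inr (Or.inl h)⟩
  · have := caseA H (pCore 3 G) (pCore_isPGroup 3 G) (fun K hK hp => le_pCore hK hp) hqc
    exact ⟨pCore 3 G, inferInstance, Or.inr (Or.inr this)⟩

end Cfsg.Agent.Lib.Block.EO34
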