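import Mathlib

/-!
# Coherence of integer vectors (exceptional characters)

Integer vectors `v i` with `⟪v i, v j⟫ = m + [i = j]` whose differences annihilate a positive vector
have differences `δ (e (ζ i) - e (ζ j))` for one sign `δ` and one injection `ζ`.
-/

set_option autoImplicit false
set_option linter.unusedSectionVars false
set_option linter.unusedSimpArgs false
set_option linter.unusedVariables false

namespace Cfsg.Agent.Lib.Block.Exc

section Coh

variable {E I : Type*} [Fintype E] [DecidableEq E] [DecidableEq I]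

/-- The difference vector of two coordinates. -/
def dvec (a b : E) (e : E) : ℤ := (if e = a then 1 else 0) - (if e = b then 1 else 0)

theorem sum_dvec_mul (a b : E) (y : E → ℤ) : ∑ e, dvec a b e * y e = y a - y b := by
  simp [dvec, sub_mul, Finset.sum_sub_distrib, ite_mul]

theorem norm_two_shape (x c : E → ℤ) (hc : ∀ e, 0 < c e) (h2 : ∑ e, x e ^ 2 = 2)
    (h0 : ∑ e, x e * c e = 0) : ∃ a b, a ≠ b ∧ ∀ e, x e = dvec a b e := by
  have hne : ∃ e, x e ≠ 0 := by
    by_contra h
    push Not at h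
    simp [h] at h2
  obtain ⟨e₀, he₀⟩ := hne
  have hpos : ∃ a, 0 < x a := by
    by_contra h
    push Not at h
    have h3 : ∀ e ∈ Finset.univ, x e * c e ≤ 0 := fun e _ =>
      mul_nonpos_of_nonpos_of_nonneg (h e) (hc e).le
    have h4 := (Finset.sum_eq_zero_iff_of_nonpos h3).1 h0 e₀ (Finset.mem_univ _)
    rcases mul_eq_zero.1 h4 with h5 | h5
    · exact he₀ h5
    · exact (hc e₀).ne' h5
  have hneg : ∃ b, x b < 0 := by
    by_contra h
    push Not at h
    have h3 : ∀ e ∈ Finset.univ, 0 ≤ x e * c e := fun e _ =>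
      mul_nonneg (h e) (hc e).le
    have h4 := (Finset.sum_eq_zero_iff_of_nonneg h3).1 h0 e₀ (Finset.mem_univ _)
    rcases mul_eq_zero.1 h4 with h5 | h5
    · exact he₀ h5
    · exact (hc e₀).ne' h5
  obtain ⟨a, ha⟩ := hpos
  obtain ⟨b, hb⟩ := hneg
  have hab : a ≠ b := by
    rintro rfl
    omega
  refine ⟨a, b, hab, ?_⟩
  have hsum : x a ^ 2 + (x b ^ 2 + ∑ e ∈ (Finset.univ.erase a).erase b, x e ^ 2) = 2 := by
    rw [Finset.add_sum_erase _ (fun e => x e ^ 2) (Finset.mem_erase.2 ⟨hab.symm, Finset.mem_univ _⟩),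
      Finset.add_sum_erase _ (fun e => x e ^ 2) (Finset.mem_univ _)]
    exact h2
  have hnn : 0 ≤ ∑ e ∈ (Finset.univ.erase a).erase b, x e ^ 2 :=
    Finset.sum_nonneg fun e _ => sq_nonneg _
  have h5 : 1 ≤ x a ^ 2 := by nlinarith
  have h6 : 1 ≤ x b ^ 2 := by nlinarith
  have hA : x a = 1 := by nlinarith
  have hB : x b = -1 := by nlinarith
  have hrest : ∑ e ∈ (Finset.univ.erase a).erase b, x e ^ 2 = 0 := by
    rw [hA, hB] at hsum
    linarith
  intro e
  by_cases hea : e = a
  · subst hea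
    simp [dvec, hA, hab]
  by_cases heb : e = b
  · subst heb
    simp [dvec, hB, hab.symm]
  have h7 := (Finset.sum_eq_zero_iff_of_nonneg (fun e _ => sq_nonneg (x e))).1 hrest e
    (Finset.mem_erase.2 ⟨heb, Finset.mem_erase.2 ⟨hea, Finset.mem_univ _⟩⟩)
  have h8 : x e = 0 := by simpa using h7
  simp [dvec, hea, heb, h8]

theorem pair_cases {a b s t : E} (hab : a ≠ b) (hst : s ≠ t) (h : dvec s t a - dvec s t b = 1) :
    (a = s ∧ b ≠ t) ∨ (b = t ∧ a ≠ s) := by
  unfold dvec at h
  by_cases h1 : a = s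
  · subst h1
    by_cases h2 : b = t
    · subst h2
      simp [hab, hab.symm] at h
    · exact Or.inl ⟨rfl, h2⟩
  · by_cases h2 : b = t
    · exact Or.inr ⟨h2, h1⟩
    · exfalso
      by_cases h3 : a = t <;> by_cases h4 : b = s <;> simp [h1, h2, h3, h4, hst, hst.symm] at h

/-- **Coherence.** -/
theorem coherence (v : I → E → ℤ) (c : E → ℤ) (hc : ∀ e, 0 < c e) (m : ℤ)
    (hnn : ∀ i j, ∑ e, v i e * v j e = if i = j then m + 1 else m)
    (hreg : ∀ i j, ∑ e, (v i e - v j e) * c e = 0) (i0 : I) (hi0 : ∃ i1, i1 ≠ i0) :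
    ∃ (δ : ℤ) (ζ : I → E), (δ = 1 ∨ δ = -1) ∧ Function.Injective ζ ∧
      ∀ i e, v i0 e - v i e = δ * dvec (ζ i0) (ζ i) e := by
  classical
  have hnorm : ∀ k, k ≠ i0 → ∑ e, (v i0 e - v k e) ^ 2 = 2 := by
    intro k hk
    have h1 : ∀ e, (v i0 e - v k e) ^ 2 = v i0 e * v i0 e - v i0 e * v k e - (v k e * v i0 e - v k e * v k e) := by
      intro e
      ring
    simp only [h1, Finset.sum_sub_distrib, hnn]
    simp [hk, hk.symm]
  have hinner : ∀ k l, k ≠ i0 → l ≠ i0 → k ≠ l → ∑ e, (v i0 e - v k e) * (v i0 e - v l e) = 1 := by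
    intro k l hk hl hkl
    have h1 : ∀ e, (v i0 e - v k e) * (v i0 e - v l e) = v i0 e * v i0 e - v i0 e * v l e - (v k e * v i0 e - v k e * v l e) := by
      intro e
      ring
    simp only [h1, Finset.sum_sub_distrib, hnn]
    simp [hk, hl, hk.symm, hl.symm, hkl]
  have hshape : ∀ k : I, ∃ a b : E, k ≠ i0 → a ≠ b ∧ ∀ e, v i0 e - v k e = dvec a b e := by
    intro k
    by_cases hk : k = i0
    · obtain ⟨i1, hi1⟩ := hi0
      obtain ⟨a, b, _, _⟩ := norm_two_shape (fun e => v i0 e - v i1 e) c hc (hnorm i1 hi1) (hreg i0 i1)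
      exact ⟨a, b, fun h => absurd hk h⟩
    · obtain ⟨a, b, h1, h2⟩ := norm_two_shape (fun e => v i0 e - v k e) c hc (hnorm k hk) (hreg i0 k)
      exact ⟨a, b, fun _ => ⟨h1, h2⟩⟩
  choose A B hAB using hshape
  have hkl : ∀ k l, k ≠ i0 → l ≠ i0 → k ≠ l → (A k = A l ∧ B k ≠ B l) ∨ (B k = B l ∧ A k ≠ A l) := by
    intro k l hk hl hne
    have h1 := hinner k l hk hl hne
    have h2 : ∑ e, dvec (A k) (B k) e * dvec (A l) (B l) e = 1 := by
      rw [← h1]
      refine Finset.sum_congr rfl fun e _ => ?_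
      rw [(hAB k hk).2, (hAB l hl).2]
    rw [sum_dvec_mul] at h2
    exact pair_cases (hAB k hk).1 (hAB l hl).1 h2
  obtain ⟨i1, hi1⟩ := hi0
  -- dichotomy
  have hdich : (∀ k, k ≠ i0 → A k = A i1) ∨ (∀ k, k ≠ i0 → B k = B i1) := by
    by_cases h : ∀ k, k ≠ i0 → A k = A i1
    · exact Or.inl h
    · right
      push Not at h
      obtain ⟨k₀, hk₀, hA₀⟩ := h
      have hk₀1 : k₀ ≠ i1 := by
        rintro rfl
        exact hA₀ rfl
      have hB₀ : B k₀ = B i1 := by
        rcases hkl k₀ i1 hk₀ hi1 hk₀1 with h1 | h1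
        · exact absurd h1.1 hA₀
        · exact h1.1
      intro k hk
      by_cases hk1 : k = i1
      · rw [hk1]
      by_cases hk2 : k = k₀
      · rw [hk2, hB₀]
      rcases hkl k i1 hk hi1 hk1 with h1 | h1
      · exfalso
        -- `A k = A i1`, `B k ≠ B i1`, and `A k₀ ≠ A i1`, `B k₀ = B i1`
        rcases hkl k k₀ hk hk₀ hk2 with h2 | h2
        · exact hA₀ (h2.1.symm.trans h1.1)
        · exact h1.2 (h2.1.trans hB₀)
      · exact h1.1
  have hinj_of : ∀ ζ : I → E, ∀ δ : ℤ, (δ = 1 ∨ δ = -1) → (∀ i e, v i0 e - v i e = δ * dvec (ζ i0) (ζ i) e) →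
      Function.Injective ζ := by
    intro ζ δ hδ hv i j hij
    by_contra hne
    have h1 : ∀ e, v i e = v j e := by
      intro e
      have h2 := hv i e
      have h3 := hv j e
      rw [← hij] at h3
      linarith
    have h2 := hnn i j
    have h3 := hnn j j
    rw [if_neg hne] at h2
    rw [if_pos rfl] at h3
    have h4 : ∑ e, v i e * v j e = ∑ e, v j e * v j e := Finset.sum_congr rfl fun e _ => by rw [h1 e]
    rw [h2, h3] at h4
    omega
  rcases hdich with h | h
  · -- `δ = 1`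
    refine ⟨1, fun k => if k = i0 then A i1 else B k, Or.inl rfl, ?_, ?_⟩
    · refine hinj_of _ 1 (Or.inl rfl) ?_
      intro k e
      by_cases hk : k = i0
      · subst hk
        simp [dvec]
      · simp only [if_true, if_neg hk, one_mul]
        rw [(hAB k hk).2, h k hk]
    · intro k e
      by_cases hk : k = i0
      · subst hk
        simp [dvec]
      · simp only [if_true, if_neg hk, one_mul]
        rw [(hAB k hk).2, h k hk]
  · -- `δ = -1`
    have key : ∀ k e, v i0 e - v k e = -1 * dvec (if i0 = i0 then B i1 else A i0) (if k = i0 then B i1 else A k) e := by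
      intro k e
      by_cases hk : k = i0
      · subst hk
        simp [dvec]
      · simp only [if_true, if_neg hk]
        rw [(hAB k hk).2, h k hk]
        simp only [dvec]
        ring
    refine ⟨-1, fun k => if k = i0 then B i1 else A k, Or.inr rfl, ?_, key⟩
    exact hinj_of _ (-1) (Or.inr rfl) key

end Coh

end Cfsg.Agent.Lib.Block.Exc
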