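import Cfsg.Agent.Lib.Block.ExcA

/-!
# Fourier analysis on a finite abelian group with a Frobenius-type action
-/

set_option autoImplicit false
set_option linter.unusedSectionVars false
set_option linter.unusedSimpArgs false
set_option linter.unusedVariables false

open scoped ComplexConjugate

namespace Cfsg.Agent.Lib.Block.Exc

section Fourier

variable {A : Type*} [CommGroup A] [Fintype A]

theorem finite_hom : Finite (A →* ℂˣ) := by
  have h := CommGroup.card_monoidHom_of_hasEnoughRootsOfUnity A ℂ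
  exact Nat.finite_of_card_ne_zero (by rw [h]; exact Nat.card_pos.ne')

theorem card_hom : Nat.card (A →* ℂˣ) = Nat.card A :=
  CommGroup.card_monoidHom_of_hasEnoughRootsOfUnity A ℂ

theorem conj_hom (ψ : A →* ℂˣ) (y : A) : conj ((ψ y : ℂˣ) : ℂ) = ((ψ y⁻¹ : ℂˣ) : ℂ) := by
  have h1 : ((ψ y : ℂˣ) : ℂ) ^ (orderOf y) = 1 := by
    rw [← Units.val_pow_eq_pow_val, ← map_pow, pow_orderOf_eq_one, map_one, Units.val_one]
  have h2 : ‖((ψ y : ℂˣ) : ℂ)‖ = 1 := Complex.norm_eq_one_of_pow_eq_one h1 (orderOf_pos y).ne'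
  rw [map_inv, Units.val_inv_eq_inv_val, Complex.inv_eq_conj h2]

theorem sum_hom_ne {ψ : A →* ℂˣ} (h : ψ ≠ 1) : ∑ y, ((ψ y : ℂˣ) : ℂ) = 0 := by
  refine sum_hom_units_eq_zero ((Units.coeHom ℂ).comp ψ) ?_
  intro h1
  apply h
  ext y
  have := congrArg (fun f : A →* ℂ => f y) h1
  simpa using this

open Classical in
theorem sum_conj_mul (ψ φ : A →* ℂˣ) :
    ∑ y, conj ((ψ y : ℂˣ) : ℂ) * ((φ y : ℂˣ) : ℂ) = if φ = ψ then (Nat.card A : ℂ) else 0 := by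
  have h1 : ∀ y, conj ((ψ y : ℂˣ) : ℂ) * ((φ y : ℂˣ) : ℂ) = (((φ * ψ⁻¹) y : ℂˣ) : ℂ) := by
    intro y
    rw [conj_hom, MonoidHom.mul_apply, MonoidHom.inv_apply, map_inv, mul_comm, Units.val_mul]
  simp only [h1]
  by_cases h : φ = ψ
  · subst h
    simp [Nat.card_eq_fintype_card]
  · rw [if_neg h]
    refine sum_hom_ne ?_
    intro h2
    exact h (mul_inv_eq_one.1 h2)

theorem sum_conj_ne {ψ : A →* ℂˣ} (h : ψ ≠ 1) : ∑ y, conj ((ψ y : ℂˣ) : ℂ) = 0 := by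
  rw [← map_sum, sum_hom_ne h, map_zero]

theorem sum_all_ne [Fintype (A →* ℂˣ)] {y : A} (hy : y ≠ 1) : ∑ ψ : A →* ℂˣ, ((ψ y : ℂˣ) : ℂ) = 0 := by
  obtain ⟨ψ₀, hψ₀⟩ := CommGroup.exists_apply_ne_one_of_hasEnoughRootsOfUnity A ℂ hy
  have h1 : ∑ ψ : A →* ℂˣ, (((ψ₀ * ψ) y : ℂˣ) : ℂ) = ∑ ψ : A →* ℂˣ, ((ψ y : ℂˣ) : ℂ) :=
    Fintype.sum_equiv (Equiv.mulLeft ψ₀) _ _ (fun _ => rfl)
  have h2 : ∀ ψ : A →* ℂˣ, (((ψ₀ * ψ) y : ℂˣ) : ℂ) = ((ψ₀ y : ℂˣ) : ℂ) * ((ψ y : ℂˣ) : ℂ) := by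
    intro ψ
    rw [MonoidHom.mul_apply, Units.val_mul]
  simp only [h2, ← Finset.mul_sum] at h1
  have h3 : (((ψ₀ y : ℂˣ) : ℂ) - 1) * ∑ ψ : A →* ℂˣ, ((ψ y : ℂˣ) : ℂ) = 0 := by
    rw [sub_mul, h1, one_mul, sub_self]
  rcases mul_eq_zero.1 h3 with h4 | h4
  · exfalso
    apply hψ₀
    apply Units.ext
    rw [Units.val_one]
    exact sub_eq_zero.1 h4
  · exact h4

theorem sum_all_one [Fintype (A →* ℂˣ)] : ∑ ψ : A →* ℂˣ, ((ψ 1 : ℂˣ) : ℂ) = (Nat.card A : ℂ) := by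
  simp only [map_one, Units.val_one, Finset.sum_const, Finset.card_univ, nsmul_eq_mul, mul_one]
  rw [← Nat.card_eq_fintype_card, card_hom]

open Classical in
theorem sum_all [Fintype (A →* ℂˣ)] (y : A) :
    ∑ ψ : A →* ℂˣ, ((ψ y : ℂˣ) : ℂ) = if y = 1 then (Nat.card A : ℂ) else 0 := by
  by_cases h : y = 1
  · subst h
    rw [if_pos rfl, sum_all_one]
  · rw [if_neg h, sum_all_ne h]

/-- The coefficient of `ψ` minus the coefficient of `1`. -/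
noncomputable def coefV (F : A → ℂ) (ψ : A →* ℂˣ) : ℂ :=
  (Nat.card A : ℂ)⁻¹ * ∑ y, F y * (conj ((ψ y : ℂˣ) : ℂ) - 1)

theorem card_ne_zero_c : (Nat.card A : ℂ) ≠ 0 := by
  exact_mod_cast Nat.card_pos.ne'

theorem coefV_one (F : A → ℂ) : coefV F 1 = 0 := by
  simp [coefV]

/-- Fourier inversion. -/
theorem inversion [Fintype (A →* ℂˣ)] (F : A → ℂ) {y₀ : A} (hy : y₀ ≠ 1) :
    ∑ ψ : A →* ℂˣ, coefV F ψ * ((ψ y₀ : ℂˣ) : ℂ) = F y₀ := by
  classical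
  have h1 : ∀ ψ : A →* ℂˣ, coefV F ψ * ((ψ y₀ : ℂˣ) : ℂ) = (Nat.card A : ℂ)⁻¹ * ∑ y, F y *
      (((ψ (y⁻¹ * y₀) : ℂˣ) : ℂ) - ((ψ y₀ : ℂˣ) : ℂ)) := by
    intro ψ
    unfold coefV
    rw [mul_assoc, Finset.sum_mul]
    congr 1
    refine Finset.sum_congr rfl fun y _ => ?_
    rw [mul_assoc, conj_hom, sub_mul, map_mul, Units.val_mul, one_mul]
  simp only [h1]
  rw [← Finset.mul_sum, Finset.sum_comm]
  simp only [← Finset.mul_sum, Finset.sum_sub_distrib, sum_all, if_neg hy, sub_zero]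
  have h2 : ∀ y : A, F y * (if y⁻¹ * y₀ = 1 then (Nat.card A : ℂ) else 0) =
      if y = y₀ then F y₀ * (Nat.card A : ℂ) else 0 := by
    intro y
    by_cases h : y = y₀
    · subst h
      simp
    · have : ¬ y⁻¹ * y₀ = 1 := by
        intro h3
        apply h
        exact (inv_mul_eq_one.1 h3)
      rw [if_neg this, if_neg h, mul_zero]
  simp only [h2]
  rw [Finset.sum_ite_eq' Finset.univ y₀, if_pos (Finset.mem_univ _), mul_comm (F y₀), ← mul_assoc,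
    inv_mul_cancel₀ card_ne_zero_c, one_mul]

/-- A fixed-point-free endomorphism kills no nontrivial character. -/
theorem eq_one_of_comp_eq (f : A →* A) (hf : ∀ y, f y = y → y = 1) {ψ : A →* ℂˣ} (h : ψ.comp f = ψ) :
    ψ = 1 := by
  let g : A →* A := f / MonoidHom.id A
  have hg : Function.Injective g := by
    rw [injective_iff_map_eq_one]
    intro a ha
    apply hf
    have : f a / a = 1 := ha
    exact div_eq_one.1 this
  have hs : Function.Surjective g := Finite.surjective_of_injective hg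
  ext y
  obtain ⟨x, rfl⟩ := hs y
  have h1 : ψ (f x) = ψ x := congrArg (fun k : A →* ℂˣ => k x) h
  have h2 : g x = f x / x := rfl
  rw [h2, map_div, h1, div_self']
  rfl

end Fourier

section Fiber

variable {Γ X : Type*} [Group Γ] [Fintype Γ] [DecidableEq X]

open Classical in
theorem card_fiber (K : Subgroup Γ) (φ : Γ → X) (h : ∀ γ γ', φ γ = φ γ' ↔ γ * γ'⁻¹ ∈ K) (x : X) :
    (Finset.univ.filter fun γ => φ γ = x).card = if ∃ γ, φ γ = x then Nat.card K else 0 := by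
  by_cases hx : ∃ γ, φ γ = x
  · rw [if_pos hx]
    obtain ⟨γ₀, rfl⟩ := hx
    rw [Nat.card_eq_fintype_card, ← Finset.card_univ]
    symm
    refine Finset.card_bij (fun (k : K) _ => (k : Γ) * γ₀) ?_ ?_ ?_
    · intro k _
      rw [Finset.mem_filter]
      refine ⟨Finset.mem_univ _, (h _ _).2 ?_⟩
      simp
    · intro a _ b _ hab
      exact Subtype.ext (mul_right_cancel hab)
    · intro γ hγ
      rw [Finset.mem_filter] at hγ
      have h1 := (h _ _).1 hγ.2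
      refine ⟨⟨_, h1⟩, Finset.mem_univ _, ?_⟩
      simp
  · rw [if_neg hx, Finset.card_eq_zero, Finset.filter_eq_empty_iff]
    intro γ _ h1
    exact hx ⟨γ, h1⟩

end Fiber

section Action

variable {A Γ E : Type*} [CommGroup A] [Fintype A] [Group Γ] [Fintype Γ] (τ : Γ →* MulAut A)

/-- The dual action. -/
def dact (γ : Γ) (ψ : A →* ℂˣ) : A →* ℂˣ := ψ.comp ((τ γ : A ≃* A) : A →* A)

@[simp] theorem dact_apply (γ : Γ) (ψ : A →* ℂˣ) (y : A) : dact τ γ ψ y = ψ (τ γ y) := rfl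

/-- Two characters in the same orbit. -/
def Rel (ψ ψ' : A →* ℂˣ) : Prop := ∃ γ, dact τ γ ψ' = ψ

theorem dact_mul (γ γ' : Γ) (ψ : A →* ℂˣ) : dact τ γ (dact τ γ' ψ) = dact τ (γ' * γ) ψ := by
  ext y
  simp [dact_apply, map_mul, MulAut.mul_apply]

theorem dact_one (ψ : A →* ℂˣ) : dact τ 1 ψ = ψ := by
  ext y
  simp [dact_apply]

theorem rel_refl (ψ : A →* ℂˣ) : Rel τ ψ ψ := ⟨1, dact_one τ ψ⟩

theorem rel_symm {ψ ψ' : A →* ℂˣ} (h : Rel τ ψ ψ') : Rel τ ψ' ψ := by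
  obtain ⟨γ, rfl⟩ := h
  refine ⟨γ⁻¹, ?_⟩
  rw [dact_mul, mul_inv_cancel, dact_one]

theorem rel_trans {ψ ψ' ψ'' : A →* ℂˣ} (h : Rel τ ψ ψ') (h' : Rel τ ψ' ψ'') : Rel τ ψ ψ'' := by
  obtain ⟨γ, rfl⟩ := h
  obtain ⟨γ', rfl⟩ := h'
  refine ⟨γ' * γ, ?_⟩
  rw [dact_mul]

theorem dact_ne_one {ψ : A →* ℂˣ} (h : ψ ≠ 1) (γ : Γ) : dact τ γ ψ ≠ 1 := by
  intro h1
  apply h
  ext y
  have h2 := congrArg (fun k : A →* ℂˣ => k ((τ γ)⁻¹ y)) h1
  simpa [dact_apply] using h2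

theorem rel_ne_one {ψ ψ' : A →* ℂˣ} (hr : Rel τ ψ ψ') (h : ψ ≠ 1) : ψ' ≠ 1 := by
  rintro rfl
  obtain ⟨γ, rfl⟩ := hr
  apply h
  ext y
  simp [dact_apply]

variable (hfree : ∀ γ y, y ≠ 1 → τ γ y = y → γ ∈ τ.ker)

include hfree

theorem dact_eq_self {ψ : A →* ℂˣ} (hψ : ψ ≠ 1) {γ : Γ} (h : dact τ γ ψ = ψ) : γ ∈ τ.ker := by
  by_contra hγ
  apply hψ
  refine eq_one_of_comp_eq ((τ γ : A ≃* A) : A →* A) ?_ h
  intro y hy
  by_contra hy1
  exact hγ (hfree γ y hy1 hy)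

theorem dact_eq_iff {ψ : A →* ℂˣ} (hψ : ψ ≠ 1) (γ γ' : Γ) :
    dact τ γ ψ = dact τ γ' ψ ↔ γ * γ'⁻¹ ∈ τ.ker := by
  constructor
  · intro h
    apply dact_eq_self τ hfree hψ
    have h1 := congrArg (dact τ γ'⁻¹) h
    rw [dact_mul, dact_mul, mul_inv_cancel, dact_one] at h1
    exact h1
  · intro h
    have h1 : τ γ = τ γ' := by
      have h2 : τ (γ * γ'⁻¹) = 1 := h
      rw [map_mul, map_inv] at h2
      exact mul_inv_eq_one.1 h2
    ext y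
    simp [dact_apply, h1]

theorem act_eq_iff {y : A} (hy : y ≠ 1) (γ γ' : Γ) :
    τ γ y = τ γ' y ↔ γ * γ'⁻¹ ∈ τ.ker := by
  constructor
  · intro h
    have h1 : γ'⁻¹ * γ ∈ τ.ker := by
      apply hfree _ y hy
      rw [map_mul, MulAut.mul_apply, h, map_inv]
      simp
    have h2 : γ * γ'⁻¹ = γ' * (γ'⁻¹ * γ) * γ'⁻¹ := by group
    rw [h2]
    exact (inferInstance : τ.ker.Normal).conj_mem _ h1 γ'
  · intro h
    have h1 : τ γ = τ γ' := by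
      have h2 : τ (γ * γ'⁻¹) = 1 := h
      rw [map_mul, map_inv] at h2
      exact mul_inv_eq_one.1 h2
    rw [h1]

open Classical in
theorem card_rel_fiber {ψ : A →* ℂˣ} (ψ' : A →* ℂˣ) (hψ' : ψ' ≠ 1) :
    (Finset.univ.filter fun γ => dact τ γ ψ' = ψ).card = if Rel τ ψ ψ' then Nat.card τ.ker else 0 := by
  have := card_fiber τ.ker (fun γ => dact τ γ ψ') (dact_eq_iff τ hfree hψ') ψ
  rw [this]
  exact if_congr Iff.rfl rfl rfl

open Classical in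
theorem card_act_fiber {y : A} (hy : y ≠ 1) (y' : A) :
    (Finset.univ.filter fun γ => τ γ y = y').card = if ∃ γ, τ γ y = y' then Nat.card τ.ker else 0 := by
  have := card_fiber τ.ker (fun γ => τ γ y) (act_eq_iff τ hfree hy) y'
  convert this using 1

omit hfree in
theorem sum_sub_sub {ψ φ : A →* ℂˣ} (hψ : ψ ≠ 1) (hφ : φ ≠ 1) [Decidable (φ = ψ)] :
    ∑ y, (conj ((ψ y : ℂˣ) : ℂ) - 1) * (((φ y : ℂˣ) : ℂ) - 1) =
      (Nat.card A : ℂ) * ((if φ = ψ then 1 else 0) + 1) := by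
  classical
  have h1 : ∀ y, (conj ((ψ y : ℂˣ) : ℂ) - 1) * (((φ y : ℂˣ) : ℂ) - 1) =
      conj ((ψ y : ℂˣ) : ℂ) * ((φ y : ℂˣ) : ℂ) - conj ((ψ y : ℂˣ) : ℂ) - ((φ y : ℂˣ) : ℂ) + 1 := by
    intro y
    ring
  simp only [h1, Finset.sum_add_distrib, Finset.sum_sub_distrib, sum_conj_ne hψ, sum_hom_ne hφ, sum_conj_mul]
  simp only [Finset.sum_const, Finset.card_univ, nsmul_eq_mul, mul_one, ← Nat.card_eq_fintype_card]
  by_cases h : φ = ψ
  · simp only [h, if_true, zero_add, mul_add, mul_one]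
    ring
  · simp [h]

end Action

end Cfsg.Agent.Lib.Block.Exc
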