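import Cfsg.Agent.Lib.Block.ExcB

/-!
# The abstract exceptional-character theorem
-/

set_option autoImplicit false
set_option linter.unusedSectionVars false
set_option linter.unusedSimpArgs false
set_option linter.unusedVariables false

open scoped ComplexConjugate

namespace Cfsg.Agent.Lib.Block.Exc

section Main

variable {A Γ E : Type*} [CommGroup A] [Fintype A] [Group Γ] [Fintype Γ] [Fintype E] (τ : Γ →* MulAut A)
  (hfree : ∀ γ y, y ≠ 1 → τ γ y = y → γ ∈ τ.ker) (X : E → A → ℂ)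

include hfree

open Classical in
/-- The norm computation. -/
theorem inner_coefV
    (hK : ∀ y, y ≠ 1 → ∀ y', (∑ e, X e y * conj (X e y')) * (Nat.card τ.ker : ℂ) =
      (Nat.card A : ℂ) * ((Finset.univ.filter fun γ => τ γ y = y').card : ℂ))
    {ψ ψ' : A →* ℂˣ} (hψ : ψ ≠ 1) (hψ' : ψ' ≠ 1) :
    ∑ e, coefV (X e) ψ * conj (coefV (X e) ψ') = (τ.ker.index : ℂ) + if Rel τ ψ ψ' then 1 else 0 := by
  have ha : (Nat.card A : ℂ) ≠ 0 := card_ne_zero_c
  have hc : (Nat.card τ.ker : ℂ) ≠ 0 := by exact_mod_cast Nat.card_pos.ne'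
  obtain ⟨a, ha'⟩ : ∃ a : ℂ, a = (Nat.card A : ℂ) := ⟨_, rfl⟩
  obtain ⟨c, hc'⟩ : ∃ c : ℂ, c = (Nat.card τ.ker : ℂ) := ⟨_, rfl⟩
  rw [← ha', ← hc'] at hK
  rw [← ha'] at ha
  rw [← hc'] at hc
  -- conjugate of the coefficient
  have h1 : ∀ e, conj (coefV (X e) ψ') = a⁻¹ * ∑ y', conj (X e y') * (((ψ' y' : ℂˣ) : ℂ) - 1) := by
    intro e
    unfold coefV
    rw [map_mul, map_inv₀, map_natCast, map_sum, ← ha']
    congr 1
    refine Finset.sum_congr rfl fun y _ => ?_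
    rw [map_mul, map_sub, map_one, Complex.conj_conj]
  have h2 : ∀ e, coefV (X e) ψ = a⁻¹ * ∑ y, X e y * (conj ((ψ y : ℂˣ) : ℂ) - 1) := by
    intro e
    unfold coefV
    rw [← ha']
  -- expand
  have h3 : ∑ e, coefV (X e) ψ * conj (coefV (X e) ψ') =
      a⁻¹ * a⁻¹ * ∑ y, (conj ((ψ y : ℂˣ) : ℂ) - 1) * ∑ y', (((ψ' y' : ℂˣ) : ℂ) - 1) * ∑ e, X e y * conj (X e y') := by
    simp only [h1, h2]
    calc ∑ e, (a⁻¹ * ∑ y, X e y * (conj ((ψ y : ℂˣ) : ℂ) - 1)) * (a⁻¹ * ∑ y', conj (X e y') * (((ψ' y' : ℂˣ) : ℂ) - 1))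
        = a⁻¹ * a⁻¹ * ∑ e, ∑ y, ∑ y', ((conj ((ψ y : ℂˣ) : ℂ) - 1) * ((((ψ' y' : ℂˣ) : ℂ) - 1) * (X e y * conj (X e y')))) := by
          rw [Finset.mul_sum]
          refine Finset.sum_congr rfl fun e _ => ?_
          rw [mul_mul_mul_comm, Finset.sum_mul_sum]
          congr 1
          refine Finset.sum_congr rfl fun y _ => ?_
          refine Finset.sum_congr rfl fun y' _ => ?_
          ring
      _ = _ := by
          congr 1
          rw [Finset.sum_comm]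
          refine Finset.sum_congr rfl fun y _ => ?_
          simp only [Finset.mul_sum]
          rw [Finset.sum_comm]
  -- the inner sum
  have h4 : ∀ y, y ≠ 1 → ∑ y', (((ψ' y' : ℂˣ) : ℂ) - 1) * ∑ e, X e y * conj (X e y') =
      a * c⁻¹ * ∑ γ, (((ψ' (τ γ y) : ℂˣ) : ℂ) - 1) := by
    intro y hy
    have h5 : ∀ y', ∑ e, X e y * conj (X e y') = a * c⁻¹ * ((Finset.univ.filter fun γ => τ γ y = y').card : ℂ) := by
      intro y'
      have := hK y hy y'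
      field_simp
      rw [this]
    simp only [h5]
    have h6 : ∑ γ, (((ψ' (τ γ y) : ℂˣ) : ℂ) - 1) = ∑ y', ∑ γ ∈ Finset.univ.filter (fun γ => τ γ y = y'), (((ψ' (τ γ y) : ℂˣ) : ℂ) - 1) := by
      convert (Finset.sum_fiberwise Finset.univ (fun γ => τ γ y) (fun γ => ((ψ' (τ γ y) : ℂˣ) : ℂ) - 1)).symm
    rw [h6, Finset.mul_sum]
    refine Finset.sum_congr rfl fun y' _ => ?_
    have h7 : ∑ γ ∈ Finset.univ.filter (fun γ => τ γ y = y'), (((ψ' (τ γ y) : ℂˣ) : ℂ) - 1) =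
        ((Finset.univ.filter fun γ => τ γ y = y').card : ℂ) * (((ψ' y' : ℂˣ) : ℂ) - 1) := by
      rw [← nsmul_eq_mul, ← Finset.sum_const]
      refine Finset.sum_congr rfl fun γ hγ => ?_
      rw [(Finset.mem_filter.1 hγ).2]
    rw [h7]
    ring
  have h8 : ∀ y, (conj ((ψ y : ℂˣ) : ℂ) - 1) * ∑ y', (((ψ' y' : ℂˣ) : ℂ) - 1) * ∑ e, X e y * conj (X e y') =
      a * c⁻¹ * ∑ γ, (conj ((ψ y : ℂˣ) : ℂ) - 1) * (((dact τ γ ψ' y : ℂˣ) : ℂ) - 1) := by
    intro y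
    by_cases hy : y = 1
    · subst hy
      simp
    · rw [h4 y hy, Finset.mul_sum, Finset.mul_sum, Finset.mul_sum]
      refine Finset.sum_congr rfl fun γ _ => ?_
      rw [dact_apply]
      ring
  rw [h3]
  simp only [h8]
  rw [← Finset.mul_sum, Finset.sum_comm]
  have h9 : ∀ γ, ∑ y, (conj ((ψ y : ℂˣ) : ℂ) - 1) * (((dact τ γ ψ' y : ℂˣ) : ℂ) - 1) =
      a * ((if dact τ γ ψ' = ψ then 1 else 0) + 1) := by
    intro γ
    rw [sum_sub_sub hψ (dact_ne_one τ hψ' γ), ha']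
  simp only [h9]
  rw [← Finset.mul_sum, Finset.sum_add_distrib]
  have h10 : ∑ γ : Γ, (if dact τ γ ψ' = ψ then (1 : ℂ) else 0) = if Rel τ ψ ψ' then c else 0 := by
    rw [Finset.sum_boole, card_rel_fiber τ hfree ψ' hψ']
    by_cases h : Rel τ ψ ψ'
    · simp [h, hc']
    · simp [h]
  rw [h10]
  have h11 : ∑ γ : Γ, (1 : ℂ) = (τ.ker.index : ℂ) * c := by
    rw [hc']
    simp only [Finset.sum_const, Finset.card_univ, nsmul_eq_mul, mul_one]
    rw [← Nat.card_eq_fintype_card]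
    have := Subgroup.card_mul_index τ.ker
    rw [← this]
    push_cast
    ring
  rw [h11]
  by_cases h : Rel τ ψ ψ'
  · simp only [h, if_true]
    field_simp
    ring
  · simp only [h, if_false]
    field_simp
    ring

omit hfree in
theorem coefV_dact (hinv : ∀ e γ y, X e (τ γ y) = X e y) (e : E) (γ : Γ) (ψ : A →* ℂˣ) :
    coefV (X e) (dact τ γ ψ) = coefV (X e) ψ := by
  unfold coefV
  congr 1
  refine Fintype.sum_equiv (τ γ).toEquiv _ _ fun y => ?_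
  simp only [dact_apply, MulEquiv.toEquiv_eq_coe, MulEquiv.coe_toEquiv]
  rw [hinv]


open Classical in
/-- The size of an orbit of nontrivial characters. -/
theorem card_orbit [Fintype (A →* ℂˣ)] {ψ : A →* ℂˣ} (hψ : ψ ≠ 1) :
    (Finset.univ.filter fun ψ' => Rel τ ψ ψ').card = τ.ker.index := by
  have h1 : ∑ ψ' : A →* ℂˣ, (Finset.univ.filter fun γ => dact τ γ ψ' = ψ).card = Nat.card Γ := by
    have h2 : ∀ ψ' : A →* ℂˣ, (Finset.univ.filter fun γ => dact τ γ ψ' = ψ).card =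
        ∑ γ : Γ, if dact τ γ ψ' = ψ then 1 else 0 := by
      intro ψ'
      rw [Finset.card_filter]
    simp only [h2]
    rw [Finset.sum_comm]
    have h3 : ∀ γ : Γ, ∑ ψ' : A →* ℂˣ, (if dact τ γ ψ' = ψ then 1 else 0) = 1 := by
      intro γ
      rw [Finset.sum_eq_single (dact τ γ⁻¹ ψ)]
      · rw [if_pos]
        rw [dact_mul, inv_mul_cancel, dact_one]
      · intro ψ' _ hne
        rw [if_neg]
        intro h
        apply hne
        rw [← h, dact_mul, mul_inv_cancel, dact_one]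
      · intro h
        exact absurd (Finset.mem_univ _) h
    simp only [h3]
    simp [Nat.card_eq_fintype_card]
  have h4 : ∀ ψ' : A →* ℂˣ, (Finset.univ.filter fun γ => dact τ γ ψ' = ψ).card =
      if Rel τ ψ ψ' then Nat.card τ.ker else 0 := by
    intro ψ'
    by_cases h : ψ' = 1
    · subst h
      rw [if_neg, Finset.card_eq_zero, Finset.filter_eq_empty_iff]
      · intro γ _ h5
        apply hψ
        rw [← h5]
        ext y
        simp
      · intro h5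
        exact rel_ne_one τ h5 hψ rfl
    · exact card_rel_fiber τ hfree ψ' h
  simp only [h4] at h1
  rw [Finset.sum_ite, Finset.sum_const, Finset.sum_const_zero, add_zero, smul_eq_mul] at h1
  have h5 := Subgroup.card_mul_index τ.ker
  rw [← h5, mul_comm] at h1
  exact Nat.eq_of_mul_eq_mul_left Nat.card_pos h1

theorem exists_other_orbit [Fintype (A →* ℂˣ)] {ψ : A →* ℂˣ} (hψ : ψ ≠ 1) (hm : τ.ker.index + 1 < Nat.card A) :
    ∃ ψ', ψ' ≠ 1 ∧ ¬ Rel τ ψ ψ' := by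
  classical
  by_contra hcon
  push Not at hcon
  have h1 : (Finset.univ.erase (1 : A →* ℂˣ)) ⊆ (Finset.univ.filter fun ψ' => Rel τ ψ ψ') := by
    intro ψ' h
    rw [Finset.mem_filter]
    exact ⟨Finset.mem_univ _, hcon ψ' (Finset.mem_erase.1 h).1⟩
  have h2 := Finset.card_le_card h1
  rw [card_orbit τ hfree hψ, Finset.card_erase_of_mem (Finset.mem_univ _), Finset.card_univ,
    ← Nat.card_eq_fintype_card, card_hom] at h2
  omega

omit hfree in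
theorem sum_coefV_mul (c : E → ℂ) (hc0 : ∀ y, y ≠ 1 → ∑ e, X e y * c e = 0) (ψ : A →* ℂˣ) :
    ∑ e, coefV (X e) ψ * c e = 0 := by
  unfold coefV
  simp only [mul_assoc, Finset.sum_mul, ← Finset.mul_sum]
  rw [Finset.sum_comm]
  have h : ∀ y, ∑ e, X e y * ((conj ((ψ y : ℂˣ) : ℂ) - 1) * c e) = 0 := by
    intro y
    by_cases hy : y = 1
    · subst hy
      simp
    · have h1 : ∀ e, X e y * ((conj ((ψ y : ℂˣ) : ℂ) - 1) * c e) = (conj ((ψ y : ℂˣ) : ℂ) - 1) * (X e y * c e) := by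
        intro e
        ring
      simp only [h1]
      rw [← Finset.mul_sum, hc0 y hy, mul_zero]
  simp only [h]
  simp

open Classical in
/-- **The abstract exceptional character theorem.** -/
theorem exc_abstract
    (hinv : ∀ e γ y, X e (τ γ y) = X e y)
    (hK : ∀ y, y ≠ 1 → ∀ y', (∑ e, X e y * conj (X e y')) * (Nat.card τ.ker : ℂ) =
      (Nat.card A : ℂ) * ((Finset.univ.filter fun γ => τ γ y = y').card : ℂ))
    (hV : ∀ e ψ, ∃ n : ℤ, coefV (X e) ψ = n)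
    (c : E → ℤ) (hc : ∀ e, 0 < c e) (hc0 : ∀ y, y ≠ 1 → ∑ e, X e y * (c e : ℂ) = 0)
    (ψ₁ ψ₂ : A →* ℂˣ) (h₁ : ψ₁ ≠ 1) (h₂ : ψ₂ ≠ 1) (h₁₂ : ¬ Rel τ ψ₁ ψ₂) :
    ∃ (δ : ℤ) (ζ : (A →* ℂˣ) → E) (w : E → ℤ), (δ = 1 ∨ δ = -1) ∧
      (∀ ψ ψ', ψ ≠ 1 → ψ' ≠ 1 → (ζ ψ = ζ ψ' ↔ Rel τ ψ ψ')) ∧
      (∀ ψ, ψ ≠ 1 → ∀ e, coefV (X e) ψ = ((w e + δ * (if e = ζ ψ then 1 else 0) : ℤ) : ℂ)) := by
  choose n hn using hV
  have hnrel : ∀ e ψ ψ', Rel τ ψ ψ' → n e ψ = n e ψ' := by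
    rintro e _ ψ' ⟨γ, rfl⟩
    have h1 := hn e (dact τ γ ψ')
    rw [coefV_dact τ X hinv, hn e ψ'] at h1
    exact_mod_cast h1.symm
  let s : Setoid {ψ : A →* ℂˣ // ψ ≠ 1} :=
    ⟨fun a b => Rel τ a.1 b.1, ⟨fun a => rel_refl τ a.1, fun h => rel_symm τ h, fun h h' => rel_trans τ h h'⟩⟩
  let v : Quotient s → E → ℤ := fun i e => Quotient.lift (fun a : {ψ : A →* ℂˣ // ψ ≠ 1} => n e a.1)
    (fun a b hab => hnrel e a.1 b.1 hab) i
  have hnn : ∀ i j, ∑ e, v i e * v j e = if i = j then (τ.ker.index : ℤ) + 1 else (τ.ker.index : ℤ) := by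
    intro i j
    induction i using Quotient.ind with
    | _ a =>
    induction j using Quotient.ind with
    | _ b =>
    have h1 := inner_coefV τ hfree X hK a.2 b.2
    have h2 : ∑ e, coefV (X e) a.1 * conj (coefV (X e) b.1) = ((∑ e, n e a.1 * n e b.1 : ℤ) : ℂ) := by
      push_cast
      refine Finset.sum_congr rfl fun e _ => ?_
      rw [hn e a.1, hn e b.1]
      simp
    rw [h2] at h1
    show ∑ e, n e a.1 * n e b.1 = _
    have h3 : ((⟦a⟧ : Quotient s) = ⟦b⟧) ↔ Rel τ a.1 b.1 := Quotient.eq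
    by_cases hab : Rel τ a.1 b.1
    · rw [if_pos (h3.2 hab)]
      rw [if_pos hab] at h1
      exact_mod_cast h1
    · rw [if_neg (fun h => hab (h3.1 h))]
      rw [if_neg hab, add_zero] at h1
      exact_mod_cast h1
  have hreg0 : ∀ ψ, ∑ e, n e ψ * c e = 0 := by
    intro ψ
    have h1 := sum_coefV_mul X (fun e => (c e : ℂ)) hc0 ψ
    have h2 : ∑ e, coefV (X e) ψ * (c e : ℂ) = ((∑ e, n e ψ * c e : ℤ) : ℂ) := by
      push_cast
      refine Finset.sum_congr rfl fun e _ => ?_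
      rw [hn e ψ]
    rw [h2] at h1
    exact_mod_cast h1
  have hreg : ∀ i j, ∑ e, (v i e - v j e) * c e = 0 := by
    intro i j
    induction i using Quotient.ind with
    | _ a =>
    induction j using Quotient.ind with
    | _ b =>
    show ∑ e, (n e a.1 - n e b.1) * c e = 0
    simp only [sub_mul, Finset.sum_sub_distrib]
    rw [hreg0, hreg0, sub_zero]
  have hne : (⟦⟨ψ₂, h₂⟩⟧ : Quotient s) ≠ ⟦⟨ψ₁, h₁⟩⟧ := by
    intro h
    exact h₁₂ (rel_symm τ (Quotient.eq.1 h))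
  obtain ⟨δ, ζI, hδ, hinj, hcoh⟩ := coherence v c hc (τ.ker.index : ℤ) hnn hreg ⟦⟨ψ₁, h₁⟩⟧ ⟨_, hne⟩
  let ζ : (A →* ℂˣ) → E := fun ψ => if h : ψ ≠ 1 then ζI ⟦⟨ψ, h⟩⟧ else ζI ⟦⟨ψ₁, h₁⟩⟧
  have hζ : ∀ ψ (h : ψ ≠ 1), ζ ψ = ζI ⟦⟨ψ, h⟩⟧ := fun ψ h => dif_pos h
  refine ⟨δ, ζ, fun e => n e ψ₁ - δ * (if e = ζ ψ₁ then 1 else 0), hδ, ?_, ?_⟩
  · intro ψ ψ' h h'
    rw [hζ ψ h, hζ ψ' h', hinj.eq_iff]
    exact Quotient.eq
  · intro ψ hψ e
    rw [hn e ψ]
    have h1 := hcoh ⟦⟨ψ, hψ⟩⟧ e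
    have h2 : v ⟦⟨ψ₁, h₁⟩⟧ e = n e ψ₁ := rfl
    have h3 : v ⟦⟨ψ, hψ⟩⟧ e = n e ψ := rfl
    rw [h2, h3, ← hζ ψ₁ h₁, ← hζ ψ hψ] at h1
    unfold dvec at h1
    have h4 : n e ψ = n e ψ₁ - δ * (if e = ζ ψ₁ then 1 else 0) + δ * (if e = ζ ψ then 1 else 0) := by
      linarith
    rw [h4]

end Main

end Cfsg.Agent.Lib.Block.Exc
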