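import Cfsg.Agent.Lib.Block.ExcC
import Cfsg.Agent.Lib.Block.Principal
import Cfsg.Agent.Lib.Block.CentralDefect3
import Cfsg.Agent.Lib.Techniques.Fusion

/-!
# The principal block of a group whose Sylow normalizer is of Frobenius type: local facts
-/

set_option autoImplicit false
set_option linter.unusedSectionVars false
set_option linter.unusedSimpArgs false
set_option linter.unusedVariables false

open scoped ComplexConjugate
open Cfsg Cfsg.Agent.Lib.Char

namespace Cfsg.Agent.Lib.Block.Exc

section Group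

variable {G : Type*} [Group G] [Fintype G] {p : ℕ} [hp : Fact p.Prime] {M : Ideal AlgInt}
  (P : Sylow p G)

theorem P_le_centralizer (hab : ∀ a b : ↥(P : Subgroup G), a * b = b * a) {y : G} (hy : y ∈ (P : Subgroup G)) :
    (P : Subgroup G) ≤ Subgroup.centralizer ({y} : Set G) := by
  intro x hx
  rw [Subgroup.mem_centralizer_singleton_iff]
  exact congrArg Subtype.val (hab ⟨x, hx⟩ ⟨y, hy⟩)

variable (hab : ∀ a b : ↥(P : Subgroup G), a * b = b * a)
  (hfrob : ∀ y : G, y ∈ (P : Subgroup G) → y ≠ 1 →
    Subgroup.centralizer ({y} : Set G) ⊓ Subgroup.normalizer ((P : Subgroup G) : Set G) =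
      Subgroup.centralizer ((P : Subgroup G) : Set G))

include hab hfrob

/-- Burnside: the centralizer of a nontrivial element of `P` has a normal `p`-complement. -/
theorem exists_complement {y : G} (hy : y ∈ (P : Subgroup G)) (h1 : y ≠ 1) :
    ∃ K : Subgroup (Subgroup.centralizer ({y} : Set G)), K.Normal ∧ ¬ p ∣ Nat.card K ∧ ∃ k : ℕ, K.index = p ^ k := by
  classical
  have hle := P_le_centralizer P hab hy
  obtain ⟨H, hH⟩ : ∃ H, H = Subgroup.centralizer ({y} : Set G) := ⟨_, rfl⟩
  rw [← hH] at hle ⊢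
  let Q : Sylow p H := P.subtype hle
  have hmem : ∀ x : H, x ∈ (Q : Set H) ↔ (x : G) ∈ (P : Subgroup G) := fun x => Iff.rfl
  have hQ : Subgroup.normalizer (Q : Set H) ≤ Subgroup.centralizer (Q : Set H) := by
    intro c hc
    have hc' : (c : G) ∈ Subgroup.normalizer ((P : Subgroup G) : Set G) := by
      rw [Subgroup.mem_normalizer_iff]
      intro h
      constructor
      · intro hh
        have h2 : (⟨h, hle hh⟩ : H) ∈ (Q : Set H) := (hmem _).2 hh
        have h3 := (Subgroup.mem_set_normalizer_iff.1 hc _).1 h2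
        exact (hmem _).1 h3
      · intro hh
        have hhH : h ∈ H := by
          have h4 := hle hh
          have h5 : h = (c : G)⁻¹ * ((c : G) * h * (c : G)⁻¹) * (c : G) := by group
          rw [h5]
          exact H.mul_mem (H.mul_mem (H.inv_mem c.2) h4) c.2
        have h6 : c * (⟨h, hhH⟩ : H) * c⁻¹ ∈ (Q : Set H) := (hmem _).2 hh
        have h7 := (Subgroup.mem_set_normalizer_iff.1 hc _).2 h6
        exact (hmem _).1 h7
    have hcc : (c : G) ∈ Subgroup.centralizer ((P : Subgroup G) : Set G) := by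
      rw [← hfrob y hy h1]
      refine ⟨?_, hc'⟩
      rw [← hH]
      exact c.2
    rw [Subgroup.mem_centralizer_iff]
    intro h hh
    have h8 := Subgroup.mem_centralizer_iff.1 hcc h ((hmem _).1 hh)
    exact Subtype.ext h8
  refine ⟨(MonoidHom.transferSylow Q hQ).ker, inferInstance, MonoidHom.not_dvd_card_ker_transferSylow Q hQ, ?_⟩
  refine ⟨(Nat.card H).factorization p, ?_⟩
  rw [(MonoidHom.ker_transferSylow_isComplement' Q hQ).symm.index_eq_card]
  exact Sylow.card_eq_multiplicity Q

/-- Values of the characters of the principal block on the sections of `P`. -/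
theorem value_eq (hM : IsPModular p M) {χ : IrrCharacter G} (hχ : χ ∈ principalBlock M G) {z y : G}
    (hzy : IsPPart p z y) (hy : y ∈ (P : Subgroup G)) (h1 : y ≠ 1) : (χ : G → ℂ) z = (χ : G → ℂ) y := by
  classical
  obtain ⟨u, rfl, hcomm, hyp, hu⟩ := hzy
  obtain ⟨K, hKn, hK', hidx⟩ := exists_complement P hab hfrob hy h1
  have huC : u ∈ Subgroup.centralizer ({y} : Set G) := by
    rw [Subgroup.mem_centralizer_singleton_iff]
    exact hcomm.eq.symm
  have hu' : ¬ p ∣ orderOf (⟨u, huC⟩ : Subgroup.centralizer ({y} : Set G)) := by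
    rwa [Subgroup.orderOf_mk]
  have huK : (⟨u, huC⟩ : Subgroup.centralizer ({y} : Set G)) ∈ K := mem_of_regular_of_index K hidx hu'
  have hKle : K ≤ pPrimeCore p (Subgroup.centralizer ({y} : Set G)) :=
    Cfsg.Agent.Lib.Core.le_pPrimeCore hKn ((Nat.Prime.coprime_iff_not_dvd hp.out).2 hK').symm
  exact irr_mul_of_principal hM hyp ⟨_, hKle huK, rfl⟩ χ hχ

/-- The sum of squares at a nontrivial element of `P`. -/
theorem sum_self (hM : IsPModular p M) {y : G} (hy : y ∈ (P : Subgroup G)) (h1 : y ≠ 1) :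
    open Classical in
    ∑ ζ : IrrCharacter G, (if ζ ∈ principalBlock M G then conj ((ζ : G → ℂ) y) * (ζ : G → ℂ) y else 0) =
      (Nat.card (P : Subgroup G) : ℂ) := by
  classical
  have hle := P_le_centralizer P hab hy
  obtain ⟨K, hKn, hK', hidx⟩ := exists_complement P hab hfrob hy h1
  have hyp : ∃ k, orderOf y = p ^ k := by
    obtain ⟨h2, _⟩ : IsPPart p y y ∧ True := ⟨isPPart_of_pElement P.2 hy, trivial⟩
    obtain ⟨_, _, _, h3, _⟩ := h2
    exact h3
  haveI : Fintype (Subgroup.centralizer ({y} : Set G)) := Fintype.ofFinite _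
  haveI : Fintype K := Fintype.ofFinite _
  have h2 := sum_principal_section hM hyp (1 : Subgroup.centralizer ({y} : Set G))
    (by simpa using hp.out.one_lt.ne')
  have h3 := sum_principal_pNilpotent (G := Subgroup.centralizer ({y} : Set G)) hM K hK' hidx 1
    (by simpa using hp.out.one_lt.ne')
  simp only [Subgroup.coe_one, mul_one] at h2
  rw [h2]
  refine h3.trans ?_
  have h4 := Sylow.card_eq_multiplicity (P.subtype hle)
  have h5 : Nat.card (P.subtype hle) = Nat.card (P : Subgroup G) := by
    rw [Nat.card_congr (Subgroup.subgroupOfEquivOfLe hle).toEquiv.symm]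
    simp [Sylow.coe_subtype]
  rw [← h5, h4]

omit hab hfrob in
/-- Burnside fusion for `P`. -/
theorem fusion (hab : ∀ a b : ↥(P : Subgroup G), a * b = b * a) {y y' : G} (hy : y ∈ (P : Subgroup G)) (hy' : y' ∈ (P : Subgroup G))
    (h : IsConj y y') : ∃ n ∈ Subgroup.normalizer ((P : Subgroup G) : Set G), n * y * n⁻¹ = y' := by
  obtain ⟨g, hg⟩ := isConj_iff.1 h
  refine Cfsg.Agent.Lib.Techniques.burnside_fusion (p := p) ?_ ?_ ?_ hg
  · refine ⟨le_top, P.2, ?_⟩
    rw [Subgroup.relIndex_top_right]
    exact P.not_dvd_index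
  · intro z hz
    exact congrArg Subtype.val (hab ⟨z, hz⟩ ⟨y, hy⟩)
  · intro z hz
    exact congrArg Subtype.val (hab ⟨z, hz⟩ ⟨y', hy'⟩)

omit hab hfrob in
/-- The conjugation homomorphism. -/
theorem tau_val (γ : Subgroup.normalizer ((P : Subgroup G) : Set G)) (y : ↥(P : Subgroup G)) :
    (((P : Subgroup G).normalizerMonoidHom γ y : ↥(P : Subgroup G)) : G) = (γ : G) * y * (γ : G)⁻¹ := rfl

theorem tau_free (γ : Subgroup.normalizer ((P : Subgroup G) : Set G)) (y : ↥(P : Subgroup G)) (hy : y ≠ 1)
    (h : (P : Subgroup G).normalizerMonoidHom γ y = y) : γ ∈ (P : Subgroup G).normalizerMonoidHom.ker := by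
  have h1 : (γ : G) * y * (γ : G)⁻¹ = y := by
    rw [← tau_val]
    exact congrArg Subtype.val h
  have h2 : (γ : G) ∈ Subgroup.centralizer ({(y : G)} : Set G) := by
    rw [Subgroup.mem_centralizer_singleton_iff]
    rw [mul_inv_eq_iff_eq_mul] at h1
    exact h1
  have h3 : (y : G) ≠ 1 := fun h => hy (Subtype.ext h)
  have h4 : (γ : G) ∈ Subgroup.centralizer ((P : Subgroup G) : Set G) := by
    rw [← hfrob y y.2 h3]
    exact ⟨h2, γ.2⟩
  rw [Subgroup.normalizerMonoidHom_ker]
  exact h4

omit hfrob in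
theorem ker_index (m : ℕ)
    (hCN : (Subgroup.centralizer ((P : Subgroup G) : Set G)).relIndex (Subgroup.normalizer ((P : Subgroup G) : Set G)) = m) :
    (P : Subgroup G).normalizerMonoidHom.ker.index = m := by
  rw [Subgroup.normalizerMonoidHom_ker]
  exact hCN

/-- A character of the principal block, different from the principal character, does not vanish on
all nontrivial elements of `P`. -/
theorem not_vanish (hM : IsPModular p M) {χ : IrrCharacter G} (hχ : χ ∈ principalBlock M G)
    (hne : (χ : G → ℂ) ≠ fun _ => 1)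
    (hv : ∀ y ∈ (P : Subgroup G), y ≠ 1 → (χ : G → ℂ) y = 0) : False := by
  classical
  have := isPModular_isPrime hM
  have hsing : ∀ g : G, p ∣ orderOf g → (χ : G → ℂ) g = 0 := by
    intro g hg
    obtain ⟨z, hz⟩ := isPPart_exists (p := p) g
    obtain ⟨u, he, hcomm, hzp, hu⟩ := hz
    have hz1 : z ≠ 1 := by
      rintro rfl
      apply hu
      have h2 : u = g := by simpa using he
      rwa [h2]
    -- conjugate `z` into `P`
    have hQ : IsPGroup p (Subgroup.zpowers z) := isPGroup_zpowers_of_orderOf hzp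
    obtain ⟨Q, hQle⟩ := hQ.exists_le_sylow
    obtain ⟨x, hx⟩ := MulAction.exists_smul_eq G Q P
    have hzQ : z ∈ (Q : Subgroup G) := hQle (Subgroup.mem_zpowers z)
    have hy : x * z * x⁻¹ ∈ (P : Subgroup G) := by
      rw [← hx]
      exact Subgroup.mem_map_of_mem _ hzQ
    have hy1 : x * z * x⁻¹ ≠ 1 := by
      intro h
      apply hz1
      have h2 : x * z = x := by
        rw [mul_inv_eq_one] at h
        exact h
      simpa using h2
    have hpart : IsPPart p (x * g * x⁻¹) (x * z * x⁻¹) := by
      refine ⟨x * u * x⁻¹, ?_, ?_, ?_, ?_⟩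
      · rw [← he]
        group
      · show x * z * x⁻¹ * (x * u * x⁻¹) = x * u * x⁻¹ * (x * z * x⁻¹)
        calc x * z * x⁻¹ * (x * u * x⁻¹) = x * (z * u) * x⁻¹ := by group
          _ = x * (u * z) * x⁻¹ := by rw [hcomm.eq]
          _ = x * u * x⁻¹ * (x * z * x⁻¹) := by group
      · rwa [orderOf_conj]
      · rwa [orderOf_conj]
    have h3 := value_eq P hab hfrob hM hχ hpart hy hy1
    have hcf := IsCharacter.isClassFunction (IsIrrCharacter.isCharacter χ.2)
    rw [hcf g x] at h3
    rw [h3, hv _ hy hy1]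
  -- the sum over regular elements
  have hsum : tr (χ : G → ℂ) (regSum G p) = 0 := by
    rw [tr_regSum, Finset.sum_filter]
    have h1 : ∀ x : G, (if ¬ p ∣ orderOf x then (χ : G → ℂ) x else 0) = (χ : G → ℂ) x := by
      intro x
      by_cases h : p ∣ orderOf x
      · simp [h, hsing x h]
      · simp [h]
    simp only [h1]
    have h2 := classInner_irr_of_ne χ.2 isIrrCharacter_one hne
    rw [classInner_def] at h2
    simp only [map_one, mul_one] at h2
    rcases mul_eq_zero.1 h2 with h3 | h3
    · exfalso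
      exact card_ne_zero_complex G (inv_eq_zero.1 h3)
    · exact h3
  have h4 := memLocalIdeal_om_sub (oneIrr G).2 χ.2 hχ (isCentralElt_regSum p) (localCoeff_regSum p)
  have h5 : om (χ : G → ℂ) (regSum G p) = 0 := by
    unfold om
    rw [hsum, zero_div]
  rw [h5, sub_zero, oneIrr_coe, om_one_regSum] at h4
  exact not_memLocalIdeal_card_regular hM h4

end Group

end Cfsg.Agent.Lib.Block.Exc
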