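import Cfsg.Agent.Lib.Block.ExcC

/-!
# The abstract exceptional-character theorem: consequences, with sums over a finite set
-/

set_option autoImplicit false
set_option linter.unusedSectionVars false
set_option linter.unusedSimpArgs false
set_option linter.unusedVariables false

open scoped ComplexConjugate

namespace Cfsg.Agent.Lib.Block.Exc

section Main

variable {A Γ E : Type*} [CommGroup A] [Fintype A] [Group Γ] [Fintype Γ] (τ : Γ →* MulAut A)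

theorem value_formula [Fintype (A →* ℂˣ)] (F : A → ℂ) (W δ : ℤ) (S : (A →* ℂˣ) → Prop) [DecidablePred S]
    (h : ∀ ψ, ψ ≠ 1 → coefV F ψ = ((W + δ * (if S ψ then 1 else 0) : ℤ) : ℂ)) {y₀ : A} (hy : y₀ ≠ 1) :
    F y₀ = -(W : ℂ) + (δ : ℂ) * ∑ ψ ∈ Finset.univ.filter (fun ψ : A →* ℂˣ => ψ ≠ 1 ∧ S ψ), ((ψ y₀ : ℂˣ) : ℂ) := by
  classical
  rw [← inversion F hy]
  have h1 : ∀ ψ : A →* ℂˣ, coefV F ψ * ((ψ y₀ : ℂˣ) : ℂ) =
      (W : ℂ) * (((ψ y₀ : ℂˣ) : ℂ) - if ψ = 1 then 1 else 0) +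
        (δ : ℂ) * (if ψ ≠ 1 ∧ S ψ then ((ψ y₀ : ℂˣ) : ℂ) else 0) := by
    intro ψ
    by_cases hψ : ψ = 1
    · subst hψ
      simp [coefV_one]
    · rw [h ψ hψ]
      by_cases hS : S ψ
      · simp [hψ, hS]
        ring
      · simp [hψ, hS]
  simp only [h1, Finset.sum_add_distrib, ← Finset.mul_sum, Finset.sum_sub_distrib, sum_all_ne hy]
  rw [Finset.sum_filter]
  simp

variable (hfree : ∀ γ y, y ≠ 1 → τ γ y = y → γ ∈ τ.ker)

include hfree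

open Classical in
/-- The abstract theorem for a finite set of characters. -/
theorem exc_final [Fintype (A →* ℂˣ)] [DecidableEq E] (Bf : Finset E) (F : E → A → ℂ)
    (hinv : ∀ e ∈ Bf, ∀ γ y, F e (τ γ y) = F e y)
    (hK : ∀ y, y ≠ 1 → ∀ y', (∑ e ∈ Bf, F e y * conj (F e y')) * (Nat.card τ.ker : ℂ) =
      (Nat.card A : ℂ) * ((Finset.univ.filter fun γ => τ γ y = y').card : ℂ))
    (hV : ∀ e ∈ Bf, ∀ ψ, ∃ n : ℤ, coefV (F e) ψ = n)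
    (c : E → ℤ) (hc : ∀ e ∈ Bf, 0 < c e) (hc0 : ∀ y, y ≠ 1 → ∑ e ∈ Bf, F e y * (c e : ℂ) = 0)
    (hm : τ.ker.index + 1 < Nat.card A) :
    ∃ (δ : ℤ) (ζ : (A →* ℂˣ) → E) (w : E → ℤ), (δ = 1 ∨ δ = -1) ∧ (∀ ψ, ζ ψ ∈ Bf) ∧
      (∀ ψ ψ', ψ ≠ 1 → ψ' ≠ 1 → (ζ ψ = ζ ψ' ↔ Rel τ ψ ψ')) ∧
      (∀ ψ, ψ ≠ 1 → ∀ e ∈ Bf, coefV (F e) ψ = ((w e + δ * (if e = ζ ψ then 1 else 0) : ℤ) : ℂ)) ∧
      (∀ ψ, ψ ≠ 1 → ∑ e ∈ Bf, (w e + δ * (if e = ζ ψ then 1 else 0)) ^ 2 = (τ.ker.index : ℤ) + 1) := by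
  have hXinv : ∀ (e : Bf) γ y, F e (τ γ y) = F e y := fun e γ y => hinv e e.2 γ y
  have hXK : ∀ y, y ≠ 1 → ∀ y', (∑ e : Bf, F e y * conj (F e y')) * (Nat.card τ.ker : ℂ) =
      (Nat.card A : ℂ) * ((Finset.univ.filter fun γ => τ γ y = y').card : ℂ) := by
    intro y hy y'
    rw [Finset.sum_coe_sort Bf (fun e => F e y * conj (F e y'))]
    exact hK y hy y'
  have hXV : ∀ (e : Bf) ψ, ∃ n : ℤ, coefV (F e) ψ = n := fun e ψ => hV e e.2 ψ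
  have hXc0 : ∀ y, y ≠ 1 → ∑ e : Bf, F e y * (c e : ℂ) = 0 := by
    intro y hy
    rw [Finset.sum_coe_sort Bf (fun e => F e y * (c e : ℂ))]
    exact hc0 y hy
  have hone : 1 < Nat.card (A →* ℂˣ) := by
    rw [card_hom]
    omega
  haveI : Nontrivial (A →* ℂˣ) := (Finite.one_lt_card_iff_nontrivial (α := A →* ℂˣ)).1 hone
  obtain ⟨ψ₁, h₁⟩ := exists_ne (1 : A →* ℂˣ)
  obtain ⟨ψ₂, h₂, h₁₂⟩ := exists_other_orbit τ hfree h₁ hm
  obtain ⟨δ, ζ, w, hδ, hrel, hcoef⟩ := exc_abstract τ hfree (fun e : Bf => F e) hXinv hXK hXV (fun e => c e)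
    (fun e => hc e e.2) hXc0 ψ₁ ψ₂ h₁ h₂ h₁₂
  refine ⟨δ, fun ψ => (ζ ψ : E), fun e => if h : e ∈ Bf then w ⟨e, h⟩ else 0, hδ, fun ψ => (ζ ψ).2, ?_, ?_, ?_⟩
  · intro ψ ψ' h h'
    rw [← hrel ψ ψ' h h', Subtype.ext_iff]
  · intro ψ hψ e he
    have h1 := hcoef ψ hψ ⟨e, he⟩
    beta_reduce
    rw [dif_pos he]
    have h2 : ((⟨e, he⟩ : Bf) = ζ ψ) ↔ e = (ζ ψ : E) := Subtype.ext_iff
    simp only [h2] at h1
    exact h1
  · intro ψ hψ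
    have h1 := inner_coefV τ hfree (fun e : Bf => F e) hXK hψ hψ
    rw [if_pos (rel_refl τ ψ)] at h1
    have h2 : ∀ e : Bf, coefV (F e) ψ * conj (coefV (F e) ψ) =
        (((w e + δ * (if e = ζ ψ then 1 else 0)) ^ 2 : ℤ) : ℂ) := by
      intro e
      rw [hcoef ψ hψ e, map_intCast, ← Int.cast_mul, sq]
      congr!
    simp only [h2] at h1
    have h3 : ∑ e : Bf, (w e + δ * (if e = ζ ψ then 1 else 0)) ^ 2 = (τ.ker.index : ℤ) + 1 := by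
      exact_mod_cast h1
    rw [← h3, ← Finset.sum_coe_sort Bf]
    refine Finset.sum_congr rfl fun e _ => ?_
    have h2' : (e = ζ ψ) ↔ (e : E) = (ζ ψ : E) := Subtype.ext_iff
    simp only [h2', dif_pos e.2]

omit hfree in
open Classical in
/-- Consequences of the norm identity. -/
theorem norm_consequence {Bf : Finset E} [DecidableEq E] {ζ₁ : E} (hζ₁ : ζ₁ ∈ Bf) (w : E → ℤ) (δ : ℤ) (hδ : δ = 1 ∨ δ = -1) :
    ∑ e ∈ Bf, (w e + δ * (if e = ζ₁ then 1 else 0)) ^ 2 = ∑ e ∈ Bf, w e ^ 2 + 2 * δ * w ζ₁ + 1 := by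
  have h1 : ∀ e, (w e + δ * (if e = ζ₁ then 1 else 0)) ^ 2 =
      w e ^ 2 + (if e = ζ₁ then 2 * δ * w ζ₁ + 1 else 0) := by
    intro e
    by_cases h : e = ζ₁
    · subst h
      have : δ ^ 2 = 1 := by
        rcases hδ with rfl | rfl <;> norm_num
      simp only [if_true]
      nlinarith
    · simp [h]
  simp only [h1, Finset.sum_add_distrib]
  rw [Finset.sum_ite_eq' Bf ζ₁, if_pos hζ₁]
  ring

omit hfree in
open Classical in
/-- The norm identity after splitting off the exceptional characters. -/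
theorem norm_split [DecidableEq E] {Bf Yf : Finset E} (hY : Yf ⊆ Bf) {ζ₁ : E} (hζ₁ : ζ₁ ∈ Yf) (w : E → ℤ) (δ d : ℤ)
    (hw : ∀ e ∈ Yf, w e = -d) :
    ∑ e ∈ Bf, (w e + δ * (if e = ζ₁ then 1 else 0)) ^ 2 =
      (d - δ) ^ 2 + ((Yf.card : ℤ) - 1) * d ^ 2 + ∑ e ∈ Bf \ Yf, w e ^ 2 := by
  rw [← Finset.sum_sdiff hY, add_comm]
  congr 1
  · rw [← Finset.add_sum_erase Yf _ hζ₁]
    have h1 : ∑ e ∈ Yf.erase ζ₁, (w e + δ * (if e = ζ₁ then 1 else 0)) ^ 2 = ((Yf.card : ℤ) - 1) * d ^ 2 := by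
      have h2 : ∀ e ∈ Yf.erase ζ₁, (w e + δ * (if e = ζ₁ then 1 else 0)) ^ 2 = d ^ 2 := by
        intro e he
        rw [Finset.mem_erase] at he
        rw [hw e he.2, if_neg he.1]
        ring
      rw [Finset.sum_congr rfl h2, Finset.sum_const, Finset.card_erase_of_mem hζ₁, nsmul_eq_mul]
      have h3 : 1 ≤ Yf.card := Finset.card_pos.2 ⟨_, hζ₁⟩
      push_cast [h3]
      ring
    rw [h1, hw ζ₁ hζ₁, if_pos rfl]
    ring
  · refine Finset.sum_congr rfl fun e he => ?_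
    have hne : e ≠ ζ₁ := by
      rintro rfl
      exact (Finset.mem_sdiff.1 he).2 hζ₁
    rw [if_neg hne]
    ring

omit hfree in
open Classical in
/-- The linear relation after splitting off the exceptional characters. -/
theorem linear_split [DecidableEq E] {Bf Yf : Finset E} (hY : Yf ⊆ Bf) {ζ₁ : E} (hζ₁ : ζ₁ ∈ Yf) (w : E → ℤ) (δ d : ℤ)
    (hw : ∀ e ∈ Yf, w e = -d) (c : E → ℂ) (η : ℂ) (hc : ∀ e ∈ Yf, c e = η)
    (h0 : ∑ e ∈ Bf, ((w e + δ * (if e = ζ₁ then 1 else 0) : ℤ) : ℂ) * c e = 0) :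
    ((Yf.card : ℂ) * d - δ) * η + ∑ e ∈ Bf \ Yf, ((-w e : ℤ) : ℂ) * c e = 0 := by
  rw [← Finset.sum_sdiff hY] at h0
  have h1 : ∑ e ∈ Bf \ Yf, ((w e + δ * (if e = ζ₁ then 1 else 0) : ℤ) : ℂ) * c e = ∑ e ∈ Bf \ Yf, ((w e : ℤ) : ℂ) * c e := by
    refine Finset.sum_congr rfl fun e he => ?_
    have hne : e ≠ ζ₁ := by
      rintro rfl
      exact (Finset.mem_sdiff.1 he).2 hζ₁
    rw [if_neg hne]
    simp
  have h2 : ∑ e ∈ Yf, ((w e + δ * (if e = ζ₁ then 1 else 0) : ℤ) : ℂ) * c e = ((δ : ℂ) - (Yf.card : ℂ) * d) * η := by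
    rw [← Finset.add_sum_erase Yf _ hζ₁, hw ζ₁ hζ₁, if_pos rfl, hc ζ₁ hζ₁]
    have h3 : ∀ e ∈ Yf.erase ζ₁, ((w e + δ * (if e = ζ₁ then 1 else 0) : ℤ) : ℂ) * c e = -(d : ℂ) * η := by
      intro e he
      rw [Finset.mem_erase] at he
      rw [hw e he.2, if_neg he.1, hc e he.2]
      simp
    rw [Finset.sum_congr rfl h3, Finset.sum_const, Finset.card_erase_of_mem hζ₁, nsmul_eq_mul]
    have h4 : 1 ≤ Yf.card := Finset.card_pos.2 ⟨_, hζ₁⟩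
    push_cast [h4]
    ring
  rw [h1, h2] at h0
  have h5 : ∑ e ∈ Bf \ Yf, ((-w e : ℤ) : ℂ) * c e = -∑ e ∈ Bf \ Yf, ((w e : ℤ) : ℂ) * c e := by
    rw [← Finset.sum_neg_distrib]
    refine Finset.sum_congr rfl fun e _ => ?_
    push_cast
    ring
  rw [h5]
  linear_combination -h0

end Main

end Cfsg.Agent.Lib.Block.Exc
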