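import Cfsg.Agent.Lib.Block.ExcD
import Cfsg.Agent.Lib.Block.ExcE
import Cfsg.Agent.Lib.Degree.Sums

/-!
# The principal block when the Sylow normalizer is of Frobenius type
-/

set_option autoImplicit false
set_option linter.unusedSectionVars false
set_option linter.unusedSimpArgs false
set_option linter.unusedVariables false

open scoped ComplexConjugate
open Cfsg Cfsg.Agent.Lib.Char

namespace Cfsg.Agent.Lib.Block.Exc

theorem coefV_int {A : Type*} [CommGroup A] [Fintype A] (F : A → ℂ) (hF : IsCharacter A F) (ψ : A →* ℂˣ) :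
    ∃ n : ℤ, coefV F ψ = n := by
  obtain ⟨a, ha⟩ := classInner_isCharacter_nat hF (IsIrrCharacter.isCharacter (isIrrCharacter_of_hom ψ))
  obtain ⟨b, hb⟩ := classInner_isCharacter_nat hF (IsIrrCharacter.isCharacter (isIrrCharacter_one (G := A)))
  refine ⟨(a : ℤ) - b, ?_⟩
  push_cast
  rw [← ha, ← hb, classInner_def, classInner_def]
  unfold coefV
  rw [← mul_sub, ← Finset.sum_sub_distrib]
  congr 1
  refine Finset.sum_congr rfl fun y _ => ?_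
  simp only [map_one]
  ring

theorem coefV_const_one {A : Type*} [CommGroup A] [Fintype A] {ψ : A →* ℂˣ} (hψ : ψ ≠ 1) :
    coefV (fun _ => (1 : ℂ)) ψ = -1 := by
  unfold coefV
  simp only [one_mul, Finset.sum_sub_distrib, sum_conj_ne hψ, Finset.sum_const, Finset.card_univ, nsmul_eq_mul, mul_one,
    zero_sub, ← Nat.card_eq_fintype_card]
  rw [mul_neg, inv_mul_cancel₀ card_ne_zero_c]

set_option maxHeartbeats 2000000 in
theorem frob_block_main {G : Type*} [Group G] [Fintype G] (p : ℕ) [Fact p.Prime] (M : Ideal AlgInt) (hM : IsPModular p M) (P : Sylow p G) (hab : IsMulCommutative P) (hP1 : Nat.card P ≠ 1) (m : ℕ) (hm1 : 1 < m) (hm2 : m + 1 < Nat.card P) (hCN : (Subgroup.centralizer ((P : Subgroup G) : Set G)).relIndex (Subgroup.normalizer ((P : Subgroup G) : Set G)) = m) (hcyc : ∃ g : G, g ∈ Subgroup.normalizer ((P : Subgroup G) : Set G) ∧ Subgroup.centralizer ((P : Subgroup G)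 : Set G) ⊔ Subgroup.zpowers g = Subgroup.normalizer ((P : Subgroup G) : Set G)) (hfrob : ∀ y : G, y ∈ (P : Subgroup G) → y ≠ 1 → Subgroup.centralizer ({y} : Set G) ⊓ Subgroup.normalizer ((P : Subgroup G) : Set G) = Subgroup.centralizer ((P : Subgroup G) : Set G)) : ∃ (s : ℕ) (X Y : Set (IrrCharacter G)), s ≤ m ∧ principalBlock M G = X ∪ Y ∧ Disjoint X Y ∧ Nat.card X = s ∧ Nat.card Y = (Nat.card P - 1) / m ∧ (∃ χ₁ ∈ X, (χ₁ : G → ℂ) = fun _ => 1) ∧ ∃ (a : IrrCharacter G → ℤ) (d δ : ℤ) (ζ : (↥(P : Subgroup G) →* ℂˣ) → IrrCharacter G), (δ = 1 ∨ δ = -1) ∧ (∀ χ ∈ X, a χ ≠ 0 ∧ ∀ z y : G, IsPPart p z y → y ∈ (P : Subgroup G) → y ≠ 1 → (χ : G → ℂ) z = (a χ : ℂ)) ∧ (∀ ψ : ↥(P : Subgroup G) →* ℂˣ, ψ ≠ 1 → ζ ψ ∈ Y) ∧ (∀ η ∈ Y, ∃ ψ : ↥(P : Subgroup G) →* ℂˣ, ψ ≠ 1 ∧ ζ ψ = η) ∧ (∀ ψ ψ' : ↥(P : Subgroup G) →* ℂˣ, ψ ≠ 1 → (∃ n : G, n ∈ Subgroup.normalizer ((P : Subgroup G) : Set G) ∧ ∀ w w' : ↥(P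 : Subgroup G), (w' : G) = n * w * n⁻¹ → ψ' w' = ψ w) → ζ ψ' = ζ ψ) ∧ (∀ ψ : ↥(P : Subgroup G) →* ℂˣ, ψ ≠ 1 → ∀ (z : G) (y : ↥(P : Subgroup G)), IsPPart p z (y : G) → (y : G) ≠ 1 → (ζ ψ : G → ℂ) z = (d : ℂ) + (δ : ℂ) * ∑ᶠ ψ' ∈ {ψ' : ↥(P : Subgroup G) →* ℂˣ | ∃ n : G, n ∈ Subgroup.normalizer ((P : Subgroup G) : Set G) ∧ ∀ w w' : ↥(P : Subgroup G), (w' : G) = n * w * n⁻¹ → ψ' w' = ψ w}, ((ψ' y : ℂˣ) : ℂ)) ∧ ((d - δ) ^ 2 + ((Nat.card P - 1) / m - 1 : ℤ) * d ^ 2 + ∑ᶠ χ ∈ X, a χ ^ 2 = (m : ℤ) + 1) ∧ (∀ η ∈ Y, ∀ η' ∈ Y, ∀ g : G, ¬ p ∣ orderOf g → (η : G → ℂ) g = (η' : G → ℂ) g) ∧ (∀ η ∈ Y, ∀ g : G, ¬ p ∣ orderOf g → ((((Nat.card P - 1) / m : ℕ) : ℂ) * d - δ) * (η : G → ℂ) g + ∑ᶠ χ ∈ X, (a χ : ℂ) * (χ : G → ℂ) g = 0) := by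
  classical
  have hcomm : ∀ a b : ↥(P : Subgroup G), a * b = b * a := fun a b => hab.is_comm.comm a b
  letI instC : CommGroup ↥(P : Subgroup G) := { (inferInstance : Group ↥(P : Subgroup G)) with mul_comm := hcomm }
  haveI hfin : Finite (↥(P : Subgroup G) →* ℂˣ) := finite_hom
  letI : Fintype (↥(P : Subgroup G) →* ℂˣ) := Fintype.ofFinite _
  haveI hPr := isPModular_isPrime hM
  obtain ⟨N, hNdef⟩ : ∃ N, N = Subgroup.normalizer ((P : Subgroup G) : Set G) := ⟨_, rfl⟩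
  letI : Fintype (Subgroup.normalizer ((P : Subgroup G) : Set G)) := Fintype.ofFinite _
  have hU : IsBlockUnion M (principalBlock M G) := isBlockUnion_of_isPBlock (isPBlock_blockOf (oneIrr G))
  -- the action
  let τ : Subgroup.normalizer ((P : Subgroup G) : Set G) →* MulAut ↥(P : Subgroup G) :=
    (P : Subgroup G).normalizerMonoidHom
  have hτ : ∀ γ y, (((τ γ y : ↥(P : Subgroup G))) : G) = (γ : G) * y * (γ : G)⁻¹ := fun γ y => rfl
  have hfree : ∀ γ y, y ≠ 1 → τ γ y = y → γ ∈ τ.ker := fun γ y hy h => tau_free P hcomm hfrob γ y hy h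
  have hindex : τ.ker.index = m := ker_index P hcomm m hCN
  obtain ⟨Bf, hBf⟩ : ∃ Bf : Finset (IrrCharacter G), Bf = Finset.univ.filter fun χ => χ ∈ principalBlock M G := ⟨_, rfl⟩
  have hmemB : ∀ χ, χ ∈ Bf ↔ χ ∈ principalBlock M G := by
    intro χ
    rw [hBf, Finset.mem_filter]
    simp
  have hsumB : ∀ f : IrrCharacter G → ℂ, ∑ᶠ χ ∈ principalBlock M G, f χ = ∑ χ ∈ Bf, f χ := by
    intro f
    rw [hBf, Finset.sum_filter, finsum_mem_irr]
  let F : IrrCharacter G → ↥(P : Subgroup G) → ℂ := fun χ y => (χ : G → ℂ) y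
  have hcl : ∀ (χ : IrrCharacter G) g x, (χ : G → ℂ) (x * g * x⁻¹) = (χ : G → ℂ) g := fun χ g x =>
    IsCharacter.isClassFunction (IsIrrCharacter.isCharacter χ.2) g x
  have hinv : ∀ e ∈ Bf, ∀ γ y, F e (τ γ y) = F e y := by
    intro e _ γ y
    show (e : G → ℂ) ((τ γ y : ↥(P : Subgroup G)) : G) = _
    rw [hτ, hcl]
  have hcardA : Nat.card ↥(P : Subgroup G) = Nat.card P := rfl
  have hy_ne : ∀ y : ↥(P : Subgroup G), y ≠ 1 → (y : G) ≠ 1 := fun y hy h => hy (Subtype.ext h)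
  have hK : ∀ y, y ≠ 1 → ∀ y', (∑ e ∈ Bf, F e y * conj (F e y')) * (Nat.card τ.ker : ℂ) =
      (Nat.card ↥(P : Subgroup G) : ℂ) * ((@Finset.filter _ (fun γ => τ γ y = y') (fun γ => Classical.propDecidable _) Finset.univ).card : ℂ) := by
    intro y hy y'
    rw [card_act_fiber τ hfree hy y']
    by_cases hc : ∃ γ, τ γ y = y'
    · rw [if_pos hc]
      congr 1
      obtain ⟨γ, rfl⟩ := hc
      have h1 := sum_self P hcomm hfrob hM y.2 (hy_ne y hy)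
      rw [← h1, hBf, Finset.sum_filter]
      refine Finset.sum_congr rfl fun χ _ => ?_
      by_cases hχ : χ ∈ principalBlock M G
      · rw [if_pos hχ, if_pos hχ]
        show (χ : G → ℂ) y * conj ((χ : G → ℂ) ((τ γ y : ↥(P : Subgroup G)) : G)) = _
        rw [hτ, hcl, mul_comm]
      · rw [if_neg hχ, if_neg hχ]
    · rw [if_neg hc]
      simp only [Nat.cast_zero, mul_zero]
      have hnc : ¬ IsConj (y : G) (y' : G) := by
        intro hconj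
        obtain ⟨n, hn, hny⟩ := fusion P hcomm y.2 y'.2 hconj
        exact hc ⟨⟨n, hn⟩, Subtype.ext hny⟩
      have h2 := block_orthogonality hM (isPPart_of_pElement P.2 y.2) (isPPart_of_pElement P.2 y'.2) hnc hU
      rw [hsumB] at h2
      have h3 : ∑ e ∈ Bf, F e y * conj (F e y') = 0 := by
        rw [← h2]
        refine Finset.sum_congr rfl fun χ _ => ?_
        rw [Cfsg.Agent.Lib.Degree.irr_map_inv]
      rw [h3, zero_mul]
  have hV : ∀ e ∈ Bf, ∀ ψ, ∃ n : ℤ, coefV (F e) ψ = n := fun e _ ψ =>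
    coefV_int (F e) (IsCharacter.restrict (P : Subgroup G) (IsIrrCharacter.isCharacter e.2)) ψ
  have hreg0 : ∀ g : G, ¬ p ∣ orderOf g → ∀ y : ↥(P : Subgroup G), y ≠ 1 →
      ∑ e ∈ Bf, F e y * (e : G → ℂ) g = 0 := by
    intro g hg y hy
    have hpart : IsPPart p g⁻¹ (1 : G) :=
      ⟨g⁻¹, by simp, Commute.one_left _, ⟨0, by simp⟩, by rwa [orderOf_inv]⟩
    have hnc : ¬ IsConj (y : G) (1 : G) := by
      rw [isConj_comm, isConj_one_right]
      exact hy_ne y hy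
    have h2 := block_orthogonality hM (isPPart_of_pElement P.2 y.2) hpart hnc hU
    rw [hsumB] at h2
    simpa only [inv_inv] using h2
  have hc0 : ∀ y, y ≠ 1 → ∑ e ∈ Bf, F e y * ((charDegree (e : G → ℂ) : ℤ) : ℂ) = 0 := by
    intro y hy
    have h1 := hreg0 1 (by simpa using (Fact.out : p.Prime).one_lt.ne') y hy
    rw [← h1]
    refine Finset.sum_congr rfl fun χ _ => ?_
    rw [map_one_eq_charDegree (IsIrrCharacter.isCharacter χ.2)]
    simp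
  have hc : ∀ e ∈ Bf, 0 < (charDegree (e : G → ℂ) : ℤ) := by
    intro e _
    exact_mod_cast charDegree_pos_of_irr e.2
  have hm : τ.ker.index + 1 < Nat.card ↥(P : Subgroup G) := by
    rw [hindex]
    exact hm2
  obtain ⟨δ, ζ, w, hδ, hζB, hrel, hcoef, hnorm⟩ :=
    exc_final τ hfree Bf F hinv hK hV (fun e => (charDegree (e : G → ℂ) : ℤ)) hc hc0 hm
  -- orbits in the notation of the statement
  have hrelIff : ∀ ψ ψ' : ↥(P : Subgroup G) →* ℂˣ, Rel τ ψ ψ' ↔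
      ∃ n : G, n ∈ Subgroup.normalizer ((P : Subgroup G) : Set G) ∧
        ∀ w w' : ↥(P : Subgroup G), (w' : G) = n * w * n⁻¹ → ψ' w' = ψ w := by
    intro ψ ψ'
    constructor
    · rintro ⟨γ, rfl⟩
      refine ⟨γ, γ.2, fun w w' hw => ?_⟩
      have h1 : w' = τ γ w := Subtype.ext (hw.trans (hτ γ w).symm)
      rw [h1]
      rfl
    · rintro ⟨n, hn, h⟩
      refine ⟨⟨n, hn⟩, MonoidHom.ext fun w => ?_⟩
      exact h w (τ ⟨n, hn⟩ w) (hτ _ w)
  have hone : 1 < Nat.card (↥(P : Subgroup G) →* ℂˣ) := by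
    rw [card_hom]
    omega
  haveI : Nontrivial (↥(P : Subgroup G) →* ℂˣ) :=
    (Finite.one_lt_card_iff_nontrivial (α := ↥(P : Subgroup G) →* ℂˣ)).1 hone
  obtain ⟨ψ₁, h₁⟩ := exists_ne (1 : ↥(P : Subgroup G) →* ℂˣ)
  obtain ⟨d, hd⟩ : ∃ d : ℤ, d = -w (ζ ψ₁) := ⟨_, rfl⟩
  have hW : ∀ ψ, ψ ≠ 1 → w (ζ ψ) = -d := by
    intro ψ hψ
    have h1 := hnorm ψ hψ
    have h2 := hnorm ψ₁ h₁
    rw [norm_consequence (hζB ψ) w δ hδ] at h1
    rw [norm_consequence (hζB ψ₁) w δ hδ] at h2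
    have h3 : 2 * (δ * (w (ζ ψ) - w (ζ ψ₁))) = 0 := by linear_combination h1 - h2
    rw [hd, neg_neg]
    rcases hδ with rfl | rfl <;> linarith
  obtain ⟨Yf, hYf⟩ : ∃ Yf, Yf = (Finset.univ.filter fun ψ : ↥(P : Subgroup G) →* ℂˣ => ψ ≠ 1).image ζ := ⟨_, rfl⟩
  have hmemY : ∀ η, η ∈ Yf ↔ ∃ ψ, ψ ≠ 1 ∧ ζ ψ = η := by
    intro η
    rw [hYf, Finset.mem_image]
    simp
  have hYB : Yf ⊆ Bf := by
    intro η hη
    obtain ⟨ψ, _, rfl⟩ := (hmemY η).1 hη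
    exact hζB ψ
  have hζY : ζ ψ₁ ∈ Yf := (hmemY _).2 ⟨ψ₁, h₁, rfl⟩
  have hwY : ∀ e ∈ Yf, w e = -d := by
    intro e he
    obtain ⟨ψ, hψ, rfl⟩ := (hmemY e).1 he
    exact hW ψ hψ
  have hcardY : Yf.card * m = Nat.card ↥(P : Subgroup G) - 1 := by
    have h1 : (Finset.univ.filter fun ψ : ↥(P : Subgroup G) →* ℂˣ => ψ ≠ 1).card = Nat.card ↥(P : Subgroup G) - 1 := by
      rw [Finset.filter_ne', Finset.card_erase_of_mem (Finset.mem_univ _), Finset.card_univ,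
        ← Nat.card_eq_fintype_card, card_hom]
    rw [← h1, Finset.card_eq_sum_card_image ζ, ← hYf]
    rw [Finset.sum_const_nat]
    intro b hb
    obtain ⟨ψ₀, hψ₀, rfl⟩ := (hmemY b).1 hb
    rw [← hindex, ← card_orbit τ hfree hψ₀]
    congr 1
    ext a
    simp only [Finset.mem_filter, Finset.mem_univ, true_and]
    constructor
    · rintro ⟨ha, hab'⟩
      exact (hrel ψ₀ a hψ₀ ha).1 hab'.symm
    · intro h
      have ha := rel_ne_one τ h hψ₀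
      exact ⟨ha, ((hrel ψ₀ a hψ₀ ha).2 h).symm⟩
  have hr2 : 1 < Yf.card := by
    by_contra hcon
    have h1 : Yf.card ≤ 1 := by omega
    have h2 : Yf.card * m ≤ 1 * m := Nat.mul_le_mul_right _ h1
    rw [hcardY] at h2
    have h3 : Nat.card ↥(P : Subgroup G) = Nat.card P := rfl
    omega
  have hrdiv : (Nat.card P - 1) / m = Yf.card := by
    have h3 : Nat.card ↥(P : Subgroup G) = Nat.card P := rfl
    rw [← h3, ← hcardY]
    exact Nat.mul_div_cancel _ (by omega)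
  -- values
  have hval : ∀ χ ∈ Bf, ∀ y : ↥(P : Subgroup G), y ≠ 1 → F χ y = -(w χ : ℂ) + (δ : ℂ) *
      ∑ ψ ∈ Finset.univ.filter (fun ψ : ↥(P : Subgroup G) →* ℂˣ => ψ ≠ 1 ∧ χ = ζ ψ), ((ψ y : ℂˣ) : ℂ) :=
    fun χ hχ y hy => value_formula (F χ) (w χ) δ (fun ψ => χ = ζ ψ) (fun ψ hψ => hcoef ψ hψ χ hχ) hy
  have hvalX : ∀ χ ∈ Bf, χ ∉ Yf → ∀ y : ↥(P : Subgroup G), y ≠ 1 → F χ y = -(w χ : ℂ) := by
    intro χ hχ hY y hy
    rw [hval χ hχ y hy, Finset.filter_eq_empty_iff.2]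
    · simp
    · rintro ψ _ ⟨hψ, rfl⟩
      exact hY ((hmemY _).2 ⟨ψ, hψ, rfl⟩)
  have hvalY : ∀ ψ, ψ ≠ 1 → ∀ y : ↥(P : Subgroup G), y ≠ 1 → F (ζ ψ) y = (d : ℂ) + (δ : ℂ) *
      ∑ ψ' ∈ Finset.univ.filter (fun ψ' : ↥(P : Subgroup G) →* ℂˣ => Rel τ ψ ψ'), ((ψ' y : ℂˣ) : ℂ) := by
    intro ψ hψ y hy
    rw [hval (ζ ψ) (hζB ψ) y hy, hW ψ hψ]
    have h1 : (Finset.univ.filter (fun ψ' : ↥(P : Subgroup G) →* ℂˣ => ψ' ≠ 1 ∧ ζ ψ = ζ ψ')) =
        Finset.univ.filter (fun ψ' : ↥(P : Subgroup G) →* ℂˣ => Rel τ ψ ψ') := by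
      ext a
      simp only [Finset.mem_filter, Finset.mem_univ, true_and]
      constructor
      · rintro ⟨ha, hab'⟩
        exact (hrel ψ a hψ ha).1 hab'
      · intro h
        have ha := rel_ne_one τ h hψ
        exact ⟨ha, (hrel ψ a hψ ha).2 h⟩
    rw [h1]
    push_cast
    simp
  -- the principal character
  have he₁ : oneIrr G ∈ Bf := (hmemB _).2 (mem_blockOf_self (oneIrr G))
  have hcoef1 : ∀ ψ, ψ ≠ 1 → w (oneIrr G) + δ * (if oneIrr G = ζ ψ then 1 else 0) = -1 := by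
    intro ψ hψ
    have h1 := hcoef ψ hψ _ he₁
    have h2 : coefV (F (oneIrr G)) ψ = -1 := coefV_const_one hψ
    rw [h2] at h1
    have h3 : ((w (oneIrr G) + δ * (if oneIrr G = ζ ψ then 1 else 0) : ℤ) : ℂ) = ((-1 : ℤ) : ℂ) := by
      rw [← h1]
      simp
    exact_mod_cast h3
  have he₁Y : oneIrr G ∉ Yf := by
    intro h
    obtain ⟨ψ₀, hψ₀, h0⟩ := (hmemY _).1 h
    obtain ⟨ψ', hψ', hn⟩ := exists_other_orbit τ hfree hψ₀ hm
    have h2 := hcoef1 ψ₀ hψ₀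
    have h3 := hcoef1 ψ' hψ'
    rw [if_pos h0.symm] at h2
    have hne : oneIrr G ≠ ζ ψ' := by
      intro h4
      apply hn
      rw [← hrel ψ₀ ψ' hψ₀ hψ', h0, h4]
    rw [if_neg hne] at h3
    rcases hδ with rfl | rfl <;> omega
  have hwe₁ : w (oneIrr G) = -1 := by
    have h3 := hcoef1 ψ₁ h₁
    have hne : oneIrr G ≠ ζ ψ₁ := fun h4 => he₁Y (h4 ▸ hζY)
    rw [if_neg hne] at h3
    omega
  have ha : ∀ χ ∈ Bf, χ ∉ Yf → w χ ≠ 0 := by
    intro χ hχ hY h0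
    by_cases h1 : (χ : G → ℂ) = fun _ => 1
    · have h2 : χ = oneIrr G := Subtype.ext h1
      rw [h2, hwe₁] at h0
      norm_num at h0
    · refine not_vanish P hcomm hfrob hM ((hmemB χ).1 hχ) h1 ?_
      intro y hy hy1
      have h3 := hvalX χ hχ hY ⟨y, hy⟩ (fun h => hy1 (congrArg Subtype.val h))
      rw [h0] at h3
      simpa using h3
  -- linear relations on regular elements
  have hlin : ∀ ψ, ψ ≠ 1 → ∀ g : G, ¬ p ∣ orderOf g →
      ∑ e ∈ Bf, ((w e + δ * (if e = ζ ψ then 1 else 0) : ℤ) : ℂ) * (e : G → ℂ) g = 0 := by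
    intro ψ hψ g hg
    have h1 := sum_coefV_mul (fun e : Bf => F e) (fun e : Bf => (e.1 : G → ℂ) g)
      (fun y hy => by
        rw [Finset.sum_coe_sort Bf (fun e => F e y * (e : G → ℂ) g)]
        exact hreg0 g hg y hy) ψ
    rw [Finset.sum_coe_sort Bf (fun e => coefV (F e) ψ * (e : G → ℂ) g)] at h1
    rw [← h1]
    refine Finset.sum_congr rfl fun e he => ?_
    rw [hcoef ψ hψ e he]
  have hexpand : ∀ ζ₁ ∈ Bf, ∀ c : IrrCharacter G → ℂ,
      ∑ e ∈ Bf, ((w e + δ * (if e = ζ₁ then 1 else 0) : ℤ) : ℂ) * c e =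
        ∑ e ∈ Bf, (w e : ℂ) * c e + (δ : ℂ) * c ζ₁ := by
    intro ζ₁ hζ₁ c
    have h1 : ∀ e, ((w e + δ * (if e = ζ₁ then 1 else 0) : ℤ) : ℂ) * c e =
        (w e : ℂ) * c e + (if e = ζ₁ then (δ : ℂ) * c ζ₁ else 0) := by
      intro e
      by_cases h : e = ζ₁
      · subst h
        simp
        ring
      · simp [h]
    simp only [h1, Finset.sum_add_distrib]
    rw [Finset.sum_ite_eq' Bf ζ₁, if_pos hζ₁]
  have hagree0 : ∀ ψ ψ', ψ ≠ 1 → ψ' ≠ 1 → ∀ g : G, ¬ p ∣ orderOf g →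
      (ζ ψ : G → ℂ) g = (ζ ψ' : G → ℂ) g := by
    intro ψ ψ' h h' g hg
    have h1 := hlin ψ h g hg
    have h2 := hlin ψ' h' g hg
    rw [hexpand _ (hζB ψ) fun e => (e : G → ℂ) g] at h1
    rw [hexpand _ (hζB ψ') fun e => (e : G → ℂ) g] at h2
    have h3 : (δ : ℂ) * ((ζ ψ : G → ℂ) g - (ζ ψ' : G → ℂ) g) = 0 := by
      linear_combination h1 - h2
    have hδ0 : (δ : ℂ) ≠ 0 := by
      rcases hδ with rfl | rfl <;> norm_num
    exact sub_eq_zero.1 ((mul_eq_zero.1 h3).resolve_left hδ0)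
  have hagree : ∀ η ∈ Yf, ∀ η' ∈ Yf, ∀ g : G, ¬ p ∣ orderOf g → (η : G → ℂ) g = (η' : G → ℂ) g := by
    intro η hη η' hη' g hg
    obtain ⟨ψ, hψ, rfl⟩ := (hmemY η).1 hη
    obtain ⟨ψ', hψ', rfl⟩ := (hmemY η').1 hη'
    exact hagree0 ψ ψ' hψ hψ' g hg
  -- the norm identity
  have hN : (d - δ) ^ 2 + ((Yf.card : ℤ) - 1) * d ^ 2 + ∑ e ∈ Bf \ Yf, w e ^ 2 = (m : ℤ) + 1 := by
    rw [← norm_split hYB hζY w δ d hwY, hnorm ψ₁ h₁, hindex]
  -- the size of `X`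
  have hsX : (Bf \ Yf).card ≤ m := by
    have h1 : ((Bf \ Yf).card : ℤ) ≤ ∑ e ∈ Bf \ Yf, w e ^ 2 := by
      rw [Finset.card_eq_sum_ones]
      push_cast
      refine Finset.sum_le_sum fun e he => ?_
      rw [Finset.mem_sdiff] at he
      have h2 := ha e he.1 he.2
      have h3 : 0 < (w e) ^ 2 := by positivity
      omega
    have h4 : 1 ≤ (d - δ) ^ 2 + ((Yf.card : ℤ) - 1) * d ^ 2 := by
      have h5 : (1 : ℤ) ≤ (Yf.card : ℤ) - 1 := by
        have : (2 : ℤ) ≤ (Yf.card : ℤ) := by exact_mod_cast hr2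
        omega
      by_cases hd0 : d = 0
      · subst hd0
        rcases hδ with rfl | rfl <;> norm_num
      · have h6 : 1 ≤ d ^ 2 := by
          have : 0 < d ^ 2 := by positivity
          omega
        nlinarith [sq_nonneg (d - δ)]
    have h7 : ((Bf \ Yf).card : ℤ) ≤ m := by linarith
    exact_mod_cast h7
  have hdisj : Disjoint ((↑(Bf \ Yf) : Set (IrrCharacter G))) (↑Yf : Set (IrrCharacter G)) := by
    rw [Finset.disjoint_coe]
    exact Finset.sdiff_disjoint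
  have hunion : principalBlock M G = ↑(Bf \ Yf) ∪ ↑Yf := by
    ext χ
    simp only [Set.mem_union, Finset.mem_coe, Finset.mem_sdiff]
    rw [← hmemB]
    constructor
    · intro h
      by_cases hY : χ ∈ Yf
      · exact Or.inr hY
      · exact Or.inl ⟨h, hY⟩
    · rintro (h | h)
      · exact h.1
      · exact hYB h
  refine ⟨(Bf \ Yf).card, ↑(Bf \ Yf), ↑Yf, hsX, hunion, hdisj, ?_, ?_,
    ⟨oneIrr G, ?_, rfl⟩, fun χ => -w χ, d, δ, ζ, hδ, ?_, ?_, ?_, ?_, ?_, ?_, ?_, ?_⟩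
  · rw [Nat.card_coe_set_eq, Set.ncard_coe_finset]
  · rw [Nat.card_coe_set_eq, Set.ncard_coe_finset, hrdiv]
  · simp only [Finset.mem_coe, Finset.mem_sdiff]
    exact ⟨he₁, he₁Y⟩
  · intro χ hχ
    simp only [Finset.mem_coe, Finset.mem_sdiff] at hχ
    refine ⟨neg_ne_zero.2 (ha χ hχ.1 hχ.2), ?_⟩
    intro z y hzy hy hy1
    rw [value_eq P hcomm hfrob hM ((hmemB χ).1 hχ.1) hzy hy hy1]
    have h1 := hvalX χ hχ.1 hχ.2 ⟨y, hy⟩ (fun h => hy1 (congrArg Subtype.val h))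
    rw [show (χ : G → ℂ) y = F χ ⟨y, hy⟩ from rfl, h1]
    simp
  · intro ψ hψ
    exact (hmemY _).2 ⟨ψ, hψ, rfl⟩
  · intro η hη
    exact (hmemY η).1 hη
  · intro ψ ψ' hψ h
    have h1 : Rel τ ψ ψ' := (hrelIff ψ ψ').2 h
    exact ((hrel ψ ψ' hψ (rel_ne_one τ h1 hψ)).2 h1).symm
  · intro ψ hψ z y hzy hy1
    rw [value_eq P hcomm hfrob hM ((hmemB _).1 (hζB ψ)) hzy y.2 hy1]
    have h1 := hvalY ψ hψ y (fun h => hy1 (congrArg Subtype.val h))
    rw [show (ζ ψ : G → ℂ) y = F (ζ ψ) y from rfl, h1]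
    have h2 : {ψ' : ↥(P : Subgroup G) →* ℂˣ | ∃ n : G, n ∈ Subgroup.normalizer ((P : Subgroup G) : Set G) ∧
        ∀ w w' : ↥(P : Subgroup G), (w' : G) = n * w * n⁻¹ → ψ' w' = ψ w} =
        ↑(Finset.univ.filter (fun ψ' : ↥(P : Subgroup G) →* ℂˣ => Rel τ ψ ψ')) := by
      ext a
      simp only [Set.mem_setOf_eq, Finset.coe_filter, Finset.mem_univ, true_and]
      exact (hrelIff ψ a).symm
    rw [h2, finsum_mem_coe_finset]
  · have h1 : ((Nat.card P : ℤ) - 1) / (m : ℤ) = (Yf.card : ℤ) := by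
      have h2 : (Nat.card P : ℤ) - 1 = (Yf.card : ℤ) * (m : ℤ) := by
        have h3 : Nat.card ↥(P : Subgroup G) = Nat.card P := rfl
        have h4 : 1 ≤ Nat.card P := Nat.card_pos
        have h5 : Yf.card * m = Nat.card P - 1 := by rw [hcardY, h3]
        zify [h4] at h5
        linarith
      rw [h2]
      exact Int.mul_ediv_cancel _ (by
        have : (1 : ℤ) < m := by exact_mod_cast hm1
        omega)
    rw [h1, finsum_mem_coe_finset]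
    rw [← hN]
    congr 1
    refine Finset.sum_congr rfl fun e _ => ?_
    ring
  · intro η hη η' hη' g hg
    exact hagree η hη η' hη' g hg
  · intro η hη g hg
    have h1 := linear_split hYB hζY w δ d hwY (fun e => (e : G → ℂ) g) ((η : G → ℂ) g)
      (fun e he => hagree e he η hη g hg) (hlin ψ₁ h₁ g hg)
    rw [hrdiv, finsum_mem_coe_finset]
    exact h1

end Cfsg.Agent.Lib.Block.Exc
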