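import Cfsg.Agent.Lib.Block.Klein

/-!
# Homocyclic Sylow 2-subgroups: the action of the normalizer
-/

set_option autoImplicit false
set_option linter.unusedSectionVars false
set_option linter.unusedSimpArgs false
set_option linter.unusedVariables false

open Cfsg

namespace Cfsg.Agent.Lib.Block

section Tors

theorem hc_zmod_tors {m : ℕ} (a : ZMod (2 ^ (m + 1))) (h : a + a = 0) :
    a = 0 ∨ a = ((2 ^ m : ℕ) : ZMod (2 ^ (m + 1))) := by
  haveI : NeZero (2 ^ (m + 1)) := ⟨by positivity⟩
  have h1 : ((a.val + a.val : ℕ) : ZMod (2 ^ (m + 1))) = 0 := by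
    push_cast
    rw [ZMod.natCast_zmod_val, h]
  rw [ZMod.natCast_eq_zero_iff] at h1
  have hlt := ZMod.val_lt a
  obtain ⟨c, hc⟩ := h1
  have hc' : a.val + a.val = 2 * (2 ^ m * c) := by rw [hc]; ring
  have hlt' : a.val < 2 * 2 ^ m := by
    calc a.val < 2 ^ (m + 1) := hlt
      _ = 2 * 2 ^ m := by ring
  have hc2 : a.val = 2 ^ m * c := by omega
  have hc3 : c < 2 := by
    by_contra hcon
    push Not at hcon
    have : 2 ^ m * 2 ≤ 2 ^ m * c := Nat.mul_le_mul_left _ hcon
    omega
  interval_cases c
  · left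
    rw [← ZMod.natCast_zmod_val a, hc2]; simp
  · right
    rw [← ZMod.natCast_zmod_val a, hc2]; simp

theorem hc_ne_zero {m : ℕ} : ((2 ^ m : ℕ) : ZMod (2 ^ (m + 1))) ≠ 0 := by
  rw [Ne, ZMod.natCast_eq_zero_iff]
  intro h
  have := Nat.le_of_dvd (by positivity) h
  rw [pow_succ] at this
  have h2 : 0 < 2 ^ m := by positivity
  omega

theorem hc_add_self {m : ℕ} : ((2 ^ m : ℕ) : ZMod (2 ^ (m + 1))) + ((2 ^ m : ℕ) : ZMod (2 ^ (m + 1))) = 0 := by
  rw [← Nat.cast_add, ZMod.natCast_eq_zero_iff]
  rw [pow_succ]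
  exact ⟨1, by ring⟩

end Tors

section Inv

variable {G : Type*} [Group G]

/-- The involutions of a subgroup. -/
abbrev InvOf (A : Subgroup G) : Type _ := {x : G // x ∈ A ∧ x * x = 1 ∧ x ≠ 1}

open Classical in
theorem card_invOf [Finite G] (A : Subgroup G) (m : ℕ) (hm : 1 ≤ m)
    (e : A ≃* Multiplicative (ZMod (2 ^ m) × ZMod (2 ^ m))) : Nat.card (InvOf A) = 3 := by
  obtain ⟨m, rfl⟩ : ∃ m', m = m' + 1 := ⟨m - 1, by omega⟩
  set c : ZMod (2 ^ (m + 1)) := ((2 ^ m : ℕ) : ZMod (2 ^ (m + 1))) with hc
  have hc0 : c ≠ 0 := hc_ne_zero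
  have hcc : c + c = 0 := hc_add_self
  set T : Finset (ZMod (2 ^ (m + 1)) × ZMod (2 ^ (m + 1))) := {(0, c), (c, 0), (c, c)} with hT
  have hTcard : T.card = 3 := by
    rw [hT, Finset.card_eq_three]
    refine ⟨(0, c), (c, 0), (c, c), ?_, ?_, ?_, rfl⟩
    · intro h
      exact hc0 (congrArg Prod.fst h).symm
    · intro h
      exact hc0 (congrArg Prod.fst h).symm
    · intro h
      exact hc0 (congrArg Prod.snd h).symm
  have hequiv : InvOf A ≃ T := by
    refine Equiv.ofBijective (fun x => ⟨Multiplicative.toAdd (e ⟨x.1, x.2.1⟩), ?_⟩) ⟨?_, ?_⟩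
    · have h1 : (e ⟨x.1, x.2.1⟩) * (e ⟨x.1, x.2.1⟩) = 1 := by
        rw [← map_mul]
        have : (⟨x.1, x.2.1⟩ : A) * ⟨x.1, x.2.1⟩ = 1 := Subtype.ext x.2.2.1
        rw [this, map_one]
      have h2 : Multiplicative.toAdd (e ⟨x.1, x.2.1⟩) + Multiplicative.toAdd (e ⟨x.1, x.2.1⟩) = 0 := h1
      have h3 : Multiplicative.toAdd (e ⟨x.1, x.2.1⟩) ≠ 0 := by
        intro h0
        have h4 : e ⟨x.1, x.2.1⟩ = 1 := h0
        rw [map_eq_one_iff _ e.injective] at h4
        exact x.2.2.2 (congrArg Subtype.val h4)
      generalize Multiplicative.toAdd (e ⟨x.1, x.2.1⟩) = v at h2 h3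
      have h5 := hc_zmod_tors v.1 (congrArg Prod.fst h2)
      have h6 := hc_zmod_tors v.2 (congrArg Prod.snd h2)
      rw [hT]
      simp only [Finset.mem_insert, Finset.mem_singleton]
      rcases h5 with h5 | h5 <;> rcases h6 with h6 | h6
      · exact absurd (Prod.ext h5 h6) h3
      · exact Or.inl (Prod.ext h5 h6)
      · exact Or.inr (Or.inl (Prod.ext h5 h6))
      · exact Or.inr (Or.inr (Prod.ext h5 h6))
    · intro x y hxy
      have h1 : Multiplicative.toAdd (e ⟨x.1, x.2.1⟩) = Multiplicative.toAdd (e ⟨y.1, y.2.1⟩) :=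
        congrArg Subtype.val hxy
      have h2 := e.injective h1
      exact Subtype.ext (Subtype.mk.inj h2)
    · rintro ⟨v, hv⟩
      have hv2 : v + v = 0 := by
        rw [hT] at hv
        simp only [Finset.mem_insert, Finset.mem_singleton] at hv
        rcases hv with rfl | rfl | rfl <;> ext <;> simp [hcc]
      have hv0 : v ≠ 0 := by
        rw [hT] at hv
        simp only [Finset.mem_insert, Finset.mem_singleton] at hv
        rcases hv with rfl | rfl | rfl <;> intro h <;> simp [Prod.ext_iff, hc0] at h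
      set y : A := e.symm (Multiplicative.ofAdd v) with hy
      have hy1 : y * y = 1 := by
        rw [hy, ← map_mul, ← ofAdd_add, hv2]
        simp
      have hy2 : y ≠ 1 := by
        intro h
        have : e y = 1 := by rw [h, map_one]
        rw [hy, e.apply_symm_apply] at this
        exact hv0 this
      refine ⟨⟨y.1, y.2, congrArg Subtype.val hy1, fun h => hy2 (Subtype.ext h)⟩, ?_⟩
      apply Subtype.ext
      show Multiplicative.toAdd (e ⟨y.1, y.2⟩) = v
      have : (⟨y.1, y.2⟩ : A) = y := rfl
      rw [this, hy, e.apply_symm_apply]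
      rfl
  rw [Nat.card_congr hequiv, Nat.card_eq_fintype_card, Fintype.card_coe, hTcard]

end Inv

section Action

variable {G : Type*} [Group G] [Finite G]

/-- An element of odd order normalizing an abelian 2-group and fixing its involutions centralizes it. -/
theorem odd_centralize_of_fix_inv {A : Subgroup G} (hA2 : IsPGroup 2 A)
    (hab : ∀ a ∈ A, ∀ b ∈ A, a * b = b * a) {y : G} (hy : ¬ 2 ∣ orderOf y)
    (hyN : y ∈ Subgroup.normalizer (A : Set G))
    (hinv : ∀ x ∈ A, x * x = 1 → y * x * y⁻¹ = x) : y ∈ Subgroup.centralizer (A : Set G) := by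
  have hαA : ∀ x ∈ A, y * x * y⁻¹ ∈ A := fun x hx => (Subgroup.mem_normalizer_iff.1 hyN x).1 hx
  have key : ∀ n : ℕ, ∀ x ∈ A, x ^ (2 ^ n) = 1 → y * x * y⁻¹ = x := by
    intro n
    induction n with
    | zero =>
      intro x _ hx
      simp only [pow_zero, pow_one] at hx
      rw [hx]; group
    | succ n ih =>
      intro x hx hxn
      have hx2 : y * (x * x) * y⁻¹ = x * x := by
        apply ih _ (A.mul_mem hx hx)
        rw [← pow_two, ← pow_mul, ← pow_succ']
        exact hxn
      set w := y * x * y⁻¹ * x⁻¹ with hw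
      have hwA : w ∈ A := A.mul_mem (hαA x hx) (A.inv_mem hx)
      have hα2 : (y * x * y⁻¹) * (y * x * y⁻¹) = x * x := by
        rw [← hx2]; group
      have hw2 : w * w = 1 := by
        have h1 : w * w = (y * x * y⁻¹) * (y * x * y⁻¹) * x⁻¹ * x⁻¹ := by
          rw [hw]
          have := hab _ (A.inv_mem hx) _ (hαA x hx)
          calc y * x * y⁻¹ * x⁻¹ * (y * x * y⁻¹ * x⁻¹) = y * x * y⁻¹ * (x⁻¹ * (y * x * y⁻¹)) * x⁻¹ := by group
            _ = y * x * y⁻¹ * ((y * x * y⁻¹) * x⁻¹) * x⁻¹ := by rw [this]
            _ = _ := by group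
        rw [h1, hα2]
        group
      have hwα : y * w * y⁻¹ = w := hinv w hwA hw2
      have hxw : y * x * y⁻¹ = w * x := by rw [hw]; group
      have hiter : ∀ j : ℕ, y ^ j * x * (y ^ j)⁻¹ = w ^ j * x := by
        intro j
        induction j with
        | zero => simp
        | succ j ih2 =>
          have h1 : y ^ (j + 1) * x * (y ^ (j + 1))⁻¹ = y * (y ^ j * x * (y ^ j)⁻¹) * y⁻¹ := by
            rw [pow_succ']
            group
          rw [h1, ih2]
          have h2 : y * w ^ j * y⁻¹ = w ^ j := by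
            clear ih2 h1
            induction j with
            | zero => simp
            | succ j ih3 =>
              calc y * w ^ (j + 1) * y⁻¹ = (y * w ^ j * y⁻¹) * (y * w * y⁻¹) := by
                    rw [pow_succ]; group
                _ = w ^ j * w := by rw [ih3, hwα]
                _ = w ^ (j + 1) := (pow_succ _ _).symm
          calc y * (w ^ j * x) * y⁻¹ = (y * w ^ j * y⁻¹) * (y * x * y⁻¹) := by group
            _ = w ^ j * (w * x) := by rw [h2, hxw]
            _ = w ^ (j + 1) * x := by rw [pow_succ]; group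
      have h3 := hiter (orderOf y)
      rw [pow_orderOf_eq_one] at h3
      simp only [one_mul, inv_one, mul_one] at h3
      have hwr : w ^ orderOf y = 1 := by
        have : w ^ orderOf y * x = 1 * x := by rw [← h3, one_mul]
        exact mul_right_cancel this
      have hodd : Odd (orderOf y) := by
        rwa [← Nat.not_even_iff_odd, even_iff_two_dvd]
      obtain ⟨j, hj⟩ := hodd
      rw [hj, pow_succ, pow_mul, pow_two, hw2, one_pow, one_mul] at hwr
      rw [hxw, hwr, one_mul]
  rw [Subgroup.mem_centralizer_iff]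
  intro x hx
  obtain ⟨k, hk⟩ := (IsPGroup.iff_orderOf.1 hA2) ⟨x, hx⟩
  have hk' : x ^ (2 ^ k) = 1 := by
    have : orderOf x = 2 ^ k := by
      rw [← hk]; exact (Subgroup.orderOf_mk x hx).symm
    rw [← this]; exact pow_orderOf_eq_one x
  have := key k x hx hk'
  exact (mul_inv_eq_iff_eq_mul.1 this).symm

variable (P : Sylow 2 G)

/-- The 2-part of an element of the normalizer lies in the Sylow subgroup. -/
theorem normalizer_jordan {n : G} (hn : n ∈ Subgroup.normalizer ((P : Subgroup G) : Set G)) :
    ∃ u v : G, u * v = n ∧ Commute u v ∧ u ∈ (P : Subgroup G) ∧ ¬ 2 ∣ orderOf v ∧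
      v ∈ Subgroup.normalizer ((P : Subgroup G) : Set G) ∧ v ∈ Subgroup.zpowers n := by
  obtain ⟨u, v, huv, hc, hu2, hv, hu_z, hv_z⟩ := exists_jordan (p := 2) n
  have hle : Subgroup.zpowers n ≤ Subgroup.normalizer ((P : Subgroup G) : Set G) := by
    rw [Subgroup.zpowers_le]
    exact hn
  exact ⟨u, v, huv, hc, mem_sylow_of_normalizes P hu2 (hle hu_z), hv, hle hv_z, hv_z⟩

/-- An element normalizing `P` and fixing all involutions of `P` centralizes `P`. -/
theorem mem_centralizer_of_fix_inv
    (hab : ∀ a ∈ (P : Subgroup G), ∀ b ∈ (P : Subgroup G), a * b = b * a) {n : G}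
    (hn : n ∈ Subgroup.normalizer ((P : Subgroup G) : Set G))
    (hinv : ∀ x ∈ (P : Subgroup G), x * x = 1 → n * x * n⁻¹ = x) :
    n ∈ Subgroup.centralizer ((P : Subgroup G) : Set G) := by
  obtain ⟨u, v, huv, hc, huP, hv, hvN, hv_z⟩ := normalizer_jordan P hn
  have hvinv : ∀ x ∈ (P : Subgroup G), x * x = 1 → v * x * v⁻¹ = x := by
    intro x hx hx2
    have h1 : Commute n x := by
      rw [commute_iff_eq]
      exact (mul_inv_eq_iff_eq_mul.1 (hinv x hx hx2))
    obtain ⟨i, rfl⟩ := Subgroup.mem_zpowers_iff.1 hv_z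
    have h2 := (h1.zpow_left i).eq
    rw [h2]
    group
  have hvC := odd_centralize_of_fix_inv P.isPGroup' hab hv hvN hvinv
  have huC : u ∈ Subgroup.centralizer ((P : Subgroup G) : Set G) := by
    rw [Subgroup.mem_centralizer_iff]
    intro x hx
    exact hab x hx u huP
  rw [← huv]
  exact Subgroup.mul_mem _ huC hvC

end Action

section Index

variable {G : Type*} [Group G] [Finite G]

/-- The action of the normalizer on the involutions. -/
def normInvHom (A : Subgroup G) :
    (Subgroup.normalizer (A : Set G)) →* Equiv.Perm (InvOf A) where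
  toFun n :=
    { toFun := fun x => ⟨n.1 * x.1 * n.1⁻¹, (Subgroup.mem_normalizer_iff.1 n.2 x.1).1 x.2.1, by
        have := x.2.2.1
        calc n.1 * x.1 * n.1⁻¹ * (n.1 * x.1 * n.1⁻¹) = n.1 * (x.1 * x.1) * n.1⁻¹ := by group
          _ = 1 := by rw [this]; group, by
        intro h
        apply x.2.2.2
        have : x.1 = n.1⁻¹ * (n.1 * x.1 * n.1⁻¹) * n.1 := by group
        rw [this, h]
        group⟩
      invFun := fun x => ⟨n.1⁻¹ * x.1 * n.1, by
          have h1 := (Subgroup.mem_normalizer_iff.1 n.2 (n.1⁻¹ * x.1 * n.1))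
          have h2 : n.1 * (n.1⁻¹ * x.1 * n.1) * n.1⁻¹ = x.1 := by group
          rw [h2] at h1
          exact h1.2 x.2.1, by
        have := x.2.2.1
        calc n.1⁻¹ * x.1 * n.1 * (n.1⁻¹ * x.1 * n.1) = n.1⁻¹ * (x.1 * x.1) * n.1 := by group
          _ = 1 := by rw [this]; group, by
        intro h
        apply x.2.2.2
        have : x.1 = n.1 * (n.1⁻¹ * x.1 * n.1) * n.1⁻¹ := by group
        rw [this, h]
        group⟩
      left_inv := fun x => by
        apply Subtype.ext
        show n.1⁻¹ * (n.1 * x.1 * n.1⁻¹) * n.1 = x.1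
        group
      right_inv := fun x => by
        apply Subtype.ext
        show n.1 * (n.1⁻¹ * x.1 * n.1) * n.1⁻¹ = x.1
        group }
  map_one' := by
    ext x
    show (1 : G) * x.1 * (1 : G)⁻¹ = x.1
    group
  map_mul' a b := by
    ext x
    show (a.1 * b.1) * x.1 * (a.1 * b.1)⁻¹ = a.1 * (b.1 * x.1 * b.1⁻¹) * a.1⁻¹
    group

theorem normInvHom_apply (A : Subgroup G) (n : Subgroup.normalizer (A : Set G)) (x : InvOf A) :
    ((normInvHom A n x : InvOf A) : G) = n.1 * x.1 * n.1⁻¹ := rfl

variable (P : Sylow 2 G)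

theorem ker_normInvHom (hab : ∀ a ∈ (P : Subgroup G), ∀ b ∈ (P : Subgroup G), a * b = b * a) :
    (normInvHom (P : Subgroup G)).ker =
      (Subgroup.centralizer ((P : Subgroup G) : Set G)).subgroupOf (Subgroup.normalizer ((P : Subgroup G) : Set G)) := by
  ext n
  rw [MonoidHom.mem_ker, Subgroup.mem_subgroupOf]
  constructor
  · intro h
    apply mem_centralizer_of_fix_inv P hab n.2
    intro x hx hx2
    by_cases hx1 : x = 1
    · rw [hx1]; group
    · have h1 := congrArg (fun f : Equiv.Perm _ => ((f ⟨x, hx, hx2, hx1⟩ : InvOf (P : Subgroup G)) : G)) h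
      exact h1
  · intro h
    ext x
    show n.1 * x.1 * n.1⁻¹ = x.1
    have := Subgroup.mem_centralizer_iff.1 h x.1 x.2.1
    rw [← this]
    group

theorem relIndex_dvd_six_odd (m : ℕ) (hm : 1 ≤ m)
    (e : (P : Subgroup G) ≃* Multiplicative (ZMod (2 ^ m) × ZMod (2 ^ m))) :
    (Subgroup.centralizer ((P : Subgroup G) : Set G)).relIndex (Subgroup.normalizer ((P : Subgroup G) : Set G)) = 1 ∨
      (Subgroup.centralizer ((P : Subgroup G) : Set G)).relIndex (Subgroup.normalizer ((P : Subgroup G) : Set G)) = 3 := by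
  classical
  have hab : ∀ a ∈ (P : Subgroup G), ∀ b ∈ (P : Subgroup G), a * b = b * a := by
    intro x hx y hy
    have h := mul_comm (e ⟨x, hx⟩) (e ⟨y, hy⟩)
    rw [← map_mul, ← map_mul] at h
    exact congrArg Subtype.val (e.injective h)
  have hcard := card_invOf (P : Subgroup G) m hm e
  haveI : Fintype (InvOf (P : Subgroup G)) := Fintype.ofFinite _
  have h1 : (Subgroup.centralizer ((P : Subgroup G) : Set G)).relIndex (Subgroup.normalizer ((P : Subgroup G) : Set G)) =
      Nat.card (normInvHom (P : Subgroup G)).range := by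
    rw [Subgroup.relIndex, ← ker_normInvHom P hab, Subgroup.index_ker]
  have h2 : Nat.card (normInvHom (P : Subgroup G)).range ∣ Nat.card (Equiv.Perm (InvOf (P : Subgroup G))) :=
    Subgroup.card_subgroup_dvd_card _
  have h3 : Nat.card (Equiv.Perm (InvOf (P : Subgroup G))) = 6 := by
    rw [Nat.card_eq_fintype_card, Fintype.card_perm, ← Nat.card_eq_fintype_card, hcard]
    rfl
  have hPC : (P : Subgroup G) ≤ Subgroup.centralizer ((P : Subgroup G) : Set G) := by
    intro a ha
    rw [Subgroup.mem_centralizer_iff]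
    intro b hb
    exact hab b hb a ha
  have hPN : (P : Subgroup G) ≤ Subgroup.normalizer ((P : Subgroup G) : Set G) :=
    hPC.trans (Subgroup.centralizer_le_normalizer _)
  have h4 : (Subgroup.centralizer ((P : Subgroup G) : Set G)).relIndex (Subgroup.normalizer ((P : Subgroup G) : Set G)) ∣
      (P : Subgroup G).index := by
    have h5 := Subgroup.relIndex_mul_index hPN
    have h6 : (Subgroup.centralizer ((P : Subgroup G) : Set G)).relIndex (Subgroup.normalizer ((P : Subgroup G) : Set G)) ∣
        (P : Subgroup G).relIndex (Subgroup.normalizer ((P : Subgroup G) : Set G)) :=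
      Subgroup.relIndex_dvd_of_le_left _ hPC
    rw [← h5]
    exact h6.trans (dvd_mul_right _ _)
  have hodd : ¬ 2 ∣ (P : Subgroup G).index := P.not_dvd_index
  rw [h1] at h4 ⊢
  rw [h3] at h2
  have h7 : Nat.card (normInvHom (P : Subgroup G)).range ∈ Nat.divisors 6 :=
    Nat.mem_divisors.2 ⟨h2, by norm_num⟩
  have h8 : Nat.divisors 6 = {1, 2, 3, 6} := by decide
  rw [h8] at h7
  simp only [Finset.mem_insert, Finset.mem_singleton] at h7
  rcases h7 with h | h | h | h
  · exact Or.inl h
  · rw [h] at h4; exact absurd h4 hodd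
  · exact Or.inr h
  · rw [h] at h4
    exact absurd ((by norm_num : 2 ∣ 6).trans h4) hodd

/-- The centralizer of a nonidentity element of `P` in the normalizer of `P` is the centralizer of `P`. -/
theorem centralizer_inf_normalizer (m : ℕ) (hm : 1 ≤ m)
    (e : (P : Subgroup G) ≃* Multiplicative (ZMod (2 ^ m) × ZMod (2 ^ m))) {z : G} (hz : z ∈ (P : Subgroup G))
    (hz1 : z ≠ 1) :
    Subgroup.centralizer ({z} : Set G) ⊓ Subgroup.normalizer ((P : Subgroup G) : Set G) =
      Subgroup.centralizer ((P : Subgroup G) : Set G) := by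
  classical
  have hab : ∀ a ∈ (P : Subgroup G), ∀ b ∈ (P : Subgroup G), a * b = b * a := by
    intro x hx y hy
    have h := mul_comm (e ⟨x, hx⟩) (e ⟨y, hy⟩)
    rw [← map_mul, ← map_mul] at h
    exact congrArg Subtype.val (e.injective h)
  apply le_antisymm
  · rintro n ⟨hnz, hnN⟩
    have hnz' : n * z = z * n := Subgroup.mem_centralizer_singleton_iff.1 hnz
    obtain ⟨u, v, huv, hc, huP, hv, hvN, hv_z⟩ := normalizer_jordan P hnN
    have huC : u ∈ Subgroup.centralizer ((P : Subgroup G) : Set G) := by
      rw [Subgroup.mem_centralizer_iff]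
      intro x hx
      exact hab x hx u huP
    -- an involution in ⟨z⟩
    obtain ⟨k, hk⟩ := (IsPGroup.iff_orderOf.1 P.isPGroup') ⟨z, hz⟩
    have hk' : orderOf z = 2 ^ k := by
      rw [← hk]; exact (Subgroup.orderOf_mk z hz).symm
    have hk0 : k ≠ 0 := by
      rintro rfl
      rw [pow_zero, orderOf_eq_one_iff] at hk'
      exact hz1 hk'
    obtain ⟨k, rfl⟩ := Nat.exists_eq_succ_of_ne_zero hk0
    set i := z ^ (2 ^ k) with hi
    have hiP : i ∈ (P : Subgroup G) := Subgroup.pow_mem _ hz _
    have hi2 : i * i = 1 := by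
      rw [hi, ← pow_add, ← two_mul, ← pow_succ', ← hk']
      exact pow_orderOf_eq_one z
    have hi1 : i ≠ 1 := by
      rw [hi]
      intro h
      have := orderOf_dvd_of_pow_eq_one h
      rw [hk'] at this
      have := Nat.le_of_dvd (by positivity) this
      rw [Nat.succ_eq_add_one, pow_succ] at this
      have h2 : 0 < 2 ^ k := by positivity
      omega
    have hvz : Commute v z := by
      obtain ⟨j, rfl⟩ := Subgroup.mem_zpowers_iff.1 hv_z
      exact (show Commute n z from hnz').zpow_left j
    have hvi : v * i * v⁻¹ = i := by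
      have : Commute v i := hvz.pow_right _
      rw [this.eq]
      group
    -- the permutation induced by v
    set f := normInvHom (P : Subgroup G) ⟨v, hvN⟩ with hf
    have hcard := card_invOf (P : Subgroup G) m hm e
    haveI : Fintype (InvOf (P : Subgroup G)) := Fintype.ofFinite _
    set i' : InvOf (P : Subgroup G) := ⟨i, hiP, hi2, hi1⟩ with hi'
    have hfi : f i' = i' := Subtype.ext hvi
    have hfodd : f ^ orderOf v = 1 := by
      rw [hf, ← map_pow]
      have : (⟨v, hvN⟩ : Subgroup.normalizer ((P : Subgroup G) : Set G)) ^ orderOf v = 1 :=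
        Subtype.ext (pow_orderOf_eq_one v)
      rw [this, map_one]
    have hodd : Odd (orderOf v) := by
      rwa [← Nat.not_even_iff_odd, even_iff_two_dvd]
    have hftriv : f = 1 := by
      -- a permutation of odd order of three points with a fixed point is trivial
      have h3 : Fintype.card (InvOf (P : Subgroup G)) = 3 := by
        rw [← Nat.card_eq_fintype_card, hcard]
      refine Equiv.ext fun x => ?_
      by_contra hne
      have hne' : f x ≠ x := hne
      have hxi : x ≠ i' := by
        rintro rfl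
        exact hne' hfi
      have hfxi : f x ≠ i' := by
        intro h
        apply hxi
        apply f.injective
        rw [h, hfi]
      have hfxx : f (f x) = x := by
        by_contra hcon
        have hfi2 : f (f x) ≠ i' := by
          intro h
          apply hfxi
          apply f.injective
          rw [h, hfi]
        have hfne : f (f x) ≠ f x := fun h => hne' (f.injective h)
        have hS : ({i', x, f x, f (f x)} : Finset _).card = 4 := by
          rw [Finset.card_insert_of_notMem, Finset.card_insert_of_notMem, Finset.card_pair hfne.symm]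
          · simp only [Finset.mem_insert, Finset.mem_singleton, not_or]
            exact ⟨fun h => hne' h.symm, fun h => hcon h.symm⟩
          · simp only [Finset.mem_insert, Finset.mem_singleton, not_or]
            exact ⟨hxi.symm, hfxi.symm, hfi2.symm⟩
        have := Finset.card_le_univ ({i', x, f x, f (f x)} : Finset _)
        rw [hS, h3] at this
        omega
      obtain ⟨j, hj⟩ := hodd
      have h2pow : ∀ l : ℕ, (f ^ (2 * l)) x = x := by
        intro l
        induction l with
        | zero => simp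
        | succ l ih =>
          have e1 : 2 * (l + 1) = 2 + 2 * l := by ring
          rw [e1, pow_add, Equiv.Perm.mul_apply, ih, pow_two, Equiv.Perm.mul_apply, hfxx]
      have h4 := congrArg (fun g : Equiv.Perm _ => g x) hfodd
      simp only [Equiv.Perm.one_apply] at h4
      rw [hj, add_comm, pow_add, pow_one, Equiv.Perm.mul_apply, h2pow j] at h4
      exact hne' h4
    have hvC : v ∈ Subgroup.centralizer ((P : Subgroup G) : Set G) := by
      apply mem_centralizer_of_fix_inv P hab hvN
      intro x hx hx2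
      by_cases hx1 : x = 1
      · rw [hx1]; group
      · have h1 := congrArg (fun g : Equiv.Perm _ => ((g ⟨x, hx, hx2, hx1⟩ : InvOf (P : Subgroup G)) : G)) hftriv
        exact h1
    rw [← huv]
    exact Subgroup.mul_mem _ huC hvC
  · intro c hc
    refine ⟨?_, Subgroup.centralizer_le_normalizer _ hc⟩
    exact Subgroup.mem_centralizer_singleton_iff.2 (Subgroup.mem_centralizer_iff.1 hc z hz).symm

end Index

end Cfsg.Agent.Lib.Block
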