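import Cfsg.Agent.Lib.Block.Coherent
import Cfsg.Agent.Lib.Block.Homocyclic
import Cfsg.Agent.Lib.Block.Klein2
import Cfsg.Agent.Lib.Char.Clifford
import Cfsg.Agent.Lib.Char.Constituent
import Cfsg.Agent.Lib.Degree.Linear

/-!
# Characters of an abelian group with a fixed point free automorphism of order three,
and the matrix of multiplicities of characters of a group restricted to it
-/

set_option autoImplicit false
set_option linter.unusedSectionVars false
set_option linter.unusedSimpArgs false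
set_option linter.unusedVariables false

open scoped ComplexConjugate
open Cfsg MonoidAlgebra Cfsg.Agent.Lib.Char

namespace Cfsg.Agent.Lib.Block

section Ab

variable {A : Type*} [Group A] [Fintype A]

theorem ab_one (hab : ∀ a b : A, a * b = b * a) (l : IrrCharacter A) : (l : A → ℂ) 1 = 1 := by
  exact charDegree_eq_one_of_comm hab l.2

theorem ab_mul (hab : ∀ a b : A, a * b = b * a) (l : IrrCharacter A) (a b : A) :
    (l : A → ℂ) (a * b) = (l : A → ℂ) a * (l : A → ℂ) b :=
  Cfsg.Agent.Lib.Degree.irr_linear_mul l (ab_one hab l) a b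

theorem ab_card (hab : ∀ a b : A, a * b = b * a) : Fintype.card (IrrCharacter A) = Nat.card A := by
  classical
  have h1 := sum_degree_sq (G := A)
  rw [Finset.sum_congr rfl (fun lam _ => by rw [ab_one hab lam, one_pow]), Finset.sum_const,
    Finset.card_univ] at h1
  have h2 : (Fintype.card (IrrCharacter A) : ℂ) = (Nat.card A : ℂ) := by
    simpa using h1
  exact_mod_cast h2

theorem ab_sum_irr (hab : ∀ a b : A, a * b = b * a) {u : A} (hu : u ≠ 1) :
    ∑ l : IrrCharacter A, (l : A → ℂ) u = 0 := by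
  classical
  have h1 := second_orthogonality u (1 : A)
  have h2 : ¬ IsConj u 1 := by
    intro h
    exact hu (isConj_one_right.1 h.symm)
  rw [if_neg h2] at h1
  rw [← h1]
  refine Finset.sum_congr rfl fun l _ => ?_
  rw [ab_one hab l]
  simp

theorem ab_sum_ne {l : IrrCharacter A} (hl : l ≠ oneIrr A) : ∑ u : A, (l : A → ℂ) u = 0 := by
  have h1 := classInner_irr l.2 (oneIrr A).2
  rw [if_neg (fun h => hl (Subtype.ext h)), classInner_def] at h1
  have hN : (Nat.card A : ℂ)⁻¹ ≠ 0 := inv_ne_zero (by exact_mod_cast Nat.card_pos.ne')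
  have h2 := (mul_eq_zero.1 h1).resolve_left hN
  simpa [oneIrr_coe] using h2

theorem ab_sum_ne_conj {l : IrrCharacter A} (hl : l ≠ oneIrr A) : ∑ u : A, conj ((l : A → ℂ) u) = 0 := by
  rw [← map_sum, ab_sum_ne hl, map_zero]

/-- Twist of an irreducible character by an automorphism. -/
noncomputable def twIrr (τ : A ≃* A) (l : IrrCharacter A) : IrrCharacter A :=
  ⟨(l : A → ℂ) ∘ τ, isIrr_comp_equiv τ l.2⟩

@[simp] theorem twIrr_apply (τ : A ≃* A) (l : IrrCharacter A) (u : A) :
    (twIrr τ l : A → ℂ) u = (l : A → ℂ) (τ u) := rfl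

theorem twIrr_one (τ : A ≃* A) : twIrr τ (oneIrr A) = oneIrr A := by
  apply Subtype.ext
  funext u
  simp [oneIrr_coe]

theorem twIrr_three (τ : A ≃* A) (hτ3 : ∀ u, τ (τ (τ u)) = u) (l : IrrCharacter A) :
    twIrr τ (twIrr τ (twIrr τ l)) = l := by
  apply Subtype.ext
  funext u
  simp [hτ3]

theorem twIrr_ne_one (τ : A ≃* A) (hτ3 : ∀ u, τ (τ (τ u)) = u) {l : IrrCharacter A} (hl : l ≠ oneIrr A) :
    twIrr τ l ≠ oneIrr A := by
  intro h
  apply hl
  rw [← twIrr_three τ hτ3 l, h, twIrr_one, twIrr_one]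

theorem twIrr_fix_free (hab : ∀ a b : A, a * b = b * a) (τ : A ≃* A) (hfix : ∀ u, τ u = u → u = 1)
    {l : IrrCharacter A} (h : twIrr τ l = l) : l = oneIrr A := by
  have hval : ∀ u, (l : A → ℂ) (τ u) = (l : A → ℂ) u := by
    intro u
    conv_rhs => rw [← h]
    rfl
  have hinj : Function.Injective (fun u : A => τ u * u⁻¹) := by
    intro u v huv
    have h1 : τ u * u⁻¹ = τ v * v⁻¹ := huv
    have h2 : τ (u * v⁻¹) = u * v⁻¹ := by
      rw [map_mul, map_inv]
      have h3 : τ u = τ v * v⁻¹ * u := by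
        rw [← h1]
        group
      calc τ u * (τ v)⁻¹ = (τ v * v⁻¹ * u) * (τ v)⁻¹ := by rw [← h3]
        _ = τ v * (v⁻¹ * u) * (τ v)⁻¹ := by group
        _ = (v⁻¹ * u) * τ v * (τ v)⁻¹ := by rw [hab (τ v)]
        _ = v⁻¹ * u := by group
        _ = u * v⁻¹ := hab _ _
    have h4 := hfix _ h2
    exact mul_inv_eq_one.1 h4
  have hsurj := Finite.surjective_of_injective hinj
  apply Subtype.ext
  funext w
  obtain ⟨u, rfl⟩ := hsurj w
  show (l : A → ℂ) (τ u * u⁻¹) = 1
  rw [ab_mul hab, hval, ← ab_mul hab, mul_inv_cancel, ab_one hab]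

end Ab

section Col

variable {G : Type*} [Group G] [Fintype G] (A : Subgroup G) [Fintype A]

/-- The multiplicity of an irreducible character of `A` in the restriction of an irreducible character of `G`. -/
noncomputable def multA (χ : IrrCharacter G) (l : IrrCharacter A) : ℕ :=
  Classical.choose (classInner_isCharacter_nat
    (IsCharacter.restrict A (IsIrrCharacter.isCharacter χ.2)) (IsIrrCharacter.isCharacter l.2))

theorem multA_spec (χ : IrrCharacter G) (l : IrrCharacter A) :
    classInner (fun u : A => (χ : G → ℂ) u) (l : A → ℂ) = multA A χ l :=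
  Classical.choose_spec (classInner_isCharacter_nat
    (IsCharacter.restrict A (IsIrrCharacter.isCharacter χ.2)) (IsIrrCharacter.isCharacter l.2))

/-- The column: multiplicity of `l` minus multiplicity of the principal character. -/
noncomputable def colA (χ : IrrCharacter G) (l : IrrCharacter A) : ℤ :=
  (multA A χ l : ℤ) - multA A χ (oneIrr A)

@[simp] theorem colA_oneIrr (χ : IrrCharacter G) : colA A χ (oneIrr A) = 0 := by
  simp [colA]

theorem colA_cast (χ : IrrCharacter G) (l : IrrCharacter A) :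
    (colA A χ l : ℂ) = (Nat.card A : ℂ)⁻¹ * ∑ u : A, (χ : G → ℂ) u * (conj ((l : A → ℂ) u) - 1) := by
  unfold colA
  push_cast
  rw [← multA_spec, ← multA_spec, classInner_def, classInner_def, ← mul_sub, ← Finset.sum_sub_distrib]
  congr 1
  refine Finset.sum_congr rfl fun u _ => ?_
  simp [oneIrr_coe, mul_sub]

theorem colA_cast' (χ : IrrCharacter G) (l : IrrCharacter A) :
    (colA A χ l : ℂ) = (Nat.card A : ℂ)⁻¹ * ∑ u : A, conj ((χ : G → ℂ) u) * ((l : A → ℂ) u - 1) := by
  have h1 := congrArg (starRingEnd ℂ) (colA_cast A χ l)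
  simp only [map_intCast] at h1
  rw [h1, map_mul, map_sum, map_inv₀, map_natCast]
  congr 1
  refine Finset.sum_congr rfl fun u _ => ?_
  simp

variable {A}

theorem res_eq_sum (hab : ∀ a b : A, a * b = b * a) (χ : IrrCharacter G) {u : A} (hu : u ≠ 1) :
    (χ : G → ℂ) u = ∑ l : IrrCharacter A, (colA A χ l : ℂ) * (l : A → ℂ) u := by
  have hcl : IsClassFunction A (fun u : A => (χ : G → ℂ) u) :=
    IsCharacter.isClassFunction (IsCharacter.restrict A (IsIrrCharacter.isCharacter χ.2))
  have h1 := congrFun (classFunction_eq_sum _ hcl) u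
  simp only [Finset.sum_apply, Pi.smul_apply, smul_eq_mul, multA_spec] at h1
  rw [h1]
  unfold colA
  push_cast
  simp only [sub_mul, Finset.sum_sub_distrib]
  rw [← Finset.mul_sum, ab_sum_irr hab hu, mul_zero, sub_zero]

theorem conj_res_eq_sum (hab : ∀ a b : A, a * b = b * a) (χ : IrrCharacter G) {u : A} (hu : u ≠ 1) :
    conj ((χ : G → ℂ) u) = ∑ l : IrrCharacter A, (colA A χ l : ℂ) * conj ((l : A → ℂ) u) := by
  rw [res_eq_sum hab χ hu, map_sum]
  refine Finset.sum_congr rfl fun l _ => ?_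
  simp

theorem degree_eq_sum_col (hab : ∀ a b : A, a * b = b * a) (χ : IrrCharacter G) :
    (χ : G → ℂ) 1 = (Nat.card A : ℂ) * multA A χ (oneIrr A) + ∑ l : IrrCharacter A, (colA A χ l : ℂ) := by
  have hcl : IsClassFunction A (fun u : A => (χ : G → ℂ) u) :=
    IsCharacter.isClassFunction (IsCharacter.restrict A (IsIrrCharacter.isCharacter χ.2))
  have h1 := congrFun (classFunction_eq_sum _ hcl) 1
  simp only [Finset.sum_apply, Pi.smul_apply, smul_eq_mul, multA_spec, ab_one hab, mul_one,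
    Subgroup.coe_one] at h1
  rw [h1]
  unfold colA
  push_cast
  rw [Finset.sum_sub_distrib, Finset.sum_const, Finset.card_univ, ab_card hab]
  simp

theorem colA_oneIrr_left {l : IrrCharacter A} (hl : l ≠ oneIrr A) : colA A (oneIrr G) l = -1 := by
  have e : (fun u : A => ((oneIrr G : IrrCharacter G) : G → ℂ) u) = ((oneIrr A : IrrCharacter A) : A → ℂ) := by
    funext u
    simp [oneIrr_coe]
  have h1 := multA_spec A (oneIrr G) l
  have h2 := multA_spec A (oneIrr G) (oneIrr A)
  rw [e, classInner_irr (oneIrr A).2 l.2, if_neg (fun h => hl (Subtype.ext h).symm)] at h1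
  rw [e, classInner_irr (oneIrr A).2 (oneIrr A).2, if_pos rfl] at h2
  have h3 : multA A (oneIrr G) l = 0 := by exact_mod_cast h1.symm
  have h4 : multA A (oneIrr G) (oneIrr A) = 1 := by exact_mod_cast h2.symm
  simp [colA, h3, h4]

theorem colA_twIrr (τ : A ≃* A) (χ : IrrCharacter G) (hχ : ∀ u : A, (χ : G → ℂ) (τ u) = (χ : G → ℂ) u)
    (l : IrrCharacter A) : colA A χ (twIrr τ l) = colA A χ l := by
  have h1 := colA_cast A χ (twIrr τ l)
  have h2 := colA_cast A χ l
  have h3 : (colA A χ (twIrr τ l) : ℂ) = colA A χ l := by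
    rw [h1, h2]
    congr 1
    rw [← Equiv.sum_comp τ.toEquiv (fun u : A => (χ : G → ℂ) u * (conj ((l : A → ℂ) u) - 1))]
    refine Finset.sum_congr rfl fun u _ => ?_
    simp [hχ]
  exact_mod_cast h3

open Classical in
/-- The inner product used in the matrix formula. -/
theorem inner_sub_one (hab : ∀ a b : A, a * b = b * a) {l φ : IrrCharacter A} (hl : l ≠ oneIrr A)
    (hφ : φ ≠ oneIrr A) :
    (Nat.card A : ℂ)⁻¹ * ∑ u : A, (conj ((l : A → ℂ) u) - 1) * ((φ : A → ℂ) u - 1) =
      1 + (if φ = l then 1 else 0) := by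
  have h1 := classInner_irr φ.2 l.2
  rw [classInner_def] at h1
  have hN : (Nat.card A : ℂ) ≠ 0 := by exact_mod_cast Nat.card_pos.ne'
  have e : ∀ u : A, (conj ((l : A → ℂ) u) - 1) * ((φ : A → ℂ) u - 1) =
      (φ : A → ℂ) u * conj ((l : A → ℂ) u) - conj ((l : A → ℂ) u) - (φ : A → ℂ) u + 1 := by
    intro u
    ring
  simp only [e]
  rw [Finset.sum_add_distrib, Finset.sum_sub_distrib, Finset.sum_sub_distrib, ab_sum_ne_conj hl, ab_sum_ne hφ,
    mul_add, mul_sub, mul_sub, h1]
  have h2 : (∑ x : A, (1 : ℂ)) = Nat.card A := by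
    simp
  rw [h2, inv_mul_cancel₀ hN]
  have h3 : (if (φ : A → ℂ) = (l : A → ℂ) then (1 : ℂ) else 0) = if φ = l then 1 else 0 := by
    by_cases h : φ = l
    · simp [h]
    · rw [if_neg h, if_neg (fun e => h (Subtype.ext e))]
  rw [h3]
  ring

open Classical in
/-- The matrix formula. -/
theorem col_matrix (hab : ∀ a b : A, a * b = b * a) (τ : A ≃* A) (hτ3 : ∀ u, τ (τ (τ u)) = u)
    (hfix : ∀ u, τ u = u → u = 1) (S : Finset (IrrCharacter G))
    (hI0 : ∀ u v : A, u ≠ 1 → v ≠ 1 → ∑ χ ∈ S, (χ : G → ℂ) u * conj ((χ : G → ℂ) v) =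
      if v = u ∨ v = τ u ∨ v = τ (τ u) then (Nat.card A : ℂ) else 0)
    {l m : IrrCharacter A} (hl : l ≠ oneIrr A) (hm : m ≠ oneIrr A) :
    ∑ χ ∈ S, ((colA A χ l : ℂ) * (colA A χ m : ℂ)) =
      3 + (if m = l then 1 else 0) + (if twIrr τ m = l then 1 else 0) +
        (if twIrr τ (twIrr τ m) = l then 1 else 0) := by
  have hN : (Nat.card A : ℂ) ≠ 0 := by exact_mod_cast Nat.card_pos.ne'
  have hexp : ∀ χ : IrrCharacter G, (colA A χ l : ℂ) * (colA A χ m : ℂ) =
      (Nat.card A : ℂ)⁻¹ * (Nat.card A : ℂ)⁻¹ * ∑ u : A, ∑ v : A,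
        (conj ((l : A → ℂ) u) - 1) * ((m : A → ℂ) v - 1) * ((χ : G → ℂ) u * conj ((χ : G → ℂ) v)) := by
    intro χ
    rw [colA_cast A χ l, colA_cast' A χ m]
    rw [mul_mul_mul_comm, Finset.sum_mul_sum]
    congr 1
    refine Finset.sum_congr rfl fun u _ => Finset.sum_congr rfl fun v _ => ?_
    ring
  simp only [hexp]
  rw [← Finset.mul_sum]
  have hstep : ∑ χ ∈ S, ∑ u : A, ∑ v : A,
        (conj ((l : A → ℂ) u) - 1) * ((m : A → ℂ) v - 1) * ((χ : G → ℂ) u * conj ((χ : G → ℂ) v)) =
      ∑ u : A, ∑ v : A, (conj ((l : A → ℂ) u) - 1) * ((m : A → ℂ) v - 1) *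
        (∑ χ ∈ S, (χ : G → ℂ) u * conj ((χ : G → ℂ) v)) := by
    rw [Finset.sum_comm]
    refine Finset.sum_congr rfl fun u _ => ?_
    rw [Finset.sum_comm]
    refine Finset.sum_congr rfl fun v _ => ?_
    rw [Finset.mul_sum]
  rw [hstep]
  have hfix2 : ∀ u : A, u ≠ 1 → τ (τ u) ≠ u := by
    intro u hu h
    apply hu
    apply hfix
    have := hτ3 u
    rw [h] at this
    exact this
  have hin : ∀ u : A, ∑ v : A, (conj ((l : A → ℂ) u) - 1) * ((m : A → ℂ) v - 1) *
        (∑ χ ∈ S, (χ : G → ℂ) u * conj ((χ : G → ℂ) v)) =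
      (Nat.card A : ℂ) * ((conj ((l : A → ℂ) u) - 1) * ((m : A → ℂ) u - 1) +
        (conj ((l : A → ℂ) u) - 1) * ((twIrr τ m : A → ℂ) u - 1) +
        (conj ((l : A → ℂ) u) - 1) * ((twIrr τ (twIrr τ m) : A → ℂ) u - 1)) := by
    intro u
    by_cases hu : u = 1
    · subst hu
      have : conj ((l : A → ℂ) 1) - 1 = 0 := by
        rw [ab_one hab]
        simp
      simp [this]
    · have hterm : ∀ v : A, (conj ((l : A → ℂ) u) - 1) * ((m : A → ℂ) v - 1) *
          (∑ χ ∈ S, (χ : G → ℂ) u * conj ((χ : G → ℂ) v)) =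
          if v ∈ ({u, τ u, τ (τ u)} : Finset A) then
            (Nat.card A : ℂ) * ((conj ((l : A → ℂ) u) - 1) * ((m : A → ℂ) v - 1)) else 0 := by
        intro v
        by_cases hv : v = 1
        · subst hv
          have h0 : (m : A → ℂ) 1 - 1 = 0 := by rw [ab_one hab]; simp
          simp [h0]
        · rw [hI0 u v hu hv]
          simp only [Finset.mem_insert, Finset.mem_singleton]
          split_ifs with h
          · ring
          · ring
      simp only [hterm]
      rw [Finset.sum_ite_mem, Finset.univ_inter, Finset.sum_insert, Finset.sum_insert, Finset.sum_singleton]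
      · simp only [twIrr_apply]
        ring
      · simp only [Finset.mem_singleton]
        intro h
        exact hu (hfix _ ((τ.injective h).symm))
      · simp only [Finset.mem_insert, Finset.mem_singleton, not_or]
        exact ⟨fun h => hu (hfix _ h.symm), fun h => hfix2 u hu h.symm⟩
  simp only [hin]
  rw [← Finset.mul_sum, ← mul_assoc, mul_assoc _ _ (Nat.card A : ℂ), inv_mul_cancel₀ hN, mul_one,
    Finset.sum_add_distrib, Finset.sum_add_distrib, mul_add, mul_add,
    inner_sub_one hab hl hm, inner_sub_one hab hl (twIrr_ne_one τ hτ3 hm),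
    inner_sub_one hab hl (twIrr_ne_one τ hτ3 (twIrr_ne_one τ hτ3 hm))]
  ring

end Col

end Cfsg.Agent.Lib.Block
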