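import Cfsg.Agent.Lib.Block.HomoMain
import Cfsg.Agent.Lib.Techniques.Fusion
import Cfsg.Agent.Lib.Char.DefectZero

/-!
# Brauer's theorem on homocyclic Sylow 2-subgroups of rank two
-/

set_option autoImplicit false
set_option linter.unusedSectionVars false
set_option linter.unusedSimpArgs false
set_option linter.unusedVariables false

open scoped ComplexConjugate
open Cfsg MonoidAlgebra Cfsg.Agent.Lib.Char

namespace Cfsg.Agent.Lib.Block

section Finish

variable {G : Type*} [Group G] [Finite G]

/-- Normal abelian Sylow 2-subgroup and no odd normal subgroup: the group is as claimed. -/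
theorem finish_normal (P : Sylow 2 G) (m : ℕ) (hm : 1 ≤ m)
    (e : (P : Subgroup G) ≃* Multiplicative (ZMod (2 ^ m) × ZMod (2 ^ m)))
    (hO : ∀ N : Subgroup G, N.Normal → Odd (Nat.card N) → N = ⊥) (hn : (P : Subgroup G).Normal) :
    Subgroup.centralizer ((P : Subgroup G) : Set G) = (P : Subgroup G) ∧
      ((P : Subgroup G).index = 1 ∨ (P : Subgroup G).index = 3) := by
  classical
  haveI := hn
  haveI : Fintype G := Fintype.ofFinite _
  have hab : ∀ a ∈ (P : Subgroup G), ∀ b ∈ (P : Subgroup G), a * b = b * a := by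
    intro x hx y hy
    have h := mul_comm (e ⟨x, hx⟩) (e ⟨y, hy⟩)
    rw [← map_mul, ← map_mul] at h
    exact congrArg Subtype.val (e.injective h)
  have hPC : (P : Subgroup G) ≤ Subgroup.centralizer ((P : Subgroup G) : Set G) := by
    intro a ha
    rw [Subgroup.mem_centralizer_iff]
    intro b hb
    exact hab b hb a ha
  have hCA : Subgroup.centralizer ((P : Subgroup G) : Set G) = (P : Subgroup G) := by
    apply le_antisymm _ hPC
    have hCn : (Subgroup.centralizer ((P : Subgroup G) : Set G)).Normal := by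
      constructor
      intro c hc g
      rw [Subgroup.mem_centralizer_iff]
      intro a ha
      have h1 := Subgroup.mem_centralizer_iff.1 hc _ (hn.conj_mem a ha g⁻¹)
      simp only [inv_inv] at h1
      calc a * (g * c * g⁻¹) = g * (g⁻¹ * a * g * c) * g⁻¹ := by group
        _ = g * (c * (g⁻¹ * a * g)) * g⁻¹ := by rw [h1]
        _ = g * c * g⁻¹ * a := by group
    obtain ⟨C, hC⟩ : ∃ C, C = Subgroup.centralizer ((P : Subgroup G) : Set G) := ⟨_, rfl⟩
    rw [← hC] at hPC hCn ⊢
    haveI : Fintype C := Fintype.ofFinite _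
    have hmemC : ∀ c, c ∈ C → ∀ a ∈ (P : Subgroup G), a * c = c * a := by
      intro c hc a ha
      rw [hC] at hc
      exact Subgroup.mem_centralizer_iff.1 hc a ha
    obtain ⟨K, hKn, hK, hidx⟩ := exists_complement_of_burnside (P.subtype hPC) (by
      intro x _
      rw [Subgroup.mem_centralizer_iff]
      intro y hy
      apply Subtype.ext
      rw [Sylow.coe_subtype, SetLike.mem_coe, Subgroup.mem_subgroupOf] at hy
      exact hmemC x x.2 y hy)
    have hK' : K.map C.subtype = ⊥ := by
      apply hO
      · constructor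
        intro k hk g
        obtain ⟨k', hk', rfl⟩ := hk
        refine ⟨⟨g * k' * g⁻¹, hCn.conj_mem _ k'.2 g⟩, ?_, rfl⟩
        apply mem_of_regular_of_index K hidx
        have hor : orderOf (⟨g * k' * g⁻¹, hCn.conj_mem _ k'.2 g⟩ : C) = orderOf (k' : C) := by
          rw [Subgroup.orderOf_mk, orderOf_conj, Subgroup.orderOf_coe]
        rw [hor]
        intro h2
        apply hK
        have h3 : orderOf (⟨k', hk'⟩ : K) = orderOf k' := Subgroup.orderOf_mk k' hk'
        exact h2.trans (h3 ▸ orderOf_dvd_natCard _)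
      · have h1 : Nat.card (K.map C.subtype) = Nat.card K :=
          Nat.card_congr (Subgroup.equivMapOfInjective K C.subtype C.subtype_injective).symm.toEquiv
        rw [h1, ← Nat.not_even_iff_odd, even_iff_two_dvd]
        exact hK
    intro c hc
    obtain ⟨u, v, huv, _, hu2, hv, hu_z, hv_z⟩ := exists_jordan (p := 2) c
    have hzC : Subgroup.zpowers c ≤ C := by
      rw [Subgroup.zpowers_le]
      exact hc
    have hvC : v ∈ C := hzC hv_z
    have hv1 : v = 1 := by
      have h1 : (⟨v, hvC⟩ : C) ∈ K := by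
        apply mem_of_regular_of_index K hidx
        rw [Subgroup.orderOf_mk]
        exact hv
      have h2 : v ∈ K.map C.subtype := ⟨⟨v, hvC⟩, h1, rfl⟩
      rw [hK'] at h2
      exact h2
    have hu3 : u ∈ (P : Subgroup G) := by
      apply mem_sylow_of_normalizes P hu2
      rw [Subgroup.normalizer_eq_top (P : Subgroup G)]
      trivial
    rw [← huv, hv1, mul_one]
    exact hu3
  refine ⟨hCA, ?_⟩
  have h1 := relIndex_dvd_six_odd P m hm e
  rw [Subgroup.normalizer_eq_top (P : Subgroup G), hCA, Subgroup.relIndex_top_right] at h1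
  exact h1

end Finish

section Assembly

variable {G : Type*} [Group G] [Fintype G] {M : Ideal AlgInt}

/-- Conjugation by an element of the normalizer as an automorphism. -/
noncomputable def normConj (A : Subgroup G) (t : G) (ht : t ∈ Subgroup.normalizer (A : Set G)) : A ≃* A where
  toFun u := ⟨t * u * t⁻¹, (Subgroup.mem_normalizer_iff.1 ht u).1 u.2⟩
  invFun u := ⟨t⁻¹ * u * t, by
    have h1 := Subgroup.mem_normalizer_iff.1 ht (t⁻¹ * u * t)
    have h2 : t * (t⁻¹ * u * t) * t⁻¹ = u := by group
    rw [h2] at h1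
    exact h1.2 u.2⟩
  left_inv u := by
    apply Subtype.ext
    show t⁻¹ * (t * u * t⁻¹) * t = u
    group
  right_inv u := by
    apply Subtype.ext
    show t * (t⁻¹ * u * t) * t⁻¹ = u
    group
  map_mul' a b := by
    apply Subtype.ext
    show t * (a * b) * t⁻¹ = (t * a * t⁻¹) * (t * b * t⁻¹)
    group

@[simp] theorem normConj_coe (A : Subgroup G) (t : G) (ht : t ∈ Subgroup.normalizer (A : Set G)) (u : A) :
    ((normConj A t ht u : A) : G) = t * u * t⁻¹ := rfl

/-- The centralizer of a nonidentity element of `P` has a normal 2-complement. -/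
theorem homo_complement (P : Sylow 2 G) (m : ℕ) (hm : 1 ≤ m)
    (e : (P : Subgroup G) ≃* Multiplicative (ZMod (2 ^ m) × ZMod (2 ^ m))) {u : G} (hu : u ∈ (P : Subgroup G))
    (hu1 : u ≠ 1) (hPH : (P : Subgroup G) ≤ Subgroup.centralizer ({u} : Set G)) :
    ∃ K : Subgroup (Subgroup.centralizer ({u} : Set G)), K.Normal ∧ ¬ 2 ∣ Nat.card K ∧ ∃ k, K.index = 2 ^ k := by
  apply exists_complement_of_burnside (P.subtype hPH)
  intro x hx
  have hxN : (x : G) ∈ Subgroup.normalizer ((P : Subgroup G) : Set G) := by
    rw [Subgroup.mem_normalizer_iff]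
    have hmem : ∀ y : Subgroup.centralizer ({u} : Set G), y ∈ Subgroup.normalizer (((P.subtype hPH : Sylow 2 (Subgroup.centralizer ({u} : Set G))) :
        Subgroup (Subgroup.centralizer ({u} : Set G))) : Set (Subgroup.centralizer ({u} : Set G))) →
        ∀ h ∈ (P : Subgroup G), (y : G) * h * (y : G)⁻¹ ∈ (P : Subgroup G) := by
      intro y hy h hh
      have h1 := (Subgroup.mem_normalizer_iff.1 hy ⟨h, hPH hh⟩).1 (by
        rw [Sylow.coe_subtype, Subgroup.mem_subgroupOf]
        exact hh)
      rw [Sylow.coe_subtype, Subgroup.mem_subgroupOf] at h1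
      simpa using h1
    intro h
    constructor
    · exact hmem x hx h
    · intro hh
      have h2 := hmem x⁻¹ (Subgroup.inv_mem _ hx) _ hh
      simp only [InvMemClass.coe_inv, inv_inv] at h2
      have e2 : (x : G)⁻¹ * ((x : G) * h * (x : G)⁻¹) * (x : G) = h := by group
      rwa [e2] at h2
  have hxC : (x : G) ∈ Subgroup.centralizer ((P : Subgroup G) : Set G) := by
    rw [← centralizer_inf_normalizer P m hm e hu hu1]
    exact ⟨x.2, hxN⟩
  rw [Subgroup.mem_centralizer_iff]
  rintro y hy
  apply Subtype.ext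
  rw [Sylow.coe_subtype, SetLike.mem_coe, Subgroup.mem_subgroupOf] at hy
  exact Subgroup.mem_centralizer_iff.1 hxC _ hy

theorem two_pow_factorization_centralizer' (P : Sylow 2 G) {z : G}
    (hPH : (P : Subgroup G) ≤ Subgroup.centralizer ({z} : Set G)) :
    2 ^ (Nat.card (Subgroup.centralizer ({z} : Set G))).factorization 2 = Nat.card (P : Subgroup G) := by
  have h1 : 2 ^ (Nat.card G).factorization 2 = Nat.card (P : Subgroup G) := by
    rw [← Sylow.card_eq_multiplicity P]
  have h2 : Nat.card (P : Subgroup G) ∣ Nat.card (Subgroup.centralizer ({z} : Set G)) := Subgroup.card_dvd_of_le hPH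
  have h3 : Nat.card (Subgroup.centralizer ({z} : Set G)) ∣ Nat.card G := Subgroup.card_subgroup_dvd_card _
  rw [← h1] at h2
  have h5 := (Nat.prime_two.pow_dvd_iff_le_factorization Nat.card_pos.ne').1 h2
  have h6 := (Nat.factorization_le_iff_dvd Nat.card_pos.ne' Nat.card_pos.ne').2 h3 2
  have h7 : (Nat.card (Subgroup.centralizer ({z} : Set G))).factorization 2 = (Nat.card G).factorization 2 := by omega
  rw [h7, h1]

open Classical in
/-- The main theorem: `P` is normal. -/
theorem homo_normal (P : Sylow 2 G) (m : ℕ) (hm : 2 ≤ m)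
    (e : (P : Subgroup G) ≃* Multiplicative (ZMod (2 ^ m) × ZMod (2 ^ m)))
    (hO : ∀ N : Subgroup G, N.Normal → Odd (Nat.card N) → N = ⊥) : (P : Subgroup G).Normal := by
  have hm1 : 1 ≤ m := by omega
  have hab : ∀ a ∈ (P : Subgroup G), ∀ b ∈ (P : Subgroup G), a * b = b * a := by
    intro x hx y hy
    have h := mul_comm (e ⟨x, hx⟩) (e ⟨y, hy⟩)
    rw [← map_mul, ← map_mul] at h
    exact congrArg Subtype.val (e.injective h)
  have hcardA : Nat.card (P : Subgroup G) = 2 ^ m * 2 ^ m := by
    rw [Nat.card_congr e.toEquiv, Nat.card_congr Multiplicative.toAdd, Nat.card_prod]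
    haveI : NeZero (2 ^ m) := ⟨by positivity⟩
    simp [Nat.card_eq_fintype_card, ZMod.card]
  rcases relIndex_dvd_six_odd P m hm1 e with h1 | h3
  · -- Burnside
    rw [Subgroup.relIndex_eq_one] at h1
    have hc := MonoidHom.ker_transferSylow_isComplement' P h1
    have h2 := hO _ inferInstance (by
      rw [← Nat.not_even_iff_odd, even_iff_two_dvd]
      exact MonoidHom.not_dvd_card_ker_transferSylow P h1)
    have h3 : (P : Subgroup G).index = 1 := by
      rw [hc.index_eq_card, h2]
      simp
    rw [Subgroup.index_eq_one] at h3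
    rw [h3]
    infer_instance
  · -- the main case
    obtain ⟨M, hM⟩ := Cfsg.Agent.Lib.Char.exists_isPModular 2 Nat.prime_two
    haveI := isPModular_isPrime hM
    haveI : Fintype (P : Subgroup G) := Fintype.ofFinite _
    have hN3 : ¬ Subgroup.normalizer ((P : Subgroup G) : Set G) ≤ Subgroup.centralizer ((P : Subgroup G) : Set G) := by
      intro hle
      rw [(Subgroup.relIndex_eq_one).2 hle] at h3
      omega
    obtain ⟨t, htN, htC⟩ := Set.not_subset.1 hN3
    -- the action of the normalizer
    obtain ⟨f, hf⟩ : ∃ f, f = normInvHom (P : Subgroup G) := ⟨_, rfl⟩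
    have hker := ker_normInvHom P hab
    rw [← hf] at hker
    have hcardR : Nat.card f.range = 3 := by
      rw [← Subgroup.index_ker, hker]
      exact h3
    haveI : Fact (Nat.Prime 3) := ⟨by norm_num⟩
    obtain ⟨t', ht'⟩ : ∃ t' : Subgroup.normalizer ((P : Subgroup G) : Set G), t' = ⟨t, htN⟩ := ⟨_, rfl⟩
    have hmemC : ∀ n : Subgroup.normalizer ((P : Subgroup G) : Set G), f n = 1 →
        (n : G) ∈ Subgroup.centralizer ((P : Subgroup G) : Set G) := by
      intro n hn
      have : n ∈ f.ker := hn
      rw [hker, Subgroup.mem_subgroupOf] at this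
      exact this
    have hft : f t' ≠ 1 := by
      intro h
      apply htC
      have := hmemC t' h
      rw [ht'] at this
      exact this
    obtain ⟨r, hr⟩ : ∃ r : f.range, r = ⟨f t', MonoidHom.mem_range.2 ⟨t', rfl⟩⟩ := ⟨_, rfl⟩
    have hr1 : r ≠ 1 := by
      intro h
      apply hft
      rw [hr] at h
      exact congrArg Subtype.val h
    have hr3 : r ^ 3 = 1 := by
      have := pow_card_eq_one' (x := r)
      rwa [hcardR] at this
    -- three cosets
    have hcos : ∀ n : Subgroup.normalizer ((P : Subgroup G) : Set G), ∃ i : ℕ, i < 3 ∧ f n = f t' ^ i := by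
      intro n
      have hmem : (⟨f n, MonoidHom.mem_range.2 ⟨n, rfl⟩⟩ : f.range) ∈ Submonoid.powers r :=
        mem_powers_of_prime_card hcardR hr1
      obtain ⟨k, hk⟩ := hmem
      have hk' : r ^ k = ⟨f n, MonoidHom.mem_range.2 ⟨n, rfl⟩⟩ := hk
      refine ⟨k % 3, Nat.mod_lt _ (by norm_num), ?_⟩
      have h1 : r ^ k = r ^ (k % 3) := pow_eq_pow_mod k hr3
      rw [h1] at hk'
      have h2 := congrArg Subtype.val hk'
      rw [hr] at h2
      simpa using h2.symm
    -- the automorphism
    obtain ⟨τ, hτ⟩ : ∃ τ : (P : Subgroup G) ≃* (P : Subgroup G), τ = normConj _ t htN := ⟨_, rfl⟩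
    have hτc : ∀ u : (P : Subgroup G), ((τ u : (P : Subgroup G)) : G) = t * u * t⁻¹ := by
      intro u
      rw [hτ]
      rfl
    have ht3C : t ^ 3 ∈ Subgroup.centralizer ((P : Subgroup G) : Set G) := by
      have h1 : f (t' ^ 3) = 1 := by
        rw [map_pow]
        have := congrArg Subtype.val hr3
        rw [hr] at this
        simpa using this
      have h2 := hmemC _ h1
      rw [ht'] at h2
      simpa using h2
    have hτ3 : ∀ u, τ (τ (τ u)) = u := by
      intro u
      apply Subtype.ext
      rw [hτc, hτc, hτc]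
      have h1 := Subgroup.mem_centralizer_iff.1 ht3C u u.2
      have e3 : t ^ 3 = t * t * t := by rw [pow_succ, pow_two]
      rw [e3] at h1
      calc t * (t * (t * u * t⁻¹) * t⁻¹) * t⁻¹ = (t * t * t) * u * (t * t * t)⁻¹ := by group
        _ = u := by rw [← h1]; group
    have hfix : ∀ u, τ u = u → u = 1 := by
      intro u hu
      by_contra hu1
      have hu1' : (u : G) ≠ 1 := fun h => hu1 (Subtype.ext h)
      apply htC
      show t ∈ Subgroup.centralizer ((P : Subgroup G) : Set G)
      rw [← centralizer_inf_normalizer P m hm1 e u.2 hu1']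
      have h1 := congrArg Subtype.val hu
      rw [hτc] at h1
      exact ⟨Subgroup.mem_centralizer_singleton_iff.2 (mul_inv_eq_iff_eq_mul.1 h1), htN⟩
    have hconj : ∀ u v : (P : Subgroup G), IsConj (u : G) (v : G) ↔ (v = u ∨ v = τ u ∨ v = τ (τ u)) := by
      intro u v
      constructor
      · intro h
        obtain ⟨g, hg⟩ := isConj_iff.1 h
        obtain ⟨n, hn, hnuv⟩ := Cfsg.Agent.Lib.Techniques.burnside_fusion
          (Cfsg.Agent.Lib.Techniques.sylowIn_top_of_sylow P)
          (fun z hz => hab z hz u u.2) (fun z hz => hab z hz v v.2) hg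
        obtain ⟨i, hi, hfi⟩ := hcos ⟨n, hn⟩
        have hcomm : ∀ c ∈ Subgroup.centralizer ((P : Subgroup G) : Set G), ∀ x ∈ (P : Subgroup G), c * x * c⁻¹ = x := by
          intro c hc x hx
          have := Subgroup.mem_centralizer_iff.1 hc x hx
          rw [← this]
          group
        interval_cases i
        · left
          apply Subtype.ext
          rw [pow_zero] at hfi
          have h1 := hcomm _ (hmemC _ hfi) u u.2
          rw [← hnuv]
          exact h1
        · right; left
          apply Subtype.ext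
          rw [pow_one] at hfi
          have h1 : f (t'⁻¹ * ⟨n, hn⟩) = 1 := by
            rw [map_mul, map_inv, hfi, inv_mul_cancel]
          have h2 := hcomm _ (hmemC _ h1) u u.2
          rw [hτc, ← hnuv]
          have e1 : (((t'⁻¹ * ⟨n, hn⟩ : Subgroup.normalizer ((P : Subgroup G) : Set G))) : G) = t⁻¹ * n := by
            rw [ht']
            rfl
          rw [e1] at h2
          calc n * u * n⁻¹ = t * ((t⁻¹ * n) * u * (t⁻¹ * n)⁻¹) * t⁻¹ := by group
            _ = t * u * t⁻¹ := by rw [h2]
        · right; right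
          apply Subtype.ext
          have h1 : f ((t' ^ 2)⁻¹ * ⟨n, hn⟩) = 1 := by
            rw [map_mul, map_inv, hfi, map_pow, inv_mul_cancel]
          have h2 := hcomm _ (hmemC _ h1) u u.2
          rw [hτc, hτc, ← hnuv]
          have e1 : (((t' ^ 2)⁻¹ * ⟨n, hn⟩ : Subgroup.normalizer ((P : Subgroup G) : Set G)) : G) = (t ^ 2)⁻¹ * n := by
            rw [ht']
            rfl
          rw [e1, pow_two] at h2
          calc n * u * n⁻¹ = (t * t) * (((t * t)⁻¹ * n) * u * ((t * t)⁻¹ * n)⁻¹) * (t * t)⁻¹ := by group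
            _ = (t * t) * u * (t * t)⁻¹ := by rw [h2]
            _ = _ := by group
      · rintro (rfl | rfl | rfl)
        · exact IsConj.refl _
        · exact isConj_iff.2 ⟨t, (hτc u).symm⟩
        · refine isConj_iff.2 ⟨t * t, ?_⟩
          rw [hτc, hτc]
          group
    have hN : 16 ≤ Nat.card (P : Subgroup G) := by
      rw [hcardA]
      have h4 : 4 ≤ 2 ^ m := by
        calc 4 = 2 ^ 2 := by norm_num
          _ ≤ 2 ^ m := Nat.pow_le_pow_right (by norm_num) hm
      nlinarith
    have hcardI := card_invOf (P : Subgroup G) m hm1 e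
    have hnonempty : Nonempty (InvOf (P : Subgroup G)) := by
      have hpos : 0 < Nat.card (InvOf (P : Subgroup G)) := by omega
      exact (Nat.card_pos_iff.1 hpos).1
    obtain ⟨⟨z₀, hz₀A, hz₀2, hz₀1⟩⟩ := hnonempty
    obtain ⟨z, hz⟩ : ∃ z : (P : Subgroup G), z = ⟨z₀, hz₀A⟩ := ⟨_, rfl⟩
    have hz1 : z ≠ 1 := by
      rw [hz]
      exact fun h => hz₀1 (congrArg Subtype.val h)
    have hz2 : z * z = 1 := by
      rw [hz]
      exact Subtype.ext hz₀2
    obtain ⟨w, hw⟩ : ∃ w : (P : Subgroup G), w = e.symm (Multiplicative.ofAdd (1, 0)) := ⟨_, rfl⟩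
    have hw2 : w * w ≠ 1 := by
      intro h
      have h1 : e (w * w) = 1 := by rw [h, map_one]
      rw [map_mul, hw, e.apply_symm_apply, ← ofAdd_add] at h1
      have h2 : ((1 : ZMod (2 ^ m)) + 1, (0 : ZMod (2 ^ m)) + 0) = 0 := h1
      have h3 : (1 : ZMod (2 ^ m)) + 1 = 0 := congrArg Prod.fst h2
      have h4 : ((2 : ℕ) : ZMod (2 ^ m)) = 0 := by
        push_cast
        rw [← h3]
        norm_num
      rw [ZMod.natCast_eq_zero_iff] at h4
      have h5 : 2 ^ 2 ∣ 2 := (pow_dvd_pow 2 hm).trans h4
      norm_num at h5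
    have hcompl : ∀ u : (P : Subgroup G), u ≠ 1 → ∃ (hPH : (P : Subgroup G) ≤ Subgroup.centralizer ({(u : G)} : Set G))
        (K : Subgroup (Subgroup.centralizer ({(u : G)} : Set G))), K.Normal ∧ ¬ 2 ∣ Nat.card K ∧ ∃ k, K.index = 2 ^ k := by
      intro u hu
      have hPH : (P : Subgroup G) ≤ Subgroup.centralizer ({(u : G)} : Set G) := by
        intro y hy
        rw [Subgroup.mem_centralizer_singleton_iff]
        exact hab y hy u u.2
      exact ⟨hPH, homo_complement P m hm1 e u.2 (fun h => hu (Subtype.ext h)) hPH⟩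
    have hA2 : IsPGroup 2 (P : Subgroup G) := P.isPGroup'
    have hpow : ∀ u : (P : Subgroup G), ∃ k, orderOf (u : G) = 2 ^ k := by
      intro u
      obtain ⟨k, hk⟩ := (IsPGroup.iff_orderOf.1 hA2) u
      exact ⟨k, by rw [← hk, Subgroup.orderOf_coe]⟩
    have hnorm : ∀ u : (P : Subgroup G), u ≠ 1 → ∑ χ : IrrCharacter G, (if χ ∈ principalBlock M G then
        conj ((χ : G → ℂ) u) * (χ : G → ℂ) u else 0) = (Nat.card (P : Subgroup G) : ℂ) := by
      intro u hu
      obtain ⟨hPH, K, hKn, hK, hidx⟩ := hcompl u hu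
      haveI : Fintype (Subgroup.centralizer ({(u : G)} : Set G)) := Fintype.ofFinite _
      haveI : Fintype K := Fintype.ofFinite _
      have hreg1 : ∀ {X : Type _} [Group X], ¬ 2 ∣ orderOf (1 : X) := by
        intro X _
        simp
      have e1 := sum_principal_section hM (hpow u) (1 : Subgroup.centralizer ({(u : G)} : Set G)) hreg1
      have e2 := sum_principal_pNilpotent hM K hK hidx (1 : Subgroup.centralizer ({(u : G)} : Set G)) hreg1
      rw [e2, two_pow_factorization_centralizer' P hPH] at e1
      simpa using e1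
    have hvan : ∀ χ : IrrCharacter G, χ ∈ principalBlock M G → (∀ u : (P : Subgroup G), u ≠ 1 → (χ : G → ℂ) u = 0) → False := by
      intro χ hχ h0
      have hχc := IsIrrCharacter.isCharacter χ.2
      have hvan2 : ∀ y : G, 2 ∣ orderOf y → (χ : G → ℂ) y = 0 := by
        intro y hy
        obtain ⟨u, v, huv, hc, hu2, hv, _, _⟩ := exists_jordan (p := 2) y
        have hu1 : u ≠ 1 := by
          rintro rfl
          rw [one_mul] at huv
          rw [huv] at hv
          exact hv hy
        have h1 : IsPGroup 2 (Subgroup.zpowers u) := isPGroup_zpowers_of_orderOf hu2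
        obtain ⟨Q, hQ⟩ := h1.exists_le_sylow
        obtain ⟨c, hc'⟩ := MulAction.exists_smul_eq G Q P
        have h2 : c * u * c⁻¹ ∈ (P : Subgroup G) := by
          rw [← hc']
          refine ⟨u, hQ (Subgroup.mem_zpowers u), ?_⟩
          simp [MulAut.smul_def]
        have hu3 : (⟨c * u * c⁻¹, h2⟩ : (P : Subgroup G)) ≠ 1 := by
          intro h
          have h3 : c * u * c⁻¹ = 1 := congrArg Subtype.val h
          apply hu1
          have h4 : u = c⁻¹ * (c * u * c⁻¹) * c := by group
          rw [h4, h3]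
          group
        obtain ⟨hPH, K, hKn, hK, hidx⟩ := hcompl _ hu3
        have e1 : (χ : G → ℂ) y = (χ : G → ℂ) (c * y * c⁻¹) :=
          (IsCharacter.isClassFunction hχc y c).symm
        have e2 : c * y * c⁻¹ = (c * u * c⁻¹) * (c * v * c⁻¹) := by
          rw [← huv]
          group
        have hvH : c * v * c⁻¹ ∈ Subgroup.centralizer ({c * u * c⁻¹} : Set G) := by
          rw [Subgroup.mem_centralizer_singleton_iff]
          have hc2 := hc.eq
          calc c * v * c⁻¹ * (c * u * c⁻¹) = c * (v * u) * c⁻¹ := by group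
            _ = c * (u * v) * c⁻¹ := by rw [hc2]
            _ = c * u * c⁻¹ * (c * v * c⁻¹) := by group
        have hvreg : ¬ 2 ∣ orderOf (⟨c * v * c⁻¹, hvH⟩ : Subgroup.centralizer ({c * u * c⁻¹} : Set G)) := by
          rw [Subgroup.orderOf_mk, orderOf_conj]
          exact hv
        haveI : Fintype (Subgroup.centralizer ({c * u * c⁻¹} : Set G)) := Fintype.ofFinite _
        have hvK := mem_of_regular_of_index K hidx hvreg
        have hKle : K ≤ pPrimeCore 2 (Subgroup.centralizer ({c * u * c⁻¹} : Set G)) := by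
          apply Cfsg.Agent.Lib.Core.le_pPrimeCore hKn
          exact ((Nat.Prime.coprime_iff_not_dvd Nat.prime_two).2 hK).symm
        have hvmem : c * v * c⁻¹ ∈ centralizerPPrimeCore 2 (c * u * c⁻¹) := ⟨⟨c * v * c⁻¹, hvH⟩, hKle hvK, rfl⟩
        have e3 := irr_mul_of_principal hM (hpow ⟨c * u * c⁻¹, h2⟩) hvmem χ hχ
        rw [e1, e2, e3]
        exact h0 _ hu3
      have h1 := pow_dvd_degree_of_vanish hχc hvan2
      have h2 := (not_dvd_card_div_iff Nat.prime_two (charDegree_dvd_card χ.2)).2 h1
      have h3 := blockOf_eq_singleton_of_not_dvd hM χ h2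
      have h4 : oneIrr G ∈ blockOf M (χ : G → ℂ) := sameBlock_symm hχ
      rw [h3] at h4
      have h5 : oneIrr G = χ := h4
      have h6 := h0 z hz1
      rw [← h5] at h6
      exact one_ne_zero h6
    have hcore : ∀ g : G, (∀ χ : IrrCharacter G, χ ∈ principalBlock M G → (χ : G → ℂ) g = (χ : G → ℂ) 1) → g = 1 := by
      intro g hg
      have h1 := hO (blockKerSubgroup (principalBlock M G)) (blockKerSubgroup_normal _) (by
        rw [← Nat.not_even_iff_odd, even_iff_two_dvd]
        exact not_dvd_card_blockKer hM (isPBlock_blockOf (oneIrr G)))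
      have h2 : g ∈ blockKerSubgroup (principalBlock M G) := hg
      rw [h1] at h2
      exact h2
    have habA : ∀ a b : (P : Subgroup G), a * b = b * a := fun a b => Subtype.ext (hab a a.2 b b.2)
    obtain ⟨L, hLn, hPL, hLodd⟩ := coherent_main hM habA hA2 τ hτ3 hfix hconj hN z w hz1 hz2 hw2 hnorm hvan hcore
    have hL2 : IsPGroup 2 L := by
      rw [IsPGroup.iff_orderOf]
      intro l
      obtain ⟨u, v, huv, _, hu2, hv, _, hv_z⟩ := exists_jordan (p := 2) (l : G)
      have hzL : Subgroup.zpowers (l : G) ≤ L := by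
        rw [Subgroup.zpowers_le]
        exact l.2
      have hv1 := hLodd v (hzL hv_z) hv
      rw [hv1, mul_one] at huv
      obtain ⟨k, hk⟩ := hu2
      refine ⟨k, ?_⟩
      rw [← Subgroup.orderOf_coe, ← huv, hk]
    have hLP := P.is_maximal' hL2 hPL
    rw [← hLP]
    exact hLn

theorem homo_main {G : Type*} [Group G] [Finite G] (P : Sylow 2 G) (m : ℕ) (hm : 2 ≤ m)
    (e : (P : Subgroup G) ≃* Multiplicative (ZMod (2 ^ m) × ZMod (2 ^ m)))
    (hO : ∀ N : Subgroup G, N.Normal → Odd (Nat.card N) → N = ⊥) :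
    (P : Subgroup G).Normal ∧ Subgroup.centralizer ((P : Subgroup G) : Set G) = (P : Subgroup G) ∧
      ((P : Subgroup G).index = 1 ∨ (P : Subgroup G).index = 3) := by
  classical
  haveI : Fintype G := Fintype.ofFinite _
  have hn := homo_normal P m hm e hO
  exact ⟨hn, finish_normal P m (by omega) e hO hn⟩

end Assembly

end Cfsg.Agent.Lib.Block
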