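import Cfsg.Agent.Lib.Block.HomoChar
import Cfsg.Agent.Lib.Block.Section

/-!
# Homocyclic Sylow 2-subgroups: the coherence argument on the principal block
-/

set_option autoImplicit false
set_option linter.unusedSectionVars false
set_option linter.unusedSimpArgs false
set_option linter.unusedVariables false

open scoped ComplexConjugate
open Cfsg MonoidAlgebra Cfsg.Agent.Lib.Char

namespace Cfsg.Agent.Lib.Block

section Square

variable {G : Type*} [Group G] [Fintype G] {M : Ideal AlgInt}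

open Classical in
/-- If `w` is a nonreal 2-element, the `B`-part of the "product of two conjugates of `z`" function vanishes at `w`. -/
theorem sum_sq_div_inv (hM : IsPModular 2 M) {B : Set (IrrCharacter G)} (hU : IsBlockUnion M B) {z w : G}
    (hz : z * z = 1) (hw : ∃ k, orderOf w = 2 ^ k) (hreal : ¬ IsConj w w⁻¹) :
    ∑ χ : IrrCharacter G, (if χ ∈ B then ((χ : G → ℂ) z) ^ 2 / (χ : G → ℂ) 1 * conj ((χ : G → ℂ) w) else 0) = 0 := by
  set E : MonoidAlgebra ℂ G := classSum z * classSum z with hE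
  set n : ℂ := ((Subgroup.centralizer ({z} : Set G)).index : ℂ) with hn
  have hn0 : n ≠ 0 := by
    rw [hn]
    exact_mod_cast (Subgroup.index_ne_zero_of_finite)
  have htr : ∀ χ : IrrCharacter G, tr (χ : G → ℂ) E = n ^ 2 * (((χ : G → ℂ) z) ^ 2 / (χ : G → ℂ) 1) := by
    intro χ
    have h1 := om_mul χ.2 (isCentralElt_classSum z) (classSum z)
    have hcl := IsCharacter.isClassFunction (IsIrrCharacter.isCharacter χ.2)
    rw [om_classSum hcl] at h1
    have h2 := isIrr_one_ne_zero χ.2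
    unfold om at h1
    rw [div_eq_iff h2] at h1
    rw [hE, h1]
    unfold centralChar
    field_simp
    rw [hn]
    ring
  have hcoef : ∀ g : G, E.coeff g * ∑ χ : IrrCharacter G, (if χ ∈ B then (χ : G → ℂ) g * conj ((χ : G → ℂ) w) else 0) = 0 := by
    intro g
    obtain ⟨x, y, h1, h2, h3, h4, hxz, _⟩ := exists_jordan (p := 2) g
    have hg : IsPPart 2 g x := ⟨y, h1, h2, h3, h4⟩
    have hww : IsPPart 2 w w := ⟨1, mul_one _, Commute.one_right _, hw, by simp⟩
    by_cases hc : IsConj x w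
    · -- the coefficient vanishes
      have h0 : E.coeff g = 0 := by
        by_contra hne
        rw [hE, coeff_mul_eq] at hne
        obtain ⟨s, _, hs⟩ := Finset.exists_ne_zero_of_sum_ne_zero hne
        rw [coeff_classSum, coeff_classSum] at hs
        have hs1 : IsConj z s := by
          by_contra hcon
          rw [if_neg hcon] at hs
          simp at hs
        have hs2 : IsConj z (s⁻¹ * g) := by
          by_contra hcon
          rw [if_neg hcon] at hs
          simp at hs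
        have hinv : ∀ t, IsConj z t → t * t = 1 := by
          intro t ht
          obtain ⟨c, rfl⟩ := isConj_iff.1 ht
          calc c * z * c⁻¹ * (c * z * c⁻¹) = c * (z * z) * c⁻¹ := by group
            _ = 1 := by rw [hz]; group
        have hss := hinv s hs1
        have htt := hinv _ hs2
        have hsg : s * g * s⁻¹ = g⁻¹ := by
          have hsi : s⁻¹ = s := inv_eq_of_mul_eq_one_left hss
          have e1 : g⁻¹ = (s⁻¹ * g)⁻¹ * s⁻¹ := by group
          have hti : (s⁻¹ * g)⁻¹ = s⁻¹ * g := inv_eq_of_mul_eq_one_left htt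
          rw [e1, hti, hsi]
        obtain ⟨k, rfl⟩ := Subgroup.mem_zpowers_iff.1 hxz
        have hsx : s * g ^ k * s⁻¹ = (g ^ k)⁻¹ := by
          have := map_zpow (MulAut.conj s) g k
          simp only [MulAut.conj_apply] at this
          rw [this, hsg, inv_zpow]
        obtain ⟨c, hcc⟩ := isConj_iff.1 hc
        apply hreal
        rw [isConj_iff]
        refine ⟨c * s * c⁻¹, ?_⟩
        rw [← hcc]
        have e2 : c * s * c⁻¹ * (c * g ^ k * c⁻¹) * (c * s * c⁻¹)⁻¹ = c * (s * g ^ k * s⁻¹) * c⁻¹ := by group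
        rw [e2, hsx]
        group
      rw [h0, zero_mul]
    · have h5 := block_orthogonality hM hg hww hc hU
      rw [finsum_mem_irr] at h5
      have h6 : ∀ χ : IrrCharacter G, (if χ ∈ B then (χ : G → ℂ) g * conj ((χ : G → ℂ) w) else 0) =
          if χ ∈ B then (χ : G → ℂ) g * (χ : G → ℂ) w⁻¹ else 0 := by
        intro χ
        rw [Cfsg.Agent.Lib.Degree.irr_map_inv]
      simp only [h6]
      rw [h5, mul_zero]
  have hsum : (n ^ 2) * ∑ χ : IrrCharacter G, (if χ ∈ B then ((χ : G → ℂ) z) ^ 2 / (χ : G → ℂ) 1 * conj ((χ : G → ℂ) w) else 0) = 0 := by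
    rw [Finset.mul_sum]
    have h1 : ∀ χ : IrrCharacter G, n ^ 2 * (if χ ∈ B then ((χ : G → ℂ) z) ^ 2 / (χ : G → ℂ) 1 * conj ((χ : G → ℂ) w) else 0) =
        ∑ g : G, E.coeff g * (if χ ∈ B then (χ : G → ℂ) g * conj ((χ : G → ℂ) w) else 0) := by
      intro χ
      by_cases hχ : χ ∈ B
      · simp only [if_pos hχ]
        rw [← mul_assoc, ← htr χ, tr, Finset.sum_mul]
        refine Finset.sum_congr rfl fun g _ => ?_
        ring
      · simp only [if_neg hχ, mul_zero, Finset.sum_const_zero]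
    simp only [h1]
    rw [Finset.sum_comm]
    refine Finset.sum_eq_zero fun g _ => ?_
    rw [← Finset.mul_sum]
    exact hcoef g
  exact (mul_eq_zero.1 hsum).resolve_left (pow_ne_zero 2 hn0)

end Square

section Five

variable {Λ : Type*} [DecidableEq Λ]

theorem exists_five_of_card (I : Finset Λ) (hI : 15 ≤ I.card) (O : Λ → Finset Λ) (hO : ∀ l, (O l).card ≤ 3)
    (Rel : Λ → Λ → Prop) (hRel : ∀ l m, Rel l m ↔ m ∈ O l) (hsym : ∀ l m, Rel l m → Rel m l) :
    ∃ l₀ : Fin 5 → Λ, (∀ i, l₀ i ∈ I) ∧ ∀ i j, i ≠ j → ¬ Rel (l₀ i) (l₀ j) := by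
  have hstep : ∀ J : Finset Λ, 1 ≤ J.card → ∃ a ∈ J, ∀ b ∈ J \ O a, ¬ Rel a b := by
    intro J hJ
    obtain ⟨a, ha⟩ := Finset.card_pos.1 hJ
    refine ⟨a, ha, fun b hb h => ?_⟩
    exact (Finset.mem_sdiff.1 hb).2 ((hRel a b).1 h)
  have hcard : ∀ (J : Finset Λ) (a : Λ), J.card - 3 ≤ (J \ O a).card := by
    intro J a
    have h1 := Finset.le_card_sdiff (O a) J
    have h2 := hO a
    omega
  obtain ⟨a, ha, hab⟩ := hstep I (by omega)
  have h1 := hcard I a
  obtain ⟨b, hb, hbc⟩ := hstep (I \ O a) (by omega)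
  have h2 := hcard (I \ O a) b
  obtain ⟨c, hc, hcd⟩ := hstep ((I \ O a) \ O b) (by omega)
  have h3 := hcard ((I \ O a) \ O b) c
  obtain ⟨d, hd, hde⟩ := hstep (((I \ O a) \ O b) \ O c) (by omega)
  have h4 := hcard (((I \ O a) \ O b) \ O c) d
  obtain ⟨e, he, _⟩ := hstep ((((I \ O a) \ O b) \ O c) \ O d) (by omega)
  have hbI : b ∈ I := (Finset.mem_sdiff.1 hb).1
  have hcI : c ∈ I := (Finset.mem_sdiff.1 (Finset.mem_sdiff.1 hc).1).1
  have hdI : d ∈ I := (Finset.mem_sdiff.1 (Finset.mem_sdiff.1 (Finset.mem_sdiff.1 hd).1).1).1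
  have heI : e ∈ I := (Finset.mem_sdiff.1 (Finset.mem_sdiff.1 (Finset.mem_sdiff.1 (Finset.mem_sdiff.1 he).1).1).1).1
  have nab : ¬ Rel a b := hab b hb
  have nac : ¬ Rel a c := hab c (Finset.mem_sdiff.1 hc).1
  have nad : ¬ Rel a d := hab d (Finset.mem_sdiff.1 (Finset.mem_sdiff.1 hd).1).1
  have nae : ¬ Rel a e := hab e (Finset.mem_sdiff.1 (Finset.mem_sdiff.1 (Finset.mem_sdiff.1 he).1).1).1
  have nbc : ¬ Rel b c := hbc c hc
  have nbd : ¬ Rel b d := hbc d (Finset.mem_sdiff.1 hd).1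
  have nbe : ¬ Rel b e := hbc e (Finset.mem_sdiff.1 (Finset.mem_sdiff.1 he).1).1
  have ncd : ¬ Rel c d := hcd d hd
  have nce : ¬ Rel c e := hcd e (Finset.mem_sdiff.1 he).1
  have nde : ¬ Rel d e := hde e he
  have hs : ∀ {x y}, ¬ Rel x y → ¬ Rel y x := fun h h2 => h (hsym _ _ h2)
  refine ⟨![a, b, c, d, e], ?_, ?_⟩
  · intro i
    fin_cases i
    · exact ha
    · exact hbI
    · exact hcI
    · exact hdI
    · exact heI
  · intro i j hij
    fin_cases i <;> fin_cases j <;> first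
      | exact absurd rfl hij
      | exact nab | exact nac | exact nad | exact nae | exact nbc | exact nbd | exact nbe | exact ncd | exact nce | exact nde
      | exact hs nab | exact hs nac | exact hs nad | exact hs nae | exact hs nbc | exact hs nbd | exact hs nbe | exact hs ncd | exact hs nce | exact hs nde

end Five

section Main

variable {G : Type*} [Group G] [Fintype G] {A : Subgroup G} [Fintype A] {M : Ideal AlgInt}

theorem aux_eps (ε D V : ℂ) (hε : ε * ε = 1) (hD : D ≠ 0) : ε * ((ε * V) ^ 2 / D) = V ^ 2 / (ε * D) := by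
  have hε0 : ε ≠ 0 := by
    intro h0
    rw [h0] at hε
    simp at hε
  rw [eq_div_iff (mul_ne_zero hε0 hD)]
  field_simp
  linear_combination (ε ^ 2 * V ^ 2 + V ^ 2) * hε

open Classical in
/-- **The coherence argument.** -/
theorem coherent_main (hM : IsPModular 2 M)
    (hab : ∀ a b : A, a * b = b * a) (hA2 : IsPGroup 2 A)
    (τ : A ≃* A) (hτ3 : ∀ u, τ (τ (τ u)) = u) (hfix : ∀ u, τ u = u → u = 1)
    (hconj : ∀ u v : A, IsConj (u : G) (v : G) ↔ (v = u ∨ v = τ u ∨ v = τ (τ u)))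
    (hN : 16 ≤ Nat.card A) (z w : A) (hz1 : z ≠ 1) (hz2 : z * z = 1) (hw2 : w * w ≠ 1)
    (hnorm : ∀ u : A, u ≠ 1 → ∑ χ : IrrCharacter G, (if χ ∈ principalBlock M G then
      conj ((χ : G → ℂ) u) * (χ : G → ℂ) u else 0) = (Nat.card A : ℂ))
    (hvan : ∀ χ : IrrCharacter G, χ ∈ principalBlock M G → (∀ u : A, u ≠ 1 → (χ : G → ℂ) u = 0) → False)
    (hcore : ∀ g : G, (∀ χ : IrrCharacter G, χ ∈ principalBlock M G → (χ : G → ℂ) g = (χ : G → ℂ) 1) → g = 1) :
    ∃ L : Subgroup G, L.Normal ∧ A ≤ L ∧ ∀ g ∈ L, ¬ 2 ∣ orderOf g → g = 1 := by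
  haveI := isPModular_isPrime hM
  obtain ⟨B, hB⟩ : ∃ B, B = principalBlock M G := ⟨_, rfl⟩
  rw [← hB] at hnorm hvan hcore
  have hU : IsBlockUnion M B := by
    rw [hB]
    exact isBlockUnion_of_isPBlock (isPBlock_blockOf (oneIrr G))
  have hoB : oneIrr G ∈ B := by
    rw [hB]
    exact mem_blockOf_self (oneIrr G)
  obtain ⟨S, hS⟩ : ∃ S : Finset (IrrCharacter G), S = Finset.univ.filter (fun χ => χ ∈ B) := ⟨_, rfl⟩
  have hmemS : ∀ χ, χ ∈ S ↔ χ ∈ B := by
    intro χ
    simp [hS]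
  have hsumS : ∀ F : IrrCharacter G → ℂ, ∑ χ ∈ S, F χ = ∑ χ : IrrCharacter G, if χ ∈ B then F χ else 0 := by
    intro F
    rw [hS, Finset.sum_filter]
  obtain ⟨o, ho⟩ : ∃ o : IrrCharacter G, o = oneIrr G := ⟨_, rfl⟩
  obtain ⟨e, he⟩ : ∃ e : IrrCharacter A, e = oneIrr A := ⟨_, rfl⟩
  obtain ⟨R, hR⟩ : ∃ R : Finset (IrrCharacter G), R = S.erase o := ⟨_, rfl⟩
  obtain ⟨I, hI⟩ : ∃ I : Finset (IrrCharacter A), I = Finset.univ.erase e := ⟨_, rfl⟩
  have hoS : o ∈ S := by
    rw [hmemS, ho]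
    exact hoB
  have hmemI : ∀ l, l ∈ I ↔ l ≠ e := by
    intro l
    simp [hI]
  have hsumR : ∀ F : IrrCharacter G → ℂ, ∑ χ ∈ S, F χ = F o + ∑ χ ∈ R, F χ := by
    intro F
    rw [hR, Finset.add_sum_erase _ _ hoS]
  have hsumI : ∀ F : IrrCharacter A → ℂ, ∑ l : IrrCharacter A, F l = F e + ∑ l ∈ I, F l := by
    intro F
    rw [hI, Finset.add_sum_erase _ _ (Finset.mem_univ _)]
  have hcole : ∀ χ : IrrCharacter G, colA A χ e = 0 := by
    intro χ
    rw [he]
    exact colA_oneIrr A χ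
  have hcolo : ∀ l ∈ I, colA A o l = -1 := by
    intro l hl
    rw [ho]
    exact colA_oneIrr_left (by rw [← he]; exact (hmemI l).1 hl)
  have hNc : (Nat.card A : ℂ) ≠ 0 := by exact_mod_cast Nat.card_pos.ne'
  -- conjugation invariance
  have hinv : ∀ (χ : IrrCharacter G) (u : A), (χ : G → ℂ) (τ u) = (χ : G → ℂ) u := by
    intro χ u
    obtain ⟨c, hc⟩ := isConj_iff.1 ((hconj u (τ u)).2 (Or.inr (Or.inl rfl)))
    rw [← hc]
    exact IsCharacter.isClassFunction (IsIrrCharacter.isCharacter χ.2) _ c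
  have hpow : ∀ u : A, ∃ k, orderOf (u : G) = 2 ^ k := by
    intro u
    obtain ⟨k, hk⟩ := (IsPGroup.iff_orderOf.1 hA2) u
    exact ⟨k, by rw [← hk, Subgroup.orderOf_coe]⟩
  have hsing : ∀ u : A, u ≠ 1 → 2 ∣ orderOf (u : G) := by
    intro u hu
    obtain ⟨k, hk⟩ := hpow u
    rw [hk]
    have hk0 : k ≠ 0 := by
      rintro rfl
      rw [pow_zero, orderOf_eq_one_iff] at hk
      exact hu (Subtype.ext hk)
    exact dvd_pow_self 2 hk0
  have hfix2 : ∀ u : A, τ (τ u) = u → u = 1 := by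
    intro u h
    apply hfix
    have := hτ3 u
    rw [h] at this
    exact this
  -- the orthogonality matrix
  have hI0 : ∀ u v : A, u ≠ 1 → v ≠ 1 → ∑ χ ∈ S, (χ : G → ℂ) u * conj ((χ : G → ℂ) v) =
      if v = u ∨ v = τ u ∨ v = τ (τ u) then (Nat.card A : ℂ) else 0 := by
    intro u v hu hv
    by_cases h : v = u ∨ v = τ u ∨ v = τ (τ u)
    · rw [if_pos h]
      have h1 : ∀ χ : IrrCharacter G, (χ : G → ℂ) v = (χ : G → ℂ) u := by
        intro χ
        obtain ⟨c, hc⟩ := isConj_iff.1 ((hconj u v).2 h)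
        rw [← hc]
        exact IsCharacter.isClassFunction (IsIrrCharacter.isCharacter χ.2) _ c
      simp only [h1]
      rw [hsumS, ← hnorm u hu]
      refine Finset.sum_congr rfl fun χ _ => ?_
      by_cases hχ : χ ∈ B
      · rw [if_pos hχ, if_pos hχ, mul_comm]
      · rw [if_neg hχ, if_neg hχ]
    · rw [if_neg h]
      have hp1 : IsPPart 2 (u : G) (u : G) := ⟨1, mul_one _, Commute.one_right _, hpow u, by simp⟩
      have hp2 : IsPPart 2 (v : G) (v : G) := ⟨1, mul_one _, Commute.one_right _, hpow v, by simp⟩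
      have h2 := block_orthogonality hM hp1 hp2 (fun hc => h ((hconj u v).1 hc)) hU
      rw [finsum_mem_irr] at h2
      rw [hsumS]
      refine Eq.trans (Finset.sum_congr rfl fun χ _ => ?_) h2
      rw [Cfsg.Agent.Lib.Degree.irr_map_inv]
  -- twisted characters
  obtain ⟨tw, htw⟩ : ∃ tw : IrrCharacter A → IrrCharacter A, tw = twIrr τ := ⟨_, rfl⟩
  have htw3 : ∀ l, tw (tw (tw l)) = l := by
    intro l
    rw [htw]
    exact twIrr_three τ hτ3 l
  have htwne : ∀ l, l ≠ e → tw l ≠ e := by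
    intro l hl
    rw [htw, he]
    exact twIrr_ne_one τ hτ3 (by rw [← he]; exact hl)
  have htwfix : ∀ l, tw l = l → l = e := by
    intro l hl
    rw [he]
    rw [htw] at hl
    exact twIrr_fix_free hab τ hfix hl
  have htwfix2 : ∀ l, tw (tw l) = l → l = e := by
    intro l hl
    apply htwfix
    have := htw3 l
    rw [hl] at this
    exact this
  have htwapp : ∀ (l : IrrCharacter A) (u : A), (tw l : A → ℂ) u = (l : A → ℂ) (τ u) := by
    intro l u
    rw [htw]
    rfl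
  have hcoltw : ∀ (x : IrrCharacter G) l, colA A x (tw l) = colA A x l := by
    intro x l
    rw [htw]
    exact colA_twIrr τ x (hinv x) l
  have hmatZ : ∀ l ∈ I, ∀ m ∈ I, ∑ x ∈ R, colA A x l * colA A x m =
      2 + (if m = l then 1 else 0) + (if tw m = l then 1 else 0) + (if tw (tw m) = l then 1 else 0) := by
    intro l hl m hm
    have hl' : l ≠ oneIrr A := by rw [← he]; exact (hmemI l).1 hl
    have hm' : m ≠ oneIrr A := by rw [← he]; exact (hmemI m).1 hm
    have h1 := col_matrix hab τ hτ3 hfix S hI0 hl' hm'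
    rw [hsumR (fun χ => (colA A χ l : ℂ) * (colA A χ m : ℂ)), hcolo l hl, hcolo m hm, ← htw] at h1
    have h2 : ((∑ x ∈ R, colA A x l * colA A x m : ℤ) : ℂ) =
        ((2 + (if m = l then 1 else 0) + (if tw m = l then 1 else 0) + (if tw (tw m) = l then 1 else 0) : ℤ) : ℂ) := by
      push_cast
      push_cast at h1
      linear_combination h1
    exact_mod_cast h2
  obtain ⟨Rel, hRel⟩ : ∃ Rel : IrrCharacter A → IrrCharacter A → Prop,
      Rel = fun l m => m = l ∨ m = tw l ∨ m = tw (tw l) := ⟨_, rfl⟩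
  have hrelcol : ∀ l m, Rel l m → ∀ x : IrrCharacter G, colA A x l = colA A x m := by
    intro l m h x
    rw [hRel] at h
    rcases h with rfl | rfl | rfl
    · rfl
    · rw [hcoltw]
    · rw [hcoltw, hcoltw]
  have hnorm3 : ∀ l ∈ I, ∑ x ∈ R, colA A x l ^ 2 = 3 := by
    intro l hl
    have h1 := hmatZ l hl l hl
    have hl' := (hmemI l).1 hl
    rw [if_pos rfl, if_neg (fun h => hl' (htwfix l h)), if_neg (fun h => hl' (htwfix2 l h))] at h1
    simp only [pow_two]
    rw [h1]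
    norm_num
  have hoff : ∀ l ∈ I, ∀ m ∈ I, ¬ Rel l m → ∑ x ∈ R, colA A x l * colA A x m = 2 := by
    intro l hl m hm hr
    have h1 := hmatZ l hl m hm
    rw [hRel] at hr
    simp only [not_or] at hr
    have hn2 : ¬ (tw m = l) := fun h => hr.2.2 (by rw [← h, htw3])
    have hn3 : ¬ (tw (tw m) = l) := fun h => hr.2.1 (by rw [← h, htw3])
    rw [if_neg hr.1, if_neg hn2, if_neg hn3] at h1
    simpa using h1
  have hIcard : 15 ≤ I.card := by
    rw [hI, Finset.card_erase_of_mem (Finset.mem_univ _), Finset.card_univ, ab_card hab]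
    omega
  obtain ⟨l₀, hl₀, hl₀2⟩ := exists_five_of_card I hIcard (fun l => {l, tw l, tw (tw l)})
    (fun l => Finset.card_le_three) Rel (by
      intro l m
      rw [hRel]
      simp) (by
      intro l m h
      rw [hRel] at h ⊢
      rcases h with rfl | rfl | rfl
      · exact Or.inl rfl
      · exact Or.inr (Or.inr (htw3 l).symm)
      · exact Or.inr (Or.inl (htw3 l).symm))
  obtain ⟨x₁, hx₁, x₂, hx₂, hne12, s₁, s₂, hs₁, hs₂, hall⟩ := coherence_matrix R I (colA A) Rel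
    (fun l _ m _ h x _ => hrelcol l m h x) hnorm3 hoff l₀ hl₀ hl₀2
  haveI : Nonempty (IrrCharacter G) := ⟨o⟩
  have hall2 := fun l hl => (hall l hl).2.2
  choose! y hyR hyne1 hyne2 hysign hyzero using hall2
  have hc1 : ∀ l ∈ I, colA A x₁ l = s₁ := fun l hl => (hall l hl).1
  have hc2 : ∀ l ∈ I, colA A x₂ l = s₂ := fun l hl => (hall l hl).2.1
  -- expansion of sums over the block
  have hexpR : ∀ l ∈ I, ∀ F : IrrCharacter G → ℂ, ∑ χ ∈ R, (colA A χ l : ℂ) * F χ =
      s₁ * F x₁ + s₂ * F x₂ + (colA A (y l) l : ℂ) * F (y l) := by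
    intro l hl F
    have hsub : ({x₁, x₂, y l} : Finset (IrrCharacter G)) ⊆ R := by
      intro x hx
      simp only [Finset.mem_insert, Finset.mem_singleton] at hx
      rcases hx with rfl | rfl | rfl
      · exact hx₁
      · exact hx₂
      · exact hyR l hl
    rw [← Finset.sum_subset hsub]
    · rw [Finset.sum_insert, Finset.sum_insert, Finset.sum_singleton, hc1 l hl, hc2 l hl]
      · ring
      · simp only [Finset.mem_singleton]
        exact fun h => hyne2 l hl h.symm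
      · simp only [Finset.mem_insert, Finset.mem_singleton, not_or]
        exact ⟨hne12, fun h => hyne1 l hl h.symm⟩
    · intro x hxR hx
      simp only [Finset.mem_insert, Finset.mem_singleton, not_or] at hx
      rw [hyzero l hl x hxR hx.1 hx.2.1 hx.2.2]
      simp
  have hexpS : ∀ l ∈ I, ∀ F : IrrCharacter G → ℂ, ∑ χ ∈ S, (colA A χ l : ℂ) * F χ =
      - F o + s₁ * F x₁ + s₂ * F x₂ + (colA A (y l) l : ℂ) * F (y l) := by
    intro l hl F
    rw [hsumR, hexpR l hl F, hcolo l hl]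
    push_cast
    ring
  have hsq1 : s₁ * s₁ = 1 := by rcases hs₁ with rfl | rfl <;> norm_num
  have hsq2 : s₂ * s₂ = 1 := by rcases hs₂ with rfl | rfl <;> norm_num
  have hsq1c : (s₁ : ℂ) * s₁ = 1 := by exact_mod_cast hsq1
  have hsq2c : (s₂ : ℂ) * s₂ = 1 := by exact_mod_cast hsq2
  -- the row of `y l`
  have hrowy : ∀ l ∈ I, ∀ m ∈ I, ¬ Rel l m → colA A (y l) m = 0 := by
    intro l hl m hm hr
    have h1 := hoff l hl m hm hr
    have h2 := hexpR l hl (fun χ => (colA A χ m : ℂ))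
    simp only [hc1 m hm, hc2 m hm] at h2
    have h3 : ((∑ x ∈ R, colA A x l * colA A x m : ℤ) : ℂ) = 2 := by
      rw [h1]
      norm_num
    push_cast at h3
    rw [h3] at h2
    have h4 : (colA A (y l) l : ℂ) * colA A (y l) m = 0 := by
      linear_combination (-1 : ℂ) * h2 - hsq1c - hsq2c
    have h5 : colA A (y l) l ≠ 0 := by
      rcases hysign l hl with h | h <;> rw [h] <;> norm_num
    have h6 : colA A (y l) l * colA A (y l) m = 0 := by exact_mod_cast h4
    exact (mul_eq_zero.1 h6).resolve_left h5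
  -- values
  have hsumIu : ∀ u : A, u ≠ 1 → ∑ l ∈ I, (l : A → ℂ) u = -1 := by
    intro u hu
    have h1 := hsumI (fun l => (l : A → ℂ) u)
    have h2 : (e : A → ℂ) u = 1 := by
      rw [he]
      rfl
    simp only [h2] at h1
    rw [ab_sum_irr hab hu] at h1
    linear_combination -h1
  have hval₁ : ∀ u : A, u ≠ 1 → (x₁ : G → ℂ) u = -s₁ := by
    intro u hu
    rw [res_eq_sum hab x₁ hu, hsumI, hcole]
    simp only [Int.cast_zero, zero_mul, zero_add]
    rw [Finset.sum_congr rfl (fun l hl => by rw [hc1 l hl]), ← Finset.mul_sum, hsumIu u hu]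
    ring
  have hval₂ : ∀ u : A, u ≠ 1 → (x₂ : G → ℂ) u = -s₂ := by
    intro u hu
    rw [res_eq_sum hab x₂ hu, hsumI, hcole]
    simp only [Int.cast_zero, zero_mul, zero_add]
    rw [Finset.sum_congr rfl (fun l hl => by rw [hc2 l hl]), ← Finset.mul_sum, hsumIu u hu]
    ring
  have hcardI : (I.card : ℂ) = (Nat.card A : ℂ) - 1 := by
    rw [hI, Finset.card_erase_of_mem (Finset.mem_univ _), Finset.card_univ, ab_card hab]
    rw [Nat.cast_sub (by omega)]
    simp
  have hdeg₁ : ((charDegree (x₁ : G → ℂ) : ℤ) : ℂ) =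
      (Nat.card A : ℂ) * multA A x₁ (oneIrr A) + ((Nat.card A : ℂ) - 1) * s₁ := by
    have h1 := degree_eq_sum_col hab x₁
    rw [hsumI, hcole, Finset.sum_congr rfl (fun l hl => by rw [hc1 l hl]), Finset.sum_const, nsmul_eq_mul, hcardI] at h1
    simp only [Int.cast_zero, zero_add] at h1
    push_cast
    rw [charDegree_cast (IsIrrCharacter.isCharacter x₁.2), h1]
  have hdeg₂ : ((charDegree (x₂ : G → ℂ) : ℤ) : ℂ) =
      (Nat.card A : ℂ) * multA A x₂ (oneIrr A) + ((Nat.card A : ℂ) - 1) * s₂ := by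
    have h1 := degree_eq_sum_col hab x₂
    rw [hsumI, hcole, Finset.sum_congr rfl (fun l hl => by rw [hc2 l hl]), Finset.sum_const, nsmul_eq_mul, hcardI] at h1
    simp only [Int.cast_zero, zero_add] at h1
    push_cast
    rw [charDegree_cast (IsIrrCharacter.isCharacter x₂.2), h1]
  -- the values of the third character
  have hyval : ∀ l ∈ I, ∀ u : A, u ≠ 1 → ((y l : IrrCharacter G) : G → ℂ) u =
      (colA A (y l) l : ℂ) * ((l : A → ℂ) u + (l : A → ℂ) (τ u) + (l : A → ℂ) (τ (τ u))) := by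
    intro l hl u hu
    have hl' := (hmemI l).1 hl
    rw [res_eq_sum hab (y l) hu]
    have hterm : ∀ m : IrrCharacter A, (colA A (y l) m : ℂ) * (m : A → ℂ) u =
        if m ∈ ({l, tw l, tw (tw l)} : Finset (IrrCharacter A)) then (colA A (y l) l : ℂ) * (m : A → ℂ) u else 0 := by
      intro m
      simp only [Finset.mem_insert, Finset.mem_singleton]
      by_cases hr : m = l ∨ m = tw l ∨ m = tw (tw l)
      · rw [if_pos hr]
        have hr' : Rel l m := by
          rw [hRel]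
          exact hr
        rw [hrelcol l m hr']
      · rw [if_neg hr]
        by_cases hme : m = e
        · rw [hme, hcole]
          simp
        · have hr' : ¬ Rel l m := by
            rw [hRel]
            exact hr
          rw [hrowy l hl m ((hmemI m).2 hme) hr']
          simp
    simp only [hterm]
    rw [Finset.sum_ite_mem, Finset.univ_inter, Finset.sum_insert, Finset.sum_insert, Finset.sum_singleton,
      htwapp, htwapp, htwapp]
    · ring
    · simp only [Finset.mem_singleton]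
      intro h
      have h3 := congrArg (fun t => tw (tw t)) h
      simp only [htw3] at h3
      exact hl' (htwfix l h3.symm)
    · simp only [Finset.mem_insert, Finset.mem_singleton, not_or]
      exact ⟨fun h => hl' (htwfix l h.symm), fun h => hl' (htwfix2 l h.symm)⟩
  -- orthogonality with the regular elements
  have hreg : ∀ l ∈ I, ∀ g : G, ¬ 2 ∣ orderOf g → ∑ χ ∈ S, (colA A χ l : ℂ) * (χ : G → ℂ) g = 0 := by
    intro l hl g hg
    have hl' := (hmemI l).1 hl
    simp only [colA_cast']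
    have e1 : ∀ χ : IrrCharacter G, (Nat.card A : ℂ)⁻¹ * (∑ u : A, conj ((χ : G → ℂ) u) * ((l : A → ℂ) u - 1)) * (χ : G → ℂ) g =
        (Nat.card A : ℂ)⁻¹ * ∑ u : A, ((l : A → ℂ) u - 1) * (conj ((χ : G → ℂ) u) * (χ : G → ℂ) g) := by
      intro χ
      rw [mul_assoc, Finset.sum_mul]
      congr 1
      refine Finset.sum_congr rfl fun u _ => ?_
      ring
    simp only [e1]
    rw [← Finset.mul_sum, Finset.sum_comm]
    have e2 : ∀ u : A, ∑ χ ∈ S, ((l : A → ℂ) u - 1) * (conj ((χ : G → ℂ) u) * (χ : G → ℂ) g) = 0 := by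
      intro u
      by_cases hu : u = 1
      · subst hu
        rw [ab_one hab]
        simp
      · rw [← Finset.mul_sum, hsumS]
        have h1 := sum_block_eq_zero hM hU hg (hsing u hu)
        rw [h1, mul_zero]
    simp only [e2, Finset.sum_const_zero, mul_zero]
  have hoval : ∀ g : G, (o : G → ℂ) g = 1 := by
    intro g
    rw [ho]
    rfl
  have hdegc : ∀ χ : IrrCharacter G, (χ : G → ℂ) 1 = ((charDegree (χ : G → ℂ) : ℤ) : ℂ) := by
    intro χ
    push_cast
    rw [charDegree_cast (IsIrrCharacter.isCharacter χ.2)]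
  -- the relation between the degrees
  obtain ⟨ρ, hρ⟩ : ∃ ρ : ℤ, ρ = 1 - s₁ * charDegree (x₁ : G → ℂ) - s₂ * charDegree (x₂ : G → ℂ) := ⟨_, rfl⟩
  have hdegrel : ∀ l ∈ I, colA A (y l) l * charDegree ((y l : IrrCharacter G) : G → ℂ) = ρ := by
    intro l hl
    have h1 := hreg l hl 1 (by simp)
    rw [hexpS l hl (fun χ => (χ : G → ℂ) 1), hoval, hdegc x₁, hdegc x₂, hdegc (y l)] at h1
    have h2 : ((colA A (y l) l * charDegree ((y l : IrrCharacter G) : G → ℂ) : ℤ) : ℂ) = (ρ : ℂ) := by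
      rw [hρ]
      push_cast at h1 ⊢
      linear_combination h1
    exact_mod_cast h2
  have hdegpos : ∀ χ : IrrCharacter G, (1 : ℤ) ≤ charDegree (χ : G → ℂ) := by
    intro χ
    exact_mod_cast charDegree_pos_of_irr χ.2
  obtain ⟨l₁, hl₁⟩ : ∃ l₁, l₁ = l₀ 0 := ⟨_, rfl⟩
  have hl₁I : l₁ ∈ I := by
    rw [hl₁]
    exact hl₀ 0
  have hρ0 : ρ ≠ 0 := by
    rw [← hdegrel l₁ hl₁I]
    apply mul_ne_zero
    · rcases hysign l₁ hl₁I with h | h <;> rw [h] <;> norm_num
    · have := hdegpos (y l₁)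
      omega
  have hρc : (ρ : ℂ) ≠ 0 := by exact_mod_cast hρ0
  -- the equation for the degrees
  have hreal : ¬ IsConj (w : G) (w : G)⁻¹ := by
    intro hc
    have hc' : IsConj (w : G) ((w⁻¹ : A) : G) := by
      rw [Subgroup.coe_inv]
      exact hc
    have hw1 : w ≠ 1 := by
      rintro rfl
      exact hw2 (by simp)
    rcases (hconj w w⁻¹).1 hc' with h | h | h
    · apply hw2
      calc w * w = w * w⁻¹ := by rw [h]
        _ = 1 := mul_inv_cancel w
    · apply hw1
      apply hfix2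
      have e : τ w = w⁻¹ := h.symm
      rw [e, map_inv, e, inv_inv]
    · apply hw1
      apply hfix2
      have h1 := congrArg τ h
      rw [hτ3, map_inv] at h1
      have h2 : τ w = w⁻¹ := inv_eq_iff_eq_inv.1 h1
      rw [h2, map_inv, h2, inv_inv]
  have hw1 : w ≠ 1 := by
    rintro rfl
    exact hw2 (by simp)
  have hE0 := sum_sq_div_inv hM hU (z := (z : G)) (w := (w : G)) (by exact_mod_cast congrArg Subtype.val hz2) (hpow w) hreal
  obtain ⟨f, hf⟩ : ∃ f : IrrCharacter G → ℂ, f = fun χ : IrrCharacter G => ((χ : G → ℂ) z) ^ 2 / (χ : G → ℂ) 1 := ⟨_, rfl⟩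
  have hE1 : ∑ χ ∈ S, f χ * conj ((χ : G → ℂ) w) = 0 := by
    rw [hsumS, hf]
    exact hE0
  -- rewriting
  have hE2 : ∑ l ∈ I, conj ((l : A → ℂ) w) * ∑ χ ∈ S, (colA A χ l : ℂ) * f χ = 0 := by
    have h1 : ∀ χ : IrrCharacter G, f χ * conj ((χ : G → ℂ) w) =
        ∑ l ∈ I, conj ((l : A → ℂ) w) * ((colA A χ l : ℂ) * f χ) := by
      intro χ
      rw [conj_res_eq_sum hab χ hw1, hsumI, hcole]
      simp only [Int.cast_zero, zero_mul, zero_add]
      rw [Finset.mul_sum]
      refine Finset.sum_congr rfl fun l _ => ?_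
      ring
    simp only [h1] at hE1
    rw [Finset.sum_comm] at hE1
    rw [← hE1]
    refine Finset.sum_congr rfl fun l _ => ?_
    rw [Finset.mul_sum]
  -- evaluation
  obtain ⟨d₁, hd₁⟩ : ∃ d₁ : ℤ, d₁ = charDegree (x₁ : G → ℂ) := ⟨_, rfl⟩
  obtain ⟨d₂, hd₂⟩ : ∃ d₂ : ℤ, d₂ = charDegree (x₂ : G → ℂ) := ⟨_, rfl⟩
  have hd₁pos : 1 ≤ d₁ := by rw [hd₁]; exact hdegpos x₁
  have hd₂pos : 1 ≤ d₂ := by rw [hd₂]; exact hdegpos x₂
  have hd₁c : (d₁ : ℂ) ≠ 0 := by
    have : d₁ ≠ 0 := by omega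
    exact_mod_cast this
  have hd₂c : (d₂ : ℂ) ≠ 0 := by
    have : d₂ ≠ 0 := by omega
    exact_mod_cast this
  have hf1 : f o = 1 := by
    rw [hf]
    simp [hoval]
  have hf2 : f x₁ = 1 / (d₁ : ℂ) := by
    rw [hf]
    simp only
    rw [hval₁ z hz1, hdegc x₁, ← hd₁]
    have : (-(s₁ : ℂ)) ^ 2 = 1 := by linear_combination hsq1c
    rw [this]
  have hf3 : f x₂ = 1 / (d₂ : ℂ) := by
    rw [hf]
    simp only
    rw [hval₂ z hz1, hdegc x₂, ← hd₂]
    have : (-(s₂ : ℂ)) ^ 2 = 1 := by linear_combination hsq2c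
    rw [this]
  have hf4 : ∀ l ∈ I, (colA A (y l) l : ℂ) * f (y l) =
      ((l : A → ℂ) z + (l : A → ℂ) (τ z) + (l : A → ℂ) (τ (τ z))) ^ 2 / (ρ : ℂ) := by
    intro l hl
    rw [hf]
    simp only
    have h1 := hdegrel l hl
    have h2 : (colA A (y l) l : ℂ) * (charDegree ((y l : IrrCharacter G) : G → ℂ) : ℤ) = ρ := by
      exact_mod_cast h1
    have hε : (colA A (y l) l : ℂ) * (colA A (y l) l : ℂ) = 1 := by
      rcases hysign l hl with h | h <;> rw [h] <;> norm_num
    rw [hyval l hl z hz1, hdegc (y l)]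
    have hdy : ((charDegree ((y l : IrrCharacter G) : G → ℂ) : ℤ) : ℂ) ≠ 0 := by
      have := hdegpos (y l)
      have h0 : (charDegree ((y l : IrrCharacter G) : G → ℂ) : ℤ) ≠ 0 := by omega
      exact_mod_cast h0
    rw [← h2]
    exact aux_eps _ _ _ hε hdy
  obtain ⟨c, hc⟩ : ∃ c : ℂ, c = 1 - s₁ / (d₁ : ℂ) - s₂ / (d₂ : ℂ) := ⟨_, rfl⟩
  have hG : ∀ l ∈ I, ∑ χ ∈ S, (colA A χ l : ℂ) * f χ =
      - c + ((l : A → ℂ) z + (l : A → ℂ) (τ z) + (l : A → ℂ) (τ (τ z))) ^ 2 / (ρ : ℂ) := by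
    intro l hl
    rw [hexpS l hl f, hf1, hf2, hf3, hf4 l hl, hc]
    ring
  have hsumIw : ∑ l ∈ I, conj ((l : A → ℂ) w) = -1 := by
    rw [← map_sum, hsumIu w hw1]
    simp
  have hpair : ∀ a b : A, a * a = 1 → b * b = 1 → ∑ l ∈ I, conj ((l : A → ℂ) w) * ((l : A → ℂ) a * (l : A → ℂ) b) = -1 := by
    intro a b ha hb
    have ht : a * b * w⁻¹ ≠ 1 := by
      intro h
      apply hw2
      have e1 : a * b = w := by
        rw [mul_inv_eq_one] at h
        exact h
      rw [← e1]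
      calc a * b * (a * b) = a * (b * a) * b := by group
        _ = a * (a * b) * b := by rw [hab b a]
        _ = (a * a) * (b * b) := by group
        _ = 1 := by rw [ha, hb, one_mul]
    rw [← hsumIu _ ht]
    refine Finset.sum_congr rfl fun l _ => ?_
    rw [ab_mul hab, ab_mul hab, Cfsg.Agent.Lib.Degree.irr_map_inv]
    ring
  have hτinv : ∀ a : A, a * a = 1 → τ a * τ a = 1 := by
    intro a ha
    rw [← map_mul, ha, map_one]
  have hz2' := hτinv z hz2
  have hz3' := hτinv _ hz2'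
  have hnu : ∑ l ∈ I, conj ((l : A → ℂ) w) * ((l : A → ℂ) z + (l : A → ℂ) (τ z) + (l : A → ℂ) (τ (τ z))) ^ 2 = -9 := by
    have h1 : ∀ l : IrrCharacter A, conj ((l : A → ℂ) w) * ((l : A → ℂ) z + (l : A → ℂ) (τ z) + (l : A → ℂ) (τ (τ z))) ^ 2 =
        conj ((l : A → ℂ) w) * ((l : A → ℂ) z * (l : A → ℂ) z) + conj ((l : A → ℂ) w) * ((l : A → ℂ) z * (l : A → ℂ) (τ z)) +
        conj ((l : A → ℂ) w) * ((l : A → ℂ) z * (l : A → ℂ) (τ (τ z))) +
        conj ((l : A → ℂ) w) * ((l : A → ℂ) (τ z) * (l : A → ℂ) z) + conj ((l : A → ℂ) w) * ((l : A → ℂ) (τ z) * (l : A → ℂ) (τ z)) +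
        conj ((l : A → ℂ) w) * ((l : A → ℂ) (τ z) * (l : A → ℂ) (τ (τ z))) +
        conj ((l : A → ℂ) w) * ((l : A → ℂ) (τ (τ z)) * (l : A → ℂ) z) + conj ((l : A → ℂ) w) * ((l : A → ℂ) (τ (τ z)) * (l : A → ℂ) (τ z)) +
        conj ((l : A → ℂ) w) * ((l : A → ℂ) (τ (τ z)) * (l : A → ℂ) (τ (τ z))) := by
      intro l
      ring
    simp only [h1]
    simp only [Finset.sum_add_distrib]
    rw [hpair z z hz2 hz2, hpair z _ hz2 hz2', hpair z _ hz2 hz3', hpair _ z hz2' hz2, hpair _ _ hz2' hz2',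
      hpair _ _ hz2' hz3', hpair _ z hz3' hz2, hpair _ _ hz3' hz2', hpair _ _ hz3' hz3']
    norm_num
  have hfin : c = 9 / (ρ : ℂ) := by
    have h1 : ∑ l ∈ I, conj ((l : A → ℂ) w) * ∑ χ ∈ S, (colA A χ l : ℂ) * f χ =
        ∑ l ∈ I, (- c * conj ((l : A → ℂ) w) + (1 / (ρ : ℂ)) * (conj ((l : A → ℂ) w) * ((l : A → ℂ) z + (l : A → ℂ) (τ z) + (l : A → ℂ) (τ (τ z))) ^ 2)) := by
      refine Finset.sum_congr rfl fun l hl => ?_
      rw [hG l hl]
      field_simp
    rw [h1, Finset.sum_add_distrib, ← Finset.mul_sum, ← Finset.mul_sum, hsumIw, hnu] at hE2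
    field_simp at hE2 ⊢
    linear_combination hE2
  -- integers
  obtain ⟨m₁, hm₁⟩ : ∃ m₁ : ℤ, m₁ = multA A x₁ (oneIrr A) := ⟨_, rfl⟩
  obtain ⟨m₂, hm₂⟩ : ∃ m₂ : ℤ, m₂ = multA A x₂ (oneIrr A) := ⟨_, rfl⟩
  obtain ⟨N, hNdef⟩ : ∃ N : ℤ, N = Nat.card A := ⟨_, rfl⟩
  have hN16 : 16 ≤ N := by
    rw [hNdef]
    exact_mod_cast hN
  have hd₁e : d₁ = N * m₁ + (N - 1) * s₁ := by
    have h1 : (d₁ : ℂ) = (N : ℂ) * m₁ + ((N : ℂ) - 1) * s₁ := by
      rw [hd₁, hdeg₁, hNdef, hm₁]
      push_cast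
      rfl
    exact_mod_cast h1
  have hd₂e : d₂ = N * m₂ + (N - 1) * s₂ := by
    have h1 : (d₂ : ℂ) = (N : ℂ) * m₂ + ((N : ℂ) - 1) * s₂ := by
      rw [hd₂, hdeg₂, hNdef, hm₂]
      push_cast
      rfl
    exact_mod_cast h1
  have hρ' : ρ = 1 - s₁ * d₁ - s₂ * d₂ := by rw [hρ, hd₁, hd₂]
  have hint : (d₁ * d₂ - s₁ * d₂ - s₂ * d₁) * ρ = 9 * (d₁ * d₂) := by
    have h1 : (((d₁ : ℂ) * d₂ - s₁ * d₂ - s₂ * d₁)) * ρ = 9 * ((d₁ : ℂ) * d₂) := by
      rw [hc] at hfin
      field_simp at hfin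
      linear_combination hfin
    exact_mod_cast h1
  obtain ⟨a, ha⟩ : ∃ a : ℤ, a = - s₁ * m₁ - 1 := ⟨_, rfl⟩
  obtain ⟨b, hb⟩ : ∃ b : ℤ, b = - s₂ * m₂ - 1 := ⟨_, rfl⟩
  have hX : - s₁ * d₁ = 1 + N * a := by
    rw [hd₁e, ha]
    linear_combination (-(N - 1)) * hsq1
  have hY : - s₂ * d₂ = 1 + N * b := by
    rw [hd₂e, hb]
    linear_combination (-(N - 1)) * hsq2
  have hab0 : a = 0 ∧ b = 0 := by
    apply dioph_coherent N a b hN16
    obtain ⟨X, hXd⟩ : ∃ X : ℤ, X = - s₁ * d₁ := ⟨_, rfl⟩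
    obtain ⟨Y, hYd⟩ : ∃ Y : ℤ, Y = - s₂ * d₂ := ⟨_, rfl⟩
    have hρX : ρ = 1 + X + Y := by
      rw [hρ', hXd, hYd]
      ring
    have h1 : (X * Y + X + Y) * ρ = 9 * (X * Y) := by
      have e1 : X * Y + X + Y = s₁ * s₂ * (d₁ * d₂ - s₁ * d₂ - s₂ * d₁) +
          (-(s₁ * s₁) + 1) * (-(s₂ * d₂)) * 0 + s₂ * d₂ * (s₁ * s₁ - 1) + s₁ * d₁ * (s₂ * s₂ - 1) := by
        rw [hXd, hYd]
        ring
      rw [e1, hsq1, hsq2]
      simp only [sub_self, mul_zero, add_zero, mul_add, neg_mul]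
      have e2 : X * Y = s₁ * s₂ * (d₁ * d₂) := by
        rw [hXd, hYd]
        ring
      rw [e2]
      linear_combination (s₁ * s₂) * hint
    have hN0 : N ≠ 0 := by omega
    have h2 : N ^ 2 * (2 * (a + b) ^ 2 - a * b * (6 - N * (a + b))) = 0 := by
      have hX2 : X = 1 + N * a := hXd.trans hX
      have hY2 : Y = 1 + N * b := hYd.trans hY
      rw [hρX, hX2, hY2] at h1
      linear_combination h1
    have h3 := (mul_eq_zero.1 h2).resolve_left (pow_ne_zero 2 hN0)
    linarith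
  -- conclusion for the degrees
  have hdeg : s₁ = -1 ∧ d₁ = 1 ∧ s₂ = -1 ∧ d₂ = 1 := by
    have h1 : - s₁ * d₁ = 1 := by rw [hX, hab0.1]; ring
    have h2 : - s₂ * d₂ = 1 := by rw [hY, hab0.2]; ring
    refine ⟨?_, ?_, ?_, ?_⟩
    · rcases hs₁ with h | h
      · rw [h] at h1
        omega
      · exact h
    · rcases hs₁ with h | h
      · rw [h] at h1
        omega
      · rw [h] at h1
        omega
    · rcases hs₂ with h | h
      · rw [h] at h2
        omega
      · exact h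
    · rcases hs₂ with h | h
      · rw [h] at h2
        omega
      · rw [h] at h2
        omega
  obtain ⟨hs₁', hd₁', hs₂', hd₂'⟩ := hdeg
  have hρ3 : ρ = 3 := by
    rw [hρ', hs₁', hd₁', hs₂', hd₂']
    norm_num
  have hyε : ∀ l ∈ I, colA A (y l) l = 1 ∧ (charDegree ((y l : IrrCharacter G) : G → ℂ) : ℤ) = 3 := by
    intro l hl
    have h1 := hdegrel l hl
    rw [hρ3] at h1
    have h2 := hdegpos (y l)
    rcases hysign l hl with h | h
    · rw [h] at h1 ⊢
      exact ⟨rfl, by omega⟩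
    · rw [h] at h1
      omega
  have hx₁1 : (x₁ : G → ℂ) 1 = 1 := by
    rw [hdegc x₁, ← hd₁, hd₁']
    simp
  have hx₂1 : (x₂ : G → ℂ) 1 = 1 := by
    rw [hdegc x₂, ← hd₂, hd₂']
    simp
  refine ⟨blockKerSubgroup ({x₁, x₂} : Set (IrrCharacter G)), blockKerSubgroup_normal _, ?_, ?_⟩
  · intro u huA χ hχ
    simp only [Set.mem_insert_iff, Set.mem_singleton_iff] at hχ
    by_cases hu1 : u = 1
    · rw [hu1]
    · have hu' : (⟨u, huA⟩ : A) ≠ 1 := fun h => hu1 (congrArg Subtype.val h)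
      rcases hχ with rfl | rfl
      · have := hval₁ ⟨u, huA⟩ hu'
        rw [hs₁'] at this
        simp only at this
        rw [this, hx₁1]
        simp
      · have := hval₂ ⟨u, huA⟩ hu'
        rw [hs₂'] at this
        simp only at this
        rw [this, hx₂1]
        simp
  · intro g hgL hg
    have hg1 : (x₁ : G → ℂ) g = 1 := by
      rw [hgL x₁ (by simp), hx₁1]
    have hg2 : (x₂ : G → ℂ) g = 1 := by
      rw [hgL x₂ (by simp), hx₂1]
    apply hcore
    intro χ hχ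
    by_cases hχo : χ = o
    · rw [hχo, hoval, hoval]
    have hχR : χ ∈ R := by
      rw [hR]
      exact Finset.mem_erase.2 ⟨hχo, (hmemS χ).2 hχ⟩
    by_cases hx : ∃ l ∈ I, colA A χ l ≠ 0
    · obtain ⟨l, hl, hlne⟩ := hx
      by_cases h1 : χ = x₁
      · rw [h1, hg1, hx₁1]
      by_cases h2 : χ = x₂
      · rw [h2, hg2, hx₂1]
      by_cases h3 : χ = y l
      · rw [h3]
        have h4 := hreg l hl g hg
        rw [hexpS l hl (fun χ => (χ : G → ℂ) g), hoval, hg1, hg2, (hyε l hl).1, hs₁', hs₂'] at h4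
        rw [hdegc (y l), (hyε l hl).2]
        push_cast at h4 ⊢
        linear_combination h4
      · exact absurd (hyzero l hl χ hχR h1 h2 h3) hlne
    · push Not at hx
      exfalso
      apply hvan χ hχ
      intro u hu
      rw [res_eq_sum hab χ hu]
      refine Finset.sum_eq_zero fun l _ => ?_
      by_cases hle : l = e
      · rw [hle, hcole]
        simp
      · rw [hx l ((hmemI l).2 hle)]
        simp

end Main

end Cfsg.Agent.Lib.Block
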