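import Mathlib

/-!
Jordan's theorem on degrees `kp + r`: local analysis of a `p`-group all of whose nontrivial orbits
have size `p`.
-/

set_option autoImplicit false

namespace Cfsg.Agent.Lib.Block.JT

open Equiv Equiv.Perm

variable {α : Type*} [Fintype α] [DecidableEq α]

open Classical in
/-- The orbit of a point under a group of permutations, as a finite set. -/
noncomputable def orb (P : Subgroup (Perm α)) (a : α) : Finset α :=
  Finset.univ.filter (fun b => ∃ y ∈ P, y a = b)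

lemma mem_orb {P : Subgroup (Perm α)} {a b : α} : b ∈ orb P a ↔ ∃ y ∈ P, y a = b := by
  simp [orb]

lemma self_mem_orb (P : Subgroup (Perm α)) (a : α) : a ∈ orb P a :=
  mem_orb.2 ⟨1, P.one_mem, rfl⟩

lemma orb_eq_of_mem {P : Subgroup (Perm α)} {a b : α} (h : b ∈ orb P a) : orb P b = orb P a := by
  obtain ⟨y, hy, rfl⟩ := mem_orb.1 h
  ext d
  rw [mem_orb, mem_orb]
  constructor
  · rintro ⟨z, hz, rfl⟩
    exact ⟨z * y, P.mul_mem hz hy, rfl⟩
  · rintro ⟨z, hz, rfl⟩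
    refine ⟨z * y⁻¹, P.mul_mem hz (P.inv_mem hy), ?_⟩
    simp

lemma apply_mem_orb {P : Subgroup (Perm α)} {a b : α} {y : Perm α} (hy : y ∈ P)
    (h : b ∈ orb P a) : y b ∈ orb P a := by
  obtain ⟨z, hz, rfl⟩ := mem_orb.1 h
  exact mem_orb.2 ⟨y * z, P.mul_mem hy hz, rfl⟩

lemma pow_apply_mem_orb {P : Subgroup (Perm α)} {a b : α} {y : Perm α} (hy : y ∈ P) (i : ℕ)
    (h : b ∈ orb P a) : (y ^ i) b ∈ orb P a :=
  apply_mem_orb (P.pow_mem hy i) h

/-- Standing hypotheses: `P` is a `p`-group fixing `Δ` pointwise, with all other orbits of size `p`. -/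
structure OrbSetup (P : Subgroup (Perm α)) (p : ℕ) (Δ : Finset α) : Prop where
  fix : ∀ y ∈ P, ∀ a ∈ Δ, y a = a
  pg : IsPGroup p P
  orbcard : ∀ a, a ∉ Δ → (orb P a).card = p

variable {P : Subgroup (Perm α)} {p : ℕ} {Δ : Finset α}

lemma iv (h : Perm α) (x : α) : h⁻¹ (h x) = x := Equiv.symm_apply_apply h x

lemma vi (h : Perm α) (x : α) : h (h⁻¹ x) = x := Equiv.apply_symm_apply h x

lemma OrbSetup.notin_of_mem (S : OrbSetup P p Δ) {a b : α} (ha : a ∉ Δ) (hb : b ∈ orb P a) :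
    b ∉ Δ := by
  obtain ⟨y, hy, rfl⟩ := mem_orb.1 hb
  intro h
  apply ha
  have h2 := S.fix y⁻¹ (P.inv_mem hy) _ h
  rw [iv] at h2
  rw [h2]
  exact h

section

variable [hp : Fact p.Prime]

lemma OrbSetup.pow_p (S : OrbSetup P p Δ) {y : Perm α} (hy : y ∈ P) : y ^ p = 1 := by
  ext a
  by_cases ha : a ∈ Δ
  · rw [Perm.one_apply]
    exact Equiv.Perm.pow_apply_eq_self_of_apply_eq_self (S.fix y hy a ha) p
  · rw [Perm.one_apply]
    set l := Function.minimalPeriod y a with hl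
    obtain ⟨m, hm⟩ := (IsPGroup.iff_orderOf.1 S.pg) ⟨y, hy⟩
    rw [Subgroup.orderOf_mk] at hm
    have h1 : l ∣ orderOf y := by
      apply Function.IsPeriodicPt.minimalPeriod_dvd
      have : (y ^ orderOf y) a = a := by rw [pow_orderOf_eq_one]; rfl
      rwa [← Equiv.Perm.iterate_eq_pow] at this
    rw [hm] at h1
    obtain ⟨j, hj, hlj⟩ := (Nat.dvd_prime_pow hp.out).1 h1
    have h2 : l ≤ p := by
      have hinj := Function.iterate_injOn_Iio_minimalPeriod (f := y) (x := a)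
      have hsub : (Finset.range l).image (fun i => (y ^ i) a) ⊆ orb P a := by
        intro d hd
        obtain ⟨i, -, rfl⟩ := Finset.mem_image.1 hd
        exact pow_apply_mem_orb hy i (self_mem_orb P a)
      have hc : ((Finset.range l).image (fun i => (y ^ i) a)).card = l := by
        rw [Finset.card_image_of_injOn, Finset.card_range]
        intro i hi i' hi' hii
        apply hinj (x₁ := i) (x₂ := i')
        · simpa using hi
        · simpa using hi'
        · simpa [Equiv.Perm.iterate_eq_pow] using hii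
      rw [← hc, ← S.orbcard a ha]
      exact Finset.card_le_card hsub
    have h3 : l ∣ p := by
      rw [hlj] at h2 ⊢
      have hj1 : j ≤ 1 := by
        by_contra hcon
        have h4 : p ^ 2 ≤ p ^ j := Nat.pow_le_pow_right hp.out.pos (by omega)
        have h5 := hp.out.two_le
        nlinarith
      interval_cases j
      · simp
      · simp
    have h4 : Function.IsPeriodicPt y p a :=
      (Function.isPeriodicPt_iff_minimalPeriod_dvd).2 h3
    have h5 : y^[p] a = a := h4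
    rwa [Equiv.Perm.iterate_eq_pow] at h5

lemma OrbSetup.minPeriod (S : OrbSetup P p Δ) {y : Perm α} (hy : y ∈ P) {b : α} (hb : y b ≠ b) :
    Function.minimalPeriod y b = p := by
  have h1 : Function.IsPeriodicPt y p b := by
    have : (y ^ p) b = b := by rw [S.pow_p hy]; rfl
    rwa [← Equiv.Perm.iterate_eq_pow] at this
  have h2 := h1.minimalPeriod_dvd
  rcases (Nat.dvd_prime hp.out).1 h2 with h3 | h3
  · exfalso
    apply hb
    have := Function.isPeriodicPt_minimalPeriod y b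
    rw [h3] at this
    exact this
  · exact h3

lemma OrbSetup.moved_notin (S : OrbSetup P p Δ) {y : Perm α} (hy : y ∈ P) {b : α}
    (hb : y b ≠ b) : b ∉ Δ := fun h => hb (S.fix y hy b h)

lemma OrbSetup.orb_eq_powers (S : OrbSetup P p Δ) {y : Perm α} (hy : y ∈ P) {b : α}
    (hb : y b ≠ b) : ∀ d ∈ orb P b, ∃ i, (y ^ i) b = d := by
  have hinj := Function.iterate_injOn_Iio_minimalPeriod (f := y) (x := b)
  rw [S.minPeriod hy hb] at hinj
  have hsub : (Finset.range p).image (fun i => (y ^ i) b) ⊆ orb P b := by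
    intro d hd
    obtain ⟨i, -, rfl⟩ := Finset.mem_image.1 hd
    exact pow_apply_mem_orb hy i (self_mem_orb P b)
  have hc : ((Finset.range p).image (fun i => (y ^ i) b)).card = p := by
    rw [Finset.card_image_of_injOn, Finset.card_range]
    intro i hi i' hi' hii
    apply hinj (x₁ := i) (x₂ := i')
    · simpa using hi
    · simpa using hi'
    · simpa [Equiv.Perm.iterate_eq_pow] using hii
  have heq : (Finset.range p).image (fun i => (y ^ i) b) = orb P b :=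
    Finset.eq_of_subset_of_card_le hsub (by rw [hc, S.orbcard b (S.moved_notin hy hb)])
  intro d hd
  rw [← heq] at hd
  obtain ⟨i, -, rfl⟩ := Finset.mem_image.1 hd
  exact ⟨i, rfl⟩

/-- The image of `P` on an orbit is cyclic, generated by any element moving a point. -/
lemma OrbSetup.local_cyclic (S : OrbSetup P p Δ) {x y : Perm α} (hx : x ∈ P) (hy : y ∈ P) {a : α}
    (hxa : x a ≠ a) : ∃ i : ℕ, ∀ b ∈ orb P a, y b = (x ^ i) b := by
  obtain ⟨i, hi⟩ := S.orb_eq_powers hx hxa (y a) (apply_mem_orb hy (self_mem_orb P a))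
  refine ⟨i, fun b hb => ?_⟩
  set w := (x ^ i)⁻¹ * y with hw
  have hwP : w ∈ P := P.mul_mem (P.inv_mem (P.pow_mem hx i)) hy
  have hwa : w a = a := by
    simp only [hw, Perm.mul_apply, ← hi, iv]
  have hwb : w b = b := by
    by_contra hcon
    have h1 : a ∈ orb P b := by rw [orb_eq_of_mem hb]; exact self_mem_orb P a
    obtain ⟨j, hj⟩ := S.orb_eq_powers hwP hcon a h1
    have h2 : (w ^ j) (w b) = (w ^ j) b := by
      rw [← Perm.mul_apply, ← pow_succ, pow_succ', Perm.mul_apply, hj, hwa]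
    exact hcon ((w ^ j).injective h2)
  have : (x ^ i) (w b) = y b := by
    simp only [hw, Perm.mul_apply, vi]
  rw [← this, hwb]

lemma OrbSetup.exists_moving (S : OrbSetup P p Δ) {a : α} (ha : a ∉ Δ) : ∃ x ∈ P, x a ≠ a := by
  have h1 : 1 < (orb P a).card := by rw [S.orbcard a ha]; exact hp.out.one_lt
  obtain ⟨d, hd, hne⟩ := Finset.exists_mem_ne h1 a
  obtain ⟨x, hx, rfl⟩ := mem_orb.1 hd
  exact ⟨x, hx, hne⟩

lemma OrbSetup.mem_iff (S : OrbSetup P p Δ) {a : α} : a ∈ Δ ↔ ∀ y ∈ P, y a = a := by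
  constructor
  · exact fun h y hy => S.fix y hy a h
  · intro h
    by_contra ha
    obtain ⟨x, hx, hxa⟩ := S.exists_moving ha
    exact hxa (h x hx)

omit hp in
lemma conj_mem {n y : Perm α} (hn : n ∈ Subgroup.normalizer (P : Set (Perm α))) (hy : y ∈ P) :
    n * y * n⁻¹ ∈ P := (Subgroup.mem_normalizer_iff.1 hn y).1 hy

omit hp in
lemma conj_inv_mem {n y : Perm α} (hn : n ∈ Subgroup.normalizer (P : Set (Perm α))) (hy : y ∈ P) :
    n⁻¹ * y * n ∈ P := by
  have := conj_mem (Subgroup.inv_mem _ hn) hy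
  simpa using this

omit hp in
lemma apply_orb_norm {n : Perm α} (hn : n ∈ Subgroup.normalizer (P : Set (Perm α))) {a d : α}
    (hd : d ∈ orb P a) : n d ∈ orb P (n a) := by
  obtain ⟨y, hy, rfl⟩ := mem_orb.1 hd
  refine mem_orb.2 ⟨n * y * n⁻¹, conj_mem hn hy, ?_⟩
  simp only [Perm.mul_apply, iv]

lemma OrbSetup.norm_mem_iff (S : OrbSetup P p Δ) {n : Perm α}
    (hn : n ∈ Subgroup.normalizer (P : Set (Perm α))) (a : α) : n a ∈ Δ ↔ a ∈ Δ := by
  rw [S.mem_iff, S.mem_iff]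
  constructor
  · intro h y hy
    have h1 := h (n * y * n⁻¹) (conj_mem hn hy)
    simp only [Perm.mul_apply, iv] at h1
    exact n.injective h1
  · intro h y hy
    have h1 := h (n⁻¹ * y * n) (conj_inv_mem hn hy)
    simp only [Perm.mul_apply] at h1
    have h2 := congrArg n h1
    rwa [vi] at h2

/-- `n` preserves every orbit of `P` outside `Δ`. -/
def InK (P : Subgroup (Perm α)) (Δ : Finset α) (n : Perm α) : Prop := ∀ a, a ∉ Δ → n a ∈ orb P a

lemma OrbSetup.K_mem (S : OrbSetup P p Δ) {n : Perm α} (hK : InK P Δ n) {a b : α} (ha : a ∉ Δ)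
    (hb : b ∈ orb P a) : n b ∈ orb P a := by
  have := hK b (S.notin_of_mem ha hb)
  rwa [orb_eq_of_mem hb] at this

lemma OrbSetup.K_inv (S : OrbSetup P p Δ) {n : Perm α}
    (hn : n ∈ Subgroup.normalizer (P : Set (Perm α))) (hK : InK P Δ n) : InK P Δ n⁻¹ := by
  intro a ha
  have h1 : n⁻¹ a ∉ Δ := by
    rw [S.norm_mem_iff (Subgroup.inv_mem _ hn)]
    exact ha
  have h2 := hK _ h1
  rw [vi] at h2
  rw [orb_eq_of_mem h2]
  exact self_mem_orb P _

omit hp in
lemma agree_pow {f g : Perm α} {O : Finset α} (h : ∀ b ∈ O, f b = g b) (hg : ∀ b ∈ O, g b ∈ O) :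
    ∀ (j : ℕ), ∀ b ∈ O, (f ^ j) b = (g ^ j) b := by
  intro j
  induction j with
  | zero => intro b _; rfl
  | succ j ih =>
    intro b hb
    rw [pow_succ, pow_succ, Perm.mul_apply, Perm.mul_apply, h b hb, ih _ (hg b hb)]

/-- The action of `n` on `P` is a power map on each orbit. -/
lemma OrbSetup.mult (S : OrbSetup P p Δ) {n : Perm α}
    (hn : n ∈ Subgroup.normalizer (P : Set (Perm α))) (hK : InK P Δ n) {a : α} (ha : a ∉ Δ) :
    ∃ e : ℕ, ∀ y ∈ P, ∀ b ∈ orb P a, (n * y * n⁻¹) b = (y ^ e) b := by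
  obtain ⟨x, hx, hxa⟩ := S.exists_moving ha
  obtain ⟨e, he⟩ := S.local_cyclic hx (conj_mem hn hx) hxa
  refine ⟨e, fun y hy b hb => ?_⟩
  obtain ⟨j, hj⟩ := S.local_cyclic hx hy hxa
  have h1 : n⁻¹ b ∈ orb P a := S.K_mem (S.K_inv hn hK) ha hb
  have hL : (n * y * n⁻¹) b = ((n * x * n⁻¹) ^ j) b := by
    rw [conj_pow]
    simp only [Perm.mul_apply]
    rw [hj _ h1]
  have hinv : ∀ b ∈ orb P a, (x ^ e) b ∈ orb P a := fun c hc => pow_apply_mem_orb hx e hc
  have hinv2 : ∀ b ∈ orb P a, (x ^ j) b ∈ orb P a := fun c hc => pow_apply_mem_orb hx j hc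
  rw [hL, agree_pow he hinv j b hb, agree_pow hj hinv2 e b hb, pow_right_comm]

/-- Two elements preserving each orbit commute modulo the centraliser of `P`. -/
lemma OrbSetup.comm_of_K (S : OrbSetup P p Δ) {n m : Perm α}
    (hn : n ∈ Subgroup.normalizer (P : Set (Perm α)))
    (hm : m ∈ Subgroup.normalizer (P : Set (Perm α))) (hKn : InK P Δ n) (hKm : InK P Δ m)
    {y : Perm α} (hy : y ∈ P) : (n * m) * y * (n * m)⁻¹ = (m * n) * y * (m * n)⁻¹ := by
  ext b
  have h1 := conj_mem (Subgroup.mul_mem _ hn hm) hy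
  have h2 := conj_mem (Subgroup.mul_mem _ hm hn) hy
  by_cases hb : b ∈ Δ
  · rw [S.fix _ h1 b hb, S.fix _ h2 b hb]
  · obtain ⟨e, he⟩ := S.mult hn hKn hb
    obtain ⟨f, hf⟩ := S.mult hm hKm hb
    have h3 : (n * m) * y * (n * m)⁻¹ = n * (m * y * m⁻¹) * n⁻¹ := by group
    have h4 : (m * n) * y * (m * n)⁻¹ = m * (n * y * n⁻¹) * m⁻¹ := by group
    have hb0 := self_mem_orb P b
    rw [h3, h4, he _ (conj_mem hm hy) b hb0, hf _ (conj_mem hn hy) b hb0, conj_pow, conj_pow,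
      hf _ (P.pow_mem hy e) b hb0, he _ (P.pow_mem hy f) b hb0, pow_right_comm]

/-- An element preserving each orbit and centralising `P` has `p`-th power trivial off `Δ`. -/
lemma OrbSetup.pow_fix (S : OrbSetup P p Δ) {c : Perm α} (hK : InK P Δ c)
    (hc : ∀ y ∈ P, c * y = y * c) {a : α} (ha : a ∉ Δ) : (c ^ p) a = a := by
  obtain ⟨y, hy, hya⟩ := mem_orb.1 (hK a ha)
  have hcomm : Commute c y := hc y hy
  have key : ∀ j : ℕ, (c ^ j) a = (y ^ j) a := by
    intro j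
    induction j with
    | zero => rfl
    | succ j ih =>
      have h1 : (c ^ j) * y = y * (c ^ j) := (hcomm.pow_left j).eq
      rw [pow_succ, Perm.mul_apply, ← hya, ← Perm.mul_apply, h1, Perm.mul_apply, ih, pow_succ',
        Perm.mul_apply]
  rw [key p, S.pow_p hy]
  rfl

/-- `P` has no element moving exactly one orbit. -/
def NoCycle (P : Subgroup (Perm α)) (Δ : Finset α) : Prop :=
  ∀ a, a ∉ Δ → ∀ y ∈ P, (∀ b, b ∉ orb P a → y b = b) → y = 1

omit hp in
lemma pow_congr_of {y : Perm α} (hy : y ^ p = 1) {i j : ℕ} (h : i ≡ j [MOD p]) :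
    y ^ i = y ^ j := by
  rw [pow_eq_pow_mod i hy, pow_eq_pow_mod j hy, h]

lemma OrbSetup.modEq_of_pow (S : OrbSetup P p Δ) {u : Perm α} (hu : u ∈ P) {b : α} (hb : u b ≠ b)
    {i j : ℕ} (h : (u ^ i) b = (u ^ j) b) : i ≡ j [MOD p] := by
  have hup := S.pow_p hu
  have hinj := Function.iterate_injOn_Iio_minimalPeriod (f := u) (x := b)
  rw [S.minPeriod hu hb] at hinj
  rw [pow_eq_pow_mod i hup, pow_eq_pow_mod j hup] at h
  have hpos := hp.out.pos
  apply hinj (x₁ := i % p) (x₂ := j % p)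
  · exact Nat.mod_lt _ hpos
  · exact Nat.mod_lt _ hpos
  · simpa [Equiv.Perm.iterate_eq_pow] using h

lemma OrbSetup.scal_aux (S : OrbSetup P p Δ) (hNC : NoCycle P Δ) {n : Perm α}
    (hn : n ∈ Subgroup.normalizer (P : Set (Perm α))) (hK : InK P Δ n) {a₁ a₂ a₃ : α}
    (ha₁ : a₁ ∉ Δ) (ha₂ : a₂ ∉ Δ) (ha₃ : a₃ ∉ Δ)
    (cover : ∀ b, b ∉ Δ → b ∈ orb P a₁ ∨ b ∈ orb P a₂ ∨ b ∈ orb P a₃) {e₁ e₂ e₃ : ℕ}
    (he₁ : ∀ y ∈ P, ∀ b ∈ orb P a₁, (n * y * n⁻¹) b = (y ^ e₁) b)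
    (he₂ : ∀ y ∈ P, ∀ b ∈ orb P a₂, (n * y * n⁻¹) b = (y ^ e₂) b)
    (he₃ : ∀ y ∈ P, ∀ b ∈ orb P a₃, (n * y * n⁻¹) b = (y ^ e₃) b)
    (hne : ¬ e₂ ≡ e₃ [MOD p]) {y : Perm α} (hy : y ∈ P) : n * y * n⁻¹ = y ^ e₁ := by
  have hye : y ^ e₁ ∈ P := P.pow_mem hy e₁
  set u := n * y * n⁻¹ * (y ^ e₁)⁻¹ with hu
  have huP : u ∈ P := P.mul_mem (conj_mem hn hy) (P.inv_mem hye)
  have hu1 : ∀ b ∈ orb P a₁, u b = b := by
    intro b hb
    have h1 : (y ^ e₁)⁻¹ b ∈ orb P a₁ := apply_mem_orb (P.inv_mem hye) hb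
    rw [hu, Perm.mul_apply, he₁ y hy _ h1, vi]
  have hue : u ^ e₂ ∈ P := P.pow_mem huP e₂
  have hvP : n * u * n⁻¹ * (u ^ e₂)⁻¹ ∈ P := P.mul_mem (conj_mem hn huP) (P.inv_mem hue)
  have hv : n * u * n⁻¹ * (u ^ e₂)⁻¹ = 1 := by
    apply hNC a₃ ha₃ _ hvP
    intro b hb
    by_cases hbΔ : b ∈ Δ
    · exact S.fix _ hvP b hbΔ
    · rcases cover b hbΔ with h | h | h
      · have h2 : (u ^ e₂)⁻¹ b = b := by
          have : (u ^ e₂) b = b := Equiv.Perm.pow_apply_eq_self_of_apply_eq_self (hu1 b h) e₂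
          rw [Perm.inv_eq_iff_eq]
          exact this.symm
        have h3 : n⁻¹ b ∈ orb P a₁ := S.K_mem (S.K_inv hn hK) ha₁ h
        simp only [Perm.mul_apply]
        rw [h2, hu1 _ h3, vi]
      · have h1 : (u ^ e₂)⁻¹ b ∈ orb P a₂ := apply_mem_orb (P.inv_mem hue) h
        rw [Perm.mul_apply, he₂ u huP _ h1, vi]
      · exact absurd h hb
  have hnu : n * u * n⁻¹ = u ^ e₂ := mul_inv_eq_one.1 hv
  have hu3 : ∀ b ∈ orb P a₃, u b = b := by
    intro b hb
    by_contra hcon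
    apply hne
    apply S.modEq_of_pow huP hcon
    rw [← hnu, he₃ u huP b hb]
  have hu1' : u = 1 := by
    apply hNC a₂ ha₂ u huP
    intro b hb
    by_cases hbΔ : b ∈ Δ
    · exact S.fix _ huP b hbΔ
    · rcases cover b hbΔ with h | h | h
      · exact hu1 b h
      · exact absurd h hb
      · exact hu3 b h
  exact mul_inv_eq_one.1 hu1'

/-- If at most three orbits occur and no element moves just one orbit, `n` acts on `P` as a single
power map. -/
lemma OrbSetup.scalar (S : OrbSetup P p Δ) (hNC : NoCycle P Δ) {n : Perm α}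
    (hn : n ∈ Subgroup.normalizer (P : Set (Perm α))) (hK : InK P Δ n) {a₁ a₂ a₃ : α}
    (ha₁ : a₁ ∉ Δ) (ha₂ : a₂ ∉ Δ) (ha₃ : a₃ ∉ Δ)
    (cover : ∀ b, b ∉ Δ → b ∈ orb P a₁ ∨ b ∈ orb P a₂ ∨ b ∈ orb P a₃) :
    ∃ e : ℕ, ∀ y ∈ P, n * y * n⁻¹ = y ^ e := by
  obtain ⟨e₁, he₁⟩ := S.mult hn hK ha₁
  obtain ⟨e₂, he₂⟩ := S.mult hn hK ha₂
  obtain ⟨e₃, he₃⟩ := S.mult hn hK ha₃
  by_cases h23 : e₂ ≡ e₃ [MOD p]
  · by_cases h13 : e₁ ≡ e₃ [MOD p]
    · refine ⟨e₃, fun y hy => ?_⟩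
      have hup := S.pow_p hy
      ext b
      by_cases hbΔ : b ∈ Δ
      · rw [S.fix _ (conj_mem hn hy) b hbΔ, S.fix _ (P.pow_mem hy e₃) b hbΔ]
      · rcases cover b hbΔ with h | h | h
        · rw [he₁ y hy b h, pow_congr_of hup h13]
        · rw [he₂ y hy b h, pow_congr_of hup h23]
        · rw [he₃ y hy b h]
    · refine ⟨e₂, fun y hy => ?_⟩
      exact S.scal_aux hNC hn hK ha₂ ha₁ ha₃
        (fun b hb => (cover b hb).elim (fun h => Or.inr (Or.inl h))
          (fun h => h.elim Or.inl (fun h => Or.inr (Or.inr h)))) he₂ he₁ he₃ h13 hy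
  · exact ⟨e₁, fun y hy => S.scal_aux hNC hn hK ha₁ ha₂ ha₃ cover he₁ he₂ he₃ h23 hy⟩

end

end Cfsg.Agent.Lib.Block.JT
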