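import Mathlib
import Cfsg.Agent.Lib.Block.JT1
import Cfsg.Agent.Lib.Perm.Jordan

/-!
Jordan's theorem on degrees `kp + r`: pure lemmas on normal subgroups of symmetric groups, the
restriction to the fixed set of `P` and the final steps.
-/

set_option autoImplicit false
set_option linter.unusedSimpArgs false
set_option linter.unusedSectionVars false
set_option linter.unusedVariables false

namespace Cfsg.Agent.Lib.Block.JT

open Equiv Equiv.Perm

section Pure

variable {β : Type*} [Fintype β] [DecidableEq β]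

lemma exists_ne_two (h : 3 ≤ Fintype.card β) (a b : β) : ∃ d, d ≠ a ∧ d ≠ b := by
  have h1 : ({a, b} : Finset β).card < (Finset.univ : Finset β).card := by
    rw [Finset.card_univ]
    have := Finset.card_le_two (a := a) (b := b)
    omega
  obtain ⟨d, -, hd⟩ := Finset.exists_mem_notMem_of_card_lt_card h1
  simp only [Finset.mem_insert, Finset.mem_singleton, not_or] at hd
  exact ⟨d, hd.1, hd.2⟩

lemma exists_ne_three (h : 4 ≤ Fintype.card β) (a b c : β) : ∃ d, d ≠ a ∧ d ≠ b ∧ d ≠ c := by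
  have h1 : ({a, b, c} : Finset β).card < (Finset.univ : Finset β).card := by
    rw [Finset.card_univ]
    have := Finset.card_le_three (a := a) (b := b) (c := c)
    omega
  obtain ⟨d, -, hd⟩ := Finset.exists_mem_notMem_of_card_lt_card h1
  simp only [Finset.mem_insert, Finset.mem_singleton, not_or] at hd
  exact ⟨d, hd.1, hd.2.1, hd.2.2⟩

lemma exists_ne_four (h : 5 ≤ Fintype.card β) (a b c e : β) :
    ∃ d, d ≠ a ∧ d ≠ b ∧ d ≠ c ∧ d ≠ e := by
  have h1 : ({a, b, c, e} : Finset β).card < (Finset.univ : Finset β).card := by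
    rw [Finset.card_univ]
    have := Finset.card_le_four (a := a) (b := b) (c := c) (d := e)
    omega
  obtain ⟨d, -, hd⟩ := Finset.exists_mem_notMem_of_card_lt_card h1
  simp only [Finset.mem_insert, Finset.mem_singleton, not_or] at hd
  exact ⟨d, hd.1, hd.2.1, hd.2.2.1, hd.2.2.2⟩

/-- The two shapes of elements in a nontrivial normal subgroup of a symmetric group. -/
def Shape (τ : Perm β) : Prop :=
  (∃ a b d, a ≠ b ∧ a ≠ d ∧ b ≠ d ∧ τ = swap a b * swap a d) ∨
    (∃ a b d e, a ≠ b ∧ a ≠ d ∧ a ≠ e ∧ b ≠ d ∧ b ≠ e ∧ d ≠ e ∧ τ = swap a b * swap d e)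

theorem exists_shape (T : Subgroup (Perm β)) (hT : T.Normal) (hne : T ≠ ⊥)
    (h3 : 3 ≤ Fintype.card β) : ∃ τ ∈ T, Shape τ := by
  obtain ⟨τ₀, h0, h1⟩ : ∃ x ∈ T, x ≠ 1 := by
    obtain ⟨x, hx⟩ := (Subgroup.ne_bot_iff_exists_ne_one).1 hne
    exact ⟨x.1, x.2, fun h => hx (Subtype.ext h)⟩
  obtain ⟨a, ha⟩ : ∃ a, τ₀ a ≠ a := by
    by_contra hcon
    push Not at hcon
    exact h1 (Equiv.ext hcon)
  obtain ⟨d, hda, hdb⟩ := exists_ne_two h3 a (τ₀ a)
  have h2 : swap (τ₀ a) (τ₀ d) * swap a d ∈ T := by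
    rw [swap_apply_apply]
    have h3 := hT.conj_mem _ (T.inv_mem h0) (swap a d)
    have h4 := T.mul_mem h0 h3
    have h5 : τ₀ * (swap a d * τ₀⁻¹ * (swap a d)⁻¹) = τ₀ * swap a d * τ₀⁻¹ * swap a d := by
      rw [swap_inv]
      group
    rwa [h5] at h4
  have hfb : τ₀ d ≠ τ₀ a := fun h => hda (τ₀.injective h)
  refine ⟨_, h2, ?_⟩
  by_cases hfa : τ₀ d = a
  · left
    refine ⟨a, τ₀ a, d, ha.symm, hda.symm, hdb.symm, ?_⟩
    rw [hfa, swap_comm]
  · by_cases hfd : τ₀ d = d
    · left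
      refine ⟨d, τ₀ a, a, hdb, hda, ha, ?_⟩
      rw [hfd, swap_comm (τ₀ a) d, swap_comm a d]
    · right
      refine ⟨τ₀ a, τ₀ d, a, d, hfb.symm, ha, hdb.symm, hfa, hfd, hda.symm, rfl⟩

lemma conj_swap_swap (g : Perm β) (a b c d : β) :
    g * (swap a b * swap c d) * g⁻¹ = swap (g a) (g b) * swap (g c) (g d) := by
  rw [swap_apply_apply, swap_apply_apply]
  group

theorem exists_noncomm (T : Subgroup (Perm β)) (hT : T.Normal) (hne : T ≠ ⊥)
    (h5 : 5 ≤ Fintype.card β) : ∃ τ₁ ∈ T, ∃ τ₂ ∈ T, τ₁ * τ₂ ≠ τ₂ * τ₁ := by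
  obtain ⟨τ, hτ, hs⟩ := exists_shape T hT hne (by omega)
  rcases hs with ⟨a, b, d, hab, had, hbd, rfl⟩ | ⟨a, b, d, e, hab, had, hae, hbd, hbe, hde, rfl⟩
  · obtain ⟨e, hea, heb, hed⟩ := exists_ne_three (by omega) a b d
    have h1 := hT.conj_mem _ hτ (swap d e)
    rw [conj_swap_swap, swap_apply_of_ne_of_ne had hea.symm, swap_apply_of_ne_of_ne hbd heb.symm,
      swap_apply_left] at h1
    refine ⟨_, hτ, _, h1, fun h => ?_⟩
    have h2 := congrArg (fun f : Perm β => f a) h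
    simp [Perm.mul_apply, swap_apply_def, hab, had, hea, heb, hed, hbd, hab.symm, had.symm,
      hea.symm, heb.symm, hed.symm, hbd.symm] at h2
  · obtain ⟨f, hfa, hfb, hfd, hfe⟩ := exists_ne_four (by omega) a b d e
    have h1 := hT.conj_mem _ hτ (swap e f)
    rw [conj_swap_swap, swap_apply_of_ne_of_ne hae hfa.symm, swap_apply_of_ne_of_ne hbe hfb.symm,
      swap_apply_of_ne_of_ne hde hfd.symm, swap_apply_left] at h1
    refine ⟨_, hτ, _, h1, fun h => ?_⟩
    have h2 := congrArg (fun g : Perm β => g d) h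
    simp [Perm.mul_apply, swap_apply_def, hab, had, hae, hbd, hbe, hde, hfa, hfb, hfd, hfe,
      hab.symm, had.symm, hae.symm, hbd.symm, hbe.symm, hde.symm, hfa.symm, hfb.symm, hfd.symm,
      hfe.symm] at h2

end Pure

section Main

variable {α : Type*} [Fintype α] [DecidableEq α] {G P : Subgroup (Perm α)} {p : ℕ} {Δ : Finset α}

/-- The normaliser of `P` in `G`. -/
def Nm (G P : Subgroup (Perm α)) : Subgroup (Perm α) :=
  G ⊓ Subgroup.normalizer (P : Set (Perm α))

variable [hp : Fact p.Prime]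

/-- Restriction to `Δ`. -/
def res (S : OrbSetup P p Δ) : ↥(Nm G P) →* Perm {x // x ∈ Δ} where
  toFun n := (n : Perm α).subtypePerm (fun x => S.norm_mem_iff n.2.2 x)
  map_one' := by ext; rfl
  map_mul' n m := by ext; rfl

lemma res_apply (S : OrbSetup P p Δ) (n : ↥(Nm G P)) (x : {x // x ∈ Δ}) :
    ((res S n) x : α) = (n : Perm α) x := rfl

/-- Elements of the normaliser preserving every orbit. -/
def KK (S : OrbSetup P p Δ) : Subgroup ↥(Nm G P) where
  carrier := {n | InK P Δ n.1}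
  mul_mem' := fun {n m} hn hm a ha => S.K_mem hn ha (hm a ha)
  one_mem' := fun a _ => self_mem_orb P a
  inv_mem' := fun {n} hn => S.K_inv n.2.2 hn

/-- Elements of the normaliser preserving every orbit and centralising `P`. -/
def CKK (S : OrbSetup P p Δ) : Subgroup ↥(Nm G P) where
  carrier := {n | InK P Δ n.1 ∧ ∀ y ∈ P, n.1 * y = y * n.1}
  mul_mem' := fun {n m} hn hm => ⟨fun a ha => S.K_mem hn.1 ha (hm.1 a ha), fun y hy => by
    change n.1 * m.1 * y = y * (n.1 * m.1)
    rw [mul_assoc, hm.2 y hy, ← mul_assoc, hn.2 y hy, mul_assoc]⟩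
  one_mem' := ⟨fun a _ => self_mem_orb P a, fun y _ => by
    change 1 * y = y * 1
    simp⟩
  inv_mem' := fun {n} hn => ⟨S.K_inv n.2.2 hn.1, fun y hy => by
    have : Commute n.1 y := hn.2 y hy
    exact this.inv_left.eq⟩

lemma KK_normal (S : OrbSetup P p Δ) : (KK (G := G) S).Normal := by
  refine ⟨fun n hn s a ha => ?_⟩
  have h1 : s.1⁻¹ a ∉ Δ := by
    rw [S.norm_mem_iff (Subgroup.inv_mem _ s.2.2)]
    exact ha
  have h2 := apply_orb_norm s.2.2 (hn _ h1)
  rw [vi] at h2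
  exact h2

lemma CKK_normal (S : OrbSetup P p Δ) : (CKK (G := G) S).Normal := by
  refine ⟨fun n hn s => ⟨?_, fun y hy => ?_⟩⟩
  · intro a ha
    have h1 : s.1⁻¹ a ∉ Δ := by
      rw [S.norm_mem_iff (Subgroup.inv_mem _ s.2.2)]
      exact ha
    have h2 := apply_orb_norm s.2.2 (hn.1 _ h1)
    rw [vi] at h2
    exact h2
  · have h1 := hn.2 _ (conj_inv_mem s.2.2 hy)
    change s.1 * n.1 * s.1⁻¹ * y = y * (s.1 * n.1 * s.1⁻¹)
    calc s.1 * n.1 * s.1⁻¹ * y = s.1 * (n.1 * (s.1⁻¹ * y * s.1)) * s.1⁻¹ := by group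
      _ = s.1 * ((s.1⁻¹ * y * s.1) * n.1) * s.1⁻¹ := by rw [h1]
      _ = y * (s.1 * n.1 * s.1⁻¹) := by group

/-- The `p`-th power of an element of `CKK` is its restriction to `Δ`. -/
lemma pow_eq_ofSubtype (S : OrbSetup P p Δ) {c : ↥(Nm G P)} (hc : c ∈ CKK S) :
    (c.1) ^ p = ofSubtype ((res S c) ^ p) := by
  ext x
  by_cases hx : x ∈ Δ
  · rw [ofSubtype_apply_of_mem _ hx, ← map_pow]
    rfl
  · rw [ofSubtype_apply_of_not_mem _ hx]
    exact S.pow_fix hc.1 hc.2 hx

lemma alt_of_three (hpr : MulAction.IsPreprimitive G α) {g : Perm α} (h : g.IsThreeCycle)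
    (hg : g ∈ G) : alternatingGroup α ≤ G :=
  Equiv.Perm.alternatingGroup_le_of_isPreprimitive_of_isThreeCycle_mem hpr h hg

lemma alt_of_double (hpr : MulAction.IsPreprimitive G α)
    (ht : MulAction.IsMultiplyPretransitive G α 4) (h4 : 4 ≤ Fintype.card α) {a b d e f : α}
    (hab : a ≠ b) (had : a ≠ d) (hae : a ≠ e) (hbd : b ≠ d) (hbe : b ≠ e) (hde : d ≠ e)
    (hfa : f ≠ a) (hfb : f ≠ b) (hfd : f ≠ d) (hfe : f ≠ e) (h : swap a b * swap d e ∈ G) :
    alternatingGroup α ≤ G := by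
  obtain ⟨g, hg, hgv⟩ := Cfsg.Agent.Lib.Perm.exists_perm_prescribed G h4 ht ({a, b, d, e} : Finset α)
    Finset.card_le_four (swap e f) (Equiv.injective _).injOn
  have ga : g a = a := by
    rw [hgv a (by simp), swap_apply_of_ne_of_ne hae hfa.symm]
  have gb : g b = b := by
    rw [hgv b (by simp), swap_apply_of_ne_of_ne hbe hfb.symm]
  have gd : g d = d := by
    rw [hgv d (by simp), swap_apply_of_ne_of_ne hde hfd.symm]
  have ge : g e = f := by
    rw [hgv e (by simp), swap_apply_left]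
  have h1 : g * (swap a b * swap d e) * g⁻¹ ∈ G := G.mul_mem (G.mul_mem hg h) (G.inv_mem hg)
  rw [conj_swap_swap, ga, gb, gd, ge] at h1
  have h2 := G.mul_mem h h1
  have hc : Commute (swap a b) (swap d e) := by
    apply Equiv.Perm.Disjoint.commute
    intro x
    by_cases hx : x = a ∨ x = b
    · right
      rcases hx with rfl | rfl
      · exact swap_apply_of_ne_of_ne had hae
      · exact swap_apply_of_ne_of_ne hbd hbe
    · left
      push Not at hx
      exact swap_apply_of_ne_of_ne hx.1 hx.2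
  have h3 : swap a b * swap d e * (swap a b * swap d f) = swap d e * swap d f := by
    rw [hc.eq, mul_assoc (swap d e), ← mul_assoc (swap a b) (swap a b), swap_mul_self, one_mul]
  rw [h3] at h2
  exact alt_of_three hpr (isThreeCycle_swap_mul_swap_same hde hfd.symm hfe.symm) h2

lemma prod_conj_three {β : Type*} [DecidableEq β] {a b d e : β} (hab : a ≠ b) (had : a ≠ d)
    (hae : a ≠ e) (hbd : b ≠ d) (hbe : b ≠ e) (hde : d ≠ e) :
    (swap a b * swap a d) * (swap a b * swap a e) = swap a e * swap b d := by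
  ext x
  simp only [Perm.mul_apply, swap_apply_def]
  split_ifs <;> simp_all

theorem conclude (S : OrbSetup P p Δ) (hsurj : Function.Surjective (res (G := G) S)) (hp2 : p ≠ 2)
    (hpr : MulAction.IsPreprimitive G α) (htr : MulAction.IsMultiplyPretransitive G α (Δ.card + 1))
    (hcard : Δ.card < Fintype.card α) (h3 : 3 ≤ Δ.card)
    (h33 : p = 3 → Δ.card = 3 → alternatingGroup α ≤ G)
    (hT : (CKK (G := G) S).map (res S) ≠ ⊥) : alternatingGroup α ≤ G := by
  have hN : ((CKK (G := G) S).map (res S)).Normal := (CKK_normal S).map _ hsurj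
  have hcΔ : Fintype.card {x // x ∈ Δ} = Δ.card := by simp
  have hG : ∀ c : ↥(Nm G P), c.1 ^ p ∈ G := fun c => G.pow_mem c.2.1 p
  -- the double transposition case
  have hdouble : ∀ τ ∈ (CKK (G := G) S).map (res S), ∀ a b d e : {x // x ∈ Δ},
      a ≠ b → a ≠ d → a ≠ e → b ≠ d → b ≠ e → d ≠ e → τ = swap a b * swap d e →
      alternatingGroup α ≤ G := by
    rintro τ ⟨c, hc, rfl⟩ a b d e hab had hae hbd hbe hde hτ
    have h4 : 4 ≤ Δ.card := by
      rw [← hcΔ]
      have : ({a, b, d, e} : Finset {x // x ∈ Δ}).card = 4 := by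
        rw [Finset.card_eq_succ]
        refine ⟨a, {b, d, e}, by simp [hab, had, hae], rfl, ?_⟩
        rw [Finset.card_eq_three]
        exact ⟨b, d, e, hbd, hbe, hde, rfl⟩
      rw [← this]
      exact Finset.card_le_univ _
    have hsq : (res S c) ^ 2 = 1 := by
      rw [hτ, pow_two]
      have hc2 : Commute (swap a b) (swap d e) := by
        apply Equiv.Perm.Disjoint.commute
        intro x
        by_cases hx : x = a ∨ x = b
        · right
          rcases hx with rfl | rfl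
          · exact swap_apply_of_ne_of_ne had hae
          · exact swap_apply_of_ne_of_ne hbd hbe
        · left
          push Not at hx
          exact swap_apply_of_ne_of_ne hx.1 hx.2
      rw [mul_assoc, ← mul_assoc (swap d e), ← hc2.eq, mul_assoc (swap a b), swap_mul_self,
        mul_one, swap_mul_self]
    have hodd : p % 2 = 1 := by
      rcases hp.out.eq_two_or_odd with h | h
      · exact absurd h hp2
      · exact h
    have hpow : (res S c) ^ p = res S c := by
      rw [pow_eq_pow_mod p hsq, hodd, pow_one]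
    have h5 := hG c
    rw [pow_eq_ofSubtype S hc, hpow, hτ, map_mul, ofSubtype_swap_eq, ofSubtype_swap_eq] at h5
    have hne : ∀ {x y : {x // x ∈ Δ}}, x ≠ y → (x : α) ≠ y := fun h h' => h (Subtype.ext h')
    obtain ⟨f, hfa, hfb, hfd, hfe⟩ := exists_ne_four (β := α) (by omega) a b d e
    exact alt_of_double hpr (MulAction.isMultiplyPretransitive_of_le (n := Δ.card + 1) (by omega)
      (by rw [Nat.card_eq_fintype_card]; omega)) (by omega) (hne hab) (hne had) (hne hae) (hne hbd)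
      (hne hbe) (hne hde) hfa hfb hfd hfe h5
  obtain ⟨τ, hτ, hs⟩ := exists_shape _ hN hT (by rw [hcΔ]; exact h3)
  rcases hs with ⟨a, b, d, hab, had, hbd, hτe⟩ | ⟨a, b, d, e, hab, had, hae, hbd, hbe, hde, hτe⟩
  · by_cases hp3 : p = 3
    · by_cases hr3 : Δ.card = 3
      · exact h33 hp3 hr3
      · obtain ⟨e, hea, heb, hed⟩ := exists_ne_three (β := {x // x ∈ Δ}) (by rw [hcΔ]; omega) a b d
        have h1 := hN.conj_mem _ hτ (swap d e)
        rw [hτe, conj_swap_swap, swap_apply_of_ne_of_ne had hea.symm,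
          swap_apply_of_ne_of_ne hbd heb.symm, swap_apply_left] at h1
        have h2 := Subgroup.mul_mem _ hτ h1
        rw [hτe, prod_conj_three hab had hea.symm hbd heb.symm hed.symm] at h2
        exact hdouble _ h2 a e b d hea.symm hab had heb hed hbd rfl
    · obtain ⟨c, hc, hcτ⟩ := hτ
      have h5 := hG c
      rw [pow_eq_ofSubtype S hc, hcτ] at h5
      have h3c : τ.IsThreeCycle := by
        rw [hτe]
        exact isThreeCycle_swap_mul_swap_same hab had hbd
      have h6 : (τ ^ p).IsThreeCycle := by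
        have h7 : τ ^ 3 = 1 := by
          rw [← h3c.orderOf]
          exact pow_orderOf_eq_one τ
        rw [pow_eq_pow_mod p h7]
        have h8 : p % 3 = 1 ∨ p % 3 = 2 := by
          have h9 : p % 3 ≠ 0 := by
            intro h
            have := (Nat.dvd_prime hp.out).1 (Nat.dvd_of_mod_eq_zero h)
            omega
          omega
        rcases h8 with h | h
        · rw [h, pow_one]
          exact h3c
        · rw [h, pow_two]
          exact h3c.isThreeCycle_sq
      have h7 : (ofSubtype (τ ^ p)).IsThreeCycle := by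
        rw [IsThreeCycle, cycleType_ofSubtype]
        exact h6
      exact alt_of_three hpr h7 h5
  · exact hdouble τ hτ a b d e hab had hae hbd hbe hde hτe

lemma res_mem_T_ne (S : OrbSetup P p Δ) {c : ↥(Nm G P)} (hc : c ∈ CKK S) (h : res S c ≠ 1) :
    (CKK (G := G) S).map (res S) ≠ ⊥ := by
  intro hbot
  have : res S c ∈ (CKK (G := G) S).map (res S) := ⟨c, hc, rfl⟩
  rw [hbot] at this
  exact h this

theorem T_of_big (S : OrbSetup P p Δ) (hsurj : Function.Surjective (res (G := G) S))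
    (hB : (KK (G := G) S).map (res S) ≠ ⊥) (h5 : 5 ≤ Δ.card) :
    (CKK (G := G) S).map (res S) ≠ ⊥ := by
  have hN : ((KK (G := G) S).map (res S)).Normal := (KK_normal S).map _ hsurj
  have hcΔ : Fintype.card {x // x ∈ Δ} = Δ.card := by simp
  obtain ⟨τ₁, ⟨n, hn, rfl⟩, τ₂, ⟨m, hm, rfl⟩, hne⟩ :=
    exists_noncomm _ hN hB (by rw [hcΔ]; exact h5)
  have hc : (m * n)⁻¹ * (n * m) ∈ CKK (G := G) S := by
    refine ⟨(KK S).mul_mem ((KK S).inv_mem ((KK S).mul_mem hm hn)) ((KK S).mul_mem hn hm),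
      fun y hy => ?_⟩
    have h1 := S.comm_of_K n.2.2 m.2.2 hn hm hy
    have h2 : (((m * n)⁻¹ * (n * m) : ↥(Nm G P)) : Perm α) = (m.1 * n.1)⁻¹ * (n.1 * m.1) := rfl
    rw [h2]
    calc (m.1 * n.1)⁻¹ * (n.1 * m.1) * y
        = (m.1 * n.1)⁻¹ * ((n.1 * m.1) * y * (n.1 * m.1)⁻¹) * (n.1 * m.1) := by group
      _ = (m.1 * n.1)⁻¹ * ((m.1 * n.1) * y * (m.1 * n.1)⁻¹) * (n.1 * m.1) := by rw [h1]
      _ = y * ((m.1 * n.1)⁻¹ * (n.1 * m.1)) := by group
  apply res_mem_T_ne S hc
  intro h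
  apply hne
  rw [map_mul, map_inv, map_mul, map_mul, inv_mul_eq_one] at h
  exact h.symm

theorem T_of_scalar (S : OrbSetup P p Δ) (hsurj : Function.Surjective (res (G := G) S))
    (hB : (KK (G := G) S).map (res S) ≠ ⊥) (h3 : 3 ≤ Δ.card)
    (hsc : ∀ n ∈ KK (G := G) S, ∃ e : ℕ, ∀ y ∈ P, n.1 * y * n.1⁻¹ = y ^ e) :
    (CKK (G := G) S).map (res S) ≠ ⊥ := by
  have hcΔ : Fintype.card {x // x ∈ Δ} = Δ.card := by simp
  obtain ⟨τ, ⟨n, hn, rfl⟩, hτ⟩ : ∃ τ ∈ (KK (G := G) S).map (res S), τ ≠ 1 := by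
    obtain ⟨x, hx⟩ := (Subgroup.ne_bot_iff_exists_ne_one).1 hB
    exact ⟨x.1, x.2, fun h => hx (Subtype.ext h)⟩
  obtain ⟨a, ha⟩ : ∃ a, res S n a ≠ a := by
    by_contra hcon
    push Not at hcon
    exact hτ (Equiv.ext hcon)
  obtain ⟨d, hda, hdb⟩ := exists_ne_two (β := {x // x ∈ Δ}) (by rw [hcΔ]; exact h3) a (res S n a)
  obtain ⟨s, hs⟩ := hsurj (swap (res S n a) d)
  obtain ⟨e, he⟩ := hsc n hn
  set w : ↥(Nm G P) := s * n * s⁻¹ with hw
  have hwK : w ∈ KK (G := G) S := (KK_normal S).conj_mem n hn s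
  have hwy : ∀ y ∈ P, w.1 * y * w.1⁻¹ = y ^ e := by
    intro y hy
    have h1 := he _ (conj_inv_mem s.2.2 hy)
    have h2 : w.1 = s.1 * n.1 * s.1⁻¹ := rfl
    rw [h2]
    calc s.1 * n.1 * s.1⁻¹ * y * (s.1 * n.1 * s.1⁻¹)⁻¹
        = s.1 * (n.1 * (s.1⁻¹ * y * s.1) * n.1⁻¹) * s.1⁻¹ := by group
      _ = s.1 * (s.1⁻¹ * y * s.1) ^ e * s.1⁻¹ := by rw [h1]
      _ = (s.1 * (s.1⁻¹ * y * s.1) * s.1⁻¹) ^ e := by rw [conj_pow]
      _ = y ^ e := by
        congr 1
        group
  have hc : w⁻¹ * n ∈ CKK (G := G) S := by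
    refine ⟨(KK S).mul_mem ((KK S).inv_mem hwK) hn, fun y hy => ?_⟩
    have h2 : ((w⁻¹ * n : ↥(Nm G P)) : Perm α) = w.1⁻¹ * n.1 := rfl
    rw [h2]
    have h3 := he y hy
    have h4 := hwy y hy
    calc w.1⁻¹ * n.1 * y = w.1⁻¹ * (n.1 * y * n.1⁻¹) * n.1 := by group
      _ = w.1⁻¹ * (w.1 * y * w.1⁻¹) * n.1 := by rw [h3, h4]
      _ = y * (w.1⁻¹ * n.1) := by group
  apply res_mem_T_ne S hc
  intro h
  rw [map_mul, map_inv, inv_mul_eq_one] at h
  -- evaluate at `a`
  have h5 : res S w = res S n := h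
  have h6 : res S w a = d := by
    rw [hw, map_mul, map_mul, map_inv, hs]
    simp only [Perm.mul_apply]
    have h7 : (swap (res S n a) d)⁻¹ a = a := by
      rw [swap_inv]
      exact swap_apply_of_ne_of_ne ha.symm hda.symm
    rw [h7, swap_apply_left]
  rw [h5] at h6
  exact hdb h6.symm

end Main

end Cfsg.Agent.Lib.Block.JT
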