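import Mathlib
import Cfsg.Agent.Lib.Block.JT2

/-!
Jordan's theorem on degrees `kp + r`: the orbit count and construction of the setup.
-/

set_option autoImplicit false
set_option linter.unusedSimpArgs false
set_option linter.unusedSectionVars false
set_option linter.unusedVariables false

namespace Cfsg.Agent.Lib.Block.JT

open Equiv Equiv.Perm

variable {α : Type*} [Fintype α] [DecidableEq α] {G P : Subgroup (Perm α)} {p : ℕ} {Δ : Finset α}

variable [hp : Fact p.Prime]

/-- The orbits of `P` outside `Δ`. -/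
noncomputable def orbs (P : Subgroup (Perm α)) (Δ : Finset α) : Finset (Finset α) :=
  (Δᶜ).image (orb P)

lemma orb_mem_orbs {a : α} (ha : a ∉ Δ) : orb P a ∈ orbs P Δ :=
  Finset.mem_image.2 ⟨a, by simpa using ha, rfl⟩

lemma card_orbs (S : OrbSetup P p Δ) : (Δᶜ).card = (orbs P Δ).card * p := by
  rw [Finset.card_eq_sum_card_image (orb P) (Δᶜ)]
  rw [Finset.sum_const_nat (m := p)]
  · rfl
  intro O hO
  obtain ⟨a, ha, rfl⟩ := Finset.mem_image.1 hO
  have ha' : a ∉ Δ := by simpa using ha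
  have : (Δᶜ).filter (fun x => orb P x = orb P a) = orb P a := by
    ext x
    simp only [Finset.mem_filter, Finset.mem_compl]
    constructor
    · rintro ⟨-, h⟩
      rw [← h]
      exact self_mem_orb P x
    · intro h
      exact ⟨S.notin_of_mem ha' h, orb_eq_of_mem h⟩
  rw [this]
  exact S.orbcard a ha'

lemma image_orb {n : Perm α} (hn : n ∈ Subgroup.normalizer (P : Set (Perm α))) (a : α) :
    (orb P a).image n = orb P (n a) := by
  ext d
  constructor
  · intro hd
    obtain ⟨x, hx, rfl⟩ := Finset.mem_image.1 hd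
    exact apply_orb_norm hn hx
  · intro hd
    obtain ⟨y, hy, rfl⟩ := mem_orb.1 hd
    refine Finset.mem_image.2 ⟨(n⁻¹ * y * n) a, mem_orb.2 ⟨_, conj_inv_mem hn hy, rfl⟩, ?_⟩
    simp only [Perm.mul_apply, vi]

/-- The action of a normalising element on the orbits. -/
noncomputable def permOrb (S : OrbSetup P p Δ) (n : Perm α)
    (hn : n ∈ Subgroup.normalizer (P : Set (Perm α))) : Perm {O // O ∈ orbs P Δ} :=
  Equiv.ofBijective (fun O => ⟨O.1.image n, by
      obtain ⟨a, ha, hO⟩ := Finset.mem_image.1 O.2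
      rw [← hO, image_orb hn]
      apply orb_mem_orbs
      rw [S.norm_mem_iff hn]
      simpa using ha⟩)
    (Finite.injective_iff_bijective.1 (fun O O' h => by
      apply Subtype.ext
      exact Finset.image_injective n.injective (congrArg Subtype.val h)))

lemma permOrb_apply (S : OrbSetup P p Δ) (n : Perm α)
    (hn : n ∈ Subgroup.normalizer (P : Set (Perm α))) (O : {O // O ∈ orbs P Δ}) :
    (permOrb S n hn O).1 = O.1.image n := rfl

theorem B_ne_bot (S : OrbSetup P p Δ) (hsurj : Function.Surjective (res (G := G) S))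
    (hpos : 0 < (orbs P Δ).card) (hkr : (orbs P Δ).card < Δ.card) :
    (KK (G := G) S).map (res S) ≠ ⊥ := by
  classical
  choose L hL using hsurj
  let Φ : Perm {x // x ∈ Δ} → Perm {O // O ∈ orbs P Δ} := fun σ => permOrb S (L σ).1 (L σ).2.2
  have hcard : Fintype.card (Perm {O // O ∈ orbs P Δ}) < Fintype.card (Perm {x // x ∈ Δ}) := by
    rw [Fintype.card_perm, Fintype.card_perm]
    simp only [Fintype.card_coe]
    exact (Nat.factorial_lt hpos).2 hkr
  obtain ⟨σ, τ, hne, hΦ⟩ := Fintype.exists_ne_map_eq_of_card_lt Φ hcard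
  have hK : (L σ)⁻¹ * L τ ∈ KK (G := G) S := by
    intro a ha
    have h1 := congrArg (fun f => (f ⟨orb P a, orb_mem_orbs ha⟩ : {O // O ∈ orbs P Δ}).1) hΦ
    simp only [Φ, permOrb_apply, image_orb (L σ).2.2, image_orb (L τ).2.2] at h1
    have h2 : (L τ).1 a ∈ orb P ((L σ).1 a) := by
      rw [h1]
      exact self_mem_orb P _
    obtain ⟨y, hy, hya⟩ := mem_orb.1 h2
    refine mem_orb.2 ⟨(L σ).1⁻¹ * y * (L σ).1, conj_inv_mem (L σ).2.2 hy, ?_⟩
    change (L σ).1⁻¹ (y ((L σ).1 a)) = (L σ).1⁻¹ ((L τ).1 a)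
    rw [hya]
  intro hbot
  have h1 : res S ((L σ)⁻¹ * L τ) ∈ (KK (G := G) S).map (res S) := ⟨_, hK, rfl⟩
  rw [hbot, Subgroup.mem_bot, map_mul, map_inv, hL, hL, inv_mul_eq_one] at h1
  exact hne h1

theorem alt_of_not_noCycle (S : OrbSetup P p Δ) (hPG : P ≤ G) (hpr : MulAction.IsPreprimitive G α)
    (hpn : p + 3 ≤ Fintype.card α) (h : ¬ NoCycle P Δ) : alternatingGroup α ≤ G := by
  unfold NoCycle at h
  push Not at h
  obtain ⟨a, ha, y, hy, hya, hne⟩ := h
  obtain ⟨b, hb⟩ : ∃ b, y b ≠ b := by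
    by_contra hcon
    push Not at hcon
    exact hne (Equiv.ext hcon)
  have hmv : ∀ d, y d ≠ d → d ∈ orb P a := by
    intro d hd
    by_contra hcon
    exact hd (hya d hcon)
  have hba := orb_eq_of_mem (hmv b hb)
  have hpw := S.orb_eq_powers hy hb
  have hc : y.IsCycle := by
    refine ⟨b, hb, fun d hd => ?_⟩
    have h1 : d ∈ orb P b := by
      rw [hba]
      exact hmv d hd
    obtain ⟨i, hi⟩ := hpw d h1
    exact ⟨i, by simpa using hi⟩
  have hsupp : y.support = orb P b := by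
    ext d
    rw [Equiv.Perm.mem_support]
    constructor
    · intro hd
      rw [hba]
      exact hmv d hd
    · intro hd
      obtain ⟨i, rfl⟩ := hpw d hd
      intro hcon
      apply hb
      apply (y ^ i).injective
      rw [← Perm.mul_apply, ← pow_succ, pow_succ', Perm.mul_apply]
      exact hcon
  have hcard : y.support.card = p := by
    rw [hsupp]
    exact S.orbcard b (S.moved_notin hy hb)
  exact Cfsg.Agent.Lib.Perm.alternatingGroup_le_of_prime_cycle G hpr hp.out hpn hc hcard (hPG hy)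

theorem exists_cover (S : OrbSetup P p Δ) (hpos : 0 < (orbs P Δ).card) (h3 : (orbs P Δ).card ≤ 3) :
    ∃ a₁ a₂ a₃ : α, a₁ ∉ Δ ∧ a₂ ∉ Δ ∧ a₃ ∉ Δ ∧
      ∀ b, b ∉ Δ → b ∈ orb P a₁ ∨ b ∈ orb P a₂ ∨ b ∈ orb P a₃ := by
  have hget : ∀ O ∈ orbs P Δ, ∃ a, a ∉ Δ ∧ orb P a = O := by
    intro O hO
    obtain ⟨a, ha, rfl⟩ := Finset.mem_image.1 hO
    exact ⟨a, by simpa using ha, rfl⟩
  have hall : ∀ b, b ∉ Δ → b ∈ orb P b ∧ orb P b ∈ orbs P Δ :=
    fun b hb => ⟨self_mem_orb P b, orb_mem_orbs hb⟩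
  have hcases : (orbs P Δ).card = 1 ∨ (orbs P Δ).card = 2 ∨ (orbs P Δ).card = 3 := by omega
  rcases hcases with h | h | h
  · obtain ⟨O, hO⟩ := Finset.card_eq_one.1 h
    obtain ⟨a, ha, ho⟩ := hget O (by simp [hO])
    refine ⟨a, a, a, ha, ha, ha, fun b hb => Or.inl ?_⟩
    obtain ⟨h1, h2⟩ := hall b hb
    rw [hO, Finset.mem_singleton] at h2
    rwa [ho, ← h2]
  · obtain ⟨O₁, O₂, -, hO⟩ := Finset.card_eq_two.1 h
    obtain ⟨a₁, ha₁, ho₁⟩ := hget O₁ (by simp [hO])
    obtain ⟨a₂, ha₂, ho₂⟩ := hget O₂ (by simp [hO])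
    refine ⟨a₁, a₂, a₂, ha₁, ha₂, ha₂, fun b hb => ?_⟩
    obtain ⟨h1, h2⟩ := hall b hb
    rw [hO] at h2
    simp only [Finset.mem_insert, Finset.mem_singleton] at h2
    rcases h2 with h2 | h2
    · left; rwa [ho₁, ← h2]
    · right; left; rwa [ho₂, ← h2]
  · obtain ⟨O₁, O₂, O₃, -, -, -, hO⟩ := Finset.card_eq_three.1 h
    obtain ⟨a₁, ha₁, ho₁⟩ := hget O₁ (by simp [hO])
    obtain ⟨a₂, ha₂, ho₂⟩ := hget O₂ (by simp [hO])
    obtain ⟨a₃, ha₃, ho₃⟩ := hget O₃ (by simp [hO])
    refine ⟨a₁, a₂, a₃, ha₁, ha₂, ha₃, fun b hb => ?_⟩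
    obtain ⟨h1, h2⟩ := hall b hb
    rw [hO] at h2
    simp only [Finset.mem_insert, Finset.mem_singleton] at h2
    rcases h2 with h2 | h2 | h2
    · left; rwa [ho₁, ← h2]
    · right; left; rwa [ho₂, ← h2]
    · right; right; rwa [ho₃, ← h2]

/-- Normalising by one inclusion, using finiteness. -/
lemma mem_normalizer_of_conj {n : Perm α} (h : ∀ y ∈ P, n * y * n⁻¹ ∈ P) :
    n ∈ Subgroup.normalizer (P : Set (Perm α)) := by
  have hj : ∀ j : ℕ, ∀ y ∈ P, n ^ j * y * (n ^ j)⁻¹ ∈ P := by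
    intro j
    induction j with
    | zero => intro y hy; simpa using hy
    | succ j ih =>
      intro y hy
      have h1 := h _ (ih y hy)
      rw [pow_succ']
      convert h1 using 1
      group
  have hinv : n⁻¹ = n ^ (orderOf n - 1) := by
    rw [inv_eq_iff_mul_eq_one, ← pow_succ', Nat.sub_add_cancel (orderOf_pos n), pow_orderOf_eq_one]
  rw [Subgroup.mem_normalizer_iff]
  intro y
  refine ⟨fun hy => h y hy, fun hy => ?_⟩
  have h1 := hj (orderOf n - 1) _ hy
  rw [← hinv] at h1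
  convert h1 using 1
  group

/-- The pointwise stabiliser of `Δ` in `G`. -/
def fixer (G : Subgroup (Perm α)) (Δ : Finset α) : Subgroup (Perm α) where
  carrier := {g | g ∈ G ∧ ∀ a ∈ Δ, g a = a}
  mul_mem' := fun {a b} ha hb => ⟨G.mul_mem ha.1 hb.1, fun x hx => by
    rw [Perm.mul_apply, hb.2 x hx, ha.2 x hx]⟩
  one_mem' := ⟨G.one_mem, fun x _ => rfl⟩
  inv_mem' := fun {a} ha => ⟨G.inv_mem ha.1, fun x hx => by
    rw [Perm.inv_eq_iff_eq]
    exact (ha.2 x hx).symm⟩

theorem exists_setup {k r : ℕ} (hcard : Fintype.card α = k * p + r) (hk : 1 ≤ k)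
    (hkp : k < p) (hG : MulAction.IsMultiplyPretransitive G α (r + 1)) :
    ∃ (Δ : Finset α) (P : Subgroup (Perm α)), Δ.card = r ∧ P ≤ G ∧ OrbSetup P p Δ ∧
      ∀ g ∈ G, (∀ a ∈ Δ, g a ∈ Δ) → ∃ h ∈ G, (∀ a ∈ Δ, h a = a) ∧
        h * g ∈ Subgroup.normalizer (P : Set (Perm α)) := by
  classical
  have hpos := hp.out.pos
  have hkpos : 0 < k * p := Nat.mul_pos hk hpos
  obtain ⟨Δ, -, hΔ⟩ := Finset.exists_subset_card_eq (s := (Finset.univ : Finset α)) (n := r)
    (by rw [Finset.card_univ]; omega)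
  have hcomp : (Δᶜ).card = k * p := by
    rw [Finset.card_compl, hΔ]
    omega
  let H := fixer G Δ
  let P₀ : Sylow p ↥H := default
  let P : Subgroup (Perm α) := (P₀ : Subgroup ↥H).map H.subtype
  have hPmem : ∀ y ∈ P, y ∈ H := by
    rintro y ⟨y₀, -, rfl⟩
    exact y₀.2
  have hfix : ∀ y ∈ P, ∀ a ∈ Δ, y a = a := fun y hy => (hPmem y hy).2
  have hpg : IsPGroup p P := P₀.isPGroup'.map H.subtype
  refine ⟨Δ, P, hΔ, fun y hy => (hPmem y hy).1, ⟨hfix, hpg, ?_⟩, ?_⟩
  · -- orbit sizes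
    intro a ha
    have hb : ∀ b, b ∉ Δ → ∃ g ∈ H, g a = b := by
      intro b hb'
      obtain ⟨g, hg, hgv⟩ := Cfsg.Agent.Lib.Perm.exists_perm_prescribed G (k := r + 1) (by omega) hG
        (insert a Δ) ((Finset.card_insert_le _ _).trans (by rw [hΔ])) (swap a b)
        (Equiv.injective _).injOn
      refine ⟨g, ⟨hg, fun x hx => ?_⟩, ?_⟩
      · rw [hgv x (Finset.mem_insert_of_mem hx)]
        exact swap_apply_of_ne_of_ne (fun h => ha (h ▸ hx)) (fun h => hb' (h ▸ hx))
      · rw [hgv a (Finset.mem_insert_self _ _), swap_apply_left]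
    have hnotin : ∀ g ∈ H, ∀ x, x ∉ Δ → g x ∉ Δ := by
      intro g hg x hx hgx
      apply hx
      have h1 := (H.inv_mem hg).2 _ hgx
      rw [iv] at h1
      rw [h1]
      exact hgx
    have horbH : MulAction.orbit ↥H a = ((Δᶜ : Finset α) : Set α) := by
      ext b
      simp only [MulAction.mem_orbit_iff, Finset.coe_compl, Set.mem_compl_iff, Finset.mem_coe]
      constructor
      · rintro ⟨g, rfl⟩
        exact hnotin g.1 g.2 a ha
      · intro hb'
        obtain ⟨g, hg, hga⟩ := hb b hb'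
        exact ⟨⟨g, hg⟩, hga⟩
    have h1 : Nat.card (MulAction.orbit ↥H a) * Nat.card (MulAction.stabilizer ↥H a) = Nat.card ↥H := by
      have := MulAction.card_orbit_mul_card_stabilizer_eq_card_group ↥H a
      rwa [← Nat.card_eq_fintype_card, ← Nat.card_eq_fintype_card, ← Nat.card_eq_fintype_card] at this
    have h2 : Nat.card (MulAction.orbit ↥H a) = k * p := by
      rw [horbH, Nat.card_coe_set_eq, Set.ncard_coe_finset, hcomp]
    rw [h2] at h1
    have hHne : Nat.card ↥H ≠ 0 := Nat.card_pos.ne'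
    have hmv : ∃ y ∈ P, y a ≠ a := by
      by_contra hcon
      push Not at hcon
      have h3 : (P₀ : Subgroup ↥H) ≤ MulAction.stabilizer ↥H a := by
        intro y hy
        exact hcon y.1 ⟨y, hy, rfl⟩
      have h4 := Subgroup.card_dvd_of_le h3
      rw [Sylow.card_eq_multiplicity] at h4
      apply Nat.pow_succ_factorization_not_dvd hHne hp.out
      rw [pow_succ]
      conv_rhs => rw [← h1, mul_comm (k * p)]
      exact Nat.mul_dvd_mul h4 (Dvd.intro_left k rfl)
    obtain ⟨y, hy, hya⟩ := hmv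
    obtain ⟨j, hj⟩ := hpg.card_orbit a
    have horb : MulAction.orbit ↥P a = ((orb P a : Finset α) : Set α) := by
      ext b
      simp only [MulAction.mem_orbit_iff, Finset.mem_coe, mem_orb]
      constructor
      · rintro ⟨z, rfl⟩
        exact ⟨z.1, z.2, rfl⟩
      · rintro ⟨z, hz, rfl⟩
        exact ⟨⟨z, hz⟩, rfl⟩
    rw [horb, Nat.card_coe_set_eq, Set.ncard_coe_finset] at hj
    have h5 : orb P a ⊆ Δᶜ := by
      intro b hb'
      obtain ⟨z, hz, rfl⟩ := mem_orb.1 hb'
      simpa using hnotin z (hPmem z hz) a ha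
    have h6 : p ^ j ≤ k * p := by
      rw [← hj, ← hcomp]
      exact Finset.card_le_card h5
    have h7 : j ≠ 0 := by
      rintro rfl
      rw [pow_zero, Finset.card_eq_one] at hj
      obtain ⟨c, hc⟩ := hj
      have h8 : a ∈ orb P a := self_mem_orb P a
      have h9 : y a ∈ orb P a := apply_mem_orb hy h8
      rw [hc, Finset.mem_singleton] at h8 h9
      exact hya (h9.trans h8.symm)
    have h8 : j < 2 := by
      by_contra hcon
      have h9 : p ^ 2 ≤ p ^ j := Nat.pow_le_pow_right hpos (by omega)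
      have h10 : k * p < p * p := Nat.mul_lt_mul_of_pos_right hkp hpos
      nlinarith
    have h9 : j = 1 := by omega
    rw [hj, h9, pow_one]
  · -- Frattini
    intro g hg hgΔ
    have hginv : ∀ a ∈ Δ, g⁻¹ a ∈ Δ := by
      intro a ha
      have h1 : Δ.image g ⊆ Δ := by
        intro x hx
        obtain ⟨y, hy, rfl⟩ := Finset.mem_image.1 hx
        exact hgΔ y hy
      have h2 : Δ.image g = Δ :=
        Finset.eq_of_subset_of_card_le h1 (by rw [Finset.card_image_of_injective _ g.injective])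
      rw [← h2] at ha
      obtain ⟨y, hy, rfl⟩ := Finset.mem_image.1 ha
      rw [iv]
      exact hy
    let φ : MulAut ↥H :=
      { toFun := fun y => ⟨g * y.1 * g⁻¹, G.mul_mem (G.mul_mem hg y.2.1) (G.inv_mem hg), fun a ha => by
          simp only [Perm.mul_apply]
          rw [y.2.2 _ (hginv a ha), vi]⟩
        invFun := fun y => ⟨g⁻¹ * y.1 * g, G.mul_mem (G.mul_mem (G.inv_mem hg) y.2.1) hg, fun a ha => by
          simp only [Perm.mul_apply]
          rw [y.2.2 _ (hgΔ a ha), iv]⟩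
        left_inv := fun y => by
          apply Subtype.ext
          change g⁻¹ * (g * y.1 * g⁻¹) * g = y.1
          group
        right_inv := fun y => by
          apply Subtype.ext
          change g * (g⁻¹ * y.1 * g) * g⁻¹ = y.1
          group
        map_mul' := fun y z => by
          apply Subtype.ext
          change g * (y.1 * z.1) * g⁻¹ = (g * y.1 * g⁻¹) * (g * z.1 * g⁻¹)
          group }
    obtain ⟨h, hh⟩ := MulAction.exists_smul_eq ↥H (φ • P₀) P₀
    refine ⟨h.1, h.2.1, h.2.2, mem_normalizer_of_conj ?_⟩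
    rintro y ⟨y₀, hy₀, rfl⟩
    have h1 : φ y₀ ∈ ((φ • P₀ : Sylow p ↥H) : Subgroup ↥H) := by
      rw [Sylow.pointwise_smul_def]
      exact Subgroup.smul_mem_pointwise_smul y₀ φ _ hy₀
    have h2 : h * φ y₀ * h⁻¹ ∈ (P₀ : Subgroup ↥H) := by
      have h3 : ((h • (φ • P₀) : Sylow p ↥H) : Subgroup ↥H) = (P₀ : Subgroup ↥H) := by rw [hh]
      rw [← h3, Sylow.coe_subgroup_smul]
      have h4 := Subgroup.smul_mem_pointwise_smul _ (MulAut.conj h) _ h1
      simpa [MulAut.smul_def] using h4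
    refine ⟨_, h2, ?_⟩
    change h.1 * (g * y₀.1 * g⁻¹) * h.1⁻¹ = h.1 * g * y₀.1 * (h.1 * g)⁻¹
    group

end Cfsg.Agent.Lib.Block.JT
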