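import Mathlib
import Cfsg.Agent.Lib.Block.JT3

/-!
Jordan's theorem on degrees `kp + r`: a `4`-transitive group of degree `9` contains the alternating
group.
-/

set_option autoImplicit false
set_option linter.unusedSimpArgs false
set_option linter.unusedSectionVars false
set_option linter.unusedVariables false

namespace Cfsg.Agent.Lib.Block.JT

open Equiv Equiv.Perm

variable {α : Type*} [Fintype α] [DecidableEq α] {G : Subgroup (Perm α)}

lemma prescribe4 (hG : MulAction.IsMultiplyPretransitive G α 4) {a b c d a' b' c' d' : α}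
    (h1 : a ≠ b) (h2 : a ≠ c) (h3 : a ≠ d) (h4 : b ≠ c) (h5 : b ≠ d) (h6 : c ≠ d)
    (k1 : a' ≠ b') (k2 : a' ≠ c') (k3 : a' ≠ d') (k4 : b' ≠ c') (k5 : b' ≠ d') (k6 : c' ≠ d') :
    ∃ g ∈ G, g a = a' ∧ g b = b' ∧ g c = c' ∧ g d = d' := by
  let x : Fin 4 ↪ α := ⟨![a, b, c, d], by
    intro i j h
    fin_cases i <;> fin_cases j <;> simp_all⟩
  let x' : Fin 4 ↪ α := ⟨![a', b', c', d'], by
    intro i j h
    fin_cases i <;> fin_cases j <;> simp_all⟩
  obtain ⟨g, hg⟩ := MulAction.exists_smul_eq G x x'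
  refine ⟨g.1, g.2, ?_, ?_, ?_, ?_⟩
  · exact DFunLike.congr_fun hg (0 : Fin 4)
  · exact DFunLike.congr_fun hg (1 : Fin 4)
  · exact DFunLike.congr_fun hg (2 : Fin 4)
  · exact DFunLike.congr_fun hg (3 : Fin 4)

/-- An element moving at most five of nine points forces the alternating group. -/
theorem alt_of_small_support (hcard : Fintype.card α = 9)
    (hG : MulAction.IsMultiplyPretransitive G α 4) (hpr : MulAction.IsPreprimitive G α)
    {g : Perm α} (hg : g ∈ G) (hne : g ≠ 1) (hs : g.support.card ≤ 5) :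
    alternatingGroup α ≤ G := by
  have hord : orderOf g ≠ 1 := by
    rwa [Ne, orderOf_eq_one_iff]
  obtain ⟨q, hq, hqd⟩ := Nat.exists_prime_and_dvd hord
  have hord0 : orderOf g ≠ 0 := (orderOf_pos g).ne'
  set g' := g ^ (orderOf g / q) with hg'
  have hg'G : g' ∈ G := G.pow_mem hg _
  have hg'o : orderOf g' = q := orderOf_pow_orderOf_div hord0 hqd
  have hs' : g'.support.card ≤ 5 :=
    (Finset.card_le_card (Equiv.Perm.support_pow_le g _)).trans hs
  have hord' : (orderOf g').Prime := by rwa [hg'o]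
  obtain ⟨n, hn⟩ := Equiv.Perm.cycleType_prime_order hord'
  rw [hg'o] at hn
  have hsum : (n + 1) * q = g'.support.card := by
    rw [← Equiv.Perm.sum_cycleType, hn, Multiset.sum_replicate, smul_eq_mul]
  have hq2 := hq.two_le
  have hq5 : q ≤ 5 := by nlinarith
  have hcases : q = 2 ∨ q = 3 ∨ q = 5 := by
    interval_cases q
    · simp
    · simp
    · exact absurd hq (by norm_num)
    · simp
  rcases hcases with rfl | rfl | rfl
  · have hn2 : n = 0 ∨ n = 1 := by omega
    rcases hn2 with rfl | rfl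
    · have hsw : g'.IsSwap := by
        rw [Equiv.Perm.isSwap_iff_cycleType, hn]
        rfl
      rw [Equiv.Perm.subgroup_eq_top_of_isPreprimitive_of_isSwap_mem hpr g' hsw hg'G]
      exact le_top
    · have hsc : g'.support.card = 4 := by omega
      have hsq : g' ^ 2 = 1 := by
        rw [← hg'o]
        exact pow_orderOf_eq_one g'
      have hinv : ∀ x, g' (g' x) = x := by
        intro x
        rw [← Perm.mul_apply, ← pow_two, hsq]
        rfl
      obtain ⟨s, hsm⟩ : g'.support.Nonempty := by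
        rw [← Finset.card_pos]
        omega
      set t := g' s with ht
      have hst : s ≠ t := fun h => (Equiv.Perm.mem_support.1 hsm) h.symm
      have htm : t ∈ g'.support := by
        rw [Equiv.Perm.mem_support, ht, hinv]
        exact hst
      obtain ⟨u, hum, hu⟩ : ∃ u ∈ g'.support, u ∉ ({s, t} : Finset α) :=
        Finset.exists_mem_notMem_of_card_lt_card (by
          have := Finset.card_le_two (a := s) (b := t)
          omega)
      simp only [Finset.mem_insert, Finset.mem_singleton, not_or] at hu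
      set v := g' u with hv
      have huv : u ≠ v := fun h => (Equiv.Perm.mem_support.1 hum) h.symm
      have hvs : v ≠ s := by
        intro h
        apply hu.2
        have := hinv u
        rw [← hv, h] at this
        exact this.symm
      have hvt : v ≠ t := by
        intro h
        apply hu.1
        exact g'.injective h
      have hvm : v ∈ g'.support := by
        rw [Equiv.Perm.mem_support, hv, hinv]
        exact huv
      have hsupp : g'.support = {s, t, u, v} := by
        symm
        apply Finset.eq_of_subset_of_card_le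
        · intro x hx
          simp only [Finset.mem_insert, Finset.mem_singleton] at hx
          rcases hx with rfl | rfl | rfl | rfl <;> assumption
        · rw [hsc, Finset.card_eq_succ.2 ⟨s, {t, u, v}, ?_, rfl, ?_⟩]
          · simp [hst, Ne.symm hu.1, Ne.symm hvs]
          · rw [Finset.card_eq_three]
            exact ⟨t, u, v, Ne.symm hu.2, Ne.symm hvt, huv, rfl⟩
      have hfact : g' = swap s t * swap u v := by
        ext x
        by_cases hx : x ∈ g'.support
        · rw [hsupp] at hx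
          simp only [Finset.mem_insert, Finset.mem_singleton] at hx
          rcases hx with rfl | rfl | rfl | rfl
          · rw [← ht, Perm.mul_apply,
              swap_apply_of_ne_of_ne (Ne.symm hu.1) (Ne.symm hvs), swap_apply_left]
          · rw [hinv, Perm.mul_apply,
              swap_apply_of_ne_of_ne (Ne.symm hu.2) (Ne.symm hvt), swap_apply_right]
          · rw [← hv, Perm.mul_apply, swap_apply_left,
              swap_apply_of_ne_of_ne hvs hvt]
          · rw [hinv, Perm.mul_apply, swap_apply_right,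
              swap_apply_of_ne_of_ne hu.1 hu.2]
        · have h1 : g' x = x := by
            simpa using hx
          rw [hsupp] at hx
          simp only [Finset.mem_insert, Finset.mem_singleton, not_or] at hx
          rw [h1, Perm.mul_apply, swap_apply_of_ne_of_ne hx.2.2.1 hx.2.2.2,
            swap_apply_of_ne_of_ne hx.1 hx.2.1]
      obtain ⟨f, hf1, hf2, hf3, hf4⟩ := exists_ne_four (β := α) (by omega) s t u v
      rw [hfact] at hg'G
      exact alt_of_double hpr hG (by omega) hst (Ne.symm hu.1) (Ne.symm hvs) (Ne.symm hu.2)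
        (Ne.symm hvt) huv hf1 hf2 hf3 hf4 hg'G
  · have hn0 : n = 0 := by omega
    subst hn0
    have h3 : g'.IsThreeCycle := by
      rw [IsThreeCycle, hn]
      rfl
    exact alt_of_three hpr h3 hg'G
  · have hn0 : n = 0 := by omega
    subst hn0
    have hcyc : g'.IsCycle := by
      rw [← Equiv.Perm.card_cycleType_eq_one, hn]
      rfl
    exact Cfsg.Agent.Lib.Perm.alternatingGroup_le_of_prime_cycle G hpr (p := 5) (by norm_num)
      (by omega) hcyc (by omega) hg'G

/-- In a group of order `42` all elements of order `7` generate the same subgroup. -/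
theorem mem_zpowers_of_card_42 {Γ : Type*} [Group Γ] [Finite Γ] (hΓ : Nat.card Γ = 42) (y y' : Γ)
    (hy : orderOf y = 7) (hy' : orderOf y' = 7) : y' ∈ Subgroup.zpowers y := by
  haveI : Fact (Nat.Prime 7) := ⟨by norm_num⟩
  have key : ∀ z : Γ, orderOf z = 7 → ∃ S : Sylow 7 Γ, (S : Subgroup Γ) = Subgroup.zpowers z ∧
      S.index = 6 := by
    intro z hz
    have hc : Nat.card (Subgroup.zpowers z) = 7 := by rw [Nat.card_zpowers, hz]
    have hP : IsPGroup 7 (Subgroup.zpowers z) := IsPGroup.of_card (n := 1) (by rw [hc, pow_one])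
    have hi : (Subgroup.zpowers z).index = 6 := by
      have := (Subgroup.zpowers z).index_mul_card
      rw [hc, hΓ] at this
      omega
    have hi2 : ¬ 7 ∣ (Subgroup.zpowers z).index := by rw [hi]; norm_num
    exact ⟨hP.toSylow hi2, rfl, hi⟩
  obtain ⟨S, hS, hSi⟩ := key y hy
  obtain ⟨S', hS', -⟩ := key y' hy'
  have h1 : Nat.card (Sylow 7 Γ) ∣ 6 := by
    rw [← hSi]
    exact Sylow.card_dvd_index S
  have h2 := card_sylow_modEq_one 7 Γ
  have h3 : Nat.card (Sylow 7 Γ) = 1 := by
    have h4 := Nat.le_of_dvd (by norm_num) h1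
    have h5 : Nat.card (Sylow 7 Γ) % 7 = 1 := h2
    have h6 : 0 < Nat.card (Sylow 7 Γ) := Nat.card_pos
    omega
  have h4 : Subsingleton (Sylow 7 Γ) := (Nat.card_eq_one_iff_unique.1 h3).1
  have h5 : S = S' := Subsingleton.elim _ _
  rw [← hS, h5, hS']
  exact Subgroup.mem_zpowers y'

lemma mp_of_pow {q : ℕ} (hq : q.Prime) {y : Perm α} (hy : y ^ q = 1) {c : α} (hc : y c ≠ c) :
    Function.minimalPeriod y c = q := by
  have h1 : Function.IsPeriodicPt y q c := by
    have : (y ^ q) c = c := by rw [hy]; rfl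
    rwa [← Equiv.Perm.iterate_eq_pow] at this
  rcases (Nat.dvd_prime hq).1 h1.minimalPeriod_dvd with h3 | h3
  · exfalso
    apply hc
    have := Function.isPeriodicPt_minimalPeriod y c
    rw [h3] at this
    exact this
  · exact h3

lemma injOn_of_pow {q : ℕ} (hq : q.Prime) {y : Perm α} (hy : y ^ q = 1) {c : α} (hc : y c ≠ c) :
    Set.InjOn (fun i : ℕ => (y ^ i) c) (Finset.range q : Set ℕ) := by
  have hinj := Function.iterate_injOn_Iio_minimalPeriod (f := y) (x := c)
  rw [mp_of_pow hq hy hc] at hinj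
  intro i hi j hj hij
  apply hinj (x₁ := i) (x₂ := j)
  · simpa using hi
  · simpa using hj
  · simpa [Equiv.Perm.iterate_eq_pow] using hij

lemma pow_eq_of_apply {q : ℕ} (hq : q.Prime) {y : Perm α} (hy : y ^ q = 1) {c : α} (hc : y c ≠ c)
    {i j : ℕ} (h : (y ^ i) c = (y ^ j) c) : y ^ i = y ^ j := by
  rw [pow_eq_pow_mod i hy, pow_eq_pow_mod j hy] at h ⊢
  have hpos := hq.pos
  have : i % q = j % q := injOn_of_pow hq hy hc (by simpa using Nat.mod_lt _ hpos)
    (by simpa using Nat.mod_lt _ hpos) h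
  rw [this]

/-- A `4`-transitive group of degree `9` contains the alternating group. -/
theorem deg9 (hcard : Fintype.card α = 9) (hG : MulAction.IsMultiplyPretransitive G α 4) :
    alternatingGroup α ≤ G := by
  classical
  have h2 : MulAction.IsMultiplyPretransitive G α 2 :=
    MulAction.isMultiplyPretransitive_of_le (n := 4) (by norm_num)
      (by rw [Nat.card_eq_fintype_card]; omega)
  have hpr : MulAction.IsPreprimitive G α := MulAction.isPreprimitive_of_is_two_pretransitive h2
  by_contra hA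
  have hsh : ∀ g ∈ G, ∀ s : Finset α, s.card = 4 → (∀ x ∈ s, g x = x) → g = 1 := by
    intro g hg s hs hf
    by_contra hne
    apply hA
    refine alt_of_small_support hcard hG hpr hg hne ?_
    have h1 : g.support ⊆ sᶜ := by
      intro x hx
      rw [Finset.mem_compl]
      intro hxs
      exact (Equiv.Perm.mem_support.1 hx) (hf x hxs)
    have h3 := Finset.card_le_card h1
    rw [Finset.card_compl, hs, hcard] at h3
    omega
  have hsh4 : ∀ g ∈ G, ∀ a b c d : α, a ≠ b → a ≠ c → a ≠ d → b ≠ c → b ≠ d → c ≠ d →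
      g a = a → g b = b → g c = c → g d = d → g = 1 := by
    intro g hg a b c d h1 h2 h3 h4 h5 h6 ha hb hc hd
    apply hsh g hg {a, b, c, d}
    · rw [Finset.card_eq_succ.2 ⟨a, {b, c, d}, ?_, rfl, ?_⟩]
      · simp [h1, h2, h3]
      · rw [Finset.card_eq_three]
        exact ⟨b, c, d, h4, h5, h6, rfl⟩
    · intro x hx
      simp only [Finset.mem_insert, Finset.mem_singleton] at hx
      rcases hx with rfl | rfl | rfl | rfl <;> assumption
  obtain ⟨a, b, hab⟩ : ∃ a b : α, a ≠ b :=
    Fintype.one_lt_card_iff.1 (by omega)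
  obtain ⟨c, hca, hcb⟩ := exists_ne_two (β := α) (by omega) a b
  obtain ⟨d, hda, hdb, hdc⟩ := exists_ne_three (β := α) (by omega) a b c
  let H := fixer G ({a, b} : Finset α)
  have hHmem : ∀ h, h ∈ H ↔ h ∈ G ∧ h a = a ∧ h b = b := by
    intro h
    change (h ∈ G ∧ ∀ x ∈ ({a, b} : Finset α), h x = x) ↔ _
    simp
  have hR : ∀ w ∈ H, ∀ x, x ≠ a → x ≠ b → w x ≠ a ∧ w x ≠ b := by
    intro w hw x hxa hxb
    obtain ⟨-, h1, h2⟩ := (hHmem w).1 hw
    exact ⟨fun h => hxa (w.injective (h.trans h1.symm)), fun h => hxb (w.injective (h.trans h2.symm))⟩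
  let R : Finset α := ({a, b} : Finset α)ᶜ
  have hRmem : ∀ x, x ∈ R ↔ x ≠ a ∧ x ≠ b := by
    intro x
    simp [R]
  have hRc : R.card = 7 := by
    simp only [R]
    rw [Finset.card_compl, Finset.card_pair hab, hcard]
  -- the order of `H`
  have hcardH : Nat.card ↥H = 42 := by
    let F : ↥H → {x // x ∈ R.offDiag} := fun h => ⟨(h.1 c, h.1 d), by
      rw [Finset.mem_offDiag, hRmem, hRmem]
      exact ⟨hR h.1 h.2 c hca hcb, hR h.1 h.2 d hda hdb, fun h' => hdc (h.1.injective h').symm⟩⟩
    have hF : Function.Bijective F := by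
      constructor
      · intro h h' hh
        have h1 : h.1 c = h'.1 c := congrArg (fun x => x.1.1) hh
        have h3 : h.1 d = h'.1 d := congrArg (fun x => x.1.2) hh
        obtain ⟨hG1, hG2, hG3⟩ := (hHmem h.1).1 h.2
        obtain ⟨hG1', hG2', hG3'⟩ := (hHmem h'.1).1 h'.2
        have h4 : h'.1⁻¹ * h.1 = 1 := by
          apply hsh4 _ (G.mul_mem (G.inv_mem hG1') hG1) a b c d hab hca.symm hda.symm hcb.symm
            hdb.symm hdc.symm
          · rw [Perm.mul_apply, hG2, Perm.inv_eq_iff_eq, hG2']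
          · rw [Perm.mul_apply, hG3, Perm.inv_eq_iff_eq, hG3']
          · rw [Perm.mul_apply, h1, iv]
          · rw [Perm.mul_apply, h3, iv]
        apply Subtype.ext
        exact (inv_mul_eq_one.1 h4).symm
      · rintro ⟨⟨c', d'⟩, hm⟩
        rw [Finset.mem_offDiag, hRmem, hRmem] at hm
        obtain ⟨⟨h1, h3⟩, ⟨h4, h5⟩, h6⟩ := hm
        obtain ⟨g, hg, g1, g2, g3, g4⟩ := prescribe4 hG (a := a) (b := b) (c := c) (d := d)
          (a' := a) (b' := b) (c' := c') (d' := d') hab hca.symm hda.symm hcb.symm hdb.symm hdc.symm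
          hab h1.symm h4.symm h3.symm h5.symm h6
        refine ⟨⟨g, (hHmem g).2 ⟨hg, g1, g2⟩⟩, ?_⟩
        apply Subtype.ext
        exact Prod.ext g3 g4
    rw [Nat.card_congr (Equiv.ofBijective F hF), Nat.card_eq_fintype_card, Fintype.card_coe,
      Finset.offDiag_card, hRc]
  haveI : Fact (Nat.Prime 7) := ⟨by norm_num⟩
  have hp7 : Nat.Prime 7 := by norm_num
  obtain ⟨y0, hy0⟩ := exists_prime_orderOf_dvd_card' (G := ↥H) 7 (by rw [hcardH]; norm_num)
  set y : Perm α := y0.1 with hy
  have hyo : orderOf y = 7 := by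
    rw [hy, Subgroup.orderOf_coe, hy0]
  have hy7 : y ^ 7 = 1 := by
    rw [← hyo]
    exact pow_orderOf_eq_one y
  have hyH : y ∈ H := y0.2
  have huniq : ∀ z ∈ H, orderOf z = 7 → ∃ e : ℕ, y ^ e = z := by
    intro z hz hzo
    have h1 := mem_zpowers_of_card_42 hcardH y0 ⟨z, hz⟩ hy0
      (by rw [← Subgroup.orderOf_coe]; exact hzo)
    rw [← mem_powers_iff_mem_zpowers] at h1
    obtain ⟨e, he⟩ := h1
    exact ⟨e, congrArg Subtype.val he⟩
  -- elements of order seven move all points of `R`
  have hmoved : ∀ w ∈ H, orderOf w = 7 → ∀ x, x ≠ a → x ≠ b → w x ≠ x := by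
    intro w hw ho x hxa hxb hfix
    obtain ⟨hwG, hwa, hwb⟩ := (hHmem w).1 hw
    have hw7 : w ^ 7 = 1 := by
      rw [← ho]
      exact pow_orderOf_eq_one w
    have hw1 : w ≠ 1 := by
      rintro rfl
      simp at ho
    obtain ⟨d₀, h1, h3, h4⟩ := exists_ne_three (β := α) (by omega) a b x
    have hd₀ : w d₀ ≠ d₀ := fun h =>
      hw1 (hsh4 w hwG a b x d₀ hab hxa.symm h1.symm hxb.symm h3.symm h4.symm hwa hwb hfix h)
    have hinj := injOn_of_pow hp7 hw7 hd₀
    have hsub : (Finset.range 7).image (fun i => (w ^ i) d₀) ⊆ ({a, b, x} : Finset α)ᶜ := by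
      intro z hz
      obtain ⟨i, -, rfl⟩ := Finset.mem_image.1 hz
      simp only [Finset.mem_compl, Finset.mem_insert, Finset.mem_singleton, not_or]
      refine ⟨fun h => h1 ?_, fun h => h3 ?_, fun h => h4 ?_⟩
      · exact (w ^ i).injective (h.trans (Equiv.Perm.pow_apply_eq_self_of_apply_eq_self hwa i).symm)
      · exact (w ^ i).injective (h.trans (Equiv.Perm.pow_apply_eq_self_of_apply_eq_self hwb i).symm)
      · exact (w ^ i).injective
          (h.trans (Equiv.Perm.pow_apply_eq_self_of_apply_eq_self hfix i).symm)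
    have hc1 := Finset.card_le_card hsub
    rw [Finset.card_image_of_injOn hinj, Finset.card_range, Finset.card_compl, hcard] at hc1
    have hc2 : ({a, b, x} : Finset α).card = 3 := by
      rw [Finset.card_eq_three]
      exact ⟨a, b, x, hab, hxa.symm, hxb.symm, rfl⟩
    omega
  have hyc : y c ≠ c := hmoved y hyH hyo c hca hcb
  obtain ⟨hya, hyb⟩ := hR y hyH c hca hcb
  -- the swapping element
  obtain ⟨g, hg, g1, g2, -, -⟩ := prescribe4 hG (a := a) (b := b) (c := c) (d := d)
    (a' := b) (b' := a) (c' := c) (d' := d) hab hca.symm hda.symm hcb.symm hdb.symm hdc.symm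
    hab.symm hcb.symm hdb.symm hca.symm hda.symm hdc.symm
  have hconjo : ∀ t : Perm α, orderOf (t * y * t⁻¹) = 7 := by
    intro t
    rw [← hyo, ← MulAut.conj_apply, MulEquiv.orderOf_eq]
  have hz1 : g * y * g⁻¹ ∈ H := by
    obtain ⟨hyG, hya', hyb'⟩ := (hHmem y).1 hyH
    refine (hHmem _).2 ⟨G.mul_mem (G.mul_mem hg hyG) (G.inv_mem hg), ?_, ?_⟩
    · have h1 : g⁻¹ a = b := by rw [Perm.inv_eq_iff_eq, g2]
      simp only [Perm.mul_apply]
      rw [h1, hyb', g2]
    · have h1 : g⁻¹ b = a := by rw [Perm.inv_eq_iff_eq, g1]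
      simp only [Perm.mul_apply]
      rw [h1, hya', g1]
  obtain ⟨e, he⟩ := huniq _ hz1 (hconjo g)
  have hec : (y ^ e) c ≠ c := by
    rw [he]
    exact hmoved _ hz1 (hconjo g) c hca hcb
  have hePow : y ^ e ∈ H := H.pow_mem hyH e
  obtain ⟨hea, heb⟩ := hR _ hePow c hca hcb
  obtain ⟨h, hh, h1, h3, h4, h5⟩ := prescribe4 hG (a := a) (b := b) (c := c) (d := y c)
    (a' := a) (b' := b) (c' := c) (d' := (y ^ e) c) hab hca.symm hya.symm hcb.symm hyb.symm hyc.symm
    hab hca.symm hea.symm hcb.symm heb.symm hec.symm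
  have hhH : h ∈ H := (hHmem h).2 ⟨hh, h1, h3⟩
  have hz2 : h * y * h⁻¹ ∈ H := H.mul_mem (H.mul_mem hhH hyH) (H.inv_mem hhH)
  obtain ⟨e', he'⟩ := huniq _ hz2 (hconjo h)
  have hhc : h⁻¹ c = c := by rw [Perm.inv_eq_iff_eq, h4]
  have hee : (y ^ e') c = (y ^ e) c := by
    rw [he']
    simp only [Perm.mul_apply]
    rw [hhc, h5]
  have hconj : h * y * h⁻¹ = g * y * g⁻¹ := by
    rw [← he', ← he]
    exact pow_eq_of_apply hp7 hy7 hyc hee
  set w := h⁻¹ * g with hw
  have hwG : w ∈ G := G.mul_mem (G.inv_mem hh) hg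
  have hwy : w * y = y * w := by
    calc w * y = h⁻¹ * (g * y * g⁻¹) * g := by rw [hw]; group
      _ = h⁻¹ * (h * y * h⁻¹) * g := by rw [hconj]
      _ = y * w := by rw [hw]; group
  have hwa : w a = b := by
    rw [hw, Perm.mul_apply, g1, Perm.inv_eq_iff_eq, h3]
  have hwb : w b = a := by
    rw [hw, Perm.mul_apply, g2, Perm.inv_eq_iff_eq, h1]
  have hwc1 : w c ≠ a := fun h' => hcb (w.injective (h'.trans hwb.symm))
  have hwc2 : w c ≠ b := fun h' => hca (w.injective (h'.trans hwa.symm))
  -- transitivity of `y` on `R`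
  have htrans : ∀ x, x ≠ a → x ≠ b → ∃ i, (y ^ i) c = x := by
    intro x hxa hxb
    have hsub : (Finset.range 7).image (fun i => (y ^ i) c) ⊆ R := by
      intro z hz
      obtain ⟨i, -, rfl⟩ := Finset.mem_image.1 hz
      rw [hRmem]
      exact hR _ (H.pow_mem hyH i) c hca hcb
    have heq : (Finset.range 7).image (fun i => (y ^ i) c) = R :=
      Finset.eq_of_subset_of_card_le hsub (by
        rw [Finset.card_image_of_injOn (injOn_of_pow hp7 hy7 hyc), Finset.card_range, hRc])
    have hx : x ∈ R := (hRmem x).2 ⟨hxa, hxb⟩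
    rw [← heq] at hx
    obtain ⟨i, -, hi⟩ := Finset.mem_image.1 hx
    exact ⟨i, hi⟩
  obtain ⟨i, hi⟩ := htrans _ hwc1 hwc2
  set w' := (y ^ i)⁻¹ * w with hw'
  have hw'G : w' ∈ G := G.mul_mem (G.inv_mem (G.pow_mem ((hHmem y).1 hyH).1 i)) hwG
  have hw'c : w' c = c := by
    rw [hw', Perm.mul_apply, ← hi, iv]
  have hcomm : Commute w' y := by
    have h6 : Commute w y := hwy
    have h7 : Commute (y ^ i) y := (Commute.refl y).pow_left i
    exact h7.inv_left.mul_left h6
  have hfixall : ∀ j : ℕ, w' ((y ^ j) c) = (y ^ j) c := by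
    intro j
    have h6 : w' * y ^ j = y ^ j * w' := (hcomm.pow_right j).eq
    rw [← Perm.mul_apply, h6, Perm.mul_apply, hw'c]
  have hw'1 : w' = 1 := by
    apply hsh w' hw'G ((Finset.range 4).image (fun j => (y ^ j) c))
    · rw [Finset.card_image_of_injOn, Finset.card_range]
      exact (injOn_of_pow hp7 hy7 hyc).mono (by
        intro i hi
        simp only [Finset.coe_range, Set.mem_Iio] at hi ⊢
        omega)
    · intro x hx
      obtain ⟨j, -, rfl⟩ := Finset.mem_image.1 hx
      exact hfixall j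
  have h6 : w' a = b := by
    rw [hw', Perm.mul_apply, hwa, Perm.inv_eq_iff_eq]
    exact (Equiv.Perm.pow_apply_eq_self_of_apply_eq_self ((hHmem y).1 hyH).2.2 i).symm
  rw [hw'1] at h6
  exact hab h6

end Cfsg.Agent.Lib.Block.JT
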