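import Cfsg.Agent.Lib.Block.BrauerFeit

/-!
# Landau's theorem: the order of a finite group is bounded in terms of the number of classes
-/

set_option autoImplicit false
set_option linter.unusedSectionVars false
set_option linter.unusedSimpArgs false
set_option linter.unusedVariables false

open Cfsg

namespace Cfsg.Agent.Lib.Block

/-- The bound in Landau's theorem. -/
def landauBound : ℕ → ℕ → ℕ
  | 0, _ => 0
  | k + 1, b => max ((k + 1) * b) (landauBound k ((k + 1) * b * b))

theorem landauBound_mono (k : ℕ) : ∀ {b b' : ℕ}, b ≤ b' → landauBound k b ≤ landauBound k b' := by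
  induction k with
  | zero => intro b b' _; simp [landauBound]
  | succ k ih =>
    intro b b' h
    simp only [landauBound]
    refine max_le_max (Nat.mul_le_mul_left _ h) (ih ?_)
    exact Nat.mul_le_mul (Nat.mul_le_mul_left _ h) h

theorem landau_sum {ι : Type*} [DecidableEq ι] (k : ℕ) : ∀ (s : Finset ι) (c : ι → ℕ) (a b : ℕ), s.card = k →
    (∀ i ∈ s, 0 < c i) → 0 < b → (∑ i ∈ s, (1 / (c i : ℚ))) = a / b → ∀ i ∈ s, c i ≤ landauBound k b := by
  induction k with
  | zero =>
    intro s c a b hs _ _ _ i hi
    rw [Finset.card_eq_zero] at hs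
    simp [hs] at hi
  | succ k ih =>
    intro s c a b hs hc hb hsum i hi
    have hne : s.Nonempty := ⟨i, hi⟩
    obtain ⟨i₀, hi₀, hmin⟩ := Finset.exists_min_image s c hne
    have hc₀ := hc i₀ hi₀
    have hbQ : (0 : ℚ) < b := by exact_mod_cast hb
    have hc₀Q : (0 : ℚ) < c i₀ := by exact_mod_cast hc₀
    -- `c i₀ * a ≤ (k+1) * b`
    have hle : (∑ j ∈ s, (1 / (c j : ℚ))) ≤ (k + 1 : ℚ) * (1 / (c i₀ : ℚ)) := by
      have h1 : ∀ j ∈ s, (1 / (c j : ℚ)) ≤ 1 / (c i₀ : ℚ) := by
        intro j hj
        apply one_div_le_one_div_of_le hc₀Q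
        exact_mod_cast hmin j hj
      have h2 := Finset.sum_le_card_nsmul s _ _ h1
      rw [hs] at h2
      simpa [nsmul_eq_mul] using h2
    rw [hsum] at hle
    have hapos : 0 < a := by
      rcases Nat.eq_zero_or_pos a with rfl | h
      · exfalso
        have h1 : (0 : ℚ) < ∑ j ∈ s, (1 / (c j : ℚ)) := by
          refine Finset.sum_pos (fun j hj => ?_) hne
          have := hc j hj
          positivity
        rw [hsum] at h1
        simp at h1
      · exact h
    have hle2 : c i₀ * a ≤ (k + 1) * b := by
      have h1 : (a : ℚ) / b * c i₀ ≤ (k + 1 : ℚ) := by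
        calc (a : ℚ) / b * c i₀ ≤ (k + 1 : ℚ) * (1 / (c i₀ : ℚ)) * c i₀ :=
              mul_le_mul_of_nonneg_right hle hc₀Q.le
          _ = k + 1 := by field_simp
      have h2 : (c i₀ : ℚ) * a ≤ (k + 1) * b := by
        have h3 : (a : ℚ) / b * c i₀ * b = c i₀ * a := by field_simp
        rw [← h3]
        exact mul_le_mul_of_nonneg_right h1 hbQ.le
      exact_mod_cast h2
    have hc₀le : c i₀ ≤ (k + 1) * b := le_trans (Nat.le_mul_of_pos_right _ hapos) hle2
    by_cases hii : i = i₀
    · rw [hii]
      simp only [landauBound]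
      exact le_max_of_le_left hc₀le
    -- the remaining sum
    have hi' : i ∈ s.erase i₀ := Finset.mem_erase.2 ⟨hii, hi⟩
    have hsplit : (∑ j ∈ s.erase i₀, (1 / (c j : ℚ))) = a / b - 1 / c i₀ := by
      rw [← hsum, ← Finset.add_sum_erase s _ hi₀]
      ring
    have hpos : (0 : ℚ) < ∑ j ∈ s.erase i₀, (1 / (c j : ℚ)) := by
      refine Finset.sum_pos (fun j hj => ?_) ⟨i, hi'⟩
      have := hc j (Finset.mem_of_mem_erase hj)
      positivity
    have hbp : 0 < b * c i₀ := Nat.mul_pos hb hc₀
    have hlt : b ≤ a * c i₀ := by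
      rw [hsplit] at hpos
      have h3 : (a : ℚ) / b - 1 / c i₀ = (a * c i₀ - b) / (b * c i₀) := by field_simp
      rw [h3] at hpos
      have h4 : (0 : ℚ) < (b : ℚ) * c i₀ := by positivity
      have h5 : (0 : ℚ) < (a : ℚ) * c i₀ - b := by
        by_contra hh
        push Not at hh
        have : (a * c i₀ - b : ℚ) / (b * c i₀) ≤ 0 := div_nonpos_of_nonpos_of_nonneg hh h4.le
        linarith
      have h6 : (b : ℚ) ≤ a * c i₀ := by linarith
      exact_mod_cast h6
    have hsum' : (∑ j ∈ s.erase i₀, (1 / (c j : ℚ))) = ((a * c i₀ - b : ℕ) : ℚ) / ((b * c i₀ : ℕ) : ℚ) := by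
      rw [hsplit, Nat.cast_sub hlt]
      push_cast
      field_simp
    have hcard : (s.erase i₀).card = k := by
      rw [Finset.card_erase_of_mem hi₀, hs]
      rfl
    have h7 := ih (s.erase i₀) c _ _ hcard (fun j hj => hc j (Finset.mem_of_mem_erase hj)) hbp hsum' i hi'
    simp only [landauBound]
    refine le_max_of_le_right (h7.trans (landauBound_mono k ?_))
    calc b * c i₀ ≤ b * ((k + 1) * b) := Nat.mul_le_mul_left _ hc₀le
      _ = (k + 1) * b * b := by ring

variable {G : Type*} [Group G] [Finite G]

/-- **Landau's theorem.** -/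
theorem card_le_landauBound : Nat.card G ≤ landauBound (Nat.card (ConjClasses G)) 1 := by
  classical
  cases nonempty_fintype G
  have : Fintype (ConjClasses G) := Fintype.ofFinite _
  set c : ConjClasses G → ℕ := fun i => Nat.card (Subgroup.centralizer ({Quotient.out i} : Set G)) with hc
  have hcpos : ∀ i ∈ (Finset.univ : Finset (ConjClasses G)), 0 < c i := fun i _ => Nat.card_pos
  have hG : (0 : ℚ) < Fintype.card G := by exact_mod_cast Fintype.card_pos
  have hcar : ∀ i : ConjClasses G, (i.carrier.toFinset.card : ℚ) = (Fintype.card G : ℚ) * (1 / (c i : ℚ)) := by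
    intro i
    have h0 : ConjClasses.mk (Quotient.out i) = i := Quotient.out_eq i
    have h1 : Nat.card i.carrier * Nat.card (Subgroup.centralizer ({Quotient.out i} : Set G)) = Fintype.card G := by
      have h2 := MulAction.card_orbit_mul_card_stabilizer_eq_card_group (ConjAct G) (Quotient.out i)
      have h3 : MulAction.orbit (ConjAct G) (Quotient.out i) = i.carrier := by
        rw [ConjAct.orbit_eq_carrier_conjClasses, h0]
      have h4 : Nat.card (MulAction.stabilizer (ConjAct G) (Quotient.out i)) =
          Nat.card (Subgroup.centralizer ({Quotient.out i} : Set G)) := by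
        rw [ConjAct.stabilizer_eq_centralizer]
        rfl
      have h5 : Nat.card (MulAction.orbit (ConjAct G) (Quotient.out i)) = Nat.card i.carrier := by
        rw [h3]
      rw [← h4, ← h5, Nat.card_eq_fintype_card, Nat.card_eq_fintype_card, h2]
      rw [Fintype.card_congr (ConjAct.toConjAct (G := G)).toEquiv]
    have h6 : (i.carrier.toFinset.card : ℕ) = Nat.card i.carrier := by
      rw [Set.toFinset_card, Nat.card_eq_fintype_card]
    have hci : (0 : ℚ) < c i := by exact_mod_cast hcpos i (Finset.mem_univ _)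
    have h7 : (i.carrier.toFinset.card : ℚ) * c i = Fintype.card G := by
      rw [h6]
      exact_mod_cast h1
    field_simp
    linarith
  have hsum : (∑ i : ConjClasses G, (1 / (c i : ℚ))) = ((1 : ℕ) : ℚ) / ((1 : ℕ) : ℚ) := by
    have h1 : ((∑ i : ConjClasses G, i.carrier.toFinset.card : ℕ) : ℚ) = Fintype.card G := by
      rw [sum_conjClasses_card_eq_card]
    push_cast at h1
    simp_rw [hcar] at h1
    rw [← Finset.mul_sum] at h1
    have : (Fintype.card G : ℚ) * (∑ i : ConjClasses G, (1 / (c i : ℚ))) = (Fintype.card G : ℚ) * 1 := by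
      rw [h1, mul_one]
    have := mul_left_cancel₀ hG.ne' this
    simpa using this
  have hk : (Finset.univ : Finset (ConjClasses G)).card = Nat.card (ConjClasses G) := by
    rw [Finset.card_univ, Nat.card_eq_fintype_card]
  have h := landau_sum _ Finset.univ c 1 1 hk hcpos one_pos hsum (ConjClasses.mk 1) (Finset.mem_univ _)
  have h1 : Quotient.out (ConjClasses.mk (1 : G)) = 1 := by
    have : ConjClasses.mk (Quotient.out (ConjClasses.mk (1 : G))) = ConjClasses.mk 1 := Quotient.out_eq _
    have h2 := ConjClasses.mk_eq_mk_iff_isConj.1 this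
    exact isConj_one_right.1 h2.symm
  have h2 : c (ConjClasses.mk 1) = Nat.card G := by
    rw [hc]
    simp only
    rw [h1]
    have : Subgroup.centralizer ({1} : Set G) = ⊤ := by
      ext x
      simp [Subgroup.mem_centralizer_iff]
    rw [this]
    exact Nat.card_congr Subgroup.topEquiv.toEquiv
  rwa [h2] at h

end Cfsg.Agent.Lib.Block
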