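import Cfsg.Agent.Lib.CharExtra.FongReynolds
import Cfsg.Agent.Lib.Char.Projective
import Cfsg.Agent.Lib.PGroup.PComp

/-!
# Regular-supported central idempotents: the twisted coset computation
-/

set_option autoImplicit false
set_option linter.unusedSectionVars false
set_option linter.unusedSimpArgs false
set_option linter.unusedVariables false

open scoped ComplexConjugate
open Cfsg MonoidAlgebra
open Cfsg.Agent.Lib.Block Cfsg.Agent.Lib.Char

namespace Cfsg.Agent.Lib.Block.RegSupp

universe u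

section SZ

variable {G : Type u} [Group G] [Finite G] {p : ℕ} [hp : Fact p.Prime]

/-- Regular elements in the same coset of `L` are conjugate modulo `K` by an element of `L`. -/
theorem exists_conj_mod {K L : Subgroup G} [hKn : K.Normal] [hLn : L.Normal]
    (hLp : ∀ z ∈ L, ∃ n : ℕ, z ^ p ^ n ∈ K) {y z : G} (hy : ¬ p ∣ orderOf y) (hz : ¬ p ∣ orderOf z)
    (hzy : z * y⁻¹ ∈ L) : ∃ s ∈ L, s⁻¹ * z * s * y⁻¹ ∈ K := by
  classical
  let π := QuotientGroup.mk' K
  let D : Subgroup (G ⧸ K) := L.map π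
  haveI hDn : D.Normal := Subgroup.Normal.map hLn π (QuotientGroup.mk'_surjective K)
  have hDp : IsPGroup p D := by
    rintro ⟨_, l, hl, rfl⟩
    obtain ⟨n, hn⟩ := hLp l hl
    refine ⟨n, ?_⟩
    apply Subtype.ext
    simp only [Subgroup.coe_pow, Subgroup.coe_one]
    rw [← map_pow]
    exact (QuotientGroup.eq_one_iff _).2 hn
  have hcop : ∀ w : G, ¬ p ∣ orderOf w → (Nat.card (Subgroup.zpowers (π w))).Coprime p := by
    intro w hw
    rw [Nat.card_zpowers]
    have h1 : orderOf (π w) ∣ orderOf w := orderOf_map_dvd π w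
    exact Nat.Coprime.symm ((Nat.Prime.coprime_iff_not_dvd hp.out).2 (fun h => hw (h.trans h1)))
  have hmem : π z * (π y)⁻¹ ∈ D := by
    rw [← map_inv, ← map_mul]
    exact ⟨_, hzy, rfl⟩
  have hsup : Subgroup.zpowers (π z) ⊔ D = Subgroup.zpowers (π y) ⊔ D := by
    apply le_antisymm
    · rw [sup_le_iff]
      refine ⟨?_, le_sup_right⟩
      rw [Subgroup.zpowers_le]
      have h1 : π z = (π z * (π y)⁻¹) * π y := by group
      rw [h1]
      exact Subgroup.mul_mem _ (Subgroup.mem_sup_right hmem) (Subgroup.mem_sup_left (Subgroup.mem_zpowers _))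
    · rw [sup_le_iff]
      refine ⟨?_, le_sup_right⟩
      rw [Subgroup.zpowers_le]
      have h1 : π y = (π z * (π y)⁻¹)⁻¹ * π z := by group
      rw [h1]
      exact Subgroup.mul_mem _ (Subgroup.mem_sup_right (D.inv_mem hmem))
        (Subgroup.mem_sup_left (Subgroup.mem_zpowers _))
  obtain ⟨k, hk, hk2⟩ := Cfsg.Agent.Lib.PGroup.PComp.complement_conj_sub D _ _ hDp (hcop z hz) (hcop y hy) hsup
  obtain ⟨s, hs, rfl⟩ := hk
  refine ⟨s⁻¹, L.inv_mem hs, ?_⟩
  have h3 := hk2 (π z) (Subgroup.mem_zpowers _)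
  -- the element lies in both `⟨y⟩` and `D`
  have h4 : π s * π z * (π s)⁻¹ * (π y)⁻¹ ∈ D := by
    have e : π s * π z * (π s)⁻¹ * (π y)⁻¹ =
        (π s) * ((π z * (π y)⁻¹) * (π y * (π s)⁻¹ * (π y)⁻¹)) := by group
    rw [e]
    refine D.mul_mem ⟨s, hs, rfl⟩ (D.mul_mem hmem ?_)
    exact hDn.conj_mem _ (D.inv_mem ⟨s, hs, rfl⟩) _
  have h5 : π s * π z * (π s)⁻¹ * (π y)⁻¹ ∈ Subgroup.zpowers (π y) :=
    Subgroup.mul_mem _ h3 (Subgroup.inv_mem _ (Subgroup.mem_zpowers _))
  have h6 : (Subgroup.zpowers (π y) ⊓ D) = ⊥ := by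
    apply Subgroup.inf_eq_bot_of_coprime
    obtain ⟨j, hj⟩ := IsPGroup.iff_card.mp hDp
    rw [hj]
    exact Nat.Coprime.pow_right j (hcop y hy)
  have h7 : π s * π z * (π s)⁻¹ * (π y)⁻¹ = 1 := by
    have : π s * π z * (π s)⁻¹ * (π y)⁻¹ ∈ Subgroup.zpowers (π y) ⊓ D := ⟨h5, h4⟩
    rw [h6] at this
    exact this
  have h9 : π ((s⁻¹)⁻¹ * z * s⁻¹ * y⁻¹) = 1 := by
    simpa only [map_mul, map_inv, inv_inv] using h7
  exact (QuotientGroup.eq_one_iff _).1 h9

end SZ

section Twist

variable {G : Type u} [Group G] [Finite G] {K L : Subgroup G} [hKn : K.Normal] [hLn : L.Normal]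
  (hKL : K ≤ L) [Fintype K] {U : Type*} [AddCommGroup U] [Module ℂ U] [FiniteDimensional ℂ U]
  (X : Representation ℂ L U)

/-- The restriction of a representation of `L` to `K`. -/
noncomputable def resRep : Representation ℂ K U := MonoidHom.comp X (Subgroup.inclusion hKL)

theorem resRep_apply (k : K) : resRep hKL X k = X (Subgroup.inclusion hKL k) := rfl

/-- The twisted sum of the operators of `K`. -/
noncomputable def twistOp (f : K → ℂ) : Module.End ℂ U := ∑ k : K, f k • X (Subgroup.inclusion hKL k)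

theorem twistOp_apply (f : K → ℂ) (u : U) :
    twistOp hKL X f u = ∑ k : K, f k • X (Subgroup.inclusion hKL k) u := by
  unfold twistOp
  rw [LinearMap.sum_apply]
  rfl

theorem incl_nconj (y : G) (j : K) :
    Subgroup.inclusion hKL (nconj K y j) = nconj L y (Subgroup.inclusion hKL j) := rfl

theorem twistOp_conj (f : K → ℂ) (y : G) (hf : ∀ j k : K, f (j * k * (nconj K y j)⁻¹) = f k) (j : K)
    (u : U) : twistOp hKL X f (X (nconj L y (Subgroup.inclusion hKL j)) u) =
      X (Subgroup.inclusion hKL j) (twistOp hKL X f u) := by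
  classical
  rw [twistOp_apply, twistOp_apply, map_sum]
  simp only [map_smul]
  rw [← Equiv.sum_comp ((Equiv.mulLeft j⁻¹).trans (Equiv.mulRight (nconj K y j)))
    (fun k : K => f k • (X (Subgroup.inclusion hKL j)) ((X (Subgroup.inclusion hKL k)) u))]
  refine Finset.sum_congr rfl fun k _ => ?_
  simp only [Equiv.trans_apply, Equiv.coe_mulLeft, Equiv.coe_mulRight]
  have h1 : f (j⁻¹ * k * nconj K y j) = f k := by
    have h2 := hf j⁻¹ k
    have h3 : nconj K y j⁻¹ = (nconj K y j)⁻¹ := by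
      apply Subtype.ext
      simp only [nconj, InvMemClass.coe_inv, mul_inv_rev, inv_inv, mul_assoc]
    rwa [h3, inv_inv] at h2
  rw [h1]
  congr 1
  rw [← incl_nconj, ← Module.End.mul_apply, ← Module.End.mul_apply, ← map_mul, ← map_mul, ← map_mul]
  congr 2
  apply Subtype.ext
  simp only [Subgroup.coe_mul, InvMemClass.coe_inv, Subgroup.coe_inclusion]
  group

/-- The operator identity behind the twisted sum. -/
theorem twistOp_conj_all (hXK : (resRep hKL X).IsIrreducible)
    (hinv : ∀ (g : G) (n : L), X.character (nconj L g n) = X.character n)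
    (f : K → ℂ) (y : G) (hf : ∀ j k : K, f (j * k * (nconj K y j)⁻¹) = f k) (s : L) (u : U) :
    X s (twistOp hKL X f (X (nconj L y s⁻¹) u)) = twistOp hKL X f u := by
  classical
  obtain ⟨e, he⟩ := exists_conj_intertwiner L X hinv y
  let Z : Module.End ℂ U := (twistOp hKL X f) ∘ₗ e.toLinearMap
  have hZ : ∀ (j : K) (v : U), Z (resRep hKL X j v) = resRep hKL X j (Z v) := by
    intro j v
    simp only [Z, LinearMap.comp_apply, LinearEquiv.coe_coe, resRep_apply]
    rw [he, twistOp_conj hKL X f y hf]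
  obtain ⟨c, hc⟩ := schur_scalar _ hXK Z hZ
  have hc' : ∀ v, twistOp hKL X f (e v) = c • v := by
    intro v
    have := LinearMap.congr_fun hc v
    simpa [Z] using this
  obtain ⟨v, rfl⟩ := e.surjective u
  rw [← he, hc', hc', map_smul, ← Module.End.mul_apply, ← map_mul]
  simp

/-- The trace form of the twisted sum. -/
theorem sum_twist_character (hXK : (resRep hKL X).IsIrreducible)
    (hinv : ∀ (g : G) (n : L), X.character (nconj L g n) = X.character n)
    (f : K → ℂ) (y : G) (hf : ∀ j k : K, f (j * k * (nconj K y j)⁻¹) = f k) (s : L) :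
    ∑ k : K, f k * X.character (s * Subgroup.inclusion hKL k * nconj L y s⁻¹) =
      ∑ k : K, f k * X.character (Subgroup.inclusion hKL k) := by
  classical
  have h1 : ∀ w : Module.End ℂ U, (LinearMap.trace ℂ U w) = LinearMap.trace ℂ U w := fun _ => rfl
  have h2 : (X s) ∘ₗ (twistOp hKL X f) ∘ₗ (X (nconj L y s⁻¹)) = twistOp hKL X f := by
    ext u
    simp only [LinearMap.comp_apply]
    rw [twistOp_conj_all hKL X hXK hinv f y hf s]
  have h3 : ∑ k : K, f k * X.character (s * Subgroup.inclusion hKL k * nconj L y s⁻¹) =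
      LinearMap.trace ℂ U ((X s) ∘ₗ (twistOp hKL X f) ∘ₗ (X (nconj L y s⁻¹))) := by
    have h4 : (X s) ∘ₗ (twistOp hKL X f) ∘ₗ (X (nconj L y s⁻¹)) =
        ∑ k : K, f k • X (s * Subgroup.inclusion hKL k * nconj L y s⁻¹) := by
      ext u
      simp only [LinearMap.comp_apply, LinearMap.sum_apply, LinearMap.smul_apply, twistOp_apply, map_sum,
        map_smul]
      refine Finset.sum_congr rfl fun k _ => ?_
      congr 1
      rw [map_mul, map_mul]
      rfl
    rw [h4, map_sum]
    refine Finset.sum_congr rfl fun k _ => ?_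
    rw [map_smul]
    rfl
  have h5 : ∑ k : K, f k * X.character (Subgroup.inclusion hKL k) = LinearMap.trace ℂ U (twistOp hKL X f) := by
    unfold twistOp
    rw [map_sum]
    refine Finset.sum_congr rfl fun k _ => ?_
    rw [map_smul]
    rfl
  rw [h3, h5, h2]

end Twist

section Count

variable {G : Type u} [Group G] [Fintype G] {p : ℕ} [hp : Fact p.Prime] {K L : Subgroup G}
  [hKn : K.Normal] [hLn : L.Normal] (hKL : K ≤ L) [Fintype K] [Fintype L]

open Classical in
/-- The elements of `L` centralizing `y` modulo `K`. -/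
noncomputable def cosetCent (K L : Subgroup G) [Fintype L] (y : G) : Finset L :=
  Finset.univ.filter fun t : L => (t : G)⁻¹ * y * t * y⁻¹ ∈ K

theorem one_mem_cosetCent (y : G) : (1 : L) ∈ cosetCent K L y := by
  classical
  simp [cosetCent, K.one_mem]

open Classical in
/-- A sum over a translate of `K` inside `L`. -/
theorem sum_translate (a b : L) (g : L → ℂ) :
    ∑ k : K, g (a * Subgroup.inclusion hKL k * b) =
      ∑ l : L, if (a : G)⁻¹ * l * (b : G)⁻¹ ∈ K then g l else 0 := by
  classical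
  rw [← Finset.sum_filter]
  refine Finset.sum_bij (fun k _ => a * Subgroup.inclusion hKL k * b) ?_ ?_ ?_ ?_
  · intro k _
    simp only [Finset.mem_filter, Finset.mem_univ, true_and]
    have : (a : G)⁻¹ * ((a * Subgroup.inclusion hKL k * b : L) : G) * (b : G)⁻¹ = (k : G) := by
      simp only [Subgroup.coe_mul, Subgroup.coe_inclusion]
      group
    rw [this]
    exact k.2
  · intro k _ k' _ h
    have h1 : Subgroup.inclusion hKL k = Subgroup.inclusion hKL k' := by
      simpa using h
    exact Subgroup.inclusion_injective hKL h1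
  · intro l hl
    have hl' := (Finset.mem_filter.1 hl).2
    refine ⟨⟨_, hl'⟩, Finset.mem_univ _, ?_⟩
    apply Subtype.ext
    simp only [Subgroup.coe_mul, Subgroup.coe_inclusion]
    group
  · intro k _
    rfl

open Classical in
theorem card_filter_conj (y : G) (l s₀ : L) (h : (s₀ : G)⁻¹ * l * y * s₀ * y⁻¹ ∈ K) :
    (Finset.univ.filter fun s : L => (s : G)⁻¹ * l * y * s * y⁻¹ ∈ K).card = (cosetCent K L y).card := by
  classical
  unfold cosetCent
  refine Finset.card_equiv (Equiv.mulLeft s₀⁻¹) ?_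
  intro s
  simp only [Finset.mem_filter, Finset.mem_univ, true_and, Equiv.coe_mulLeft]
  obtain ⟨t, rfl⟩ : ∃ t, s = s₀ * t := ⟨s₀⁻¹ * s, by group⟩
  have e1 : s₀⁻¹ * (s₀ * t) = t := by group
  rw [e1]
  have e2 : (((s₀ * t : L) : G))⁻¹ * l * y * ((s₀ * t : L) : G) * y⁻¹ =
      ((t : G)⁻¹ * ((s₀ : G)⁻¹ * l * y * s₀ * y⁻¹) * (t : G)) * ((t : G)⁻¹ * y * t * y⁻¹) := by
    simp only [Subgroup.coe_mul]
    group
  rw [e2]
  have h3 : (t : G)⁻¹ * ((s₀ : G)⁻¹ * l * y * s₀ * y⁻¹) * (t : G) ∈ K := by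
    have := hKn.conj_mem _ h (t : G)⁻¹
    simpa using this
  exact Subgroup.mul_mem_cancel_left K h3

/-- The counting formula. -/
theorem count_formula {U : Type*} [AddCommGroup U] [Module ℂ U] [FiniteDimensional ℂ U]
    (X : Representation ℂ L U) (hXK : (resRep hKL X).IsIrreducible)
    (hinv : ∀ (g : G) (n : L), X.character (nconj L g n) = X.character n)
    (hLp : ∀ z ∈ L, ∃ n : ℕ, z ^ p ^ n ∈ K)
    (ε : G → ℂ) (hcl : ∀ x g, ε (x * g * x⁻¹) = ε g) (hreg : ∀ g, p ∣ orderOf g → ε g = 0)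
    (y : G) (hy : ¬ p ∣ orderOf y) :
    ((cosetCent K L y).card : ℂ) * ∑ l : L, ε (l * y) * X.character l =
      (Nat.card L : ℂ) * ∑ k : K, ε (k * y) * X.character (Subgroup.inclusion hKL k) := by
  classical
  let g : L → ℂ := fun l => ε (l * y) * X.character l
  have hval : ∀ (s : L) (k : K), ((s * Subgroup.inclusion hKL k * nconj L y s⁻¹ : L) : G) * y =
      (s : G) * ((k : G) * y) * (s : G)⁻¹ := by
    intro s k
    simp only [Subgroup.coe_mul, Subgroup.coe_inclusion, nconj, InvMemClass.coe_inv]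
    group
  have hfk : ∀ j k : K, ε ((((j * k * (nconj K y j)⁻¹ : K)) : G) * y) = ε ((k : G) * y) := by
    intro j k
    have e : ((j * k * (nconj K y j)⁻¹ : K) : G) * y = (j : G) * ((k : G) * y) * (j : G)⁻¹ := by
      simp only [Subgroup.coe_mul, nconj, InvMemClass.coe_inv]
      group
    rw [e, hcl]
  -- first evaluation
  have hA : ∀ s : L, ∑ k : K, g (s * Subgroup.inclusion hKL k * nconj L y s⁻¹) =
      ∑ k : K, ε (k * y) * X.character (Subgroup.inclusion hKL k) := by
    intro s
    rw [← sum_twist_character hKL X hXK hinv (fun k : K => ε ((k : G) * y)) y hfk s]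
    refine Finset.sum_congr rfl fun k _ => ?_
    simp only [g]
    rw [hval, hcl]
  -- second evaluation
  have hB : ∑ s : L, ∑ k : K, g (s * Subgroup.inclusion hKL k * nconj L y s⁻¹) =
      ((cosetCent K L y).card : ℂ) * ∑ l : L, g l := by
    simp only [sum_translate hKL]
    rw [Finset.sum_comm, Finset.mul_sum]
    refine Finset.sum_congr rfl fun l _ => ?_
    have e1 : ∀ s : L, (s : G)⁻¹ * l * ((nconj L y s⁻¹ : L) : G)⁻¹ = (s : G)⁻¹ * l * y * s * y⁻¹ := by
      intro s
      simp only [nconj, InvMemClass.coe_inv]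
      group
    simp only [e1]
    rw [← Finset.sum_filter, Finset.sum_const, nsmul_eq_mul]
    by_cases hε : ε (l * y) = 0
    · simp [g, hε]
    · have hz : ¬ p ∣ orderOf ((l : G) * y) := fun h => hε (hreg _ h)
      obtain ⟨s₀, hs₀, hk⟩ := exists_conj_mod hLp hy hz (by simp)
      have hk' : (((⟨s₀, hs₀⟩ : L) : G))⁻¹ * l * y * ((⟨s₀, hs₀⟩ : L) : G) * y⁻¹ ∈ K := by
        simpa [mul_assoc] using hk
      rw [card_filter_conj y l ⟨s₀, hs₀⟩ hk']
  have hcardL : ((Finset.univ : Finset L).card : ℂ) = (Nat.card L : ℂ) := by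
    rw [Finset.card_univ, Fintype.card_eq_nat_card]
  rw [← hB]
  simp only [hA, Finset.sum_const, nsmul_eq_mul, hcardL]

end Count

end Cfsg.Agent.Lib.Block.RegSupp
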