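import Cfsg.Agent.Lib.BPair.HarrisKnorr
import Cfsg.Agent.Lib.Block.RegSuppA
import Cfsg.Agent.Lib.Block.Subsect
import Cfsg.Agent.Lib.Block.Kernel
import Cfsg.Agent.Lib.Degree.InflateBlock
import Cfsg.Agent.Lib.PGroup.PLength
import Cfsg.Agent.Lib.OddLocal.Fusion
import Cfsg.Agent.Lib.Techniques.Goldschmidt

/-!
# `p`-length one and restriction of the principal block to the Sylow normalizer
-/

set_option autoImplicit false
set_option linter.unusedSectionVars false
set_option linter.unusedSimpArgs false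
set_option linter.unusedVariables false

open scoped ComplexConjugate
open Cfsg MonoidAlgebra Cfsg.Agent.Lib.Char Cfsg.Agent.Lib.Block Cfsg.Agent.Lib.Techniques

namespace Cfsg.Agent.Lib.Block.PLenOne

section Cent

variable {G : Type*} [Group G] [Finite G] {p : ℕ} [hp : Fact p.Prime]

/-- Regular elements of the centralizer of a Sylow subgroup lie in its `p'`-core. -/
theorem mem_coreE_of_regular (P : Sylow p G) {y : G} (hy : y ∈ Subgroup.centralizer ((P : Subgroup G) : Set G))
    (hreg : ¬ p ∣ orderOf y) : y ∈ coreE p (Subgroup.centralizer ((P : Subgroup G) : Set G)) := by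
  classical
  set C := Subgroup.centralizer ((P : Subgroup G) : Set G) with hC
  obtain ⟨R⟩ : Nonempty (Sylow p C) := inferInstance
  have hRP : ∀ r : C, r ∈ (R : Subgroup C) → (r : G) ∈ (P : Subgroup G) := by
    intro r hr
    have hRp : IsPGroup p ((R : Subgroup C).map C.subtype) := R.isPGroup'.map _
    have h1 := hRp.inf_normalizer_sylow P
    have hle : (R : Subgroup C).map C.subtype ≤ Subgroup.normalizer ((P : Subgroup G) : Set G) := by
      rintro _ ⟨c, -, rfl⟩
      exact Subgroup.centralizer_le_normalizer _ c.2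
    have h2 : (r : G) ∈ (R : Subgroup C).map C.subtype ⊓ Subgroup.normalizer ((P : Subgroup G) : Set G) :=
      ⟨⟨r, hr, rfl⟩, hle ⟨r, hr, rfl⟩⟩
    exact (h1.le h2).2
  have hcent : Subgroup.normalizer ((R : Subgroup C) : Set C) ≤ Subgroup.centralizer ((R : Subgroup C) : Set C) := by
    intro c _
    rw [Subgroup.mem_centralizer_iff]
    intro r hr
    apply Subtype.ext
    exact Subgroup.mem_centralizer_iff.1 c.2 _ (hRP r hr)
  have hker := MonoidHom.not_dvd_card_ker_transferSylow R hcent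
  set f := MonoidHom.transferSylow R hcent with hf
  have hfy : f ⟨y, hy⟩ = 1 := by
    have h1 : orderOf (f ⟨y, hy⟩) ∣ orderOf (⟨y, hy⟩ : C) := orderOf_map_dvd _ _
    rw [Subgroup.orderOf_mk y hy] at h1
    obtain ⟨k, hk⟩ := (IsPGroup.iff_orderOf.mp R.isPGroup') (f ⟨y, hy⟩)
    rw [hk] at h1
    rcases k with _ | k
    · rw [pow_zero, orderOf_eq_one_iff] at hk
      exact hk
    · exact absurd ((dvd_pow_self p (Nat.succ_ne_zero k)).trans h1) hreg
  have hmem : (⟨y, hy⟩ : C) ∈ pPrimeCore p C := by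
    refine Cfsg.Agent.Lib.Core.le_pPrimeCore (MonoidHom.normal_ker f) ?_ (MonoidHom.mem_ker.2 hfy)
    exact ((Nat.Prime.coprime_iff_not_dvd hp.out).2 hker).symm
  exact ⟨⟨y, hy⟩, hmem, rfl⟩

/-- The normalizer of a Sylow subgroup normalizes the `p'`-core of its centralizer. -/
theorem conj_mem_coreE (P : Sylow p G) {v a : G} (hv : v ∈ Subgroup.normalizer ((P : Subgroup G) : Set G))
    (ha : a ∈ coreE p (Subgroup.centralizer ((P : Subgroup G) : Set G))) :
    v * a * v⁻¹ ∈ coreE p (Subgroup.centralizer ((P : Subgroup G) : Set G)) := by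
  set C := Subgroup.centralizer ((P : Subgroup G) : Set G) with hC
  have hvC : ∀ {v c : G}, v ∈ Subgroup.normalizer ((P : Subgroup G) : Set G) → c ∈ C → v * c * v⁻¹ ∈ C := by
    intro v c hv hc
    rw [Subgroup.mem_centralizer_iff]
    intro h hh
    have h1 : v⁻¹ * h * v⁻¹⁻¹ ∈ (P : Subgroup G) :=
      (Subgroup.mem_normalizer_iff.1 (Subgroup.inv_mem _ hv) h).1 hh
    have h2 := Subgroup.mem_centralizer_iff.1 hc _ h1
    rw [inv_inv] at h1 h2
    calc h * (v * c * v⁻¹) = v * ((v⁻¹ * h * v) * c) * v⁻¹ := by group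
      _ = v * (c * (v⁻¹ * h * v)) * v⁻¹ := by rw [h2]
      _ = v * c * v⁻¹ * h := by group
  have hK : conjS v (coreE p C) ≤ coreE p C := by
    refine le_coreE (p := p) ?_ ?_ ?_
    · intro x hx
      rw [mem_conjS] at hx
      have h1 := hvC hv (coreE_le C hx)
      simpa [mul_assoc] using h1
    · intro c hc
      rw [mem_normalizer_iff_conjS]
      have hc' : v⁻¹ * c * v ∈ C := by
        have := hvC (Subgroup.inv_mem _ hv) hc
        simpa using this
      have e : c * v = v * (v⁻¹ * c * v) := by group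
      rw [← conjS_mul, e, conjS_mul, conjS_coreE hc']
    · rw [card_conjS]
      exact card_coreE_coprime C
  exact hK (conj_mem_conjS ha)

end Cent

section Main

variable {G : Type*} [Group G] [Fintype G] {p : ℕ} [hp : Fact p.Prime] {M : Ideal AlgInt}

/-- The normalizer of a Sylow subgroup. -/
abbrev Nm (P : Sylow p G) : Subgroup G := Subgroup.normalizer ((P : Subgroup G) : Set G)

/-- The Sylow subgroup inside its normalizer. -/
abbrev Qm (P : Sylow p G) : Subgroup (Nm P) := (P : Subgroup G).subgroupOf (Nm P)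

instance Qm_normal (P : Sylow p G) : (Qm P).Normal := Subgroup.normal_in_normalizer

theorem le_Nm (P : Sylow p G) : (P : Subgroup G) ≤ Nm P := Subgroup.le_normalizer

theorem Qm_isPGroup (P : Sylow p G) : IsPGroup p (Qm P) :=
  isPGroup_subgroupOf (le_Nm P) P.isPGroup'

/-- The hypothesis: restrictions of the principal block are irreducible. -/
def ResIrr (M : Ideal AlgInt) (P : Sylow p G) : Prop :=
  ∀ χ ∈ principalBlock M G, IsIrrCharacter (Nm P) (fun n : Nm P => (χ : G → ℂ) n)

theorem isPBlock_principal (G : Type*) [Group G] [Fintype G] [M.IsPrime] : IsPBlock M (principalBlock M G) :=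
  ⟨oneIrr G, rfl⟩

theorem one_mem_principal (G : Type*) [Group G] [Fintype G] [M.IsPrime] : oneIrr G ∈ principalBlock M G :=
  sameBlock_refl _

theorem isBlockUnion_principal (G : Type*) [Group G] [Fintype G] [M.IsPrime] : IsBlockUnion M (principalBlock M G) :=
  isBlockUnion_of_isPBlock (isPBlock_principal G)

/-- Values on elements with class size prime to `p`. -/
theorem memLocalIdeal_one_sub (hM : IsPModular p M) {χ : IrrCharacter G} (hχ : χ ∈ principalBlock M G) {a : G}
    (ha : ¬ p ∣ (Subgroup.centralizer ({a} : Set G)).index) :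
    MemLocalIdeal M (1 - (χ : G → ℂ) a / (χ : G → ℂ) 1) := by
  have := isPModular_isPrime hM
  have h1 : MemLocalIdeal M (centralChar (fun _ : G => (1 : ℂ)) a - centralChar (χ : G → ℂ) a) := hχ a
  have h0 := isIrr_one_ne_zero χ.2
  have e : centralChar (fun _ : G => (1 : ℂ)) a - centralChar (χ : G → ℂ) a =
      (1 - (χ : G → ℂ) a / (χ : G → ℂ) 1) * ((Subgroup.centralizer ({a} : Set G)).index : ℂ) := by
    unfold centralChar
    field_simp
  rw [e] at h1
  exact memLocalIdeal_of_mul_unit (memLocalRing_natCast _) (not_memLocalIdeal_natCast hM ha) h1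

/-- Step (a): the `p'`-core of the centralizer of a Sylow subgroup is in the kernel. -/
theorem coreE_ker (hM : IsPModular p M) (P : Sylow p G) (hres : ResIrr M P) {χ : IrrCharacter G}
    (hχ : χ ∈ principalBlock M G) {a : G} (ha : a ∈ coreE p (Subgroup.centralizer ((P : Subgroup G) : Set G))) :
    (χ : G → ℂ) a = (χ : G → ℂ) 1 := by
  classical
  have := isPModular_isPrime hM
  haveI : Fintype (Nm P) := Fintype.ofFinite _
  set C := Subgroup.centralizer ((P : Subgroup G) : Set G) with hC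
  have hCN : C ≤ Nm P := Subgroup.centralizer_le_normalizer _
  set A : Subgroup (Nm P) := (coreE p C).subgroupOf (Nm P) with hA
  have hAn : A.Normal := by
    constructor
    intro x hx g
    rw [hA, Subgroup.mem_subgroupOf] at hx ⊢
    exact conj_mem_coreE P g.2 hx
  let τ : IrrCharacter (Nm P) := ⟨_, hres χ hχ⟩
  by_contra hne
  have hmemN : a ∈ Nm P := hCN (coreE_le C ha)
  have h0 := Cfsg.Agent.Lib.Degree.irr_sum_normal_eq_zero τ A (x₀ := ⟨a, hmemN⟩)
    (by rw [hA, Subgroup.mem_subgroupOf]; exact ha) hne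
  have hterm : ∀ x : Nm P, MemLocalIdeal M (if x ∈ A then 1 - (χ : G → ℂ) x / (χ : G → ℂ) 1 else 0) := by
    intro x
    split_ifs with hx
    · refine memLocalIdeal_one_sub hM hχ ?_
      intro hd
      have hxC : (x : G) ∈ C := coreE_le C hx
      have hle : (P : Subgroup G) ≤ Subgroup.centralizer ({(x : G)} : Set G) := by
        intro u hu
        rw [Subgroup.mem_centralizer_iff]
        intro z hz
        rw [Set.mem_singleton_iff] at hz
        rw [hz]
        exact (Subgroup.mem_centralizer_iff.1 hxC u hu).symm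
      exact P.not_dvd_index (hd.trans (Subgroup.index_dvd_of_le hle))
    · exact memLocalIdeal_zero
  have hsum := memLocalIdeal_sum Finset.univ _ (fun x _ => hterm x)
  have h1 := isIrr_one_ne_zero χ.2
  have e : (∑ x : Nm P, if x ∈ A then 1 - (χ : G → ℂ) x / (χ : G → ℂ) 1 else 0) = (Nat.card A : ℂ) := by
    have e1 : ∀ x : Nm P, (if x ∈ A then 1 - (χ : G → ℂ) x / (χ : G → ℂ) 1 else 0) =
        (if x ∈ A then (1 : ℂ) else 0) - (if x ∈ A then (τ : Nm P → ℂ) x else 0) / (χ : G → ℂ) 1 := by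
      intro x
      split_ifs
      · rfl
      · simp
    simp only [e1]
    rw [Finset.sum_sub_distrib, ← Finset.sum_div, h0, zero_div, sub_zero, Finset.sum_boole]
    congr 1
    rw [Nat.card_eq_fintype_card, Fintype.card_subtype]
  rw [e, memLocalIdeal_natCast_iff hM] at hsum
  have hcard : Nat.card A = Nat.card (coreE p C) :=
    Nat.card_congr (Subgroup.subgroupOfEquivOfLe ((coreE_le C).trans hCN)).toEquiv
  rw [hcard] at hsum
  have hc := card_coreE_coprime (p := p) C
  exact (Nat.Prime.coprime_iff_not_dvd hp.out).1 hc.symm hsum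

/-- Regular elements of the centralizer of a Sylow subgroup are trivial. -/
theorem centralizer_regular_eq_one (hM : IsPModular p M) (hK : pPrimeCore p G = ⊥) (P : Sylow p G)
    (hres : ResIrr M P) {y : G} (hy : y ∈ Subgroup.centralizer ((P : Subgroup G) : Set G))
    (hreg : ¬ p ∣ orderOf y) : y = 1 := by
  have := isPModular_isPrime hM
  have hmem := mem_coreE_of_regular P hy hreg
  have h1 : y ∈ blockKerSubgroup (principalBlock M G) := fun χ hχ => coreE_ker hM P hres hχ hmem
  have hnd := not_dvd_card_blockKer hM (isPBlock_principal (M := M) G)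
  have h2 : blockKerSubgroup (principalBlock M G) ≤ pPrimeCore p G :=
    Cfsg.Agent.Lib.Core.le_pPrimeCore (blockKerSubgroup_normal _)
      ((Nat.Prime.coprime_iff_not_dvd hp.out).2 hnd).symm
  have h3 := h2 h1
  rw [hK] at h3
  exact h3

open Classical in
/-- The members of the principal block restricting to `τ`. -/
noncomputable def lifts (M : Ideal AlgInt) (P : Sylow p G) (τ : IrrCharacter (Nm P)) : Finset (IrrCharacter G) :=
  Finset.univ.filter (fun χ => χ ∈ principalBlock M G ∧ ∀ v : Nm P, (χ : G → ℂ) v = (τ : Nm P → ℂ) v)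

theorem mem_lifts {P : Sylow p G} {τ : IrrCharacter (Nm P)} {χ : IrrCharacter G} :
    χ ∈ lifts M P τ ↔ χ ∈ principalBlock M G ∧ ∀ v : Nm P, (χ : G → ℂ) v = (τ : Nm P → ℂ) v := by
  simp [lifts]

/-- The trace of the truncated principal idempotent. -/
theorem tr_resAlg {P : Sylow p G} [Fintype (Nm P)] (hres : ResIrr M P) (τ : IrrCharacter (Nm P)) :
    tr (τ : Nm P → ℂ) (resAlg (Nm P) (blockElt (principalBlock M G))) =
      (Nat.card (Nm P) : ℂ) / (Nat.card G : ℂ) * ((lifts M P τ).card : ℂ) * (τ : Nm P → ℂ) 1 := by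
  classical
  have hVne : (Nat.card (Nm P) : ℂ) ≠ 0 := card_ne_zero_complex _
  have hinner : ∀ χ : IrrCharacter G, χ ∈ principalBlock M G →
      ∑ v : Nm P, conj ((χ : G → ℂ) v) * (τ : Nm P → ℂ) v =
        if χ ∈ lifts M P τ then (Nat.card (Nm P) : ℂ) else 0 := by
    intro χ hχ
    have h1 := classInner_irr τ.2 (hres χ hχ)
    rw [classInner_def] at h1
    have h2 : ∑ v : Nm P, conj ((χ : G → ℂ) v) * (τ : Nm P → ℂ) v =
        (Nat.card (Nm P) : ℂ) * ((Nat.card (Nm P) : ℂ)⁻¹ * ∑ v : Nm P, (τ : Nm P → ℂ) v * conj ((χ : G → ℂ) v)) := by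
      rw [← mul_assoc, mul_inv_cancel₀ hVne, one_mul]
      exact Finset.sum_congr rfl fun v _ => mul_comm _ _
    rw [h2, h1]
    by_cases hm : χ ∈ lifts M P τ
    · rw [if_pos hm, if_pos, mul_one]
      funext v
      exact ((mem_lifts.1 hm).2 v).symm
    · rw [if_neg hm, if_neg, mul_zero]
      intro he
      apply hm
      rw [mem_lifts]
      exact ⟨hχ, fun v => (congrFun he v).symm⟩
  unfold tr
  have e1 : ∀ v : Nm P, (resAlg (Nm P) (blockElt (principalBlock M G))).coeff v * (τ : Nm P → ℂ) v =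
      (Nat.card G : ℂ)⁻¹ * ∑ χ : IrrCharacter G, if χ ∈ principalBlock M G then
        (χ : G → ℂ) 1 * (conj ((χ : G → ℂ) v) * (τ : Nm P → ℂ) v) else 0 := by
    intro v
    rw [coeff_resAlg, coeff_blockElt, blockCoeff_eq_sum, mul_assoc, Finset.sum_mul]
    congr 1
    refine Finset.sum_congr rfl fun χ _ => ?_
    split_ifs
    · ring
    · simp
  simp only [e1]
  rw [← Finset.mul_sum, Finset.sum_comm]
  have e2 : ∀ χ : IrrCharacter G, (∑ v : Nm P, if χ ∈ principalBlock M G then
      (χ : G → ℂ) 1 * (conj ((χ : G → ℂ) v) * (τ : Nm P → ℂ) v) else 0) =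
      if χ ∈ lifts M P τ then (Nat.card (Nm P) : ℂ) * (τ : Nm P → ℂ) 1 else 0 := by
    intro χ
    by_cases hχ : χ ∈ principalBlock M G
    · simp only [if_pos hχ]
      rw [← Finset.mul_sum, hinner χ hχ]
      by_cases hm : χ ∈ lifts M P τ
      · rw [if_pos hm, if_pos hm]
        have := (mem_lifts.1 hm).2 1
        rw [OneMemClass.coe_one] at this
        rw [this, mul_comm]
      · rw [if_neg hm, if_neg hm, mul_zero]
    · rw [if_neg]
      · simp [hχ]
      · intro hm
        exact hχ (mem_lifts.1 hm).1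
  simp only [e2]
  rw [Finset.sum_ite_mem, Finset.univ_inter, Finset.sum_const, nsmul_eq_mul]
  have hG : (Nat.card G : ℂ) ≠ 0 := card_ne_zero_complex _
  field_simp

theorem om_resAlg {P : Sylow p G} [Fintype (Nm P)] (hres : ResIrr M P) (τ : IrrCharacter (Nm P)) :
    om (τ : Nm P → ℂ) (resAlg (Nm P) (blockElt (principalBlock M G))) =
      (Nat.card (Nm P) : ℂ) / (Nat.card G : ℂ) * ((lifts M P τ).card : ℂ) := by
  unfold om
  rw [tr_resAlg hres, mul_div_assoc, div_self (isIrr_one_ne_zero τ.2), mul_one]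

/-- Step: two members of the principal block with the same restriction, trivial on the Sylow subgroup, agree. -/
theorem eq_of_res_eq_of_ker (P : Sylow p G) {χ χ' : IrrCharacter G}
    (hsame : ∀ v : Nm P, (χ : G → ℂ) v = (χ' : G → ℂ) v)
    (hker : ∀ u ∈ (P : Subgroup G), (χ : G → ℂ) u = (χ : G → ℂ) 1) : χ = χ' := by
  classical
  set L := blockKerSubgroup ({χ, χ'} : Set (IrrCharacter G)) with hL
  haveI hLn : L.Normal := blockKerSubgroup_normal _
  have hone : (χ : G → ℂ) 1 = (χ' : G → ℂ) 1 := by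
    have := hsame 1
    rwa [OneMemClass.coe_one] at this
  have hPL : (P : Subgroup G) ≤ L := by
    intro u hu ξ hξ
    rcases hξ with rfl | hξ
    · exact hker u hu
    · rw [Set.mem_singleton_iff] at hξ
      rw [hξ]
      have h1 := hsame ⟨u, le_Nm P hu⟩
      have h2 := hker u hu
      change (χ : G → ℂ) u = (χ' : G → ℂ) u at h1
      rw [← h1, h2, hone]
  have hS : SylowIn p (P : Subgroup G) L := by
    refine ⟨hPL, P.isPGroup', ?_⟩
    intro hd
    have h1 := Subgroup.relIndex_mul_index hPL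
    exact P.not_dvd_index (hd.trans (Dvd.intro _ h1))
  apply Subtype.ext
  funext g
  obtain ⟨k, hk, hkg⟩ := frattini_in (y := g) hS (conjS_of_normal g L)
  have e : g = k * (k⁻¹ * g) := by group
  have h1 : (χ : G → ℂ) k = (χ : G → ℂ) 1 := hk χ (Or.inl rfl)
  have h2 : (χ' : G → ℂ) k = (χ' : G → ℂ) 1 := hk χ' (Or.inr rfl)
  rw [e, irr_mul_of_ker χ h1, irr_mul_of_ker χ' h2]
  exact hsame ⟨_, hkg⟩

/-- The constant term controls all central characters of the normalizer. -/
theorem om_resAlg_congr (hM : IsPModular p M) (hK : pPrimeCore p G = ⊥) {P : Sylow p G} [Fintype (Nm P)]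
    (hres : ResIrr M P) (τ : IrrCharacter (Nm P)) :
    MemLocalIdeal M (om (τ : Nm P → ℂ) (resAlg (Nm P) (blockElt (principalBlock M G))) -
      blockCoeff (principalBlock M G) 1) := by
  classical
  have := isPModular_isPrime hM
  set c := blockCoeff (principalBlock M G) 1 with hc
  have hA : IsBlockUnion M (principalBlock M G) := isBlockUnion_principal G
  have hcl : MemLocalRing M c := memLocalRing_blockCoeff hA 1
  have h1 := Cfsg.Agent.Lib.BPair.memLocalIdeal_om_sub_of_agree hM (Qm P) (Qm_isPGroup P) τ.2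
    (z := resAlg (Nm P) (blockElt (principalBlock M G))) (A := c • (1 : MonoidAlgebra ℂ (Nm P)))
    (isCentralElt_resAlg (Nm P) (isCentralElt_blockElt _))
    (isCentralElt_smul c isCentralElt_one)
    (localCoeff_resAlg (Nm P) (localCoeff_blockElt hA))
    (localCoeff_smul hcl localCoeff_one) ?_
  · rw [om_smul, om_one τ.2, mul_one] at h1
    exact h1
  · intro g hg
    have hcoe : ((c • (1 : MonoidAlgebra ℂ (Nm P))).coeff g) = if g = 1 then c else 0 := by
      rw [MonoidAlgebra.one_def, MonoidAlgebra.smul_single, MonoidAlgebra.coeff_single, Finsupp.single_apply]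
      simp [eq_comm]
    rw [coeff_resAlg, coeff_blockElt, hcoe]
    split_ifs with h1g
    · subst h1g
      rw [OneMemClass.coe_one, ← hc, sub_self]
      exact memLocalIdeal_zero
    · rw [sub_zero]
      have hgC : (g : G) ∈ Subgroup.centralizer ((P : Subgroup G) : Set G) := by
        rw [Subgroup.mem_centralizer_iff]
        intro u hu
        have h2 := Subgroup.mem_centralizer_iff.1 hg ⟨u, le_Nm P hu⟩ (by
          show (u : G) ∈ (P : Subgroup G)
          exact hu)
        exact congrArg Subtype.val h2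
      by_cases hreg : p ∣ orderOf (g : G)
      · rw [show blockCoeff (principalBlock M G) (g : G) = 0 by
          by_contra h0
          exact regular_of_blockCoeff_ne_zero hM hA h0 hreg]
        exact memLocalIdeal_zero
      · exact absurd (Subtype.ext (centralizer_regular_eq_one hM hK P hres hgC hreg)) h1g

/-- The ratio of the orders is a unit. -/
theorem ratio_mul_index (P : Sylow p G) [Fintype (Nm P)] :
    (Nat.card (Nm P) : ℂ) / (Nat.card G : ℂ) * ((Nm P).index : ℂ) = 1 := by
  have h := Subgroup.card_mul_index (Nm P)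
  have hG : (Nat.card G : ℂ) ≠ 0 := card_ne_zero_complex _
  rw [← h]
  push_cast
  have h0 : (Nat.card (Nm P) : ℂ) ≠ 0 := card_ne_zero_complex _
  rw [← h] at hG
  push_cast at hG
  have h1 : ((Nm P).index : ℂ) ≠ 0 := right_ne_zero_of_mul hG
  field_simp

theorem not_dvd_index_Nm (P : Sylow p G) : ¬ p ∣ (Nm P).index := fun h =>
  P.not_dvd_index (h.trans (Subgroup.index_dvd_of_le (le_Nm P)))

theorem lifts_one_card [M.IsPrime] {P : Sylow p G} (hres : ResIrr M P) : (lifts M P (oneIrr (Nm P))).card = 1 := by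
  classical
  rw [Finset.card_eq_one]
  refine ⟨oneIrr G, ?_⟩
  ext χ
  rw [mem_lifts, Finset.mem_singleton]
  constructor
  · rintro ⟨hχ, hv⟩
    apply eq_of_res_eq_of_ker P
    · intro v
      rw [hv v]
      rfl
    · intro u hu
      have h1 := hv ⟨u, le_Nm P hu⟩
      have h2 := hv 1
      rw [OneMemClass.coe_one] at h2
      rw [h2]
      exact h1
  · rintro rfl
    exact ⟨one_mem_principal G, fun v => rfl⟩

/-- Every irreducible character of the normalizer is a restriction. -/
theorem lifts_card_ne_zero (hM : IsPModular p M) (hK : pPrimeCore p G = ⊥) {P : Sylow p G} [Fintype (Nm P)]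
    (hres : ResIrr M P) (τ : IrrCharacter (Nm P)) : (lifts M P τ).card ≠ 0 := by
  have := isPModular_isPrime hM
  intro h0
  have h1 := om_resAlg_congr hM hK hres τ
  have h2 := om_resAlg_congr hM hK hres (oneIrr (Nm P))
  rw [om_resAlg hres] at h1 h2
  rw [h0, lifts_one_card hres] at *
  simp only [Nat.cast_zero, mul_zero, Nat.cast_one, mul_one, zero_sub] at h1 h2
  have h3 := memLocalIdeal_sub h2 h1
  rw [sub_neg_eq_add, sub_add_cancel] at h3
  have h4 := memLocalIdeal_mul_right h3 (memLocalRing_natCast (Nm P).index)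
  rw [ratio_mul_index] at h4
  exact not_memLocalIdeal_one h4

open Classical in
/-- The sum of the Sylow subgroup in the group algebra of its normalizer. -/
noncomputable def qSum (P : Sylow p G) [Fintype (Nm P)] : MonoidAlgebra ℂ (Nm P) :=
  ofFun (fun v => if v ∈ Qm P then (1 : ℂ) else 0)

theorem isCentralElt_qSum (P : Sylow p G) [Fintype (Nm P)] : IsCentralElt (qSum P) := by
  classical
  apply isCentralElt_ofFun
  intro x g
  have h : x * g * x⁻¹ ∈ Qm P ↔ g ∈ Qm P := by
    constructor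
    · intro h
      have h1 := (Qm_normal P).conj_mem _ h x⁻¹
      simpa [mul_assoc] using h1
    · intro h
      exact (Qm_normal P).conj_mem _ h x
  simp only [h]

open Classical in
theorem coeff_qSum (P : Sylow p G) [Fintype (Nm P)] (v : Nm P) :
    (qSum P).coeff v = if v ∈ Qm P then (1 : ℂ) else 0 := by
  unfold qSum
  rw [coeff_ofFun]

theorem om_qSum_of_ne (P : Sylow p G) [Fintype (Nm P)] (τ : IrrCharacter (Nm P)) {x₀ : Nm P} (hx₀ : x₀ ∈ Qm P)
    (hne : (τ : Nm P → ℂ) x₀ ≠ (τ : Nm P → ℂ) 1) : om (τ : Nm P → ℂ) (qSum P) = 0 := by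
  classical
  have h0 := Cfsg.Agent.Lib.Degree.irr_sum_normal_eq_zero τ (Qm P) hx₀ hne
  unfold om qSum
  rw [tr_ofFun]
  have e : ∑ g : Nm P, (if g ∈ Qm P then (1 : ℂ) else 0) * (τ : Nm P → ℂ) g =
      ∑ g : Nm P, if g ∈ Qm P then (τ : Nm P → ℂ) g else 0 := by
    refine Finset.sum_congr rfl fun g _ => ?_
    split_ifs <;> simp
  rw [e, h0, zero_div]

/-- A character of the normalizer trivial on the Sylow subgroup has exactly one lift. -/
theorem lifts_card_of_ker (hM : IsPModular p M) (hK : pPrimeCore p G = ⊥) {P : Sylow p G} [Fintype (Nm P)]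
    (hres : ResIrr M P) (τ : IrrCharacter (Nm P)) (hτ : ∀ x ∈ Qm P, (τ : Nm P → ℂ) x = (τ : Nm P → ℂ) 1) :
    (lifts M P τ).card = 1 := by
  have hle : (lifts M P τ).card ≤ 1 := by
    rw [Finset.card_le_one]
    intro χ hχ χ' hχ'
    have h1 := mem_lifts.1 hχ
    have h2 := mem_lifts.1 hχ'
    apply eq_of_res_eq_of_ker P
    · intro v
      rw [h1.2 v, h2.2 v]
    · intro u hu
      have e1 := h1.2 ⟨u, le_Nm P hu⟩
      have e2 := h1.2 1
      rw [OneMemClass.coe_one] at e2
      rw [e2]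
      refine e1.trans (hτ _ ?_)
      show u ∈ (P : Subgroup G)
      exact hu
  have hne := lifts_card_ne_zero hM hK hres τ
  omega

/-- The product of the truncated idempotent with the sum of the Sylow subgroup. -/
theorem mul_qSum (hM : IsPModular p M) (hK : pPrimeCore p G = ⊥) {P : Sylow p G} [Fintype (Nm P)]
    (hres : ResIrr M P) :
    resAlg (Nm P) (blockElt (principalBlock M G)) * qSum P =
      ((Nat.card (Nm P) : ℂ) / (Nat.card G : ℂ)) • qSum P := by
  have hf : IsCentralElt (resAlg (Nm P) (blockElt (principalBlock M G))) :=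
    isCentralElt_resAlg (Nm P) (isCentralElt_blockElt _)
  have hq := isCentralElt_qSum P
  apply central_ext_om (isCentralElt_mul hf hq) (isCentralElt_smul _ hq)
  intro τ
  rw [om_mul τ.2 hf, om_smul]
  by_cases h : ∃ x₀ ∈ Qm P, (τ : Nm P → ℂ) x₀ ≠ (τ : Nm P → ℂ) 1
  · obtain ⟨x₀, hx₀, hne⟩ := h
    rw [om_qSum_of_ne P τ hx₀ hne, mul_zero, mul_zero]
  · push Not at h
    rw [om_resAlg hres, lifts_card_of_ker hM hK hres τ h, Nat.cast_one, mul_one]

open Classical in
/-- Coefficients of `mul_qSum`. -/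
theorem sum_coset (hM : IsPModular p M) (hK : pPrimeCore p G = ⊥) {P : Sylow p G} [Fintype (Nm P)]
    (hres : ResIrr M P) (v : Nm P) :
    ∑ h : Nm P, blockCoeff (principalBlock M G) (h : G) * (if h⁻¹ * v ∈ Qm P then (1 : ℂ) else 0) =
      ((Nat.card (Nm P) : ℂ) / (Nat.card G : ℂ)) * (if v ∈ Qm P then (1 : ℂ) else 0) := by
  have h1 : (resAlg (Nm P) (blockElt (principalBlock M G)) * qSum P).coeff v =
      (((Nat.card (Nm P) : ℂ) / (Nat.card G : ℂ)) • qSum P).coeff v := by
    rw [mul_qSum hM hK hres]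
  rw [coeff_mul_eq] at h1
  have e : ((((Nat.card (Nm P) : ℂ) / (Nat.card G : ℂ)) • qSum P).coeff v) =
      ((Nat.card (Nm P) : ℂ) / (Nat.card G : ℂ)) * (qSum P).coeff v := by
    simp [MonoidAlgebra.coeff_smul]
  rw [e, coeff_qSum] at h1
  rw [← h1]
  refine Finset.sum_congr rfl fun h _ => ?_
  rw [coeff_resAlg, coeff_blockElt, coeff_qSum]

/-- The truncated idempotent is a scalar. -/
theorem blockCoeff_eq_zero (hM : IsPModular p M) (hK : pPrimeCore p G = ⊥) {P : Sylow p G} [Fintype (Nm P)]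
    (hres : ResIrr M P) {y : Nm P} (hy : y ≠ 1) : blockCoeff (principalBlock M G) (y : G) = 0 := by
  classical
  have := isPModular_isPrime hM
  have hA : IsBlockUnion M (principalBlock M G) := isBlockUnion_principal G
  by_cases hreg : p ∣ orderOf (y : G)
  · by_contra h0
    exact regular_of_blockCoeff_ne_zero hM hA h0 hreg
  have hyQ : y ∉ Qm P := by
    intro hq
    obtain ⟨n, hn⟩ := (IsPGroup.iff_orderOf.mp (Qm_isPGroup P)) ⟨y, hq⟩
    rw [Subgroup.orderOf_mk] at hn
    rw [Subgroup.orderOf_coe, hn] at hreg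
    rcases n with _ | n
    · rw [pow_zero, orderOf_eq_one_iff] at hn
      exact hy hn
    · exact hreg (dvd_pow_self p (Nat.succ_ne_zero n))
  have h1 := sum_coset hM hK hres y
  rw [if_neg hyQ, mul_zero] at h1
  set ε := blockCoeff (principalBlock M G) with hε
  have hterm : ∀ h : Nm P, ε (h : G) * (if h⁻¹ * y ∈ Qm P then (1 : ℂ) else 0) =
      ε (y : G) * (if (¬ p ∣ orderOf h) ∧ h⁻¹ * y ∈ Qm P then (1 : ℂ) else 0) := by
    intro h
    by_cases hq : h⁻¹ * y ∈ Qm P
    · by_cases hr : p ∣ orderOf h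
      · have h0 : ε (h : G) = 0 := by
          by_contra h0
          exact regular_of_blockCoeff_ne_zero hM hA h0 (by rwa [Subgroup.orderOf_coe])
        rw [h0, zero_mul, if_neg (fun hh => hh.1 hr), mul_zero]
      · rw [if_pos hq, if_pos ⟨hr, hq⟩, mul_one, mul_one]
        have hyreg : ¬ p ∣ orderOf y := by rwa [← Subgroup.orderOf_coe]
        have hzy : h * y⁻¹ ∈ Qm P := by
          have h2 := (Qm_normal P).conj_mem _ hq h
          have h3 := (Qm P).inv_mem h2
          have e : (h * (h⁻¹ * y) * h⁻¹)⁻¹ = h * y⁻¹ := by group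
          rwa [e] at h3
        obtain ⟨s, hs, hs2⟩ := Cfsg.Agent.Lib.Block.RegSupp.exists_conj_mod (K := (⊥ : Subgroup (Nm P))) (L := Qm P)
          (fun z hz => by
            obtain ⟨n, hn⟩ := (IsPGroup.iff_orderOf.mp (Qm_isPGroup P)) ⟨z, hz⟩
            rw [Subgroup.orderOf_mk] at hn
            refine ⟨n, ?_⟩
            rw [Subgroup.mem_bot, ← hn, pow_orderOf_eq_one]) hyreg hr hzy
        rw [Subgroup.mem_bot] at hs2
        have e2 : h = s * y * s⁻¹ := by
          have e3 : s⁻¹ * h * s = y := by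
            rwa [mul_inv_eq_one] at hs2
          rw [← e3]
          group
        rw [e2]
        have e4 : (((s * y * s⁻¹ : Nm P)) : G) = (s : G) * (y : G) * (s : G)⁻¹ := by
          simp
        rw [e4]
        exact blockCoeff_conj _ _ _
    · rw [if_neg hq, if_neg (fun hh => hq hh.2), mul_zero, mul_zero]
  have h4 : ∑ h : Nm P, ε (y : G) * (if (¬ p ∣ orderOf h) ∧ h⁻¹ * y ∈ Qm P then (1 : ℂ) else 0) = 0 := by
    refine Eq.trans ?_ h1
    refine Finset.sum_congr rfl fun h _ => ?_
    rw [← hterm h]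
  rw [← Finset.mul_sum] at h4
  rcases mul_eq_zero.1 h4 with h2 | h2
  · exact h2
  · exfalso
    rw [Finset.sum_boole] at h2
    have h3 : (Finset.univ.filter (fun h : Nm P => (¬ p ∣ orderOf h) ∧ h⁻¹ * y ∈ Qm P)).card = 0 := by
      exact_mod_cast h2
    rw [Finset.card_eq_zero, Finset.filter_eq_empty_iff] at h3
    apply h3 (Finset.mem_univ y)
    refine ⟨?_, ?_⟩
    · rwa [← Subgroup.orderOf_coe]
    · rw [inv_mul_cancel]
      exact Subgroup.one_mem _

/-- Every irreducible character of the normalizer has exactly one lift. -/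
theorem lifts_card_eq_one (hM : IsPModular p M) (hK : pPrimeCore p G = ⊥) {P : Sylow p G} [Fintype (Nm P)]
    (hres : ResIrr M P) (τ : IrrCharacter (Nm P)) : (lifts M P τ).card = 1 := by
  classical
  have key : ∀ τ : IrrCharacter (Nm P), om (τ : Nm P → ℂ) (resAlg (Nm P) (blockElt (principalBlock M G))) =
      blockCoeff (principalBlock M G) 1 := by
    intro τ
    unfold om tr
    rw [Finset.sum_eq_single 1]
    · rw [coeff_resAlg, coeff_blockElt, OneMemClass.coe_one, mul_div_assoc, div_self (isIrr_one_ne_zero τ.2), mul_one]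
    · intro v _ hv
      rw [coeff_resAlg, coeff_blockElt, blockCoeff_eq_zero hM hK hres hv, zero_mul]
    · simp
  have h1 := key τ
  have h2 := key (oneIrr (Nm P))
  have := isPModular_isPrime hM
  rw [om_resAlg hres] at h1 h2
  rw [lifts_one_card hres, Nat.cast_one, mul_one] at h2
  rw [← h2] at h1
  have hc : (Nat.card (Nm P) : ℂ) / (Nat.card G : ℂ) ≠ 0 :=
    div_ne_zero (card_ne_zero_complex _) (card_ne_zero_complex _)
  have h3 : ((lifts M P τ).card : ℂ) = 1 := by
    apply mul_left_cancel₀ hc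
    rw [h1, mul_one]
  exact_mod_cast h3

/-- Functions in the span of the regular parts of the principal block are determined on the normalizer. -/
theorem regSpan_eq_zero (hM : IsPModular p M) (hK : pPrimeCore p G = ⊥) {P : Sylow p G} [Fintype (Nm P)]
    (hres : ResIrr M P) {Θ : G → ℂ} (hΘ : Θ ∈ regSpan p (principalBlock M G))
    (hV : ∀ v : Nm P, Θ v = 0) : Θ = 0 := by
  classical
  have := isPModular_isPrime hM
  have hcl := regSpan_isClassFunction hΘ
  have hexp := classFunction_eq_sum Θ hcl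
  have hoff : ∀ χ : IrrCharacter G, χ ∉ principalBlock M G → classInner Θ (χ : G → ℂ) = 0 := by
    intro χ hχ
    rw [classInner_def]
    have h1 : ∑ y, Θ y * conj ((χ : G → ℂ) y) = ∑ y, Θ y * conj (pRegularPart p (χ : G → ℂ) y) := by
      refine Finset.sum_congr rfl fun y _ => ?_
      by_cases hy : p ∣ orderOf y
      · rw [regSpan_vanish hΘ hy, zero_mul, zero_mul]
      · rw [pRegularPart_of_reg hy]
    have hd : Disjoint (blockOf M (χ : G → ℂ)) (principalBlock M G) := by
      rw [Set.disjoint_left]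
      intro ψ h1 h2
      apply hχ
      exact sameBlock_trans h2 (sameBlock_symm h1)
    have h2 := sum_regSpan_eq_zero hM (A := blockOf M (χ : G → ℂ)) (A' := principalBlock M G)
      (isBlockUnion_of_isPBlock (isPBlock_blockOf χ)) hd hΘ
      (g := pRegularPart p (χ : G → ℂ)) (Submodule.subset_span ⟨χ, mem_blockOf_self χ, rfl⟩)
    rw [h1, h2, mul_zero]
  have hon : ∀ χ₀ : IrrCharacter G, χ₀ ∈ principalBlock M G → classInner Θ (χ₀ : G → ℂ) = 0 := by
    intro χ₀ hχ₀
    let τ₀ : IrrCharacter (Nm P) := ⟨_, hres χ₀ hχ₀⟩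
    have hval : ∀ v : Nm P, Θ v = ∑ χ : IrrCharacter G, classInner Θ (χ : G → ℂ) * (χ : G → ℂ) v := by
      intro v
      conv_lhs => rw [hexp]
      rw [Finset.sum_apply]
      rfl
    have h0 : ∑ v : Nm P, (∑ χ : IrrCharacter G, classInner Θ (χ : G → ℂ) * (χ : G → ℂ) v) *
        conj ((τ₀ : Nm P → ℂ) v) = 0 := by
      refine Finset.sum_eq_zero fun v _ => ?_
      rw [← hval v, hV v, zero_mul]
    simp only [Finset.sum_mul] at h0
    rw [Finset.sum_comm] at h0
    have hterm : ∀ χ : IrrCharacter G, (∑ v : Nm P, classInner Θ (χ : G → ℂ) * (χ : G → ℂ) v *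
        conj ((τ₀ : Nm P → ℂ) v)) =
        if χ = χ₀ then classInner Θ (χ₀ : G → ℂ) * (Nat.card (Nm P) : ℂ) else 0 := by
      intro χ
      by_cases hχ : χ ∈ principalBlock M G
      · have h1 := classInner_irr (hres χ hχ) τ₀.2
        rw [classInner_def] at h1
        have h2 : ∑ v : Nm P, classInner Θ (χ : G → ℂ) * (χ : G → ℂ) v * conj ((τ₀ : Nm P → ℂ) v) =
            classInner Θ (χ : G → ℂ) * (Nat.card (Nm P) : ℂ) *
              ((Nat.card (Nm P) : ℂ)⁻¹ * ∑ v : Nm P, (χ : G → ℂ) v * conj ((τ₀ : Nm P → ℂ) v)) := by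
          have hV0 : (Nat.card (Nm P) : ℂ) ≠ 0 := card_ne_zero_complex _
          rw [mul_assoc (classInner Θ (χ : G → ℂ)), ← mul_assoc (Nat.card (Nm P) : ℂ), mul_inv_cancel₀ hV0, one_mul,
            Finset.mul_sum]
          exact Finset.sum_congr rfl fun v _ => by ring
        rw [h2, h1]
        by_cases he : χ = χ₀
        · subst he
          rw [if_pos rfl, if_pos rfl, mul_one]
        · rw [if_neg he, if_neg, mul_zero]
          intro hf
          apply he
          have hc := lifts_card_eq_one hM hK hres τ₀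
          rw [Finset.card_eq_one] at hc
          obtain ⟨a, ha⟩ := hc
          have h3 : χ ∈ lifts M P τ₀ := mem_lifts.2 ⟨hχ, fun v => congrFun hf v⟩
          have h4 : χ₀ ∈ lifts M P τ₀ := mem_lifts.2 ⟨hχ₀, fun v => rfl⟩
          rw [ha, Finset.mem_singleton] at h3 h4
          rw [h3, h4]
      · have he : χ ≠ χ₀ := fun h => hχ (h ▸ hχ₀)
        rw [if_neg he, hoff χ hχ]
        simp
    simp only [hterm] at h0
    rw [Finset.sum_ite_eq' Finset.univ χ₀, if_pos (Finset.mem_univ _)] at h0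
    exact (mul_eq_zero.1 h0).resolve_right (card_ne_zero_complex _)
  funext g
  rw [hexp, Finset.sum_apply]
  refine Finset.sum_eq_zero fun χ _ => ?_
  by_cases hχ : χ ∈ principalBlock M G
  · rw [Pi.smul_apply, hon χ hχ, zero_smul]
  · rw [Pi.smul_apply, hoff χ hχ, zero_smul]

end Main

section RegFun

variable {V : Type*} [Group V] [Fintype V] {p : ℕ} [hp : Fact p.Prime]

/-- The class function on the quotient reading off the values on regular elements. -/
theorem exists_regFun (Q : Subgroup V) [hQ : Q.Normal] (hQp : IsPGroup p Q) (hQi : ¬ p ∣ Q.index) (τ : V → ℂ)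
    (hτ : IsClassFunction V τ) :
    ∃ F : V ⧸ Q → ℂ, IsClassFunction (V ⧸ Q) F ∧ ∀ v : V, ¬ p ∣ orderOf v → F (v : V ⧸ Q) = τ v := by
  classical
  haveI : Fintype (V ⧸ Q) := Fintype.ofFinite _
  have hreg : ∀ k : V ⧸ Q, ¬ p ∣ orderOf k := by
    intro k hd
    apply hQi
    rw [Subgroup.index_eq_card]
    exact hd.trans (orderOf_dvd_natCard k)
  choose r hr1 hr2 using fun k : V ⧸ Q => reg_surj (p := p) k (hreg k)
  have key : ∀ v w : V, ¬ p ∣ orderOf v → ¬ p ∣ orderOf w → (v : V ⧸ Q) = (w : V ⧸ Q) → τ v = τ w := by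
    intro v w hv hw he
    have h1 : v⁻¹ * w ∈ Q := QuotientGroup.eq.1 he
    have h2 : w * v⁻¹ ∈ Q := by
      have := hQ.conj_mem _ h1 v
      have e : v * (v⁻¹ * w) * v⁻¹ = w * v⁻¹ := by group
      rwa [e] at this
    obtain ⟨s, hs, hs2⟩ := Cfsg.Agent.Lib.Block.RegSupp.exists_conj_mod (K := (⊥ : Subgroup V)) (L := Q)
      (fun z hz => by
        obtain ⟨n, hn⟩ := (IsPGroup.iff_orderOf.mp hQp) ⟨z, hz⟩
        rw [Subgroup.orderOf_mk] at hn
        refine ⟨n, ?_⟩
        rw [Subgroup.mem_bot, ← hn, pow_orderOf_eq_one]) hv hw h2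
    rw [Subgroup.mem_bot, mul_inv_eq_one] at hs2
    rw [← hs2, show s⁻¹ * w * s = s⁻¹ * w * s⁻¹⁻¹ by group, hτ]
  refine ⟨fun k => τ (r k), ?_, ?_⟩
  · intro k x
    obtain ⟨x', rfl⟩ := QuotientGroup.mk_surjective x
    show τ (r _) = τ (r k)
    have h1 : (((x' * r k * x'⁻¹ : V)) : V ⧸ Q) = (x' : V ⧸ Q) * k * (x' : V ⧸ Q)⁻¹ := by
      rw [QuotientGroup.mk_mul, QuotientGroup.mk_mul, QuotientGroup.mk_inv, hr2]
    have h2 : ¬ p ∣ orderOf (x' * r k * x'⁻¹) := by
      have e : orderOf (x' * r k * x'⁻¹) = orderOf (r k) := by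
        rw [← MulAut.conj_apply, MulEquiv.orderOf_eq]
      rw [e]
      exact hr1 k
    rw [key _ _ (hr1 _) h2 (by rw [hr2, h1]), hτ]
  · intro v hv
    exact key _ _ (hr1 _) hv (hr2 _)

end RegFun

section Main2

variable {G : Type*} [Group G] [Fintype G] {p : ℕ} [hp : Fact p.Prime] {M : Ideal AlgInt}

/-- Regular elements of the normal closure of the Sylow subgroup lie in the kernels of the principal block. -/
theorem regular_ker (hM : IsPModular p M) (hK : pPrimeCore p G = ⊥) {P : Sylow p G} [Fintype (Nm P)]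
    (hres : ResIrr M P) {χ : IrrCharacter G} (hχ : χ ∈ principalBlock M G) {g : G}
    (hg : g ∈ Subgroup.normalClosure ((P : Subgroup G) : Set G)) (hreg : ¬ p ∣ orderOf g) :
    (χ : G → ℂ) g = (χ : G → ℂ) 1 := by
  classical
  have := isPModular_isPrime hM
  haveI : Fintype (Nm P ⧸ Qm P) := Fintype.ofFinite _
  have hQi : ¬ p ∣ (Qm P).index := by
    intro hd
    have h1 : (Qm P).index = (P : Subgroup G).relIndex (Nm P) := rfl
    rw [h1] at hd
    have h2 := Subgroup.relIndex_mul_index (le_Nm P)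
    exact P.not_dvd_index (hd.trans (Dvd.intro _ h2))
  let τ : IrrCharacter (Nm P) := ⟨_, hres χ hχ⟩
  obtain ⟨F, hF, hFv⟩ := exists_regFun (Qm P) (Qm_isPGroup P) hQi (τ : Nm P → ℂ)
    (IsCharacter.isClassFunction (IsIrrCharacter.isCharacter τ.2))
  have hexp := classFunction_eq_sum F hF
  have hlift : ∀ ψ : IrrCharacter (Nm P ⧸ Qm P), ∃ ξ : IrrCharacter G, ξ ∈ principalBlock M G ∧
      ∀ v : Nm P, (ξ : G → ℂ) v = ((Cfsg.Agent.Lib.Degree.inflate (Qm P) ψ : IrrCharacter (Nm P)) : Nm P → ℂ) v := by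
    intro ψ
    have h1 := lifts_card_eq_one hM hK hres (Cfsg.Agent.Lib.Degree.inflate (Qm P) ψ)
    rw [Finset.card_eq_one] at h1
    obtain ⟨a, ha⟩ := h1
    have h2 : a ∈ lifts M P (Cfsg.Agent.Lib.Degree.inflate (Qm P) ψ) := by
      rw [ha]
      exact Finset.mem_singleton_self a
    exact ⟨a, (mem_lifts.1 h2).1, (mem_lifts.1 h2).2⟩
  choose ξ hξ1 hξ2 using hlift
  have hξker : ∀ ψ, (ξ ψ : G → ℂ) g = (ξ ψ : G → ℂ) 1 := by
    intro ψ
    have hle : Subgroup.normalClosure ((P : Subgroup G) : Set G) ≤ blockKerSubgroup ({ξ ψ} : Set (IrrCharacter G)) := by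
      haveI := blockKerSubgroup_normal ({ξ ψ} : Set (IrrCharacter G))
      refine Subgroup.normalClosure_le_normal ?_
      intro u hu ζ hζ
      rw [Set.mem_singleton_iff] at hζ
      rw [hζ]
      have h1 := hξ2 ψ ⟨u, le_Nm P hu⟩
      have h2 := hξ2 ψ 1
      rw [OneMemClass.coe_one] at h2
      rw [h2]
      refine h1.trans ?_
      rw [Cfsg.Agent.Lib.Degree.inflate_apply, Cfsg.Agent.Lib.Degree.inflate_apply]
      have h5 : ((⟨u, le_Nm P hu⟩ : Nm P) : Nm P ⧸ Qm P) = ((1 : Nm P) : Nm P ⧸ Qm P) := by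
        rw [QuotientGroup.mk_one]
        exact (QuotientGroup.eq_one_iff (N := Qm P) _).2 hu
      rw [h5]
    exact hle hg (ξ ψ) rfl
  let a : IrrCharacter (Nm P ⧸ Qm P) → ℂ := fun ψ => classInner F (ψ : Nm P ⧸ Qm P → ℂ)
  let Θ : G → ℂ := pRegularPart p (χ : G → ℂ) - ∑ ψ : IrrCharacter (Nm P ⧸ Qm P), a ψ • pRegularPart p (ξ ψ : G → ℂ)
  have hΘ : Θ ∈ regSpan p (principalBlock M G) := by
    refine Submodule.sub_mem _ (Submodule.subset_span ⟨χ, hχ, rfl⟩) (Submodule.sum_mem _ fun ψ _ => ?_)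
    exact Submodule.smul_mem _ _ (Submodule.subset_span ⟨ξ ψ, hξ1 ψ, rfl⟩)
  have hVz : ∀ v : Nm P, Θ v = 0 := by
    intro v
    have hΘv : Θ v = pRegularPart p (χ : G → ℂ) v -
        ∑ ψ : IrrCharacter (Nm P ⧸ Qm P), a ψ * pRegularPart p (ξ ψ : G → ℂ) v := by
      show (pRegularPart p (χ : G → ℂ) - ∑ ψ : IrrCharacter (Nm P ⧸ Qm P), a ψ • pRegularPart p (ξ ψ : G → ℂ)) v = _
      rw [Pi.sub_apply, Finset.sum_apply]
      rfl
    rw [hΘv]
    by_cases hv : p ∣ orderOf (v : G)
    · simp [pRegularPart_of_sing hv]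
    · simp only [pRegularPart_of_reg hv]
      have hv' : ¬ p ∣ orderOf v := by rwa [← Subgroup.orderOf_coe]
      have h1 := hFv v hv'
      have h2 : F (v : Nm P ⧸ Qm P) = ∑ ψ : IrrCharacter (Nm P ⧸ Qm P), a ψ * (ψ : Nm P ⧸ Qm P → ℂ) v := by
        conv_lhs => rw [hexp]
        rw [Finset.sum_apply]
        rfl
      have h3 : ∀ ψ : IrrCharacter (Nm P ⧸ Qm P), (ξ ψ : G → ℂ) v = (ψ : Nm P ⧸ Qm P → ℂ) v := fun ψ => hξ2 ψ v
      simp only [h3]
      rw [← h2, h1, sub_eq_zero]
  have hzero := regSpan_eq_zero hM hK hres hΘ hVz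
  have hval : ∀ y : G, ¬ p ∣ orderOf y → (χ : G → ℂ) y = ∑ ψ : IrrCharacter (Nm P ⧸ Qm P), a ψ * (ξ ψ : G → ℂ) y := by
    intro y hy
    have h1 := congrFun hzero y
    have h2 : Θ y = pRegularPart p (χ : G → ℂ) y -
        ∑ ψ : IrrCharacter (Nm P ⧸ Qm P), a ψ * pRegularPart p (ξ ψ : G → ℂ) y := by
      show (pRegularPart p (χ : G → ℂ) - ∑ ψ : IrrCharacter (Nm P ⧸ Qm P), a ψ • pRegularPart p (ξ ψ : G → ℂ)) y = _
      rw [Pi.sub_apply, Finset.sum_apply]
      rfl
    rw [h2] at h1
    simp only [pRegularPart_of_reg hy] at h1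
    exact sub_eq_zero.1 h1
  rw [hval g hreg, hval 1 (by simpa using hp.out.one_lt.ne')]
  simp only [hξker]

/-- The main theorem in the case of trivial `p'`-core. -/
theorem sylow_normal (hM : IsPModular p M) (hK : pPrimeCore p G = ⊥) (P : Sylow p G) (hres : ResIrr M P) :
    (P : Subgroup G).Normal := by
  classical
  have := isPModular_isPrime hM
  haveI : Fintype (Nm P) := Fintype.ofFinite _
  set L := Subgroup.normalClosure ((P : Subgroup G) : Set G) with hL
  have hLn : L.Normal := Subgroup.normalClosure_normal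
  have hone : ∀ g ∈ L, ¬ p ∣ orderOf g → g = 1 := by
    intro g hg hreg
    have h1 : g ∈ blockKerSubgroup (principalBlock M G) := fun χ hχ => regular_ker hM hK hres hχ hg hreg
    have hnd := not_dvd_card_blockKer hM (isPBlock_principal (M := M) G)
    have h2 : blockKerSubgroup (principalBlock M G) ≤ pPrimeCore p G :=
      Cfsg.Agent.Lib.Core.le_pPrimeCore (blockKerSubgroup_normal _)
        ((Nat.Prime.coprime_iff_not_dvd hp.out).2 hnd).symm
    have h3 := h2 h1
    rw [hK] at h3
    exact h3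
  have hLp : IsPGroup p L := by
    intro l
    have hn : orderOf (l : G) ≠ 0 := (orderOf_pos _).ne'
    obtain ⟨k, m, hm, he⟩ := Nat.exists_eq_pow_mul_and_not_dvd hn p hp.out.ne_one
    refine ⟨k, ?_⟩
    apply Subtype.ext
    have h1 : ((l : G) ^ p ^ k) ^ m = 1 := by
      rw [← pow_mul, ← he, pow_orderOf_eq_one]
    have h2 : ¬ p ∣ orderOf ((l : G) ^ p ^ k) := fun hd => hm (hd.trans (orderOf_dvd_of_pow_eq_one h1))
    have h3 := hone _ (L.pow_mem l.2 _) h2
    simpa using h3
  have hPL : (P : Subgroup G) ≤ L := Subgroup.le_normalClosure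
  have he : L = (P : Subgroup G) := P.is_maximal' hLp hPL
  rw [← he]
  exact hLn

end Main2

end Cfsg.Agent.Lib.Block.PLenOne
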