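import Cfsg.Agent.Lib.Block.PLenOne

/-!
# `p`-length one and restriction to the Sylow normalizer: the general case
-/

set_option autoImplicit false
set_option linter.unusedSectionVars false
set_option linter.unusedSimpArgs false
set_option linter.unusedVariables false

open scoped ComplexConjugate
open Cfsg MonoidAlgebra Cfsg.Agent.Lib.Char Cfsg.Agent.Lib.Block Cfsg.Agent.Lib.Techniques

namespace Cfsg.Agent.Lib.Block.PLenOne

section Comp

variable {H K : Type*} [Group H] [Group K] [Fintype H] [Fintype K]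

/-- Inner products under a surjective homomorphism. -/
theorem classInner_comp_surj (π : H →* K) (hπ : Function.Surjective π) (φ ψ : K → ℂ) :
    classInner (φ ∘ π) (ψ ∘ π) = classInner φ ψ := by
  classical
  obtain ⟨d, hd⟩ : ∃ d : ℕ, d = (Finset.univ.filter (fun h : H => π h = 1)).card := ⟨_, rfl⟩
  have hfib : ∀ k : K, (Finset.univ.filter (fun h : H => π h = k)).card = d := by
    intro k
    rw [hd]
    exact MonoidHom.card_fiber_eq_of_mem_range π (hπ k) (hπ 1)
  have hsum : ∀ f : K → ℂ, ∑ h : H, f (π h) = (d : ℂ) * ∑ k : K, f k := by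
    intro f
    rw [← Finset.sum_fiberwise Finset.univ (fun h : H => π h) (fun h => f (π h)), Finset.mul_sum]
    refine Finset.sum_congr rfl fun k _ => ?_
    rw [Finset.sum_congr rfl (fun h hh => by rw [(Finset.mem_filter.1 hh).2]), Finset.sum_const, hfib, nsmul_eq_mul]
  have hcard : (Nat.card H : ℂ) = (d : ℂ) * (Nat.card K : ℂ) := by
    have h1 := hsum (fun _ => 1)
    simp only [Finset.sum_const, Finset.card_univ, nsmul_eq_mul, mul_one] at h1
    rw [Nat.card_eq_fintype_card, Nat.card_eq_fintype_card]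
    exact h1
  have hH : (Nat.card H : ℂ) ≠ 0 := card_ne_zero_complex _
  have hd0 : (d : ℂ) ≠ 0 := by
    intro h0
    rw [h0, zero_mul] at hcard
    exact hH hcard
  have hK0 : (Nat.card K : ℂ) ≠ 0 := card_ne_zero_complex _
  rw [classInner_def, classInner_def]
  have h2 := hsum (fun k => φ k * conj (ψ k))
  simp only [Function.comp_apply]
  rw [h2, hcard]
  field_simp

/-- A character whose composite with a surjection is irreducible is irreducible. -/
theorem isIrr_of_comp_surj (π : H →* K) (hπ : Function.Surjective π) {φ : K → ℂ} (hφ : IsCharacter K φ)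
    (h : IsIrrCharacter H (φ ∘ π)) : IsIrrCharacter K φ := by
  apply isIrr_of_character_norm_one hφ
  rw [← classInner_comp_surj π hπ φ φ]
  exact classInner_irr_self h

end Comp

section Frat

variable {G : Type*} [Group G] [Fintype G] {p : ℕ} [hp : Fact p.Prime]

/-- The Frattini argument modulo a normal subgroup. -/
theorem exists_normalizer_mk (P : Sylow p G) (K : Subgroup G) [hK : K.Normal] {g : G}
    (hg : conjS g (K ⊔ (P : Subgroup G)) = K ⊔ (P : Subgroup G)) :
    ∃ n ∈ Nm P, (n : G ⧸ K) = (g : G ⧸ K) := by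
  have hS : SylowIn p (P : Subgroup G) (K ⊔ (P : Subgroup G)) := by
    refine ⟨le_sup_right, P.isPGroup', ?_⟩
    intro hd
    have h1 := Subgroup.relIndex_mul_index (le_sup_right : (P : Subgroup G) ≤ K ⊔ (P : Subgroup G))
    exact P.not_dvd_index (hd.trans (Dvd.intro _ h1))
  obtain ⟨k, hk, hkg⟩ := frattini_in hS hg
  rw [sup_comm, Subgroup.mem_sup_of_normal_right] at hk
  obtain ⟨u, hu, k', hk', rfl⟩ := hk
  refine ⟨u * ((u * k')⁻¹ * g), Subgroup.mul_mem _ (le_Nm P hu) hkg, ?_⟩
  apply QuotientGroup.eq.2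
  have e2 : (u * ((u * k')⁻¹ * g))⁻¹ * g = g⁻¹ * (u * k' * u⁻¹) * g⁻¹⁻¹ := by group
  rw [e2]
  exact hK.conj_mem _ (hK.conj_mem k' hk' u) g⁻¹

end Frat

section Final

variable {G : Type*} [Group G] [Finite G] {p : ℕ} [hp : Fact p.Prime] {M : Ideal AlgInt}

/-- Groups of `p`-length one restrict the principal block irreducibly. -/
theorem resIrr_of_plength [Fintype G] (hM : IsPModular p M) (P : Sylow p G) (h : PLengthLE p 1 G) : ResIrr M P := by
  classical
  have := isPModular_isPrime hM
  have hi := (Cfsg.Agent.Lib.OddLocal.pLengthLE_one_iff p).1 h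
  have hPle := Cfsg.Agent.Lib.OddLocal.sylow_le_pPrimePCore p hi P
  set K := pPrimeCore p G with hK
  have hKnot : ¬ p ∣ Nat.card K := Cfsg.Agent.Lib.Core.not_dvd_card_pPrimeCore
  have hS : SylowIn p (P : Subgroup G) (pPrimePCore p G) := by
    refine ⟨hPle, P.isPGroup', ?_⟩
    intro hd
    have h1 := Subgroup.relIndex_mul_index hPle
    exact P.not_dvd_index (hd.trans (Dvd.intro _ h1))
  have hsup : K ⊔ (P : Subgroup G) = pPrimePCore p G := by
    apply le_antisymm
    · exact sup_le (pPrimeCore_le_pPrimePCore p) hPle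
    · have := pPrimePCore_le_sup hS
      rwa [sup_comm] at this
  have hsurj : Function.Surjective ((QuotientGroup.mk' K).comp (Nm P).subtype) := by
    intro q
    obtain ⟨g, rfl⟩ := QuotientGroup.mk_surjective q
    haveI := pPrimePCore_normal (G := G) p
    obtain ⟨n, hn, hne⟩ := exists_normalizer_mk P K (g := g) (by rw [hsup]; exact conjS_of_normal g _)
    exact ⟨⟨n, hn⟩, hne⟩
  intro χ hχ
  have hker := ker_of_principal K hM hKnot hχ
  obtain ⟨ψ, rfl⟩ := Cfsg.Agent.Lib.Degree.exists_inflate K (χ := χ) (by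
    intro n hn
    exact hker n hn)
  exact isIrr_comp_surjective ((QuotientGroup.mk' K).comp (Nm P).subtype) hsurj ψ.2

/-- The converse. -/
theorem plength_of_resIrr [Fintype G] (hM : IsPModular p M) (P : Sylow p G) (hres : ResIrr M P) : PLengthLE p 1 G := by
  classical
  set K := pPrimeCore p G with hK
  have hKnot : ¬ p ∣ Nat.card K := Cfsg.Agent.Lib.Core.not_dvd_card_pPrimeCore
  haveI : Fintype (G ⧸ K) := Fintype.ofFinite _
  have hbot : pPrimeCore p (G ⧸ K) = ⊥ := Cfsg.Agent.Lib.Core.pPrimeCore_quotient_eq_bot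
  let Pb : Sylow p (G ⧸ K) := P.mapSurjective (QuotientGroup.mk'_surjective K)
  have hPb : ((Pb : Subgroup (G ⧸ K))) = (P : Subgroup G).map (QuotientGroup.mk' K) := rfl
  have hresb : ResIrr M Pb := by
    intro χ hχ
    haveI : Fintype (Nm Pb) := Fintype.ofFinite _
    haveI : Fintype (Nm P) := Fintype.ofFinite _
    have hinfl := (Cfsg.Agent.Lib.Degree.inflate_mem_principal_iff K hM hKnot χ).2 hχ
    have hirr := hres _ hinfl
    have hmap : ∀ n : Nm P, ((n : G) : G ⧸ K) ∈ Nm Pb := by
      intro n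
      rw [Subgroup.mem_normalizer_iff]
      intro q
      obtain ⟨x, rfl⟩ := QuotientGroup.mk_surjective q
      rw [hPb]
      constructor
      · rintro ⟨u, hu, he⟩
        refine ⟨(n : G) * u * (n : G)⁻¹, (Subgroup.mem_normalizer_iff.1 n.2 u).1 hu, ?_⟩
        rw [← he]
        rfl
      · rintro ⟨u, hu, he⟩
        refine ⟨(n : G)⁻¹ * u * (n : G)⁻¹⁻¹, (Subgroup.mem_normalizer_iff.1 (Subgroup.inv_mem _ n.2) u).1 hu, ?_⟩
        have e : QuotientGroup.mk' K u = ((n : G) : G ⧸ K) * (x : G ⧸ K) * ((n : G) : G ⧸ K)⁻¹ := he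
        have e1 : QuotientGroup.mk' K ((n : G)⁻¹ * u * (n : G)⁻¹⁻¹) =
            ((n : G) : G ⧸ K)⁻¹ * QuotientGroup.mk' K u * ((n : G) : G ⧸ K) := by
          simp
        rw [e1, e]
        group
    let π : Nm P →* Nm Pb :=
      { toFun := fun n => ⟨((n : G) : G ⧸ K), hmap n⟩
        map_one' := rfl
        map_mul' := fun _ _ => rfl }
    have hπ : Function.Surjective π := by
      rintro ⟨q, hq⟩
      obtain ⟨g, rfl⟩ := QuotientGroup.mk_surjective q
      have h1 : ∀ y : G, (y : G ⧸ K) ∈ (Pb : Subgroup (G ⧸ K)) ↔ y ∈ K ⊔ (P : Subgroup G) := by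
        intro y
        rw [hPb, ← QuotientGroup.comap_map_mk']
        rfl
      have hc : conjS g (K ⊔ (P : Subgroup G)) = K ⊔ (P : Subgroup G) := by
        rw [← mem_normalizer_iff_conjS, Subgroup.mem_normalizer_iff]
        intro y
        rw [← h1, ← h1, QuotientGroup.mk_mul, QuotientGroup.mk_mul, QuotientGroup.mk_inv]
        exact Subgroup.mem_normalizer_iff.1 hq _
      obtain ⟨n, hn, hne⟩ := exists_normalizer_mk P K hc
      exact ⟨⟨n, hn⟩, Subtype.ext hne⟩
    apply isIrr_of_comp_surj π hπ (IsCharacter.restrict _ (IsIrrCharacter.isCharacter χ.2))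
    exact hirr
  have hnorm := sylow_normal hM hbot Pb hresb
  apply Cfsg.Agent.Lib.PGroup.plength_one_of_core
  have hle : (Pb : Subgroup (G ⧸ K)) ≤ pCore p (G ⧸ K) :=
    Cfsg.Agent.Lib.Core.le_pCore hnorm Pb.isPGroup'
  rw [← Subgroup.index_eq_card]
  rw [Nat.coprime_comm, Nat.Prime.coprime_iff_not_dvd hp.out]
  intro hd
  exact Pb.not_dvd_index (hd.trans (Subgroup.index_dvd_of_le hle))

end Final

end Cfsg.Agent.Lib.Block.PLenOne
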