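import Cfsg.Agent.Lib.Block.SectPerm
import Cfsg.Agent.Lib.Modular.PimBasis
import Cfsg.Agent.Lib.Degree.GaloisChar
import Cfsg.Agent.Lib.FF.AbelPairs
import Cfsg.Agent.Lib.Block.GaloisBlock

/-!
# The `p`-rational characters of a block

A Galois conjugation fixing the roots of unity of order prime to `p` has at least `l(B)` fixed points in the block `B`.
-/

set_option autoImplicit false
set_option linter.unusedSectionVars false
set_option linter.unusedSimpArgs false
set_option linter.unusedVariables false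
set_option linter.style.haveILetI false
set_option linter.unnecessarySimpa false

namespace Cfsg.Agent.Lib.Block

open Module Cfsg Cfsg.Agent.Lib.Modular Cfsg.Agent.Lib.Char Cfsg.Agent.Lib.CharExtra

attribute [local instance] Cfsg.Agent.Lib.BPair.subFintype

section Gen

/-- A generator of the group of the units modulo `p ^ a` as a power residue. -/
theorem exists_gen_unit (p a m : ℕ) [hp : Fact p.Prime] (hodd : p ≠ 2) (hm : Nat.Coprime p m) :
    ∃ k₀ : ℕ, Nat.Coprime k₀ (p ^ a * m) ∧ k₀ ≡ 1 [MOD m] ∧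
      ∀ k, Nat.Coprime k (p ^ a * m) → k ≡ 1 [MOD m] → ∃ j, k ≡ k₀ ^ j [MOD p ^ a * m] := by
  haveI : IsCyclic (ZMod (p ^ a))ˣ := ZMod.isCyclic_units_of_prime_pow p hp.out hodd a
  obtain ⟨g, hg⟩ := IsCyclic.exists_generator (α := (ZMod (p ^ a))ˣ)
  have hpm : Nat.Coprime (p ^ a) m := Nat.Coprime.pow_left _ hm
  haveI : NeZero (p ^ a) := ⟨pow_ne_zero _ hp.out.ne_zero⟩
  set c := (g : ZMod (p ^ a)).val with hc
  have hccop : Nat.Coprime c (p ^ a) := ZMod.val_coe_unit_coprime g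
  obtain ⟨k₀, hk₁, hk₂⟩ := Nat.chineseRemainder hpm c 1
  refine ⟨k₀, ?_, hk₂, ?_⟩
  · refine Nat.Coprime.mul_right ?_ ?_
    · rw [Nat.Coprime, hk₁.gcd_eq]
      exact hccop
    · rw [Nat.Coprime, hk₂.gcd_eq]
      simp
  · intro k hk hk1
    have hkp : Nat.Coprime k (p ^ a) := Nat.Coprime.coprime_mul_right_right hk
    let u : (ZMod (p ^ a))ˣ := ZMod.unitOfCoprime k hkp
    obtain ⟨j, hj⟩ := mem_powers_iff_mem_zpowers.2 (hg u)
    refine ⟨j, (Nat.modEq_and_modEq_iff_modEq_mul hpm).1 ⟨?_, ?_⟩⟩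
    · have h1 : ((k : ℕ) : ZMod (p ^ a)) = ((k₀ ^ j : ℕ) : ZMod (p ^ a)) := by
        have h2 : ((k₀ : ℕ) : ZMod (p ^ a)) = (g : ZMod (p ^ a)) := by
          rw [(ZMod.natCast_eq_natCast_iff _ _ _).2 hk₁, hc, ZMod.natCast_zmod_val]
        have hj' : g ^ j = u := hj
        push_cast
        rw [h2, ← Units.val_pow_eq_pow_val, hj']
        rfl
      exact (ZMod.natCast_eq_natCast_iff _ _ _).1 h1
    · have h1 : k₀ ^ j ≡ 1 ^ j [MOD m] := hk₂.pow j
      rw [one_pow] at h1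
      exact hk1.trans h1.symm

end Gen

section Pow

variable {G : Type*} [Group G] [Fintype G] {p : ℕ} [hp : Fact p.Prime] {M : Ideal AlgInt}

theorem pow_eq_self_of_reg {k : ℕ} (hk : k ≡ 1 [MOD Nat.card G / p ^ (Nat.card G).factorization p]) {y : G}
    (hy : ¬ p ∣ orderOf y) : y ^ k = y := by
  have h0 : Nat.card G ≠ 0 := Nat.card_pos.ne'
  have h1 : p ^ (Nat.card G).factorization p * (Nat.card G / p ^ (Nat.card G).factorization p) = Nat.card G :=
    Nat.ordProj_mul_ordCompl_eq_self _ _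
  have h2 : orderOf y ∣ Nat.card G / p ^ (Nat.card G).factorization p := by
    have h3 : orderOf y ∣ p ^ (Nat.card G).factorization p * (Nat.card G / p ^ (Nat.card G).factorization p) := by
      rw [h1]
      exact orderOf_dvd_natCard y
    have h4 : Nat.Coprime (orderOf y) (p ^ (Nat.card G).factorization p) :=
      Nat.Coprime.pow_right _ ((Nat.Prime.coprime_iff_not_dvd hp.out).2 hy).symm
    exact h4.dvd_of_dvd_mul_left h3
  have h5 := pow_eq_pow_iff_modEq.2 (hk.of_dvd h2)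
  rwa [pow_one] at h5

/-- The Galois conjugate of an irreducible character. -/
noncomputable def irrPow {k : ℕ} (hk0 : k.Coprime (Nat.card G)) (χ : IrrCharacter G) : IrrCharacter G :=
  ⟨fun g => (χ : G → ℂ) (g ^ k), Cfsg.Agent.Lib.Degree.galois_isIrr χ.2 hk0⟩

theorem irrPow_apply {k : ℕ} (hk0 : k.Coprime (Nat.card G)) (χ : IrrCharacter G) (g : G) :
    (irrPow hk0 χ : G → ℂ) g = (χ : G → ℂ) (g ^ k) := rfl

theorem irrPow_mem (hM : IsPModular p M) {A : Set (IrrCharacter G)} (hA : IsBlockUnion M A) {k : ℕ}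
    (hk0 : k.Coprime (Nat.card G)) (hk : k ≡ 1 [MOD Nat.card G / p ^ (Nat.card G).factorization p])
    {χ : IrrCharacter G} (hχ : χ ∈ A) : irrPow hk0 χ ∈ A := by
  classical
  have hc1 := IsCharacter.isClassFunction (IsIrrCharacter.isCharacter χ.2)
  have hc2 := IsCharacter.isClassFunction (IsIrrCharacter.isCharacter (irrPow hk0 χ).2)
  have hone : ¬ p ∣ orderOf (1 : G) := by
    rw [orderOf_one]
    exact hp.out.one_lt.ne' ∘ Nat.dvd_one.1
  have h1 := tr_eq_of_reg_eq hM hA hc1 hc2 (fun y hy => by rw [irrPow_apply, pow_eq_self_of_reg hk hy]) hone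
  have e : MonoidAlgebra.single (1 : G) (1 : ℂ) = 1 := rfl
  rw [e, mul_one, tr_blockElt, tr_blockElt, if_pos hχ] at h1
  by_contra hn
  rw [if_neg hn] at h1
  exact isIrr_one_ne_zero χ.2 h1

/-- Conjugation from the centralizer of `x` to the centralizer of `y`, where `t x ^ k t⁻¹ = y`. -/
def conjIso {x y t : G} {k : ℕ} (hk0 : k.Coprime (Nat.card G)) (h : t * x ^ k * t⁻¹ = y) :
    Subgroup.centralizer ({x} : Set G) ≃* Subgroup.centralizer ({y} : Set G) where
  toFun c := ⟨t * c * t⁻¹, by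
    have hc : (c : G) * x = x * c := mem_centralizer_singleton.1 c.2
    have hck : (c : G) * x ^ k = x ^ k * c := ((Commute.pow_right (show Commute (c : G) x from hc) k)).eq
    rw [mem_centralizer_singleton, ← h]
    calc t * (c : G) * t⁻¹ * (t * x ^ k * t⁻¹) = t * ((c : G) * x ^ k) * t⁻¹ := by group
      _ = t * (x ^ k * c) * t⁻¹ := by rw [hck]
      _ = t * x ^ k * t⁻¹ * (t * c * t⁻¹) := by group⟩
  invFun d := ⟨t⁻¹ * d * t, by
    have hd : (d : G) * y = y * d := mem_centralizer_singleton.1 d.2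
    rw [← centralizer_pow_coprime x hk0, mem_centralizer_singleton]
    have hd' : (d : G) * (t * x ^ k * t⁻¹) = (t * x ^ k * t⁻¹) * d := by
      rw [h]
      exact hd
    have h1 : t⁻¹ * ((d : G) * (t * x ^ k * t⁻¹)) * t = t⁻¹ * ((t * x ^ k * t⁻¹) * d) * t := by rw [hd']
    calc t⁻¹ * (d : G) * t * x ^ k = t⁻¹ * ((d : G) * (t * x ^ k * t⁻¹)) * t := by group
      _ = t⁻¹ * ((t * x ^ k * t⁻¹) * d) * t := h1
      _ = x ^ k * (t⁻¹ * d * t) := by group⟩
  left_inv c := by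
    apply Subtype.ext
    show t⁻¹ * (t * (c : G) * t⁻¹) * t = c
    group
  right_inv d := by
    apply Subtype.ext
    show t * (t⁻¹ * (d : G) * t) * t⁻¹ = d
    group
  map_mul' a b := by
    apply Subtype.ext
    show t * ((a : G) * b) * t⁻¹ = t * a * t⁻¹ * (t * b * t⁻¹)
    group

theorem conjIso_coe {x y t : G} {k : ℕ} (hk0 : k.Coprime (Nat.card G)) (h : t * x ^ k * t⁻¹ = y)
    (c : Subgroup.centralizer ({x} : Set G)) : ((conjIso hk0 h c : Subgroup.centralizer ({y} : Set G)) : G) = t * c * t⁻¹ := rfl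

theorem conjIso_symm_coe {x y t : G} {k : ℕ} (hk0 : k.Coprime (Nat.card G)) (h : t * x ^ k * t⁻¹ = y)
    (d : Subgroup.centralizer ({y} : Set G)) :
    (((conjIso hk0 h).symm d : Subgroup.centralizer ({x} : Set G)) : G) = t⁻¹ * d * t := rfl

/-- The section map and the power map. -/
theorem secMap_pow {ϑ : G → ℂ} (hϑ : IsClassFunction G ϑ) {x y t : G} {k : ℕ} (hk0 : k.Coprime (Nat.card G))
    (hk : k ≡ 1 [MOD Nat.card G / p ^ (Nat.card G).factorization p]) (h : t * x ^ k * t⁻¹ = y) :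
    secMap p x (fun g => ϑ (g ^ k)) = secMap p y ϑ ∘ conjIso hk0 h := by
  funext c
  rw [Function.comp_apply, secMap_apply, secMap_apply]
  by_cases hc : p ∣ orderOf c
  · rw [pRegularPart_of_sing hc, pRegularPart_of_sing (by rwa [MulEquiv.orderOf_eq])]
  · rw [pRegularPart_of_reg hc, pRegularPart_of_reg (by rwa [MulEquiv.orderOf_eq])]
    have hcm : Commute x (c : G) := (mem_centralizer_singleton.1 c.2).symm
    have hcr : ¬ p ∣ orderOf (c : G) := by rwa [Subgroup.orderOf_coe]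
    rw [hcm.mul_pow, pow_eq_self_of_reg hk hcr, conjIso_coe, ← h, ← hϑ (x ^ k * c) t]
    congr 1
    group

end Pow

section Sigma

theorem sigma_mk_eq_of {G : Type*} [Group G] {X : Type*} (K : X → Subgroup G) (S : ∀ x, Set (K x → ℂ)) {x y : X}
    (h : y = x) (b : S y) (g : S x) (hb : ∀ (c : K x) (c' : K y), (c' : G) = c → b.1 c' = g.1 c) :
    (⟨y, b⟩ : Σ x, S x) = ⟨x, g⟩ := by
  subst h
  congr 1
  apply Subtype.ext
  funext c
  exact hb c c rfl

end Sigma

section Main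

variable {G : Type*} [Group G] [Fintype G] {p : ℕ} [hp : Fact p.Prime] {M : Ideal AlgInt}

/-- **A Galois conjugation fixing the `p'`-roots of unity has at least `l(B)` fixed points in the block `B`.** -/
theorem blockRank_le_card_fixed (hM : IsPModular p M) {B : Set (IrrCharacter G)} (hB : IsPBlock M B) {k : ℕ}
    (hk0 : k.Coprime (Nat.card G)) (hk : k ≡ 1 [MOD Nat.card G / p ^ (Nat.card G).factorization p]) :
    blockRank p B ≤ Nat.card {χ : B // ∀ g : G, ((χ : IrrCharacter G) : G → ℂ) (g ^ k) = ((χ : IrrCharacter G) : G → ℂ) g} := by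
  classical
  haveI := isPModular_isPrime hM
  have hA : IsBlockUnion M B := isBlockUnion_of_isPBlock hB
  obtain ⟨X, hX, hXrep⟩ := Cfsg.Agent.Lib.FF.exists_reps p G
  -- the linear map
  let powL : (G → ℂ) →ₗ[ℂ] (G → ℂ) := LinearMap.funLeft ℂ ℂ (fun g : G => g ^ k)
  have hpowL : ∀ (f : G → ℂ) (g : G), powL f g = f (g ^ k) := fun f g => rfl
  have hpowmem : ∀ f ∈ irrSpan B, powL f ∈ irrSpan B := by
    intro f hf
    induction hf using Submodule.span_induction with
    | mem f hf =>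
      obtain ⟨χ, hχ, rfl⟩ := hf
      exact Submodule.subset_span ⟨irrPow hk0 χ, irrPow_mem hM hA hk0 hk hχ, rfl⟩
    | zero => rw [map_zero]; exact Submodule.zero_mem _
    | add a b _ _ ha hb => rw [map_add]; exact Submodule.add_mem _ ha hb
    | smul c a _ ha => rw [map_smul]; exact Submodule.smul_mem _ _ ha
  let T : irrSpan B →ₗ[ℂ] irrSpan B := powL.restrict hpowmem
  have hTapp : ∀ (v : irrSpan B), ((T v : irrSpan B) : G → ℂ) = fun g => (v : G → ℂ) (g ^ k) := fun v => rfl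
  -- the first basis
  have hli : LinearIndependent ℂ (fun χ : B => (⟨(χ : IrrCharacter G), Submodule.subset_span ⟨χ, χ.2, rfl⟩⟩ : irrSpan B)) := by
    refine LinearIndependent.of_comp (irrSpan B).subtype ?_
    exact Cfsg.Agent.Lib.Char.irr_linearIndependent.comp _ Subtype.val_injective
  have hsp : ⊤ ≤ Submodule.span ℂ (Set.range fun χ : B => (⟨(χ : IrrCharacter G), Submodule.subset_span ⟨χ, χ.2, rfl⟩⟩ : irrSpan B)) := by
    have claim : ∀ y, y ∈ irrSpan B → ∀ hy' : y ∈ irrSpan B,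
        (⟨y, hy'⟩ : irrSpan B) ∈ Submodule.span ℂ (Set.range fun χ : B => (⟨(χ : IrrCharacter G), Submodule.subset_span ⟨χ, χ.2, rfl⟩⟩ : irrSpan B)) := by
      intro y hy
      induction hy using Submodule.span_induction with
      | mem y hy =>
        obtain ⟨χ, hχ, rfl⟩ := hy
        intro hy'
        exact Submodule.subset_span ⟨⟨χ, hχ⟩, rfl⟩
      | zero =>
        intro _
        exact Submodule.zero_mem _
      | add a b ha' hb' ha hb =>
        intro hy'
        exact Submodule.add_mem _ (ha ha') (hb hb')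
      | smul c a ha' ha =>
        intro hy'
        exact Submodule.smul_mem _ c (ha ha')
    rintro ⟨w, hw⟩ -
    exact claim w hw hw
  let b₁ : Basis B ℂ (irrSpan B) := Basis.mk hli hsp
  have hb₁ : ∀ χ : B, ((b₁ χ : irrSpan B) : G → ℂ) = (χ : IrrCharacter G) := by
    intro χ
    have := Basis.mk_apply hli hsp χ
    rw [show Basis.mk hli hsp χ = b₁ χ from rfl] at this
    rw [this]
  let π : B → B := fun χ => ⟨irrPow hk0 χ, irrPow_mem hM hA hk0 hk χ.2⟩
  have hπ : ∀ χ, T (b₁ χ) = b₁ (π χ) := by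
    intro χ
    apply Subtype.ext
    rw [hTapp, hb₁, hb₁]
    rfl
  haveI : FiniteDimensional ℂ (irrSpan B) := Module.Finite.of_basis b₁
  have hTinj : Function.Injective T := by
    rw [← LinearMap.ker_eq_bot, LinearMap.ker_eq_bot']
    rintro ⟨v, hv⟩ h0
    apply Subtype.ext
    funext g
    obtain ⟨j, hj⟩ := Cfsg.Agent.Lib.Degree.exists_pow_inv G hk0
    have h1 : v (((g⁻¹) ^ j) ^ k) = 0 := congrFun (congrArg Subtype.val h0) ((g⁻¹) ^ j)
    rw [hj, inv_inv] at h1
    exact h1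
  have hTsurj : Function.Surjective T := (LinearMap.injective_iff_surjective).1 hTinj
  -- the sections
  let C : X → Subgroup G := fun x => Subgroup.centralizer ({(x : G)} : Set G)
  let R : ∀ x : X, Submodule ℂ (C x → ℂ) := fun x => regSpan p (indSet M (C x) B)
  let S : ∀ x : X, Set (C x → ℂ) := fun x => pimSet p M (C x) ∩ R x
  have hSf : ∀ x, (S x).Finite := fun x => (pimSet_finite hM).subset Set.inter_subset_left
  have hSi : ∀ x, LinearIndepOn ℂ id (S x) := fun x => (pimSet_indep hM).mono Set.inter_subset_left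
  have hSR : ∀ x, S x ⊆ R x := fun x => Set.inter_subset_right
  have hSs : ∀ x, Submodule.span ℂ (S x) = R x := fun x => span_pimSet_inter hM (isBlockUnion_indSet _ B)
  let Ψ₀ : irrSpan B →ₗ[ℂ] (∀ x : X, R x) := LinearMap.pi fun x =>
    (secMap p (x : G)).restrict fun ϑ hϑ => secMap_mem hM hA (hX _ x.2) hϑ
  have hΨ₀ : ∀ (v : irrSpan B) (x : X), ((Ψ₀ v x : R x) : C x → ℂ) = secMap p (x : G) (v : G → ℂ) := fun v x => rfl
  have hinj : Function.Injective Ψ₀ := by
    rw [← LinearMap.ker_eq_bot, LinearMap.ker_eq_bot']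
    rintro ⟨ϑ, hϑ⟩ h
    apply Subtype.ext
    refine secMap_injective X hXrep (irrSpan_isClassFunction hϑ) fun x hx => ?_
    have h1 := congrFun h ⟨x, hx⟩
    exact congrArg Subtype.val h1
  have hfinrank : finrank ℂ (irrSpan B) = finrank ℂ (∀ x : X, R x) := by
    rw [finrank_irrSpan_eq hM hA X hX hXrep, Module.finrank_pi_fintype, ← Finset.sum_coe_sort X]
    rfl
  let Ψ : irrSpan B ≃ₗ[ℂ] (∀ x : X, R x) := LinearMap.linearEquivOfInjective Ψ₀ hinj hfinrank
  have hΨ : ∀ (v : irrSpan B) (x : X), ((Ψ v x : R x) : C x → ℂ) = secMap p (x : G) (v : G → ℂ) := fun v x => rfl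
  -- the shift
  have hshift : ∀ x : X, ∃ (y : X) (t : G), t * (x : G) ^ k * t⁻¹ = y := by
    intro x
    obtain ⟨e, he⟩ := hX _ x.2
    have hc : Nat.Coprime (orderOf (x : G)) k := (hk0.coprime_dvd_right (orderOf_dvd_natCard _)).symm
    have ho : orderOf ((x : G) ^ k) = p ^ e := by
      rw [hc.orderOf_pow, he]
    obtain ⟨y, ⟨hy, hcy⟩, -⟩ := hXrep _ ⟨e, ho⟩
    obtain ⟨t, ht⟩ := isConj_iff.1 hcy
    exact ⟨⟨y, hy⟩, t, ht⟩
  choose sh t ht using hshift
  let ι : ∀ x : X, C x ≃* C (sh x) := fun x => conjIso hk0 (ht x)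
  have hcompat : ∀ v x, ((Ψ (T v) x : R x) : C x → ℂ) = ((Ψ v (sh x) : R (sh x)) : C (sh x) → ℂ) ∘ (ι x).toEquiv := by
    intro v x
    rw [hΨ, hΨ, hTapp]
    exact secMap_pow (irrSpan_isClassFunction v.2) hk0 hk (ht x)
  have h1 : ∀ x, ∀ f ∈ S (sh x), f ∘ (ι x).toEquiv ∈ S x := by
    intro x f hf
    refine ⟨pimSet_comp (ι x) hf.1, ?_⟩
    obtain ⟨v, hv⟩ := Ψ.surjective (Pi.single (sh x) ⟨f, hSR _ hf⟩)
    have h2 := hcompat v x
    have h3 : ((Ψ v (sh x) : R (sh x)) : C (sh x) → ℂ) = f := by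
      rw [hv, Pi.single_eq_same]
    rw [h3] at h2
    rw [show f ∘ (ι x).toEquiv = _ from h2.symm]
    exact (Ψ (T v) x).2
  have h2 : ∀ x, ∀ g ∈ S x, g ∘ (ι x).toEquiv.symm ∈ S (sh x) := by
    intro x g hg
    refine ⟨pimSet_comp (ι x).symm hg.1, ?_⟩
    obtain ⟨v₀, hv₀⟩ := Ψ.surjective (Pi.single x ⟨g, hSR _ hg⟩)
    obtain ⟨v, rfl⟩ := hTsurj v₀
    have h3 := hcompat v x
    have h4 : ((Ψ (T v) x : R x) : C x → ℂ) = g := by
      rw [hv₀, Pi.single_eq_same]
    rw [h4] at h3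
    have h5 : g ∘ (ι x).toEquiv.symm = ((Ψ v (sh x) : R (sh x)) : C (sh x) → ℂ) := by
      rw [h3]
      funext c
      simp
    rw [h5]
    exact (Ψ v (sh x)).2
  -- the identity
  obtain ⟨x₀, ⟨hx₀, hc₀⟩, -⟩ := hXrep 1 ⟨0, by simp⟩
  have hx₀1 : x₀ = 1 := by
    obtain ⟨c, hc⟩ := isConj_iff.1 hc₀
    rw [← hc]
    group
  let x₁ : X := ⟨x₀, hx₀⟩
  have hx₁ : (x₁ : G) = 1 := hx₀1
  have hsh : sh x₁ = x₁ := by
    apply Subtype.ext
    rw [← ht x₁, hx₁]
    simp
  have hfix : ∀ g : S x₁, (⟨sh x₁, ⟨g.1 ∘ (ι x₁).toEquiv.symm, h2 _ _ g.2⟩⟩ : Σ x, S x) = ⟨x₁, g⟩ := by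
    intro g
    refine sigma_mk_eq_of C S hsh _ g fun c c' hcc' => ?_
    have hg := regSpan_isClassFunction (hSR _ g.2)
    have hmem : (t x₁)⁻¹ ∈ C x₁ := by
      show (t x₁)⁻¹ ∈ Subgroup.centralizer ({(x₁ : G)} : Set G)
      rw [hx₁]
      exact Cfsg.Agent.Lib.FF.mem_centralizer_one' _
    have h3 := hg c ⟨(t x₁)⁻¹, hmem⟩
    refine Eq.trans ?_ h3
    have e : (ι x₁).symm c' = ⟨(t x₁)⁻¹, hmem⟩ * c * (⟨(t x₁)⁻¹, hmem⟩ : C x₁)⁻¹ := by
      apply Subtype.ext
      show (t x₁)⁻¹ * (c' : G) * t x₁ = (t x₁)⁻¹ * (c : G) * ((t x₁)⁻¹)⁻¹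
      rw [hcc', inv_inv]
    show g.1 ((ι x₁).symm c') = _
    rw [e]
  have hmain := card_fixed_of_sections (fun x : X => (C x : Type _)) R S hSf hSi hSR hSs T Ψ b₁ π hπ sh
    (fun x => (ι x).toEquiv) hcompat h1 h2 x₁ hfix
  -- the rank
  have hrank : blockRank p B = Nat.card (S x₁) := by
    haveI : Fintype (S x₁) := (hSf x₁).fintype
    have e1 : ∀ y : G, y = 1 → blockRank p (indSet M (Subgroup.centralizer ({y} : Set G)) B) = blockRank p B := by
      rintro _ rfl
      rw [blockRank_indSet_eq hM _ hB, Cfsg.Agent.Lib.FF.term_one hM hB]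
    rw [← e1 _ hx₁, blockRank_eq_finrank, Nat.card_eq_fintype_card]
    have e2 := finrank_span_set_eq_card (hSi x₁)
    rw [hSs x₁, Set.toFinset_card] at e2
    exact e2
  rw [hrank]
  refine hmain.trans ?_
  refine Nat.card_le_card_of_injective (fun i : {i // π i = i} =>
    (⟨i.1, fun g => congrFun (congrArg (fun χ : B => ((χ : IrrCharacter G) : G → ℂ)) i.2) g⟩ :
      {χ : B // ∀ g : G, ((χ : IrrCharacter G) : G → ℂ) (g ^ k) = ((χ : IrrCharacter G) : G → ℂ) g})) ?_
  intro i i' h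
  have h3 : (i : B) = i' := congrArg (fun z : {χ : B // ∀ g : G, ((χ : IrrCharacter G) : G → ℂ) (g ^ k) = ((χ : IrrCharacter G) : G → ℂ) g} => (z : B)) h
  exact Subtype.ext h3

end Main

end Cfsg.Agent.Lib.Block
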