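import Mathlib
import Cfsg.Agent.Lib.Transfer.Frobenius

/-!
# Sylow 2-subgroups isomorphic to the quaternion group of order 8: fusion
-/

set_option autoImplicit false
set_option linter.unusedSectionVars false
set_option linter.unusedSimpArgs false
set_option linter.unusedVariables false

open Cfsg

namespace Cfsg.Agent.Lib.Block

section Q8

variable {G : Type*} [Group G]

/-- The element data of a quaternion group. -/
theorem q8_data (S : Subgroup G) (e : S ≃* QuaternionGroup 2) :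
    Nat.card S = 8 ∧ ∃ z ∈ S, z ≠ 1 ∧ z * z = 1 ∧ ∀ u ∈ S, u ≠ 1 → u ≠ z → u * u = z := by
  refine ⟨?_, ?_⟩
  · rw [Nat.card_congr e.toEquiv, Nat.card_eq_fintype_card, QuaternionGroup.card]
  · set z₀ : QuaternionGroup 2 := QuaternionGroup.a 2 with hz₀
    have hq : ∀ q : QuaternionGroup 2, q ≠ 1 → q ≠ z₀ → q * q = z₀ := by decide
    have hq1 : z₀ ≠ 1 := by decide
    have hq2 : z₀ * z₀ = 1 := by decide
    refine ⟨(e.symm z₀ : S), (e.symm z₀).2, ?_, ?_, ?_⟩
    · intro h
      apply hq1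
      have : e.symm z₀ = 1 := Subtype.ext h
      have h2 := congrArg e this
      rwa [e.apply_symm_apply, map_one] at h2
    · have : e.symm z₀ * e.symm z₀ = 1 := by
        rw [← map_mul, hq2, map_one]
      exact congrArg Subtype.val this
    · intro u hu hu1 huz
      have h1 : e ⟨u, hu⟩ ≠ 1 := by
        intro h
        apply hu1
        have := e.injective (h.trans (map_one e).symm)
        exact congrArg Subtype.val this
      have h2 : e ⟨u, hu⟩ ≠ z₀ := by
        intro h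
        apply huz
        have := e.symm_apply_apply ⟨u, hu⟩
        rw [h] at this
        exact (congrArg Subtype.val this).symm
      have h3 := hq _ h1 h2
      have h4 : e ⟨u * u, S.mul_mem hu hu⟩ = z₀ := by
        rw [← h3, ← map_mul]
        rfl
      have h5 := e.symm_apply_apply ⟨u * u, S.mul_mem hu hu⟩
      rw [h4] at h5
      exact (congrArg Subtype.val h5).symm

variable [Finite G] {S : Subgroup G} {z : G} (hS8 : Nat.card S = 8) (hz : z ∈ S) (hz1 : z ≠ 1) (hz2 : z * z = 1)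
  (h4 : ∀ u ∈ S, u ≠ 1 → u ≠ z → u * u = z)

include hz1 hz2 h4 in
theorem q8_inv_ne {u : G} (hu : u ∈ S) (hu1 : u ≠ 1) (huz : u ≠ z) : u⁻¹ ≠ u := by
  intro h
  have h2 := h4 u hu hu1 huz
  apply hz1
  rw [← h2]
  nth_rewrite 1 [← h]
  simp

include hz hz1 hz2 h4 in
theorem q8_inv_props {u : G} (hu : u ∈ S) (hu1 : u ≠ 1) (huz : u ≠ z) : u⁻¹ ∈ S ∧ u⁻¹ ≠ 1 ∧ u⁻¹ ≠ z := by
  refine ⟨S.inv_mem hu, fun h => hu1 (inv_eq_one.1 h), fun h => huz ?_⟩
  have hzi : z⁻¹ = z := inv_eq_of_mul_eq_one_left hz2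
  have := congrArg (fun x => x⁻¹) h
  simp only [inv_inv] at this
  rw [this, hzi]

include hS8 hz hz1 hz2 h4 in
/-- Two nonproportional elements of order four generate. -/
theorem q8_gen {T : Subgroup G} (hT : T ≤ S) {u v : G} (hu : u ∈ T) (hv : v ∈ T) (hu1 : u ≠ 1) (huz : u ≠ z)
    (hv1 : v ≠ 1) (hvz : v ≠ z) (hvu : v ≠ u) (hvu' : v ≠ u⁻¹) : T = S := by
  classical
  haveI : Fintype G := Fintype.ofFinite _
  have huS := hT hu
  have hvS := hT hv
  have hi := q8_inv_props hz hz1 hz2 h4 huS hu1 huz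
  have hne := q8_inv_ne hz1 hz2 h4 huS hu1 huz
  have hzT : z ∈ T := by
    rw [← h4 u huS hu1 huz]
    exact T.mul_mem hu hu
  -- five elements
  have hfive : ({1, z, u, u⁻¹, v} : Finset G).card = 5 := by
    rw [Finset.card_insert_of_notMem, Finset.card_insert_of_notMem, Finset.card_insert_of_notMem,
      Finset.card_pair (Ne.symm hvu')]
    · simp only [Finset.mem_insert, Finset.mem_singleton, not_or]
      exact ⟨hne.symm, hvu.symm⟩
    · simp only [Finset.mem_insert, Finset.mem_singleton, not_or]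
      exact ⟨huz.symm, hi.2.2.symm, hvz.symm⟩
    · simp only [Finset.mem_insert, Finset.mem_singleton, not_or]
      exact ⟨hz1.symm, hu1.symm, hi.2.1.symm, hv1.symm⟩
  have hsub : ((({1, z, u, u⁻¹, v} : Finset G)) : Set G) ⊆ (T : Set G) := by
    intro x hx
    simp only [Finset.coe_insert, Finset.coe_singleton, Set.mem_insert_iff, Set.mem_singleton_iff] at hx
    rcases hx with rfl | rfl | rfl | rfl | rfl
    · exact T.one_mem
    · exact hzT
    · exact hu
    · exact T.inv_mem hu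
    · exact hv
  have hcard : 5 ≤ Nat.card T := by
    have h1 := Set.ncard_le_ncard hsub (Set.toFinite _)
    rw [Set.ncard_coe_finset, hfive] at h1
    rwa [← Nat.card_coe_set_eq] at h1
  have hdvd : Nat.card T ∣ 8 := by
    rw [← hS8]
    exact Subgroup.card_dvd_of_le hT
  have h8 : Nat.card T = 8 := by
    have h9 := Nat.le_of_dvd (by norm_num) hdvd
    interval_cases h : Nat.card T <;> simp_all
  exact Subgroup.eq_of_le_of_card_ge hT (by rw [hS8, h8])

/-- An element of odd order lies in the group generated by its square. -/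
theorem odd_mem_of_sq {g x : G} (hg : ¬ 2 ∣ orderOf g) (h : g * g * x = x * (g * g)) : g * x = x * g := by
  have hodd : Odd (orderOf g) := by
    rwa [← Nat.not_even_iff_odd, even_iff_two_dvd]
  obtain ⟨k, hk⟩ := hodd
  have h1 : Commute (g * g) x := h
  have h2 : Commute ((g * g) ^ (k + 1)) x := h1.pow_left _
  have h3 : (g * g) ^ (k + 1) = g := by
    rw [← pow_two, ← pow_mul]
    have : 2 * (k + 1) = orderOf g + 1 := by omega
    rw [this, pow_succ, pow_orderOf_eq_one, one_mul]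
  rw [h3] at h2
  exact h2

theorem odd_fix_of_inv {g u : G} (hg : ¬ 2 ∣ orderOf g) (h : g * u * g⁻¹ = u⁻¹) : g * u = u * g := by
  apply odd_mem_of_sq hg
  have h1 : g * u⁻¹ * g⁻¹ = u := by
    have := congrArg (fun x => x⁻¹) h
    simpa [mul_assoc] using this
  have h2 : g * g * u * (g * g)⁻¹ = u := by
    calc g * g * u * (g * g)⁻¹ = g * (g * u * g⁻¹) * g⁻¹ := by group
      _ = u := by rw [h, h1]
  calc g * g * u = (g * g * u * (g * g)⁻¹) * (g * g) := by group
    _ = u * (g * g) := by rw [h2]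

include hS8 hz hz1 hz2 h4 in
/-- The elements of `S` other than `1` and `z` form three pairs. -/
theorem q8_exhaust {u v w s : G} (hu : u ∈ S) (hv : v ∈ S) (hw : w ∈ S) (hs : s ∈ S) (hu1 : u ≠ 1) (huz : u ≠ z)
    (hv1 : v ≠ 1) (hvz : v ≠ z) (hw1 : w ≠ 1) (hwz : w ≠ z) (hvu : v ≠ u) (hvu' : v ≠ u⁻¹) (hwu : w ≠ u) (hwu' : w ≠ u⁻¹)
    (hwv : w ≠ v) (hwv' : w ≠ v⁻¹) :
    s = 1 ∨ s = z ∨ s = u ∨ s = u⁻¹ ∨ s = v ∨ s = v⁻¹ ∨ s = w ∨ s = w⁻¹ := by
  classical
  by_contra hcon
  simp only [not_or] at hcon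
  obtain ⟨c1, c2, c3, c4, c5, c6, c7, c8⟩ := hcon
  have hiu := q8_inv_props hz hz1 hz2 h4 hu hu1 huz
  have hiv := q8_inv_props hz hz1 hz2 h4 hv hv1 hvz
  have hiw := q8_inv_props hz hz1 hz2 h4 hw hw1 hwz
  have hneu := q8_inv_ne hz1 hz2 h4 hu hu1 huz
  have hnev := q8_inv_ne hz1 hz2 h4 hv hv1 hvz
  have hnew := q8_inv_ne hz1 hz2 h4 hw hw1 hwz
  have hinv : ∀ {a b : G}, a ≠ b → a⁻¹ ≠ b⁻¹ := fun h e => h (inv_injective e)
  have h1 : v⁻¹ ≠ u := fun e => hvu' (by rw [← e, inv_inv])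
  have h2 : w⁻¹ ≠ u := fun e => hwu' (by rw [← e, inv_inv])
  have h3 : w⁻¹ ≠ v := fun e => hwv' (by rw [← e, inv_inv])
  have hnine : ({1, z, u, u⁻¹, v, v⁻¹, w, w⁻¹, s} : Finset G).card = 9 := by
    rw [Finset.card_insert_of_notMem, Finset.card_insert_of_notMem, Finset.card_insert_of_notMem,
      Finset.card_insert_of_notMem, Finset.card_insert_of_notMem, Finset.card_insert_of_notMem,
      Finset.card_insert_of_notMem, Finset.card_pair (Ne.symm c8)]
    · simp only [Finset.mem_insert, Finset.mem_singleton, not_or]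
      exact ⟨hnew.symm, Ne.symm c7⟩
    · simp only [Finset.mem_insert, Finset.mem_singleton, not_or]
      exact ⟨hwv'.symm, hinv hwv |>.symm, Ne.symm c6⟩
    · simp only [Finset.mem_insert, Finset.mem_singleton, not_or]
      exact ⟨hnev.symm, hwv.symm, h3.symm, Ne.symm c5⟩
    · simp only [Finset.mem_insert, Finset.mem_singleton, not_or]
      exact ⟨hvu'.symm, (hinv hvu).symm, hwu'.symm, (hinv hwu).symm, Ne.symm c4⟩
    · simp only [Finset.mem_insert, Finset.mem_singleton, not_or]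
      exact ⟨hneu.symm, hvu.symm, h1.symm, hwu.symm, h2.symm, Ne.symm c3⟩
    · simp only [Finset.mem_insert, Finset.mem_singleton, not_or]
      exact ⟨huz.symm, hiu.2.2.symm, hvz.symm, hiv.2.2.symm, hwz.symm, hiw.2.2.symm, Ne.symm c2⟩
    · simp only [Finset.mem_insert, Finset.mem_singleton, not_or]
      exact ⟨hz1.symm, hu1.symm, hiu.2.1.symm, hv1.symm, hiv.2.1.symm, hw1.symm, hiw.2.1.symm, Ne.symm c1⟩
  have hsub : ((({1, z, u, u⁻¹, v, v⁻¹, w, w⁻¹, s} : Finset G)) : Set G) ⊆ (S : Set G) := by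
    intro x hx
    simp only [Finset.coe_insert, Finset.coe_singleton, Set.mem_insert_iff, Set.mem_singleton_iff] at hx
    rcases hx with rfl | rfl | rfl | rfl | rfl | rfl | rfl | rfl | rfl
    · exact S.one_mem
    · exact hz
    · exact hu
    · exact S.inv_mem hu
    · exact hv
    · exact S.inv_mem hv
    · exact hw
    · exact S.inv_mem hw
    · exact hs
  have hcard := Set.ncard_le_ncard hsub (Set.toFinite _)
  rw [Set.ncard_coe_finset, hnine, ← Nat.card_coe_set_eq] at hcard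
  have : Nat.card (S : Set G) = 8 := hS8
  omega

include hS8 hz hz1 hz2 h4 in
/-- A second pair exists. -/
theorem q8_exists_other {u : G} (hu : u ∈ S) (hu1 : u ≠ 1) (huz : u ≠ z) :
    ∃ v ∈ S, v ≠ 1 ∧ v ≠ z ∧ v ≠ u ∧ v ≠ u⁻¹ := by
  classical
  by_contra hcon
  push Not at hcon
  have hsub : (S : Set G) ⊆ (({1, z, u, u⁻¹} : Finset G) : Set G) := by
    intro x hx
    simp only [Finset.coe_insert, Finset.coe_singleton, Set.mem_insert_iff, Set.mem_singleton_iff]
    by_cases h1 : x = 1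
    · exact Or.inl h1
    by_cases h2 : x = z
    · exact Or.inr (Or.inl h2)
    by_cases h3 : x = u
    · exact Or.inr (Or.inr (Or.inl h3))
    exact Or.inr (Or.inr (Or.inr (hcon x hx h1 h2 h3)))
  have hcard := Set.ncard_le_ncard hsub (Set.toFinite _)
  rw [Set.ncard_coe_finset, ← Nat.card_coe_set_eq] at hcard
  have : Nat.card (S : Set G) = 8 := hS8
  have h5 : ({1, z, u, u⁻¹} : Finset G).card ≤ 4 := Finset.card_le_four
  omega

include hS8 hz hz1 hz2 h4 in
/-- The Frobenius hypothesis on proper subgroups. -/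
theorem q8_proper_centralize {Q : Subgroup G} (hQ : Q ≤ S) (hne : Q ≠ S) {g : G}
    (hg : g ∈ Subgroup.normalizer (Q : Set G)) (hgo : ¬ 2 ∣ orderOf g) : g ∈ Subgroup.centralizer (Q : Set G) := by
  rw [Subgroup.mem_centralizer_iff]
  intro u hu
  have hconj : g * u * g⁻¹ ∈ Q := (Subgroup.mem_normalizer_iff.1 hg u).1 hu
  by_cases hu1 : u = 1
  · rw [hu1]; group
  by_cases huz : u = z
  · -- the central involution
    have h1 : g * z * g⁻¹ ∈ S := hQ (huz ▸ hconj)
    have h2 : g * z * g⁻¹ = z := by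
      by_contra hne2
      have h3 : g * z * g⁻¹ ≠ 1 := by
        intro h
        apply hz1
        have : z = g⁻¹ * (g * z * g⁻¹) * g := by group
        rw [this, h]
        group
      have h5 := h4 _ h1 h3 hne2
      have h6 : g * z * g⁻¹ * (g * z * g⁻¹) = 1 := by
        calc g * z * g⁻¹ * (g * z * g⁻¹) = g * (z * z) * g⁻¹ := by group
          _ = 1 := by rw [hz2]; group
      exact hz1 (h5.symm.trans h6)
    rw [huz]
    exact (mul_inv_eq_iff_eq_mul.1 h2).symm
  -- an element of order four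
  have hw1 : g * u * g⁻¹ ≠ 1 := by
    intro h
    apply hu1
    have : u = g⁻¹ * (g * u * g⁻¹) * g := by group
    rw [this, h]
    group
  have hwz : g * u * g⁻¹ ≠ z := by
    intro h
    have huS := hQ hu
    have h5 := h4 u huS hu1 huz
    have h6 : (g * u * g⁻¹) * (g * u * g⁻¹) = g * z * g⁻¹ := by
      rw [← h5]
      group
    rw [h, hz2] at h6
    apply hz1
    have : z = g⁻¹ * (g * z * g⁻¹) * g := by group
    rw [this, ← h6]
    group
  by_cases h1 : g * u * g⁻¹ = u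
  · exact (mul_inv_eq_iff_eq_mul.1 h1).symm
  by_cases h2 : g * u * g⁻¹ = u⁻¹
  · exact (odd_fix_of_inv hgo h2).symm
  exact absurd (q8_gen hS8 hz hz1 hz2 h4 hQ hu hconj hu1 huz hw1 hwz h1 h2) hne

include hS8 hz hz1 hz2 h4 in
/-- An element of odd order outside the centralizer moves every pair. -/
theorem q8_moves {h : G} (hN : h ∈ Subgroup.normalizer (S : Set G)) (ho : ¬ 2 ∣ orderOf h)
    (hC : h ∉ Subgroup.centralizer (S : Set G)) {u : G} (hu : u ∈ S) (hu1 : u ≠ 1) (huz : u ≠ z) :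
    h * u * h⁻¹ ≠ u ∧ h * u * h⁻¹ ≠ u⁻¹ := by
  classical
  have hmem : ∀ {s}, s ∈ S → h * s * h⁻¹ ∈ S := fun {s} hs => (Subgroup.mem_normalizer_iff.1 hN s).1 hs
  have hne1 : ∀ {s : G}, s ≠ 1 → h * s * h⁻¹ ≠ 1 := by
    intro s hs e
    apply hs
    have : s = h⁻¹ * (h * s * h⁻¹) * h := by group
    rw [this, e]
    group
  have hinj : ∀ {a b : G}, h * a * h⁻¹ = h * b * h⁻¹ → a = b := by
    intro a b e
    simpa using e
  have hzfix : h * z * h⁻¹ = z := by
    by_contra hne2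
    have h5 := h4 _ (hmem hz) (hne1 hz1) hne2
    have h6 : h * z * h⁻¹ * (h * z * h⁻¹) = 1 := by
      calc h * z * h⁻¹ * (h * z * h⁻¹) = h * (z * z) * h⁻¹ := by group
        _ = 1 := by rw [hz2]; group
    exact hz1 (h5.symm.trans h6)
  have hnez : ∀ {s : G}, s ≠ z → h * s * h⁻¹ ≠ z := by
    intro s hs e
    apply hs
    apply hinj
    rw [e, hzfix]
  have hfixcase : ∀ {s}, s ∈ S → s ≠ 1 → s ≠ z → (h * s * h⁻¹ = s ∨ h * s * h⁻¹ = s⁻¹) → h * s * h⁻¹ = s := by
    intro s _ _ _ hh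
    rcases hh with hh | hh
    · exact hh
    · have := odd_fix_of_inv ho hh
      rw [this]
      group
  have hsqo : ¬ 2 ∣ orderOf (h * h) := by
    intro hd
    apply ho
    rw [← pow_two] at hd
    exact hd.trans (orderOf_pow_dvd 2)
  suffices hns : ¬ (h * u * h⁻¹ = u ∨ h * u * h⁻¹ = u⁻¹) by
    simp only [not_or] at hns
    exact hns
  intro hcon
  have hfu := hfixcase hu hu1 huz hcon
  have hfui : h * u⁻¹ * h⁻¹ = u⁻¹ := by
    calc h * u⁻¹ * h⁻¹ = (h * u * h⁻¹)⁻¹ := by group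
      _ = u⁻¹ := by rw [hfu]
  obtain ⟨v, hv, hv1, hvz, hvu, hvu'⟩ := q8_exists_other hS8 hz hz1 hz2 h4 hu hu1 huz
  have hwS := hmem hv
  have hw1 := hne1 hv1
  have hwz := hnez hvz
  have hwu : h * v * h⁻¹ ≠ u := fun e => hvu (hinj (e.trans hfu.symm))
  have hwu' : h * v * h⁻¹ ≠ u⁻¹ := fun e => hvu' (hinj (e.trans hfui.symm))
  have hvfix : h * v * h⁻¹ = v := by
    by_cases hc : h * v * h⁻¹ = v ∨ h * v * h⁻¹ = v⁻¹
    · exact hfixcase hv hv1 hvz hc
    · exfalso
      simp only [not_or] at hc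
      obtain ⟨hc1, hc2⟩ := hc
      obtain ⟨w, hwd⟩ : ∃ w, w = h * v * h⁻¹ := ⟨_, rfl⟩
      rw [← hwd] at hwS hw1 hwz hwu hwu' hc1 hc2
      have hw2S : h * w * h⁻¹ ∈ S := hmem hwS
      have hex := q8_exhaust hS8 hz hz1 hz2 h4 hu hv hwS hw2S hu1 huz hv1 hvz hw1 hwz hvu hvu' hwu hwu' hc1 hc2
      have hv' : h * (h * v * h⁻¹) * h⁻¹ = (h * h) * v * (h * h)⁻¹ := by group
      rcases hex with e | e | e | e | e | e | e | e
      · exact hne1 hw1 e
      · exact hnez hwz e
      · exact hwu (hinj (e.trans hfu.symm))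
      · exact hwu' (hinj (e.trans hfui.symm))
      · rw [hwd, hv'] at e
        have e1 := odd_mem_of_sq ho (mul_inv_eq_iff_eq_mul.1 e)
        exact hc1 (by rw [hwd, e1]; group)
      · rw [hwd, hv'] at e
        have e0 := odd_fix_of_inv hsqo e
        have e1 := odd_mem_of_sq ho e0
        exact hc1 (by rw [hwd, e1]; group)
      · have e2 := hfixcase hwS hw1 hwz (Or.inl e)
        exact hc1 (by rw [hwd] at e2 ⊢; exact hinj e2)
      · have e2 := hfixcase hwS hw1 hwz (Or.inr e)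
        exact hc1 (by rw [hwd] at e2 ⊢; exact hinj e2)
  -- `h` centralizes `S`
  apply hC
  have hT : S ⊓ Subgroup.centralizer ({h} : Set G) = S := by
    apply q8_gen hS8 hz hz1 hz2 h4 inf_le_left (u := u) (v := v) _ _ hu1 huz hv1 hvz hvu hvu'
    · exact ⟨hu, Subgroup.mem_centralizer_singleton_iff.2 (mul_inv_eq_iff_eq_mul.1 hfu).symm⟩
    · exact ⟨hv, Subgroup.mem_centralizer_singleton_iff.2 (mul_inv_eq_iff_eq_mul.1 hvfix).symm⟩
  rw [Subgroup.mem_centralizer_iff]
  intro s hs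
  have hs' : s ∈ S ⊓ Subgroup.centralizer ({h} : Set G) := by
    rw [hT]
    exact hs
  exact Subgroup.mem_centralizer_singleton_iff.1 hs'.2

/-- **Fusion of subgroups of order four.** -/
theorem q8_conj {G : Type*} [Group G] [Finite G] (S : Sylow 2 G) (e : (S : Subgroup G) ≃* QuaternionGroup 2)
    (hnc : ∀ N : Subgroup G, N.Normal → ¬ Subgroup.IsComplement' N (S : Subgroup G)) (A B : Subgroup G)
    (hA : A ≤ S) (hB : B ≤ S) (hA4 : Nat.card A = 4) (hB4 : Nat.card B = 4) :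
    ∃ n ∈ Subgroup.normalizer ((S : Subgroup G) : Set G), B = A.map (MulAut.conj n).toMonoidHom := by
  classical
  obtain ⟨hS8, z, hz, hz1, hz2, h4⟩ := q8_data (S : Subgroup G) e
  have hnot : ¬ Cfsg.Agent.Lib.Transfer.FrobeniusHyp 2 (S : Subgroup G) := by
    intro H
    obtain ⟨N, hNn, hc⟩ := Cfsg.Agent.Lib.Transfer.frobenius S H
    exact hnc N hNn hc
  unfold Cfsg.Agent.Lib.Transfer.FrobeniusHyp at hnot
  push Not at hnot
  obtain ⟨Q, hQ, g, hgN, hco, hgC⟩ := hnot
  have ho : ¬ 2 ∣ orderOf g := by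
    intro hd
    have := Nat.dvd_gcd hd (dvd_refl 2)
    rw [hco] at this
    norm_num at this
  have hQS : Q = (S : Subgroup G) := by
    by_contra hne
    exact hgC (q8_proper_centralize hS8 hz hz1 hz2 h4 hQ hne hgN ho)
  rw [hQS] at hgN hgC
  -- generators of `A` and `B`
  have hexist : ∀ T : Subgroup G, T ≤ S → Nat.card T = 4 → ∃ u ∈ T, u ≠ 1 ∧ u ≠ z ∧ T = Subgroup.zpowers u := by
    intro T hT hT4
    have hu : ∃ u ∈ T, u ≠ 1 ∧ u ≠ z := by
      by_contra hcon
      push Not at hcon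
      have hsub : (T : Set G) ⊆ (({1, z} : Finset G) : Set G) := by
        intro x hx
        simp only [Finset.coe_insert, Finset.coe_singleton, Set.mem_insert_iff, Set.mem_singleton_iff]
        by_cases h1 : x = 1
        · exact Or.inl h1
        · exact Or.inr (hcon x hx h1)
      have hcard := Set.ncard_le_ncard hsub (Set.toFinite _)
      rw [Set.ncard_coe_finset, ← Nat.card_coe_set_eq] at hcard
      have h5 : Nat.card (T : Set G) = 4 := hT4
      have h6 : ({1, z} : Finset G).card ≤ 2 := Finset.card_le_two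
      omega
    obtain ⟨u, hu, hu1, huz⟩ := hu
    refine ⟨u, hu, hu1, huz, ?_⟩
    have hle : Subgroup.zpowers u ≤ T := by
      rw [Subgroup.zpowers_le]
      exact hu
    have hord : orderOf u = 2 ^ (1 + 1) := by
      apply orderOf_eq_prime_pow
      · rw [pow_one, pow_two, h4 u (hT hu) hu1 huz]
        exact hz1
      · have : u ^ 2 ^ (1 + 1) = (u * u) * (u * u) := by
          rw [show 2 ^ (1 + 1) = 2 + 1 + 1 from rfl, pow_succ, pow_succ, pow_two, mul_assoc (u * u)]
        rw [this, h4 u (hT hu) hu1 huz, hz2]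
    refine (Subgroup.eq_of_le_of_card_ge hle ?_).symm
    rw [hT4, Nat.card_zpowers, hord]
    norm_num
  obtain ⟨u, huA, hu1, huz, rfl⟩ := hexist A hA hA4
  obtain ⟨b, hbB, hb1, hbz, rfl⟩ := hexist B hB hB4
  have huS := hA huA
  have hbS := hB hbB
  have hsqo : ¬ 2 ∣ orderOf (g * g) := by
    intro hd
    apply ho
    rw [← pow_two] at hd
    exact hd.trans (orderOf_pow_dvd 2)
  have hsqN : g * g ∈ Subgroup.normalizer ((S : Subgroup G) : Set G) := Subgroup.mul_mem _ hgN hgN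
  have hsqC : g * g ∉ Subgroup.centralizer ((S : Subgroup G) : Set G) := by
    intro h
    apply hgC
    rw [Subgroup.mem_centralizer_iff] at h ⊢
    intro s hs
    exact (odd_mem_of_sq ho (h s hs).symm).symm
  obtain ⟨m1, m2⟩ := q8_moves hS8 hz hz1 hz2 h4 hgN ho hgC huS hu1 huz
  obtain ⟨m3, m4⟩ := q8_moves hS8 hz hz1 hz2 h4 hsqN hsqo hsqC huS hu1 huz
  have hmem : ∀ {n s : G}, n ∈ Subgroup.normalizer ((S : Subgroup G) : Set G) → s ∈ (S : Subgroup G) → n * s * n⁻¹ ∈ (S : Subgroup G) :=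
    fun hn hs => (Subgroup.mem_normalizer_iff.1 hn _).1 hs
  have hne1 : ∀ {n s : G}, s ≠ 1 → n * s * n⁻¹ ≠ 1 := by
    intro n s hs e
    apply hs
    have : s = n⁻¹ * (n * s * n⁻¹) * n := by group
    rw [this, e]
    group
  have hfixz : ∀ {n : G}, n ∈ Subgroup.normalizer ((S : Subgroup G) : Set G) → n * z * n⁻¹ = z := by
    intro n hn
    by_contra hne2
    have h5 := h4 _ (hmem hn hz) (hne1 hz1) hne2
    have h6 : n * z * n⁻¹ * (n * z * n⁻¹) = 1 := by
      calc n * z * n⁻¹ * (n * z * n⁻¹) = n * (z * z) * n⁻¹ := by group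
        _ = 1 := by rw [hz2]; group
    exact hz1 (h5.symm.trans h6)
  have hnez : ∀ {n s : G}, n ∈ Subgroup.normalizer ((S : Subgroup G) : Set G) → s ≠ z → n * s * n⁻¹ ≠ z := by
    intro n s hn hs e
    apply hs
    have h1 := e.trans (hfixz hn).symm
    simpa using h1
  have h21 : (g * g) * u * (g * g)⁻¹ ≠ g * u * g⁻¹ := by
    intro e'
    apply m1
    have e1 : (g * g) * u * (g * g)⁻¹ = g * (g * u * g⁻¹) * g⁻¹ := by group
    rw [e1] at e'
    simpa using e'
  have h22 : (g * g) * u * (g * g)⁻¹ ≠ (g * u * g⁻¹)⁻¹ := by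
    intro e'
    apply m2
    have e1 : (g * g) * u * (g * g)⁻¹ = g * (g * u * g⁻¹) * g⁻¹ := by group
    have e2 : (g * u * g⁻¹)⁻¹ = g * u⁻¹ * g⁻¹ := by group
    rw [e1, e2] at e'
    simpa using e'
  have hex := q8_exhaust hS8 hz hz1 hz2 h4 huS (hmem hgN huS) (hmem hsqN huS) hbS hu1 huz (hne1 hu1) (hnez hgN huz)
    (hne1 hu1) (hnez hsqN huz) m1 m2 m3 m4 h21 h22
  have hzp : ∀ n : G, (Subgroup.zpowers u).map (MulAut.conj n).toMonoidHom = Subgroup.zpowers (n * u * n⁻¹) := by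
    intro n
    rw [MonoidHom.map_zpowers]
    rfl
  have hNone : (1 : G) ∈ Subgroup.normalizer ((S : Subgroup G) : Set G) := Subgroup.one_mem _
  rcases hex with e' | e' | e' | e' | e' | e' | e' | e'
  · exact absurd e' hb1
  · exact absurd e' hbz
  · refine ⟨1, hNone, ?_⟩
    rw [hzp, e']
    simp
  · refine ⟨1, hNone, ?_⟩
    rw [hzp, e', Subgroup.zpowers_inv]
    simp
  · exact ⟨g, hgN, by rw [hzp, e']⟩
  · exact ⟨g, hgN, by rw [hzp, e', Subgroup.zpowers_inv]⟩
  · exact ⟨g * g, hsqN, by rw [hzp, e']⟩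
  · exact ⟨g * g, hsqN, by rw [hzp, e', Subgroup.zpowers_inv]⟩

end Q8

end Cfsg.Agent.Lib.Block
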