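import Cfsg.Agent.Lib.Block.Q8Fusion
import Cfsg.Agent.Lib.Block.Klein2

/-!
# The principal 2-block of a group with quaternion Sylow 2-subgroups of order eight
-/

set_option autoImplicit false
set_option linter.unusedSectionVars false
set_option linter.unusedSimpArgs false
set_option linter.unusedVariables false

open scoped ComplexConjugate
open Cfsg MonoidAlgebra Cfsg.Agent.Lib.Char

namespace Cfsg.Agent.Lib.Block

section Combi

/-- The arithmetic of the count. -/
theorem q8_combi {ι : Type*} [DecidableEq ι] (B : Finset ι) (o : ι) (ho : o ∈ B) (a e : ι → ℤ)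
    (he : ∀ i ∈ B, e i = 1 ∨ e i = -1) (h1 : ∀ i ∈ B, e i = -1 → a i = 0) (h2 : ∀ i ∈ B, e i = 1 → a i ≠ 0)
    (ha : a o = 1) (hsum : ∑ i ∈ B, (a i) ^ 2 = 4) (hs2 : ∑ i ∈ B, e i * (4 - (a i) ^ 2) = 0) : B.card = 7 := by
  have heo : e o = 1 := by
    rcases he o ho with h | h
    · exact h
    · have := h1 o ho h
      omega
  obtain ⟨T, hT⟩ : ∃ T, T = B.filter (fun i => e i = 1) := ⟨_, rfl⟩
  obtain ⟨U, hU⟩ : ∃ U, U = B.filter (fun i => ¬ e i = 1) := ⟨_, rfl⟩
  have hcard : T.card + U.card = B.card := by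
    rw [hT, hU]
    exact Finset.card_filter_add_card_filter_not _
  have hsplit : ∀ f : ι → ℤ, ∑ i ∈ T, f i + ∑ i ∈ U, f i = ∑ i ∈ B, f i := by
    intro f
    rw [hT, hU]
    exact Finset.sum_filter_add_sum_filter_not _ _ _
  have hUmem : ∀ i ∈ U, i ∈ B ∧ e i = -1 := by
    intro i hi
    rw [hU, Finset.mem_filter] at hi
    refine ⟨hi.1, ?_⟩
    rcases he i hi.1 with h | h
    · exact absurd h hi.2
    · exact h
  have hTmem : ∀ i ∈ T, i ∈ B ∧ e i = 1 := by
    intro i hi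
    rw [hT, Finset.mem_filter] at hi
    exact hi
  have hoT : o ∈ T := by
    rw [hT, Finset.mem_filter]
    exact ⟨ho, heo⟩
  have hU0 : ∑ i ∈ U, (a i) ^ 2 = 0 := by
    apply Finset.sum_eq_zero
    intro i hi
    obtain ⟨hb, he'⟩ := hUmem i hi
    rw [h1 i hb he']
    norm_num
  have hT4 : ∑ i ∈ T, (a i) ^ 2 = 4 := by
    have := hsplit (fun i => (a i) ^ 2)
    rw [hsum, hU0] at this
    linarith
  have hT3 : ∑ i ∈ T.erase o, (a i) ^ 2 = 3 := by
    have h3 := Finset.add_sum_erase T (fun i => (a i) ^ 2) hoT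
    rw [hT4] at h3
    simp only [ha] at h3
    linarith
  obtain ⟨hc3, hsign⟩ := three_signs (T.erase o) a (by
    intro i hi
    obtain ⟨hb, he'⟩ := hTmem i (Finset.mem_of_mem_erase hi)
    exact h2 i hb he') hT3
  have hTc : T.card = 4 := by
    have := Finset.card_erase_add_one hoT
    omega
  have hTa : ∀ i ∈ T, (a i) ^ 2 = 1 := by
    intro i hi
    by_cases hio : i = o
    · rw [hio, ha]
      norm_num
    · rcases hsign i (Finset.mem_erase.2 ⟨hio, hi⟩) with h | h <;> rw [h] <;> norm_num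
  have hs3 : ∑ i ∈ T, e i * (4 - (a i) ^ 2) = 12 := by
    have : ∀ i ∈ T, e i * (4 - (a i) ^ 2) = 3 := by
      intro i hi
      rw [(hTmem i hi).2, hTa i hi]
      norm_num
    rw [Finset.sum_congr rfl this, Finset.sum_const, hTc]
    norm_num
  have hs4 : ∑ i ∈ U, e i * (4 - (a i) ^ 2) = - (4 * (U.card : ℤ)) := by
    have : ∀ i ∈ U, e i * (4 - (a i) ^ 2) = -4 := by
      intro i hi
      obtain ⟨hb, he'⟩ := hUmem i hi
      rw [he', h1 i hb he']
      norm_num
    rw [Finset.sum_congr rfl this, Finset.sum_const]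
    simp
    ring
  have h5 := hsplit (fun i => e i * (4 - (a i) ^ 2))
  rw [hs2, hs3, hs4] at h5
  have h6 : (U.card : ℤ) = 3 := by linarith
  have h7 : U.card = 3 := by exact_mod_cast h6
  omega

end Combi

section Values

variable {G : Type*} [Group G] [Fintype G]

/-- The value at a central involution is a sign times the degree. -/
theorem q8_sign {z : G} (hz2 : z * z = 1) (hzc : ∀ g, z * g = g * z) (χ : IrrCharacter G) :
    ∃ e : ℤ, (e = 1 ∨ e = -1) ∧ ∀ g, (χ : G → ℂ) (z * g) = e * (χ : G → ℂ) g := by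
  classical
  have hc : IsCentralElt (MonoidAlgebra.single z (1 : ℂ)) := by
    intro a g
    rw [MonoidAlgebra.coeff_single]
    have h1 : a * z * a⁻¹ = z := by rw [← hzc a]; group
    by_cases h : g = z
    · rw [h, h1]
    · have h2 : a * g * a⁻¹ ≠ z := by
        intro h3
        apply h
        have : g = a⁻¹ * (a * g * a⁻¹) * a := by group
        rw [this, h3, ← hzc a⁻¹]
        group
      rw [Finsupp.single_apply, Finsupp.single_apply, if_neg (Ne.symm h2), if_neg (Ne.symm h)]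
  have hne := isIrr_one_ne_zero χ.2
  have hmul : ∀ g, (χ : G → ℂ) (z * g) = ((χ : G → ℂ) z / (χ : G → ℂ) 1) * (χ : G → ℂ) g := by
    intro g
    have h1 := tr_mul_central χ.2 hc (MonoidAlgebra.single g 1)
    rw [MonoidAlgebra.single_mul_single, tr_single, tr_single] at h1
    simp only [mul_one, one_mul] at h1
    rw [h1]
    unfold om
    rw [tr_single, one_mul]
  have h2 := hmul z
  rw [hz2] at h2
  have h2' : (χ : G → ℂ) 1 * (χ : G → ℂ) 1 = (χ : G → ℂ) z * (χ : G → ℂ) z := by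
    nth_rewrite 1 [h2]
    field_simp
  have h3 : ((χ : G → ℂ) z / (χ : G → ℂ) 1) * ((χ : G → ℂ) z / (χ : G → ℂ) 1) = 1 := by
    rw [div_mul_div_comm, ← h2', div_self (mul_ne_zero hne hne)]
  rcases mul_self_eq_one_iff.1 h3 with h4 | h4
  · exact ⟨1, Or.inl rfl, fun g => by rw [hmul g, h4]; simp⟩
  · exact ⟨-1, Or.inr rfl, fun g => by rw [hmul g, h4]; simp⟩

/-- Real values at elements of order four are integers. -/
theorem q8_char_int (χ : IrrCharacter G) {x : G} (hx : x ^ 4 = 1) (hr : IsConj x x⁻¹) :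
    ∃ n : ℤ, (χ : G → ℂ) x = n := by
  classical
  have hreal : conj ((χ : G → ℂ) x) = (χ : G → ℂ) x := by
    rw [← Cfsg.Agent.Lib.Degree.irr_map_inv χ x]
    obtain ⟨c, hc⟩ := isConj_iff.1 hr
    rw [← hc, IsCharacter.isClassFunction (IsIrrCharacter.isCharacter χ.2)]
  obtain ⟨_, m, ρ, hρ, rfl⟩ := χ
  obtain ⟨ζ, hζ, h⟩ := character_eq_sum_roots ρ x (isOfFinOrder_of_finite x)
  have h1 := h 1
  rw [zpow_one] at h1
  have hdvd : orderOf x ∣ 4 := orderOf_dvd_of_pow_eq_one hx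
  have h2 : ∀ i, ∃ c d : ℤ, ζ i = c + d * Complex.I := by
    intro i
    obtain ⟨t, ht⟩ := hdvd
    have h3 : ζ i ^ 4 = 1 := by
      rw [ht, pow_mul, hζ i, one_pow]
    have h4 : (ζ i - 1) * (ζ i + 1) * (ζ i - Complex.I) * (ζ i + Complex.I) = 0 := by
      have hI : Complex.I ^ 2 = -1 := Complex.I_sq
      ring_nf
      rw [hI, h3]
      ring
    rcases mul_eq_zero.1 h4 with h5 | h5
    · rcases mul_eq_zero.1 h5 with h6 | h6
      · rcases mul_eq_zero.1 h6 with h7 | h7
        · exact ⟨1, 0, by push_cast; linear_combination h7⟩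
        · exact ⟨-1, 0, by push_cast; linear_combination h7⟩
      · exact ⟨0, 1, by push_cast; linear_combination h6⟩
    · exact ⟨0, -1, by push_cast; linear_combination h5⟩
  choose c d hcd using h2
  have h5 : ρ.character x = ((∑ i, c i : ℤ) : ℂ) + ((∑ i, d i : ℤ) : ℂ) * Complex.I := by
    rw [h1]
    push_cast
    rw [Finset.sum_mul, ← Finset.sum_add_distrib]
    refine Finset.sum_congr rfl fun i _ => ?_
    rw [zpow_one, hcd]
  simp only at hreal ⊢
  have h6 := Complex.conj_eq_iff_im.1 hreal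
  rw [h5] at h6
  simp at h6
  refine ⟨∑ i, c i, ?_⟩
  rw [h5]
  have h7 : (∑ i, (d i : ℝ)) = 0 := h6
  have h8 : ((∑ i, d i : ℤ) : ℂ) = 0 := by
    have : ((∑ i, d i : ℤ) : ℝ) = 0 := by
      push_cast
      exact h7
    have h9 : (∑ i, d i : ℤ) = 0 := by exact_mod_cast this
    rw [h9]
    simp
  rw [h8]
  simp

end Values

section Count

variable {G : Type*} [Group G] [Fintype G] {M : Ideal AlgInt}

open Classical in
/-- The odd-order elements. -/
noncomputable def q8Reg (G : Type*) [Group G] [Fintype G] : Finset G := Finset.univ.filter (fun g => ¬ 2 ∣ orderOf g)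

open Classical in
/-- The elements whose 2-part is neither `1` nor `z`. -/
noncomputable def q8Sec {G : Type*} [Group G] [Fintype G] (z : G) : Finset G :=
  Finset.univ.filter (fun g => 2 ∣ orderOf g ∧ 2 ∣ orderOf (z * g))

theorem mem_q8Reg {g : G} : g ∈ q8Reg G ↔ ¬ 2 ∣ orderOf g := by
  simp [q8Reg]

theorem mem_q8Sec {z g : G} : g ∈ q8Sec z ↔ 2 ∣ orderOf g ∧ 2 ∣ orderOf (z * g) := by
  simp [q8Sec]

variable {z x : G} (hz1 : z ≠ 1) (hz2 : z * z = 1) (hzc : ∀ g, z * g = g * z)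

include hz1 hz2 hzc in
theorem q8_even_mul {y : G} (hy : ¬ 2 ∣ orderOf y) : 2 ∣ orderOf (z * y) := by
  have hodd : Odd (orderOf y) := by rwa [← Nat.not_even_iff_odd, even_iff_two_dvd]
  obtain ⟨k, hk⟩ := hodd
  have h1 : (z * y) ^ orderOf y = z := by
    have hc : Commute z y := hzc y
    rw [hc.mul_pow, pow_orderOf_eq_one, mul_one, hk, pow_succ, pow_mul, pow_two, hz2, one_pow, one_mul]
  have h2 : orderOf z = 2 := orderOf_eq_prime (by rw [pow_two]; exact hz2) hz1
  calc 2 = orderOf z := h2.symm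
    _ ∣ orderOf (z * y) := by
      nth_rewrite 1 [← h1]
      exact orderOf_pow_dvd _

include hz1 hz2 hzc in
theorem q8_partition {R : Type*} [AddCommMonoid R] (F : G → R) :
    ∑ g, F g = ∑ y ∈ q8Reg G, F y + ∑ y ∈ q8Reg G, F (z * y) + ∑ g ∈ q8Sec z, F g := by
  classical
  have h1 : ∑ g, F g = ∑ g ∈ q8Reg G, F g + ∑ g ∈ Finset.univ.filter (fun g : G => 2 ∣ orderOf g), F g := by
    have := Finset.sum_filter_add_sum_filter_not Finset.univ (fun g : G => 2 ∣ orderOf g) F
    rw [← this, add_comm]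
    congr 1
  have h2 := Finset.sum_filter_add_sum_filter_not (Finset.univ.filter (fun g : G => 2 ∣ orderOf g))
    (fun g : G => 2 ∣ orderOf (z * g)) F
  have h3 : ∑ g ∈ (Finset.univ.filter (fun g : G => 2 ∣ orderOf g)).filter (fun g : G => ¬ 2 ∣ orderOf (z * g)), F g =
      ∑ y ∈ q8Reg G, F (z * y) := by
    symm
    apply Finset.sum_nbij' (fun y => z * y) (fun g => z * g)
    · intro y hy
      rw [mem_q8Reg] at hy
      simp only [Finset.mem_filter, Finset.mem_univ, true_and]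
      refine ⟨q8_even_mul hz1 hz2 hzc hy, ?_⟩
      rwa [← mul_assoc, hz2, one_mul]
    · intro g hg
      simp only [Finset.mem_filter, Finset.mem_univ, true_and] at hg
      rw [mem_q8Reg]
      exact hg.2
    · intro y _
      rw [← mul_assoc, hz2, one_mul]
    · intro g _
      rw [← mul_assoc, hz2, one_mul]
    · intro y _
      rfl
  have h4 : ∑ g ∈ (Finset.univ.filter (fun g : G => 2 ∣ orderOf g)).filter (fun g : G => 2 ∣ orderOf (z * g)), F g =
      ∑ g ∈ q8Sec z, F g := by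
    refine Finset.sum_congr ?_ fun _ _ => rfl
    ext g
    simp [mem_q8Sec]
  rw [h1, ← h2, h3, h4, add_assoc, add_comm (∑ g ∈ q8Sec z, F g)]

variable (hM : IsPModular 2 M) (hxx : x * x = z)
  (hpart : ∀ u : G, (∃ k, orderOf u = 2 ^ k) → u = 1 ∨ u = z ∨ IsConj u x)
  (hcore : ∀ v : G, ¬ 2 ∣ orderOf v → x * v = v * x → v ∈ centralizerPPrimeCore 2 x)

include hz1 hz2 hxx in
theorem q8_x_two : ∃ k, orderOf x = 2 ^ k := by
  refine ⟨2, ?_⟩
  have h1 : x ^ 2 = z := by rw [pow_two]; exact hxx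
  have h2 : x ^ (2 ^ 2) = 1 := by
    rw [pow_two 2, pow_mul, h1, pow_two]
    exact hz2
  have h3 : x ^ (2 ^ 1) ≠ 1 := by
    rw [pow_one, h1]
    exact hz1
  exact orderOf_eq_prime_pow (p := 2) (n := 1) (x := x) h3 h2

include hz1 hz2 hzc hM hxx hpart hcore in
/-- Characters of the principal block are constant on the section of `x`. -/
theorem q8_sec_value {g : G} (hg : g ∈ q8Sec z) {χ : IrrCharacter G} (hχ : χ ∈ principalBlock M G) :
    (χ : G → ℂ) g = (χ : G → ℂ) x := by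
  rw [mem_q8Sec] at hg
  obtain ⟨u, v, huv, hc, hu2, hv, _, _⟩ := exists_jordan (p := 2) g
  have hu1 : u ≠ 1 := by
    rintro rfl
    rw [one_mul] at huv
    rw [huv] at hv
    exact hv hg.1
  have huz : u ≠ z := by
    rintro rfl
    apply hv
    have : u * g = v := by rw [← huv, ← mul_assoc, hz2, one_mul]
    rw [← this]
    exact hg.2
  have hu3 := ((hpart u hu2).resolve_left hu1).resolve_left huz
  obtain ⟨c, hc'⟩ := isConj_iff.1 hu3
  have hχc := IsIrrCharacter.isCharacter χ.2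
  have e1 : (χ : G → ℂ) g = (χ : G → ℂ) (c * g * c⁻¹) := (IsCharacter.isClassFunction hχc g c).symm
  have e2 : c * g * c⁻¹ = x * (c * v * c⁻¹) := by
    rw [← huv, ← hc']
    group
  have hvo : ¬ 2 ∣ orderOf (c * v * c⁻¹) := by rwa [orderOf_conj]
  have hvc : x * (c * v * c⁻¹) = (c * v * c⁻¹) * x := by
    rw [← hc']
    have := hc.eq
    calc c * u * c⁻¹ * (c * v * c⁻¹) = c * (u * v) * c⁻¹ := by group
      _ = c * (v * u) * c⁻¹ := by rw [this]
      _ = c * v * c⁻¹ * (c * u * c⁻¹) := by group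
  have hvmem := hcore _ hvo hvc
  rw [e1, e2, irr_mul_of_principal hM (q8_x_two hz1 hz2 hxx) hvmem χ hχ]

theorem q8_sum_irr (χ : IrrCharacter G) (h : (χ : G → ℂ) ≠ (fun _ => 1)) : ∑ g, (χ : G → ℂ) g = 0 := by
  have h1 := classInner_irr_of_ne χ.2 (oneIrr G).2 h
  rw [classInner_def] at h1
  have hc : (Nat.card G : ℂ) ≠ 0 := by
    exact_mod_cast (Nat.card_pos (α := G)).ne'
  simp only [oneIrr_coe, map_one, mul_one] at h1
  simpa [hc] using h1

include hz1 hz2 hzc hM hxx hpart hcore in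
open Classical in
/-- The density of the section of `x`. -/
theorem q8_sec_card (hxi : IsConj x x⁻¹)
    (hfour : ∑ χ : IrrCharacter G, (if χ ∈ principalBlock M G then (χ : G → ℂ) x * (χ : G → ℂ) x else 0) = 4) :
    (4 : ℂ) * ((q8Sec z).card : ℂ) = (Nat.card G : ℂ) := by
  classical
  have := isPModular_isPrime hM
  have hU : IsBlockUnion M (principalBlock M G) := isBlockUnion_of_isPBlock (isPBlock_blockOf (oneIrr G))
  have hinv : ∀ χ : IrrCharacter G, (χ : G → ℂ) x⁻¹ = (χ : G → ℂ) x := by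
    intro χ
    obtain ⟨c, hc⟩ := isConj_iff.1 hxi
    rw [← hc, IsCharacter.isClassFunction (IsIrrCharacter.isCharacter χ.2)]
  have hzo : orderOf z = 2 := orderOf_eq_prime (by rw [pow_two]; exact hz2) hz1
  have hxp : IsPPart 2 x x := ⟨1, mul_one _, Commute.one_right _, q8_x_two hz1 hz2 hxx, by simp⟩
  have hreg : ∀ y : G, ¬ 2 ∣ orderOf y → IsPPart 2 y 1 := fun y hy => ⟨y, one_mul y, Commute.one_left y, ⟨0, by simp⟩, hy⟩
  have hzreg : ∀ y : G, ¬ 2 ∣ orderOf y → IsPPart 2 (z * y) z := fun y hy => ⟨y, rfl, hzc y, ⟨1, by simpa using hzo⟩, hy⟩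
  have hx1 : x ≠ 1 := by
    rintro rfl
    rw [one_mul] at hxx
    exact hz1 hxx.symm
  have hzx : ¬ IsConj z x := by
    intro h
    obtain ⟨c, hc⟩ := isConj_iff.1 h
    have h1 : c * z * c⁻¹ = z := by rw [← hzc c]; group
    rw [h1] at hc
    rw [← hc, hz2] at hxx
    exact hz1 hxx.symm
  have h1x : ¬ IsConj (1 : G) x := by
    intro h
    exact hx1 (isConj_one_right.1 h)
  obtain ⟨F, hF⟩ : ∃ F : G → ℂ, F = fun g => ∑ χ : IrrCharacter G, (if χ ∈ principalBlock M G then
      (χ : G → ℂ) x * (χ : G → ℂ) g else 0) := ⟨_, rfl⟩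
  have hF1 : ∀ y ∈ q8Reg G, F y = 0 := by
    intro y hy
    rw [mem_q8Reg] at hy
    have h1 := block_orthogonality hM (hreg y hy) hxp h1x hU
    rw [finsum_mem_irr] at h1
    rw [hF]
    refine Eq.trans (Finset.sum_congr rfl fun χ _ => ?_) h1
    rw [hinv, mul_comm]
  have hF2 : ∀ y ∈ q8Reg G, F (z * y) = 0 := by
    intro y hy
    rw [mem_q8Reg] at hy
    have h1 := block_orthogonality hM (hzreg y hy) hxp hzx hU
    rw [finsum_mem_irr] at h1
    rw [hF]
    refine Eq.trans (Finset.sum_congr rfl fun χ _ => ?_) h1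
    rw [hinv, mul_comm]
  have hF3 : ∀ g ∈ q8Sec z, F g = 4 := by
    intro g hg
    rw [hF, ← hfour]
    refine Finset.sum_congr rfl fun χ _ => ?_
    by_cases hχ : χ ∈ principalBlock M G
    · rw [if_pos hχ, if_pos hχ, q8_sec_value hz1 hz2 hzc hM hxx hpart hcore hg hχ]
    · rw [if_neg hχ, if_neg hχ]
  have hsum : ∑ g, F g = (Nat.card G : ℂ) := by
    rw [hF, Finset.sum_comm]
    have h2 : ∀ χ : IrrCharacter G, ∑ g, (if χ ∈ principalBlock M G then (χ : G → ℂ) x * (χ : G → ℂ) g else 0) =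
        if χ = oneIrr G then (Nat.card G : ℂ) else 0 := by
      intro χ
      by_cases h1 : χ = oneIrr G
      · rw [if_pos h1, h1]
        have hm : oneIrr G ∈ principalBlock M G := mem_blockOf_self (oneIrr G)
        simp only [if_pos hm, oneIrr_coe, mul_one, Finset.sum_const, Finset.card_univ, nsmul_eq_mul, Nat.card_eq_fintype_card]
      · rw [if_neg h1]
        have h3 : (χ : G → ℂ) ≠ (fun _ => 1) := fun h => h1 (Subtype.ext h)
        by_cases hχ : χ ∈ principalBlock M G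
        · simp only [if_pos hχ]
          rw [← Finset.mul_sum, q8_sum_irr χ h3, mul_zero]
        · simp only [if_neg hχ, Finset.sum_const_zero]
    simp only [h2]
    rw [Finset.sum_ite_eq' Finset.univ (oneIrr G)]
    simp
  rw [q8_partition hz1 hz2 hzc F, Finset.sum_eq_zero hF1, Finset.sum_eq_zero hF2, Finset.sum_congr rfl hF3] at hsum
  rw [← hsum]
  simp [mul_comm]

include hz1 hz2 hzc hM hxx hpart hcore in
/-- The norm of a character of the principal block. -/
theorem q8_norm {χ : IrrCharacter G} (hχ : χ ∈ principalBlock M G) {e : ℤ} (he : e = 1 ∨ e = -1)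
    (hval : ∀ g, (χ : G → ℂ) (z * g) = e * (χ : G → ℂ) g) :
    2 * ∑ y ∈ q8Reg G, (χ : G → ℂ) y * conj ((χ : G → ℂ) y) +
      ((q8Sec z).card : ℂ) * ((χ : G → ℂ) x * conj ((χ : G → ℂ) x)) = (Nat.card G : ℂ) := by
  have h1 := classInner_irr_self χ.2
  rw [classInner_def] at h1
  have hc : (Nat.card G : ℂ) ≠ 0 := by
    exact_mod_cast (Nat.card_pos (α := G)).ne'
  have h2 : ∑ g, (χ : G → ℂ) g * conj ((χ : G → ℂ) g) = (Nat.card G : ℂ) := by
    field_simp at h1
    exact h1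
  rw [q8_partition hz1 hz2 hzc] at h2
  rw [← h2, two_mul]
  have h3 : ∑ y ∈ q8Reg G, (χ : G → ℂ) (z * y) * conj ((χ : G → ℂ) (z * y)) =
      ∑ y ∈ q8Reg G, (χ : G → ℂ) y * conj ((χ : G → ℂ) y) := by
    refine Finset.sum_congr rfl fun y _ => ?_
    rw [hval, map_mul]
    have : (e : ℂ) * conj (e : ℂ) = 1 := by
      rcases he with rfl | rfl <;> simp
    linear_combination ((χ : G → ℂ) y * conj ((χ : G → ℂ) y)) * this
  have h4 : ∑ g ∈ q8Sec z, (χ : G → ℂ) g * conj ((χ : G → ℂ) g) =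
      ((q8Sec z).card : ℂ) * ((χ : G → ℂ) x * conj ((χ : G → ℂ) x)) := by
    have : ∀ g ∈ q8Sec z, (χ : G → ℂ) g * conj ((χ : G → ℂ) g) = (χ : G → ℂ) x * conj ((χ : G → ℂ) x) := by
      intro g hg
      rw [q8_sec_value hz1 hz2 hzc hM hxx hpart hcore hg hχ]
    rw [Finset.sum_congr rfl this, Finset.sum_const, nsmul_eq_mul]
  rw [h3, h4]

include hz1 hz2 hzc hM in
open Classical in
/-- Orthogonality of the signs. -/
theorem q8_z_orth (e : IrrCharacter G → ℤ) (hval : ∀ (χ : IrrCharacter G) (g : G), (χ : G → ℂ) (z * g) = e χ * (χ : G → ℂ) g) :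
    ∑ χ : IrrCharacter G, (if χ ∈ principalBlock M G then
      (e χ : ℂ) * ∑ y ∈ q8Reg G, (χ : G → ℂ) y * conj ((χ : G → ℂ) y) else 0) = 0 := by
  have := isPModular_isPrime hM
  have hU : IsBlockUnion M (principalBlock M G) := isBlockUnion_of_isPBlock (isPBlock_blockOf (oneIrr G))
  have hzo : orderOf z = 2 := orderOf_eq_prime (by rw [pow_two]; exact hz2) hz1
  have hreg : ∀ y : G, ¬ 2 ∣ orderOf y → IsPPart 2 y 1 := fun y hy => ⟨y, one_mul y, Commute.one_left y, ⟨0, by simp⟩, hy⟩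
  have hzreg : ∀ y : G, ¬ 2 ∣ orderOf y → IsPPart 2 (z * y) z := fun y hy => ⟨y, rfl, hzc y, ⟨1, by simpa using hzo⟩, hy⟩
  have hz1c : ¬ IsConj z (1 : G) := by
    intro h
    exact hz1 (isConj_one_right.1 h.symm)
  have h1 : ∀ χ : IrrCharacter G, (if χ ∈ principalBlock M G then
      (e χ : ℂ) * ∑ y ∈ q8Reg G, (χ : G → ℂ) y * conj ((χ : G → ℂ) y) else 0) =
      ∑ y ∈ q8Reg G, (if χ ∈ principalBlock M G then (χ : G → ℂ) (z * y) * (χ : G → ℂ) y⁻¹ else 0) := by
    intro χ
    by_cases hχ : χ ∈ principalBlock M G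
    · simp only [if_pos hχ]
      rw [Finset.mul_sum]
      refine Finset.sum_congr rfl fun y _ => ?_
      rw [hval, Cfsg.Agent.Lib.Degree.irr_map_inv χ y, mul_assoc]
    · simp only [if_neg hχ, Finset.sum_const_zero]
  simp only [h1]
  rw [Finset.sum_comm]
  apply Finset.sum_eq_zero
  intro y hy
  rw [mem_q8Reg] at hy
  have h2 := block_orthogonality hM (hzreg y hy) (hreg y hy) hz1c hU
  rw [finsum_mem_irr] at h2
  exact h2

include hzc hxx in
/-- The degree in the exceptional case. -/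
theorem q8_four_dvd (S : Sylow 2 G) (hS8 : Nat.card (S : Subgroup G) = 8) (hzS : z ∈ (S : Subgroup G))
    (hz1 : z ≠ 1) (hSx : ∀ s ∈ (S : Subgroup G), s ≠ 1 → s ≠ z → IsConj s x)
    {χ : IrrCharacter G} (hval : ∀ g, (χ : G → ℂ) (z * g) = (χ : G → ℂ) g) (hx0 : (χ : G → ℂ) x = 0) :
    ∃ k : ℕ, (χ : G → ℂ) 1 = 4 * k := by
  classical
  have hχc := IsIrrCharacter.isCharacter χ.2
  haveI : Fintype (S : Subgroup G) := Fintype.ofFinite _
  obtain ⟨k, hk⟩ := classInner_isCharacter_nat (IsCharacter.restrict (S : Subgroup G) hχc)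
    (IsCharacter.one (G := (S : Subgroup G)))
  refine ⟨k, ?_⟩
  have hv : ∀ s : (S : Subgroup G), s ≠ 1 ∧ s ≠ ⟨z, hzS⟩ → (χ : G → ℂ) s = 0 := by
    rintro s ⟨hs1, hs2⟩
    have h1 : (s : G) ≠ 1 := fun h => hs1 (Subtype.ext h)
    have h2 : (s : G) ≠ z := fun h => hs2 (Subtype.ext h)
    obtain ⟨c, hc⟩ := isConj_iff.1 (hSx s s.2 h1 h2)
    rw [← IsCharacter.isClassFunction hχc (s : G) c, hc, hx0]
  have hne : (1 : (S : Subgroup G)) ≠ ⟨z, hzS⟩ := by
    intro h
    exact hz1 (congrArg Subtype.val h).symm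
  have hsum : ∑ s : (S : Subgroup G), (χ : G → ℂ) s = (χ : G → ℂ) 1 + (χ : G → ℂ) 1 := by
    rw [Finset.sum_eq_add (1 : (S : Subgroup G)) ⟨z, hzS⟩ hne (fun c _ hc => hv c hc) (by simp) (by simp)]
    have := hval 1
    rw [mul_one] at this
    simp [this]
  rw [classInner_def] at hk
  simp only [map_one, mul_one, hS8] at hk
  rw [hsum] at hk
  push_cast at hk
  linear_combination 4 * hk

include hz1 hz2 hzc hM hxx hpart hcore in
/-- **Exclusion**: a character of the principal block with `z` in its kernel does not vanish at `x`. -/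
theorem q8_excl (S : Sylow 2 G) (hS8 : Nat.card (S : Subgroup G) = 8) (hzS : z ∈ (S : Subgroup G))
    (hSx : ∀ s ∈ (S : Subgroup G), s ≠ 1 → s ≠ z → IsConj s x)
    {χ : IrrCharacter G} (hχ : χ ∈ principalBlock M G) (hval : ∀ g, (χ : G → ℂ) (z * g) = (χ : G → ℂ) g)
    (hx0 : (χ : G → ℂ) x = 0) : False := by
  classical
  have := isPModular_isPrime hM
  have hχc := IsIrrCharacter.isCharacter χ.2
  obtain ⟨k, hk⟩ := q8_four_dvd hzc hxx S hS8 hzS hz1 hSx hval hx0
  have hne : (χ : G → ℂ) ≠ (fun _ => 1) := by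
    intro h
    rw [h] at hx0
    exact one_ne_zero hx0
  have hnorm := q8_norm hz1 hz2 hzc hM hxx hpart hcore hχ (e := 1) (Or.inl rfl) (by simpa using hval)
  rw [hx0] at hnorm
  simp only [zero_mul, mul_zero, add_zero] at hnorm
  have hsum : ∑ y ∈ q8Reg G, (χ : G → ℂ) y = 0 := by
    have h := q8_sum_irr χ hne
    rw [q8_partition hz1 hz2 hzc] at h
    have h1 : ∑ g ∈ q8Sec z, (χ : G → ℂ) g = 0 := by
      apply Finset.sum_eq_zero
      intro g hg
      rw [q8_sec_value hz1 hz2 hzc hM hxx hpart hcore hg hχ, hx0]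
    have h2 : ∑ y ∈ q8Reg G, (χ : G → ℂ) (z * y) = ∑ y ∈ q8Reg G, (χ : G → ℂ) y :=
      Finset.sum_congr rfl fun y _ => hval y
    rw [h1, h2, add_zero] at h
    have h3 : (2 : ℂ) * ∑ y ∈ q8Reg G, (χ : G → ℂ) y = 0 := by
      rw [two_mul]
      exact h
    simpa using h3
  -- the group order
  have hG8 : (Nat.card G : ℂ) = 8 * ((S : Subgroup G).index : ℂ) := by
    have := Subgroup.card_mul_index (S : Subgroup G)
    rw [hS8] at this
    rw [← this]
    push_cast
    ring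
  -- the central element
  obtain ⟨c, hc⟩ : ∃ c : ℂ, c = (k : ℂ) * (((S : Subgroup G).index : ℕ) : ℂ)⁻¹ := ⟨_, rfl⟩
  have hcl : MemLocalRing M c := by
    rw [hc]
    exact memLocalRing_mul (memLocalRing_natCast k) (memLocalRing_natCast_inv hM S.not_dvd_index)
  obtain ⟨f, hf⟩ : ∃ f : G → ℂ, f = fun g => if g ∈ q8Reg G then c * (χ : G → ℂ) g⁻¹ else 0 := ⟨_, rfl⟩
  have hfc : ∀ a g, f (a * g * a⁻¹) = f g := by
    intro a g
    have h1 : a * g * a⁻¹ ∈ q8Reg G ↔ g ∈ q8Reg G := by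
      rw [mem_q8Reg, mem_q8Reg, orderOf_conj]
    rw [hf]
    simp only [h1]
    have h2 : (a * g * a⁻¹)⁻¹ = a * g⁻¹ * a⁻¹ := by group
    rw [h2, IsCharacter.isClassFunction hχc]
  have hfl : ∀ g, MemLocalRing M (f g) := by
    intro g
    rw [hf]
    simp only
    split_ifs
    · exact memLocalRing_mul hcl (memLocalRing_of_isIntegral (IsCharacter.isIntegral' hχc _))
    · exact memLocalRing_zero
  have h1 := memLocalIdeal_om_sub (oneIrr G).2 χ.2 hχ (isCentralElt_ofFun hfc) (localCoeff_ofFun hfl)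
  have hχ1 := isIrr_one_ne_zero χ.2
  have hk0 : (k : ℂ) ≠ 0 := by
    intro h
    rw [hk, h, mul_zero] at hχ1
    exact hχ1 rfl
  have hidx : (((S : Subgroup G).index : ℕ) : ℂ) ≠ 0 := by
    exact_mod_cast Subgroup.index_ne_zero_of_finite
  have h2 : om ((oneIrr G : IrrCharacter G) : G → ℂ) (ofFun f) = 0 := by
    unfold om
    rw [tr_ofFun, hf]
    simp only [oneIrr_coe, mul_one]
    have h3 : ∑ g, (if g ∈ q8Reg G then c * (χ : G → ℂ) g⁻¹ else 0) = c * conj (∑ y ∈ q8Reg G, (χ : G → ℂ) y) := by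
      rw [Finset.sum_ite_mem, Finset.univ_inter, map_sum, Finset.mul_sum]
      refine Finset.sum_congr rfl fun y _ => ?_
      rw [Cfsg.Agent.Lib.Degree.irr_map_inv χ y]
    rw [h3, hsum]
    simp
  have h3 : om (χ : G → ℂ) (ofFun f) = 1 := by
    unfold om
    rw [tr_ofFun, hf]
    have h4 : ∑ g, (if g ∈ q8Reg G then c * (χ : G → ℂ) g⁻¹ else 0) * (χ : G → ℂ) g =
        c * ∑ y ∈ q8Reg G, (χ : G → ℂ) y * conj ((χ : G → ℂ) y) := by
      have : ∀ g, (if g ∈ q8Reg G then c * (χ : G → ℂ) g⁻¹ else 0) * (χ : G → ℂ) g =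
          if g ∈ q8Reg G then c * ((χ : G → ℂ) g * conj ((χ : G → ℂ) g)) else 0 := by
        intro g
        split_ifs
        · rw [Cfsg.Agent.Lib.Degree.irr_map_inv χ g]
          ring
        · simp
      simp only [this]
      rw [Finset.sum_ite_mem, Finset.univ_inter, Finset.mul_sum]
    rw [h4]
    rw [div_eq_one_iff_eq hχ1, hc, hk]
    have h5 : ∑ y ∈ q8Reg G, (χ : G → ℂ) y * conj ((χ : G → ℂ) y) = 4 * ((S : Subgroup G).index : ℂ) := by
      linear_combination (1 / 2 : ℂ) * hnorm + (1 / 2 : ℂ) * hG8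
    rw [h5]
    field_simp
  rw [h2, h3, zero_sub] at h1
  have h4 := memLocalIdeal_neg h1
  rw [neg_neg] at h4
  exact not_memLocalIdeal_one h4

include hz1 hz2 hzc hM hxx hpart hcore in
open Classical in
/-- **The count.** -/
theorem q8_count (hxi : IsConj x x⁻¹)
    (hfour : ∑ χ : IrrCharacter G, (if χ ∈ principalBlock M G then (χ : G → ℂ) x * (χ : G → ℂ) x else 0) = 4)
    (S : Sylow 2 G) (hS8 : Nat.card (S : Subgroup G) = 8) (hzS : z ∈ (S : Subgroup G))
    (hSx : ∀ s ∈ (S : Subgroup G), s ≠ 1 → s ≠ z → IsConj s x) :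
    (Finset.univ.filter (fun χ : IrrCharacter G => χ ∈ principalBlock M G)).card = 7 := by
  have := isPModular_isPrime hM
  choose e he hval using fun χ : IrrCharacter G => q8_sign hz2 hzc χ
  have hx4 : x ^ 4 = 1 := by
    calc x ^ 4 = (x ^ 2) ^ 2 := by rw [← pow_mul]
      _ = 1 := by rw [pow_two x, hxx, pow_two, hz2]
  choose a ha using fun χ : IrrCharacter G => q8_char_int χ hx4 hxi
  have hinv : ∀ χ : IrrCharacter G, (χ : G → ℂ) x⁻¹ = (χ : G → ℂ) x := by
    intro χ
    obtain ⟨c, hc⟩ := isConj_iff.1 hxi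
    rw [← hc, IsCharacter.isClassFunction (IsIrrCharacter.isCharacter χ.2)]
  have hxinv : x⁻¹ = z * x := by
    rw [inv_eq_iff_mul_eq_one, hzc x, ← mul_assoc, hxx, hz2]
  have hcard := q8_sec_card hz1 hz2 hzc hM hxx hpart hcore hxi hfour
  have hG0 : (Nat.card G : ℂ) ≠ 0 := by
    exact_mod_cast (Nat.card_pos (α := G)).ne'
  have hsec0 : ((q8Sec z).card : ℂ) ≠ 0 := by
    intro h
    rw [h, mul_zero] at hcard
    exact hG0 hcard.symm
  have hfil : ∀ {R : Type} [AddCommMonoid R] (f : IrrCharacter G → R),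
      ∑ χ ∈ Finset.univ.filter (fun χ : IrrCharacter G => χ ∈ principalBlock M G), f χ =
      ∑ χ : IrrCharacter G, if χ ∈ principalBlock M G then f χ else 0 := by
    intro R _ f
    exact Finset.sum_filter _ _
  have ho : oneIrr G ∈ Finset.univ.filter (fun χ : IrrCharacter G => χ ∈ principalBlock M G) := by
    rw [Finset.mem_filter]
    exact ⟨Finset.mem_univ _, mem_blockOf_self (oneIrr G)⟩
  refine q8_combi _ (oneIrr G) ho a e (fun i _ => he i) ?_ ?_ ?_ ?_ ?_
  · intro χ _ hχe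
    have h1 := hinv χ
    rw [hxinv, hval, hχe, ha χ] at h1
    push_cast at h1
    have h2 : (a χ : ℂ) = 0 := by linear_combination (-1 / 2 : ℂ) * h1
    exact_mod_cast h2
  · intro χ hχ hχe h0
    rw [Finset.mem_filter] at hχ
    apply q8_excl hz1 hz2 hzc hM hxx hpart hcore S hS8 hzS hSx hχ.2 (χ := χ)
    · intro g
      rw [hval, hχe]
      simp
    · rw [ha χ, h0]
      simp
  · have h := ha (oneIrr G)
    simp only [oneIrr_coe] at h
    exact_mod_cast h.symm
  · have h1 : ((∑ χ ∈ Finset.univ.filter (fun χ : IrrCharacter G => χ ∈ principalBlock M G), (a χ) ^ 2 : ℤ) : ℂ) = 4 := by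
      push_cast
      rw [hfil, ← hfour]
      refine Finset.sum_congr rfl fun χ _ => ?_
      rw [ha χ]
      ring_nf
    exact_mod_cast h1
  · have h1 : ((∑ χ ∈ Finset.univ.filter (fun χ : IrrCharacter G => χ ∈ principalBlock M G),
        e χ * (4 - (a χ) ^ 2) : ℤ) : ℂ) = 0 := by
      push_cast
      rw [hfil]
      have h2 := q8_z_orth (M := M) hz1 hz2 hzc hM e hval
      have h3 : ∀ χ : IrrCharacter G, (if χ ∈ principalBlock M G then
          (e χ : ℂ) * (4 - (a χ : ℂ) ^ 2) else 0) = (2 / ((q8Sec z).card : ℂ)) * (if χ ∈ principalBlock M G then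
          (e χ : ℂ) * ∑ y ∈ q8Reg G, (χ : G → ℂ) y * conj ((χ : G → ℂ) y) else 0) := by
        intro χ
        by_cases hχ : χ ∈ principalBlock M G
        · rw [if_pos hχ, if_pos hχ]
          have h4 := q8_norm hz1 hz2 hzc hM hxx hpart hcore hχ (he χ) (hval χ)
          rw [← hcard, ha χ, map_intCast] at h4
          have h5 : (2 : ℂ) * ∑ y ∈ q8Reg G, (χ : G → ℂ) y * conj ((χ : G → ℂ) y) =
              ((q8Sec z).card : ℂ) * (4 - (a χ : ℂ) ^ 2) := by
            linear_combination h4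
          field_simp
          linear_combination (-(e χ : ℂ)) * h5
        · rw [if_neg hχ, if_neg hχ, mul_zero]
      simp only [h3]
      rw [← Finset.mul_sum, h2, mul_zero]
    exact_mod_cast h1

end Count

section Main

/-- **The principal 2-block of a group with Sylow 2-subgroup `Q₈` has seven characters.** -/
theorem q8_block_main {G : Type*} [Group G] [Finite G] (M : Ideal AlgInt) (hM : IsPModular 2 M) (S : Sylow 2 G)
    (e : (S : Subgroup G) ≃* QuaternionGroup 2) (hO : ∀ N : Subgroup G, N.Normal → Odd (Nat.card N) → N = ⊥)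
    (hG : (S : Subgroup G) ≠ ⊤) : Nat.card (principalBlock M G) = 7 := by
  classical
  haveI : Fintype G := Fintype.ofFinite _
  obtain ⟨hS8, z, hz, hz1, hz2, h4⟩ := q8_data (S : Subgroup G) e
  have hzc := q8_central S hz hz1 hz2 h4 hO
  have hnc := q8_no_complement S hO hG
  obtain ⟨x, hx, hx1, hxz⟩ := q8_exists_elt hS8 (z := z)
  have hxx := h4 x hx hx1 hxz
  have hxi : IsConj x x⁻¹ := by
    obtain ⟨r, _, hr⟩ := q8_data_inv _ e hz hz1 hz2 h4 hx hx1 hxz
    exact isConj_iff.2 ⟨r, hr⟩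
  have hpart : ∀ u : G, (∃ k, orderOf u = 2 ^ k) → u = 1 ∨ u = z ∨ IsConj u x := fun u hu =>
    q8_two_element S e hnc hS8 hz hz1 hz2 h4 hzc hx hx1 hxz hu
  obtain ⟨K, hKn, hK, hidx, hfac⟩ := q8_centralizer_complement S e hS8 hz hz1 hz2 h4 hzc hxx
  haveI : Fintype (Subgroup.centralizer ({x} : Set G)) := Fintype.ofFinite _
  haveI := hKn
  haveI : Fintype K := Fintype.ofFinite _
  have hKle : K ≤ pPrimeCore 2 (Subgroup.centralizer ({x} : Set G)) := by
    apply Cfsg.Agent.Lib.Core.le_pPrimeCore inferInstance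
    exact ((Nat.Prime.coprime_iff_not_dvd Nat.prime_two).2 hK).symm
  have hcore : ∀ v : G, ¬ 2 ∣ orderOf v → x * v = v * x → v ∈ centralizerPPrimeCore 2 x := by
    intro v hv hc
    have hvH : v ∈ Subgroup.centralizer ({x} : Set G) := by
      rw [mem_centralizer_singleton]
      exact hc.symm
    have hvreg : ¬ 2 ∣ orderOf (⟨v, hvH⟩ : Subgroup.centralizer ({x} : Set G)) := by
      rwa [Subgroup.orderOf_mk]
    exact ⟨⟨v, hvH⟩, hKle (mem_of_regular_of_index K hidx hvreg), rfl⟩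
  have hx2 := q8_x_two hz1 hz2 hxx
  have hfour : ∑ χ : IrrCharacter G, (if χ ∈ principalBlock M G then (χ : G → ℂ) x * (χ : G → ℂ) x else 0) = 4 := by
    have hreg1 : ∀ {X : Type _} [Group X], ¬ 2 ∣ orderOf (1 : X) := by
      intro X _
      simp
    have e1 := sum_principal_section hM hx2 (1 : Subgroup.centralizer ({x} : Set G)) hreg1
    have e2 := sum_principal_pNilpotent hM K hK hidx (1 : Subgroup.centralizer ({x} : Set G)) hreg1
    rw [e2, hfac] at e1
    simp only [Subgroup.coe_one, mul_one] at e1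
    rw [show ((4 : ℕ) : ℂ) = 4 by norm_num] at e1
    rw [← e1]
    refine Finset.sum_congr rfl fun χ _ => ?_
    have h1 : conj ((χ : G → ℂ) x) = (χ : G → ℂ) x := by
      rw [← Cfsg.Agent.Lib.Degree.irr_map_inv χ x]
      obtain ⟨c, hc⟩ := isConj_iff.1 hxi
      rw [← hc, IsCharacter.isClassFunction (IsIrrCharacter.isCharacter χ.2)]
    rw [h1]
  have hSx : ∀ s ∈ (S : Subgroup G), s ≠ 1 → s ≠ z → IsConj s x := fun s hs h1 h2 =>
    q8_all_conj S e hnc hS8 hz hz1 hz2 h4 hzc hs h1 h2 hx hx1 hxz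
  have hc := q8_count hz1 hz2 hzc hM hxx hpart hcore hxi hfour S hS8 hz hSx
  have hset : principalBlock M G = ((Finset.univ.filter (fun χ : IrrCharacter G => χ ∈ principalBlock M G) : Finset _) : Set _) := by
    ext χ
    simp
  rw [hset, Nat.card_coe_set_eq, Set.ncard_coe_finset, hc]

end Main

end Cfsg.Agent.Lib.Block
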