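import Cfsg.Agent.Lib.Block.Q8
import Cfsg.Agent.S0215

/-!
# The quaternion group of order eight inside a group without odd normal subgroups
-/

set_option autoImplicit false
set_option linter.unusedSectionVars false
set_option linter.unusedSimpArgs false
set_option linter.unusedVariables false

open Cfsg

namespace Cfsg.Agent.Lib.Block

section Q8Fusion

variable {G : Type*} [Group G] [Finite G]

theorem exists_complement_of_burnside_q8 {X : Type*} [Group X] [Finite X] {p : ℕ} [hp : Fact p.Prime] (Q : Sylow p X)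
    (h : Subgroup.normalizer ((Q : Subgroup X) : Set X) ≤ Subgroup.centralizer ((Q : Subgroup X) : Set X)) :
    ∃ K : Subgroup X, K.Normal ∧ ¬ p ∣ Nat.card K ∧ ∃ k, K.index = p ^ k := by
  have hc := MonoidHom.ker_transferSylow_isComplement' Q h
  refine ⟨(MonoidHom.transferSylow Q h).ker, inferInstance, MonoidHom.not_dvd_card_ker_transferSylow Q h, ?_⟩
  have h1 := hc.symm.index_eq_card
  obtain ⟨k, hk⟩ := IsPGroup.iff_card.1 Q.isPGroup'
  exact ⟨k, by rw [h1, hk]⟩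

/-- Every element of order four in `Q₈` is inverted. -/
theorem q8_data_inv (S : Subgroup G) (e : S ≃* QuaternionGroup 2) {z : G} (hz : z ∈ S) (hz1 : z ≠ 1) (hz2 : z * z = 1)
    (h4 : ∀ u ∈ S, u ≠ 1 → u ≠ z → u * u = z) {u : G} (hu : u ∈ S) (hu1 : u ≠ 1) (huz : u ≠ z) :
    ∃ r ∈ S, r * u * r⁻¹ = u⁻¹ := by
  have hq : ∀ q : QuaternionGroup 2, q ≠ 1 → q ^ 2 ≠ 1 → ∃ r, r * q * r⁻¹ = q⁻¹ := by decide
  have h1 : e ⟨u, hu⟩ ≠ 1 := by
    intro h
    apply hu1
    have := e.injective (h.trans (map_one e).symm)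
    exact congrArg Subtype.val this
  have h2 : e ⟨u, hu⟩ ^ 2 ≠ 1 := by
    intro h
    rw [← map_pow] at h
    have h3 := e.injective (h.trans (map_one e).symm)
    have h5 : u ^ 2 = 1 := congrArg Subtype.val h3
    rw [pow_two, h4 u hu hu1 huz] at h5
    exact hz1 h5
  obtain ⟨r, hr⟩ := hq _ h1 h2
  refine ⟨(e.symm r : S), (e.symm r).2, ?_⟩
  have h5 := congrArg e.symm hr
  rw [map_mul, map_mul, map_inv, map_inv, e.symm_apply_apply] at h5
  exact congrArg Subtype.val h5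

/-- The involution is central. -/
theorem q8_central (S : Sylow 2 G) {z : G} (hz : z ∈ (S : Subgroup G)) (hz1 : z ≠ 1) (hz2 : z * z = 1)
    (h4 : ∀ u ∈ (S : Subgroup G), u ≠ 1 → u ≠ z → u * u = z)
    (hO : ∀ N : Subgroup G, N.Normal → Odd (Nat.card N) → N = ⊥) (g : G) : z * g = g * z := by
  have ho : orderOf z = 2 := orderOf_eq_prime (by rw [pow_two]; exact hz2) hz1
  obtain ⟨N, hNn, hNo, hN⟩ := Cfsg.Agent.S0215.result S z ho hz (by
    intro c hc
    by_contra hne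
    have h1 : c * z * c⁻¹ ≠ 1 := by
      intro h
      apply hz1
      have : z = c⁻¹ * (c * z * c⁻¹) * c := by group
      rw [this, h]
      group
    have h5 := h4 _ hc h1 hne
    have h6 : c * z * c⁻¹ * (c * z * c⁻¹) = 1 := by
      calc c * z * c⁻¹ * (c * z * c⁻¹) = c * (z * z) * c⁻¹ := by group
        _ = 1 := by rw [hz2]; group
    exact hz1 (h5.symm.trans h6))
  have h1 := hN g
  rw [hO N hNn hNo, Subgroup.mem_bot] at h1
  have hzi : z⁻¹ = z := inv_eq_of_mul_eq_one_left hz2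
  rw [hzi] at h1
  have h2 : z * g * z = g := by
    rwa [mul_inv_eq_one] at h1
  calc z * g = (z * g * z) * z := by rw [mul_assoc, mul_assoc, hz2, mul_one]
    _ = g * z := by rw [h2]

/-- No normal complement exists. -/
theorem q8_no_complement (S : Sylow 2 G) (hO : ∀ N : Subgroup G, N.Normal → Odd (Nat.card N) → N = ⊥)
    (hG : (S : Subgroup G) ≠ ⊤) (N : Subgroup G) (hN : N.Normal) : ¬ Subgroup.IsComplement' N (S : Subgroup G) := by
  intro hc
  have h1 : (S : Subgroup G).index = Nat.card N := hc.index_eq_card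
  have h2 : Odd (Nat.card N) := by
    rw [← h1, ← Nat.not_even_iff_odd, even_iff_two_dvd]
    exact S.not_dvd_index
  rw [hO N hN h2] at h1
  simp only [Subgroup.card_bot, Subgroup.index_eq_one] at h1
  exact hG h1

variable {S : Subgroup G} {z : G} (hS8 : Nat.card S = 8) (hz : z ∈ S) (hz1 : z ≠ 1) (hz2 : z * z = 1)
  (h4 : ∀ u ∈ S, u ≠ 1 → u ≠ z → u * u = z)

include hz1 hz2 h4 in
theorem q8_orderOf {u : G} (hu : u ∈ S) (hu1 : u ≠ 1) (huz : u ≠ z) : orderOf u = 4 := by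
  have h1 : u ^ 2 = z := by rw [pow_two]; exact h4 u hu hu1 huz
  have h2 : u ^ (2 ^ 2) = 1 := by
    rw [pow_two 2, pow_mul, h1, pow_two]
    exact hz2
  have h3 : u ^ (2 ^ 1) ≠ 1 := by
    rw [pow_one, h1]
    exact hz1
  have := orderOf_eq_prime_pow (p := 2) (n := 1) (x := u) h3 h2
  simpa using this

include hS8 in
theorem q8_exists_elt : ∃ u ∈ S, u ≠ 1 ∧ u ≠ z := by
  classical
  by_contra hcon
  push Not at hcon
  have hsub : (S : Set G) ⊆ (({1, z} : Finset G) : Set G) := by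
    intro x hx
    simp only [Finset.coe_insert, Finset.coe_singleton, Set.mem_insert_iff, Set.mem_singleton_iff]
    by_cases h1 : x = 1
    · exact Or.inl h1
    · exact Or.inr (hcon x hx h1)
  have hcard := Set.ncard_le_ncard hsub (Set.toFinite _)
  rw [Set.ncard_coe_finset, ← Nat.card_coe_set_eq] at hcard
  have : Nat.card (S : Set G) = 8 := hS8
  have h5 : ({1, z} : Finset G).card ≤ 2 := Finset.card_le_two
  omega

/-- All elements of order four are conjugate. -/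
theorem q8_all_conj (S : Sylow 2 G) (e : (S : Subgroup G) ≃* QuaternionGroup 2)
    (hnc : ∀ N : Subgroup G, N.Normal → ¬ Subgroup.IsComplement' N (S : Subgroup G))
    {z : G} (hS8 : Nat.card (S : Subgroup G) = 8) (hz : z ∈ (S : Subgroup G)) (hz1 : z ≠ 1) (hz2 : z * z = 1)
    (h4 : ∀ u ∈ (S : Subgroup G), u ≠ 1 → u ≠ z → u * u = z) (hzc : ∀ g, z * g = g * z)
    {u v : G} (hu : u ∈ (S : Subgroup G)) (hu1 : u ≠ 1) (huz : u ≠ z) (hv : v ∈ (S : Subgroup G)) (hv1 : v ≠ 1) (hvz : v ≠ z) :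
    IsConj u v := by
  have hu4 := q8_orderOf hz1 hz2 h4 hu hu1 huz
  have hv4 := q8_orderOf hz1 hz2 h4 hv hv1 hvz
  have hA : Subgroup.zpowers u ≤ (S : Subgroup G) := by rwa [Subgroup.zpowers_le]
  have hB : Subgroup.zpowers v ≤ (S : Subgroup G) := by rwa [Subgroup.zpowers_le]
  obtain ⟨n, _, hn⟩ := q8_conj S e hnc (Subgroup.zpowers u) (Subgroup.zpowers v) hA hB
    (by rw [Nat.card_zpowers, hu4]) (by rw [Nat.card_zpowers, hv4])
  have hw : n * u * n⁻¹ ∈ Subgroup.zpowers v := by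
    rw [hn]
    exact ⟨u, Subgroup.mem_zpowers u, by simp [MulAut.conj_apply]⟩
  have hw1 : n * u * n⁻¹ ≠ 1 := by
    intro h
    apply hu1
    have : u = n⁻¹ * (n * u * n⁻¹) * n := by group
    rw [this, h]
    group
  have hww : (n * u * n⁻¹) * (n * u * n⁻¹) = z := by
    calc (n * u * n⁻¹) * (n * u * n⁻¹) = n * (u * u) * n⁻¹ := by group
      _ = n * z * n⁻¹ := by rw [h4 u hu hu1 huz]
      _ = z := by rw [← hzc n]; group
  have hwz : n * u * n⁻¹ ≠ z := by
    intro h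
    rw [h, hz2] at hww
    exact hz1 hww.symm
  by_cases h1 : v = n * u * n⁻¹
  · exact isConj_iff.2 ⟨n, h1.symm⟩
  by_cases h2 : v = (n * u * n⁻¹)⁻¹
  · obtain ⟨r, _, hr⟩ := q8_data_inv (S : Subgroup G) e hz hz1 hz2 h4 hu hu1 huz
    refine isConj_iff.2 ⟨n * r, ?_⟩
    rw [h2]
    calc n * r * u * (n * r)⁻¹ = n * (r * u * r⁻¹) * n⁻¹ := by group
      _ = n * u⁻¹ * n⁻¹ := by rw [hr]
      _ = (n * u * n⁻¹)⁻¹ := by group
  · exfalso
    have h5 := q8_gen hS8 hz hz1 hz2 h4 hB hw (Subgroup.mem_zpowers v) hw1 hwz hv1 hvz h1 h2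
    have h6 : Nat.card (Subgroup.zpowers v) = 4 := by rw [Nat.card_zpowers, hv4]
    rw [h5, hS8] at h6
    omega

/-- A 2-element of `G`. -/
theorem q8_two_element (S : Sylow 2 G) (e : (S : Subgroup G) ≃* QuaternionGroup 2)
    (hnc : ∀ N : Subgroup G, N.Normal → ¬ Subgroup.IsComplement' N (S : Subgroup G))
    {z x : G} (hS8 : Nat.card (S : Subgroup G) = 8) (hz : z ∈ (S : Subgroup G)) (hz1 : z ≠ 1) (hz2 : z * z = 1)
    (h4 : ∀ u ∈ (S : Subgroup G), u ≠ 1 → u ≠ z → u * u = z) (hzc : ∀ g, z * g = g * z)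
    (hx : x ∈ (S : Subgroup G)) (hx1 : x ≠ 1) (hxz : x ≠ z) {u : G} (hu : ∃ k, orderOf u = 2 ^ k) :
    u = 1 ∨ u = z ∨ IsConj u x := by
  have h1 : IsPGroup 2 (Subgroup.zpowers u) := by
    obtain ⟨k, hk⟩ := hu
    apply IsPGroup.of_card (n := k)
    rw [Nat.card_zpowers, hk]
  obtain ⟨Q, hQ⟩ := h1.exists_le_sylow
  obtain ⟨c, hc'⟩ := MulAction.exists_smul_eq G Q S
  have h2 : c * u * c⁻¹ ∈ (S : Subgroup G) := by
    rw [← hc']
    refine ⟨u, hQ (Subgroup.mem_zpowers u), ?_⟩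
    simp [MulAut.smul_def]
  by_cases h3 : c * u * c⁻¹ = 1
  · left
    have : u = c⁻¹ * (c * u * c⁻¹) * c := by group
    rw [this, h3]
    group
  by_cases h5 : c * u * c⁻¹ = z
  · right; left
    have : u = c⁻¹ * (c * u * c⁻¹) * c := by group
    rw [this, h5, ← hzc c⁻¹]
    group
  right; right
  have h6 := q8_all_conj S e hnc hS8 hz hz1 hz2 h4 hzc h2 h3 h5 hx hx1 hxz
  exact (isConj_iff.2 ⟨c, rfl⟩).trans h6

/-- The centralizer of an element of order four. -/
theorem q8_centralizer_two (S : Sylow 2 G) (e : (S : Subgroup G) ≃* QuaternionGroup 2)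
    {z x : G} (hS8 : Nat.card (S : Subgroup G) = 8) (hz : z ∈ (S : Subgroup G)) (hz1 : z ≠ 1) (hz2 : z * z = 1)
    (h4 : ∀ u ∈ (S : Subgroup G), u ≠ 1 → u ≠ z → u * u = z) (hzc : ∀ g, z * g = g * z)
    (hxx : x * x = z) {P : Subgroup G} (hP : IsPGroup 2 P)
    (hPC : P ≤ Subgroup.centralizer ({x} : Set G)) (hxP : x ∈ P) : P ≤ Subgroup.zpowers x := by
  obtain ⟨Q, hQ⟩ := hP.exists_le_sylow
  obtain ⟨c, hc'⟩ := MulAction.exists_smul_eq G Q S
  have hmem : ∀ {t : G}, t ∈ P → c * t * c⁻¹ ∈ (S : Subgroup G) := by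
    intro t ht
    rw [← hc']
    refine ⟨t, hQ ht, ?_⟩
    simp [MulAut.smul_def]
  have hne1 : ∀ {s : G}, s ≠ 1 → c * s * c⁻¹ ≠ 1 := by
    intro s hs h
    apply hs
    have : s = c⁻¹ * (c * s * c⁻¹) * c := by group
    rw [this, h]
    group
  have hzfix : c * z * c⁻¹ = z := by rw [← hzc c]; group
  have hinj : ∀ {a b : G}, c * a * c⁻¹ = c * b * c⁻¹ → a = b := by
    intro a b h
    simpa using h
  have hx1 : x ≠ 1 := by
    rintro rfl
    rw [one_mul] at hxx
    exact hz1 hxx.symm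
  have hxz : x ≠ z := by
    rintro rfl
    rw [hz2] at hxx
    exact hz1 hxx.symm
  have hsub : ∀ {a b : G}, a ∈ Subgroup.zpowers b → True := fun _ => trivial
  obtain ⟨T, hT⟩ : ∃ T : Subgroup G, T = P.map (MulAut.conj c).toMonoidHom := ⟨_, rfl⟩
  have hTS : T ≤ (S : Subgroup G) := by
    rw [hT]
    rintro _ ⟨t, ht, rfl⟩
    exact hmem ht
  have hTm : ∀ {t : G}, t ∈ P → c * t * c⁻¹ ∈ T := by
    intro t ht
    rw [hT]
    exact ⟨t, ht, rfl⟩
  obtain ⟨x', hx'⟩ : ∃ x', x' = c * x * c⁻¹ := ⟨_, rfl⟩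
  have hx'1 : x' ≠ 1 := by rw [hx']; exact hne1 hx1
  have hx'z : x' ≠ z := by
    rw [hx', ← hzfix]
    exact fun h => hxz (hinj h)
  intro t ht
  obtain ⟨t', ht'⟩ : ∃ t', t' = c * t * c⁻¹ := ⟨_, rfl⟩
  have hcm : ∀ s ∈ T, s * x' = x' * s := by
    intro s hs
    rw [hT] at hs
    obtain ⟨y, hy, rfl⟩ := hs
    have := Subgroup.mem_centralizer_singleton_iff.1 (hPC hy)
    rw [hx']
    show c * y * c⁻¹ * (c * x * c⁻¹) = c * x * c⁻¹ * (c * y * c⁻¹)
    calc c * y * c⁻¹ * (c * x * c⁻¹) = c * (y * x) * c⁻¹ := by group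
      _ = c * (x * y) * c⁻¹ := by rw [this]
      _ = c * x * c⁻¹ * (c * y * c⁻¹) := by group
  by_cases h1 : t' = 1
  · have : t = 1 := by
      by_contra hne
      exact hne1 hne (ht' ▸ h1)
    rw [this]
    exact Subgroup.one_mem _
  by_cases h2 : t' = z
  · have : t = z := by
      apply hinj
      rw [← ht', h2, hzfix]
    rw [this, ← hxx]
    exact Subgroup.mul_mem _ (Subgroup.mem_zpowers x) (Subgroup.mem_zpowers x)
  by_cases h3 : t' = x'
  · have : t = x := by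
      apply hinj
      rw [← ht', h3, hx']
    rw [this]
    exact Subgroup.mem_zpowers x
  by_cases h5 : t' = x'⁻¹
  · have : t = x⁻¹ := by
      apply hinj
      rw [← ht', h5, hx']
      group
    rw [this]
    exact Subgroup.inv_mem _ (Subgroup.mem_zpowers x)
  exfalso
  have hT' := q8_gen hS8 hz hz1 hz2 h4 hTS (hx' ▸ hTm hxP) (ht' ▸ hTm ht) hx'1 hx'z h1 h2 h3 h5
  have hx'S : x' ∈ (S : Subgroup G) := hx' ▸ hmem hxP
  obtain ⟨r, hr, hri⟩ := q8_data_inv (S : Subgroup G) e hz hz1 hz2 h4 hx'S hx'1 hx'z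
  have hrT : r ∈ T := by rw [hT']; exact hr
  have h6 := hcm r hrT
  have h7 : r * x' * r⁻¹ = x' := by rw [h6]; group
  exact q8_inv_ne hz1 hz2 h4 hx'S hx'1 hx'z (hri.symm.trans h7)

/-- The centralizer of an element of order four has a normal 2-complement. -/
theorem q8_centralizer_complement (S : Sylow 2 G) (e : (S : Subgroup G) ≃* QuaternionGroup 2)
    {z x : G} (hS8 : Nat.card (S : Subgroup G) = 8) (hz : z ∈ (S : Subgroup G)) (hz1 : z ≠ 1) (hz2 : z * z = 1)
    (h4 : ∀ u ∈ (S : Subgroup G), u ≠ 1 → u ≠ z → u * u = z) (hzc : ∀ g, z * g = g * z)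
    (hxx : x * x = z) :
    ∃ K : Subgroup (Subgroup.centralizer ({x} : Set G)), K.Normal ∧ ¬ 2 ∣ Nat.card K ∧ (∃ k, K.index = 2 ^ k) ∧
      2 ^ (Nat.card (Subgroup.centralizer ({x} : Set G))).factorization 2 = 4 := by
  have hx1 : x ≠ 1 := by
    rintro rfl
    rw [one_mul] at hxx
    exact hz1 hxx.symm
  have hxz : x ≠ z := by
    rintro rfl
    rw [hz2] at hxx
    exact hz1 hxx.symm
  have hxo : orderOf x = 4 := by
    have h1 : x ^ 2 = z := by rw [pow_two]; exact hxx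
    have h2 : x ^ (2 ^ 2) = 1 := by
      rw [pow_two 2, pow_mul, h1, pow_two]
      exact hz2
    have h3 : x ^ (2 ^ 1) ≠ 1 := by
      rw [pow_one, h1]
      exact hz1
    have := orderOf_eq_prime_pow (p := 2) (n := 1) (x := x) h3 h2
    simpa using this
  obtain ⟨x₀, hx₀⟩ : ∃ x₀ : Subgroup.centralizer ({x} : Set G), (x₀ : G) = x :=
    ⟨⟨x, Subgroup.mem_centralizer_singleton_iff.2 rfl⟩, rfl⟩
  have h1 : IsPGroup 2 (Subgroup.zpowers x₀) := by
    apply IsPGroup.of_card (n := 2)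
    have h0 : orderOf x₀ = 4 := by
      rw [← Subgroup.orderOf_coe, hx₀, hxo]
    rw [Nat.card_zpowers, h0]
    norm_num
  obtain ⟨Q, hQ⟩ := h1.exists_le_sylow
  obtain ⟨P, hP⟩ : ∃ P : Subgroup G, P = (Q : Subgroup _).map (Subgroup.centralizer ({x} : Set G)).subtype := ⟨_, rfl⟩
  have hPp : IsPGroup 2 P := by
    rw [hP]
    exact Q.isPGroup'.map _
  have hPC : P ≤ Subgroup.centralizer ({x} : Set G) := by
    rw [hP]
    rintro _ ⟨t, _, rfl⟩
    exact t.2
  have hxP : x ∈ P := by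
    rw [hP]
    exact ⟨x₀, hQ (Subgroup.mem_zpowers x₀), hx₀⟩
  have hle := q8_centralizer_two S e hS8 hz hz1 hz2 h4 hzc hxx hPp hPC hxP
  have hge : Subgroup.zpowers x ≤ P := by
    rwa [Subgroup.zpowers_le]
  have heq : P = Subgroup.zpowers x := le_antisymm hle hge
  have hcardQ : Nat.card (Q : Subgroup (Subgroup.centralizer ({x} : Set G))) = 4 := by
    have h2 : Nat.card P = Nat.card (Q : Subgroup (Subgroup.centralizer ({x} : Set G))) := by
      rw [hP]
      exact Nat.card_congr (Subgroup.equivMapOfInjective _ _ (Subgroup.subtype_injective _)).symm.toEquiv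
    rw [← h2, heq, Nat.card_zpowers, hxo]
  obtain ⟨K, hKn, hK, hidx⟩ := exists_complement_of_burnside_q8 Q (by
    intro w _
    rw [Subgroup.mem_centralizer_iff]
    intro y hy
    apply Subtype.ext
    have hyP : (y : G) ∈ P := by
      rw [hP]
      exact ⟨y, hy, rfl⟩
    rw [heq] at hyP
    obtain ⟨k, hk⟩ := Subgroup.mem_zpowers_iff.1 hyP
    have h2 : Commute x (w : G) := (Subgroup.mem_centralizer_singleton_iff.1 w.2).symm
    have h3 : Commute (x ^ k) (w : G) := h2.zpow_left k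
    show (y : G) * w = w * y
    rw [← hk]
    exact h3.eq)
  refine ⟨K, hKn, hK, hidx, ?_⟩
  rw [← Sylow.card_eq_multiplicity Q, hcardQ]

end Q8Fusion

end Cfsg.Agent.Lib.Block
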