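import Cfsg.Agent.Lib.Block.RegSuppA

/-!
# Regular-supported central idempotents over an invariant character
-/

set_option autoImplicit false
set_option linter.unusedSectionVars false
set_option linter.unusedSimpArgs false
set_option linter.unusedVariables false

open scoped ComplexConjugate
open Cfsg MonoidAlgebra
open Cfsg.Agent.Lib.Block Cfsg.Agent.Lib.Char Cfsg.Agent.Lib.CharExtra

namespace Cfsg.Agent.Lib.Block.RegSupp

universe u

section Basic

variable {G : Type u} [Group G] [Fintype G]

theorem blockElt_mul_blockElt (A B : Set (IrrCharacter G)) :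
    blockElt A * blockElt B = blockElt (A ∩ B) := by
  classical
  apply central_ext_om (isCentralElt_mul (isCentralElt_blockElt _) (isCentralElt_blockElt _))
    (isCentralElt_blockElt _)
  intro χ
  rw [om_mul χ.2 (isCentralElt_blockElt _)]
  by_cases hA : χ ∈ A
  · by_cases hB : χ ∈ B
    · rw [om_blockElt_of_mem hA, om_blockElt_of_mem hB,
        om_blockElt_of_mem (A := A ∩ B) ⟨hA, hB⟩, one_mul]
    · rw [om_blockElt_of_notMem hB, om_blockElt_of_notMem (A := A ∩ B) (fun h => hB h.2), mul_zero]
  · rw [om_blockElt_of_notMem hA, om_blockElt_of_notMem (A := A ∩ B) (fun h => hA h.1), zero_mul]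

theorem blockCoeff_inv' (A : Set (IrrCharacter G)) (g : G) :
    blockCoeff A g⁻¹ = conj (blockCoeff A g) := by
  classical
  rw [blockCoeff_eq_sum, blockCoeff_eq_sum, map_mul, map_sum, map_inv₀, map_natCast]
  congr 1
  refine Finset.sum_congr rfl fun χ _ => ?_
  split_ifs with h
  · have h1 := Cfsg.Agent.Lib.Char.IsCharacter.map_inv' (IsIrrCharacter.isCharacter χ.2) g
    have h2 : conj ((χ : G → ℂ) 1) = (χ : G → ℂ) 1 := by
      rw [map_one_eq_charDegree (IsIrrCharacter.isCharacter χ.2), Complex.conj_natCast]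
    rw [h1, map_mul, h2]
  · simp

variable (H : Subgroup G) [Fintype H]

theorem blockCoeff_singleton' (θ : IrrCharacter H) (n : H) :
    blockCoeff ({θ} : Set (IrrCharacter H)) n =
      (Nat.card H : ℂ)⁻¹ * ((θ : H → ℂ) 1 * conj ((θ : H → ℂ) n)) := by
  unfold blockCoeff
  rw [finsum_mem_singleton]

/-- Multiplication by the idempotent of a character of a subgroup. -/
theorem coeff_incl_singleton_mul (Ψ : IrrCharacter H) (z : MonoidAlgebra ℂ G) (g : G) :
    (incl H (blockElt ({Ψ} : Set (IrrCharacter H))) * z).coeff g =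
      (Nat.card H : ℂ)⁻¹ * (Ψ : H → ℂ) 1 * ∑ h : H, (Ψ : H → ℂ) h * z.coeff ((h : G) * g) := by
  classical
  rw [coeff_mul_eq, sum_eq_sum_subgroup H _ (fun k hk => by rw [coeff_incl_of_notMem H _ hk, zero_mul]),
    Finset.mul_sum, ← Equiv.sum_comp (Equiv.inv H)]
  refine Finset.sum_congr rfl fun h _ => ?_
  simp only [Equiv.inv_apply, coeff_incl_coe, coeff_blockElt]
  rw [blockCoeff_singleton', InvMemClass.coe_inv, inv_inv,
    Cfsg.Agent.Lib.Char.IsCharacter.map_inv' (IsIrrCharacter.isCharacter Ψ.2) h]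
  simp only [Complex.conj_conj]
  ring

end Basic

section Main

variable {G : Type u} [Group G] [Fintype G] {p : ℕ} [hp : Fact p.Prime] {K L : Subgroup G}
  [hKn : K.Normal] [hLn : L.Normal] (hKL : K ≤ L) [Fintype K] [Fintype L]

theorem resRep_irreducible (θ : IrrCharacter K) {d : ℕ} (X : Representation ℂ L (Fin d → ℂ))
    (h : ∀ k : K, X.character (Subgroup.inclusion hKL k) = (θ : K → ℂ) k) :
    (resRep hKL X).IsIrreducible := by
  obtain ⟨d', X', hi, hc⟩ := θ.2
  have hch : X'.character = (resRep hKL X).character := by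
    funext k
    rw [hc, ← h k]
    rfl
  obtain ⟨φ⟩ := nonempty_equiv_of_character_eq _ _ _ X' (resRep hKL X) rfl hch
  exact isIrreducible_of_equiv φ hi

/-- **Key theorem**: a regular-supported central idempotent over an invariant character of `K` is
supported on `K`. -/
theorem blockCoeff_mem_of_ne_zero
    (hLp : ∀ z ∈ L, ∃ n : ℕ, z ^ p ^ n ∈ K)
    (hC : ∀ y : G, ¬ p ∣ orderOf y → (∀ t : L, (t : G)⁻¹ * y * t * y⁻¹ ∈ K) → y ∈ K)
    (θ : IrrCharacter K) (hθinv : ∀ g : G, conjIrr K g θ = θ) (Θ : IrrCharacter L)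
    (hres : ∀ k : K, (Θ : L → ℂ) (Subgroup.inclusion hKL k) = (θ : K → ℂ) k)
    (hinv : ∀ (g : G) (n : L), (Θ : L → ℂ) (nconj L g n) = (Θ : L → ℂ) n)
    (V : Set (IrrCharacter G)) (hV : V ⊆ overSet K ({θ} : Set (IrrCharacter K)))
    (hreg : ∀ g, p ∣ orderOf g → blockCoeff V g = 0) {y : G} (hy : blockCoeff V y ≠ 0) : y ∈ K := by
  classical
  obtain ⟨d, X, hXi, hXc⟩ := Θ.2
  have hXK : (resRep hKL X).IsIrreducible :=
    resRep_irreducible hKL θ X (fun k => by rw [hXc, hres])
  have hXinv : ∀ (g : G) (n : L), X.character (nconj L g n) = X.character n := by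
    intro g n
    rw [hXc, hinv]
  have hKc : (Nat.card K : ℂ) ≠ 0 := by exact_mod_cast Nat.card_pos.ne'
  have hLc : (Nat.card L : ℂ) ≠ 0 := by exact_mod_cast Nat.card_pos.ne'
  have hn0 : (θ : K → ℂ) 1 ≠ 0 := isIrr_one_ne_zero θ.2
  have hn : (Θ : L → ℂ) 1 = (θ : K → ℂ) 1 := by
    rw [← hres 1]
    simp
  -- the idempotents
  have hE : incl K (blockElt ({θ} : Set (IrrCharacter K))) * blockElt V = blockElt V := by
    rw [incl_blockElt_eq_over K (isStable_singleton K hθinv), blockElt_mul_blockElt,
      Set.inter_eq_right.2 hV]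
  have hR : ∀ h : G, blockCoeff V h =
      (Nat.card K : ℂ)⁻¹ * (θ : K → ℂ) 1 * ∑ k : K, (θ : K → ℂ) k * blockCoeff V ((k : G) * h) := by
    intro h
    have := coeff_incl_singleton_mul K θ (blockElt V) h
    rw [hE] at this
    simpa only [coeff_blockElt] using this
  let f : MonoidAlgebra ℂ G := incl L (blockElt ({Θ} : Set (IrrCharacter L))) * blockElt V
  have hfc : ∀ h : G, f.coeff h =
      (Nat.card L : ℂ)⁻¹ * (Θ : L → ℂ) 1 * ∑ l : L, (Θ : L → ℂ) l * blockCoeff V ((l : G) * h) := by
    intro h
    have := coeff_incl_singleton_mul L Θ (blockElt V) h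
    simpa only [coeff_blockElt] using this
  have hfe : f * blockElt V = f := by
    simp only [f]
    rw [mul_assoc, blockElt_mul_self]
  have h2 : ∑ h : G, f.coeff h * conj (blockCoeff V h) = f.coeff 1 := by
    have : (f * blockElt V).coeff 1 = f.coeff 1 := by rw [hfe]
    rw [coeff_mul_eq] at this
    rw [← this]
    refine Finset.sum_congr rfl fun h _ => ?_
    rw [mul_one, coeff_blockElt, blockCoeff_inv']
  have h4 : ∑ h : G, blockCoeff V h * conj (blockCoeff V h) = blockCoeff V 1 := by
    have : (blockElt V * blockElt V).coeff 1 = (blockElt V).coeff 1 := by rw [blockElt_mul_self]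
    rw [coeff_mul_eq, coeff_blockElt] at this
    rw [← this]
    refine Finset.sum_congr rfl fun h _ => ?_
    rw [mul_one, coeff_blockElt, coeff_blockElt, blockCoeff_inv']
  -- the values of `f`
  have hcpos : ∀ h : G, 0 < (cosetCent K L h).card :=
    fun h => Finset.card_pos.2 ⟨1, one_mem_cosetCent h⟩
  have h1 : ∀ h : G, f.coeff h * conj (blockCoeff V h) =
      ((Nat.card K : ℂ) / ((cosetCent K L h).card : ℂ)) * (blockCoeff V h * conj (blockCoeff V h)) := by
    intro h
    by_cases hh : p ∣ orderOf h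
    · simp [hreg h hh]
    · have hc0 : ((cosetCent K L h).card : ℂ) ≠ 0 := by exact_mod_cast (hcpos h).ne'
      have hcount := count_formula hKL X hXK hXinv hLp (blockCoeff V) (blockCoeff_conj V) hreg h hh
      rw [hXc] at hcount
      simp only [hres] at hcount
      have e1 : f.coeff h = ((Nat.card K : ℂ) / ((cosetCent K L h).card : ℂ)) * blockCoeff V h := by
        rw [hfc, hn]
        have e2 : ∑ l : L, (Θ : L → ℂ) l * blockCoeff V ((l : G) * h) =
            ∑ l : L, blockCoeff V ((l : G) * h) * (Θ : L → ℂ) l :=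
          Finset.sum_congr rfl fun l _ => mul_comm _ _
        have e3 : blockCoeff V h = (Nat.card K : ℂ)⁻¹ * (θ : K → ℂ) 1 *
            ∑ k : K, blockCoeff V ((k : G) * h) * (θ : K → ℂ) k := by
          rw [hR h]
          congr 1
          exact Finset.sum_congr rfl fun l _ => mul_comm _ _
        rw [e2]
        rw [e3]
        field_simp
        linear_combination hcount
      rw [e1]
      ring
  -- the value at 1
  have h3 : f.coeff 1 = ((Nat.card K : ℂ) / (Nat.card L : ℂ)) * blockCoeff V 1 := by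
    rw [hfc, hn]
    have e2 : ∑ l : L, (Θ : L → ℂ) l * blockCoeff V ((l : G) * 1) =
        ∑ k : K, (θ : K → ℂ) k * blockCoeff V ((k : G) * 1) := by
      have := sum_translate hKL (1 : L) (1 : L)
        (fun l : L => (Θ : L → ℂ) l * blockCoeff V ((l : G) * 1))
      simp only [one_mul, mul_one, OneMemClass.coe_one, inv_one, hres, Subgroup.coe_inclusion] at this
      simp only [mul_one]
      rw [this]
      refine Finset.sum_congr rfl fun l _ => ?_
      split_ifs with hlK
      · rfl
      · have hsing : p ∣ orderOf (l : G) := by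
          by_contra hcon
          apply hlK
          obtain ⟨n, hn⟩ := hLp l l.2
          have hco : Nat.Coprime (p ^ n) (orderOf (l : G)) :=
            Nat.Coprime.pow_left _ ((Nat.Prime.coprime_iff_not_dvd hp.out).2 hcon)
          obtain ⟨m, hm⟩ := exists_pow_eq_self_of_coprime hco
          rw [← hm]
          exact K.pow_mem hn m
        rw [hreg _ hsing, mul_zero]
    rw [e2]
    have e3 := hR 1
    rw [e3]
    field_simp
  -- the real form
  have hsum : ∑ h : G, ((Nat.card K : ℂ) / ((cosetCent K L h).card : ℂ)) *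
      (blockCoeff V h * conj (blockCoeff V h)) =
      ((Nat.card K : ℂ) / (Nat.card L : ℂ)) * ∑ h : G, blockCoeff V h * conj (blockCoeff V h) := by
    rw [h4, ← h3, ← h2]
    exact Finset.sum_congr rfl fun h _ => (h1 h).symm
  have hreal : ∑ h : G, (1 / ((cosetCent K L h).card : ℝ) - 1 / (Nat.card L : ℝ)) *
      Complex.normSq (blockCoeff V h) = 0 := by
    have hK' : ((Nat.card K : ℝ) : ℂ) ≠ 0 := by exact_mod_cast Nat.card_pos.ne'
    apply Complex.ofReal_injective
    apply mul_left_cancel₀ hK'
    rw [Complex.ofReal_zero, mul_zero]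
    push_cast
    rw [Finset.mul_sum]
    have e : ∀ h : G, ((Nat.card K : ℂ)) * (((1 : ℂ) / ((cosetCent K L h).card : ℂ) - 1 / (Nat.card L : ℂ)) *
        (Complex.normSq (blockCoeff V h) : ℂ)) =
        ((Nat.card K : ℂ) / ((cosetCent K L h).card : ℂ)) * (blockCoeff V h * conj (blockCoeff V h)) -
          ((Nat.card K : ℂ) / (Nat.card L : ℂ)) * (blockCoeff V h * conj (blockCoeff V h)) := by
      intro h
      rw [Complex.mul_conj]
      ring
    simp only [e]
    rw [Finset.sum_sub_distrib, hsum, Finset.mul_sum, sub_self]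
  have hle : ∀ h : G, ((cosetCent K L h).card : ℝ) ≤ (Nat.card L : ℝ) := by
    intro h
    have : (cosetCent K L h).card ≤ Nat.card L := by
      rw [← Fintype.card_eq_nat_card]
      exact Finset.card_le_univ _
    exact_mod_cast this
  have hnonneg : ∀ h ∈ (Finset.univ : Finset G),
      0 ≤ (1 / ((cosetCent K L h).card : ℝ) - 1 / (Nat.card L : ℝ)) * Complex.normSq (blockCoeff V h) := by
    intro h _
    refine mul_nonneg ?_ (Complex.normSq_nonneg _)
    have hp0 : (0 : ℝ) < ((cosetCent K L h).card : ℝ) := by exact_mod_cast hcpos h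
    have := one_div_le_one_div_of_le hp0 (hle h)
    linarith
  have hzero := (Finset.sum_eq_zero_iff_of_nonneg hnonneg).1 hreal y (Finset.mem_univ _)
  have hns : Complex.normSq (blockCoeff V y) ≠ 0 := by
    rwa [Ne, Complex.normSq_eq_zero]
  have hc1 : (1 / ((cosetCent K L y).card : ℝ) - 1 / (Nat.card L : ℝ)) = 0 :=
    (mul_eq_zero.1 hzero).resolve_right hns
  have hcard : (cosetCent K L y).card = Nat.card L := by
    have hp0 : (0 : ℝ) < ((cosetCent K L y).card : ℝ) := by exact_mod_cast hcpos y
    have hp1 : (0 : ℝ) < (Nat.card L : ℝ) := by exact_mod_cast Nat.card_pos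
    have h5 : ((cosetCent K L y).card : ℝ) = (Nat.card L : ℝ) := by
      have h6 := sub_eq_zero.1 hc1
      rw [div_eq_div_iff hp0.ne' hp1.ne'] at h6
      linarith
    exact_mod_cast h5
  have huniv : cosetCent K L y = Finset.univ := by
    apply Finset.eq_univ_of_card
    rw [hcard, Fintype.card_eq_nat_card]
  apply hC y
  · intro hcon
    exact hy (hreg y hcon)
  · intro t
    have : t ∈ cosetCent K L y := by
      rw [huniv]
      exact Finset.mem_univ _
    simpa [cosetCent] using this

end Main

end Cfsg.Agent.Lib.Block.RegSupp
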