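import Cfsg.Agent.Lib.Block.RegSuppB
import Cfsg.Agent.Lib.Coprime.CopDeg
import Cfsg.Agent.Lib.CharExtra.PIndex
import Cfsg.Agent.Lib.BPair.FongHeight
import Cfsg.Agent.Lib.GS1.PSolvOrbit

/-!
# Regular-supported central idempotents of `p`-solvable groups
-/

set_option autoImplicit false
set_option linter.unusedSectionVars false
set_option linter.unusedSimpArgs false
set_option linter.unusedVariables false

open scoped ComplexConjugate
open Cfsg MonoidAlgebra
open Cfsg.Agent.Lib.Block Cfsg.Agent.Lib.Char Cfsg.Agent.Lib.CharExtra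

namespace Cfsg.Agent.Lib.Block.RegSupp

universe u

section Ext

variable {G : Type u} [Group G] [Fintype G] {p : ℕ} [hp : Fact p.Prime]

theorem detOrder_conjFn_dvd {N : Subgroup G} [hN : N.Normal] (g : G) {χ : N → ℂ} (hχ : IsCharacter N χ) :
    detOrder (conjFn hN g χ) ∣ detOrder χ := by
  classical
  obtain ⟨m, ρ, rfl⟩ := hχ
  let σ : Representation ℂ N (Fin m → ℂ) := MonoidHom.comp ρ (conjEquiv hN g).toMonoidHom
  have h1 : conjFn hN g ρ.character = σ.character := by
    rw [conjFn_eq_comp]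
    rfl
  rw [h1]
  unfold detOrder
  apply orderOf_dvd_of_pow_eq_one
  funext n
  rw [Pi.pow_apply, detChar_character]
  have h2 := congrFun (pow_orderOf_eq_one (detChar ρ.character)) (conjEquiv hN g n)
  rw [Pi.pow_apply, detChar_character] at h2
  exact h2

/-- The canonical extension is invariant. -/
theorem exists_invariant_ext {K L : Subgroup G} [hKn : K.Normal] [hLn : L.Normal] (hKL : K ≤ L) [Fintype K]
    [Fintype L] (hK : ¬ p ∣ Nat.card K) (hidx : ∃ k : ℕ, (K.subgroupOf L).index = p ^ k)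
    (θ : IrrCharacter K) (hθinv : ∀ g : G, conjIrr K g θ = θ) :
    ∃ Θ : IrrCharacter L, (∀ k : K, (Θ : L → ℂ) (Subgroup.inclusion hKL k) = (θ : K → ℂ) k) ∧
      ∀ (g : G) (n : L), (Θ : L → ℂ) (nconj L g n) = (Θ : L → ℂ) n := by
  classical
  haveI : Fintype (K.subgroupOf L) := Fintype.ofFinite _
  obtain ⟨b, hb⟩ := hidx
  have hcardN : Nat.card (K.subgroupOf L) = Nat.card K :=
    Nat.card_congr (Subgroup.subgroupOfEquivOfLe hKL).toEquiv
  let ϑ : IrrCharacter (K.subgroupOf L) := transIrr K L hKL θ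
  have hθval : ∀ (g : G) (x : K), (θ : K → ℂ) ⟨g * x * g⁻¹, hKn.conj_mem x x.2 g⟩ = (θ : K → ℂ) x := by
    intro g x
    have := congrFun (congrArg Subtype.val (hθinv g)) x
    rw [conjIrr_coe] at this
    exact this
  have hinv' : ∀ (g : L) (n : K.subgroupOf L),
      (ϑ : K.subgroupOf L → ℂ) ⟨g * n * g⁻¹, (inferInstance : (K.subgroupOf L).Normal).conj_mem (n : L) n.2 g⟩ =
        (ϑ : K.subgroupOf L → ℂ) n := by
    intro g n
    exact hθval (g : G) ⟨((n : L) : G), n.2⟩
  have hd : (ϑ : K.subgroupOf L → ℂ) 1 = (charDegree (ϑ : K.subgroupOf L → ℂ) : ℂ) :=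
    map_one_eq_charDegree (IsIrrCharacter.isCharacter ϑ.2)
  have hcop : Nat.Coprime (K.subgroupOf L).index
      (detOrder (ϑ : K.subgroupOf L → ℂ) * charDegree (ϑ : K.subgroupOf L → ℂ)) := by
    rw [hb]
    apply Nat.Coprime.pow_left
    rw [Nat.Prime.coprime_iff_not_dvd hp.out]
    intro hdv
    rcases (Nat.Prime.dvd_mul hp.out).1 hdv with h | h
    · apply hK
      rw [← hcardN]
      exact h.trans (Cfsg.Agent.Lib.Coprime.detOrder_dvd_card (IsIrrCharacter.isCharacter ϑ.2))
    · apply hK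
      rw [← hcardN]
      exact h.trans (charDegree_dvd_card ϑ.2)
  obtain ⟨Θ, ⟨hΘ, hext, hdet⟩, huniq⟩ := Cfsg.Agent.S0867.result (K.subgroupOf L) (ϑ : K.subgroupOf L → ℂ) ϑ.2 hinv' _ hd hcop
  refine ⟨⟨Θ, hΘ⟩, ?_, ?_⟩
  · intro k
    exact hext ⟨Subgroup.inclusion hKL k, k.2⟩
  · intro g n
    have hcg : conjFn hLn g Θ = Θ := by
      apply huniq _ (conjFn_isIrr hLn g hΘ)
      · intro n
        have hm : g * ((n : L) : G) * g⁻¹ ∈ K := hKn.conj_mem _ n.2 g
        have e1 : conjFn hLn g Θ (n : L) = Θ ⟨g * ((n : L) : G) * g⁻¹, hLn.conj_mem _ (n : L).2 g⟩ := rfl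
        have e2 := hext ⟨⟨g * ((n : L) : G) * g⁻¹, hKL hm⟩, hm⟩
        have e3 := hθval g ⟨((n : L) : G), n.2⟩
        rw [e1]
        refine e2.trans ?_
        exact e3
      · have hdv := detOrder_conjFn_dvd g (IsIrrCharacter.isCharacter hΘ)
        refine Nat.Coprime.coprime_dvd_right hdv ?_
        rw [hdet]
        exact Nat.Coprime.coprime_mul_right_right hcop
    exact congrFun hcg n

end Ext

section Ord

variable {G : Type*} [Group G] [Finite G] {p : ℕ} [hp : Fact p.Prime]

/-- Multiplying by an element of a normal `p'`-subgroup keeps singular elements singular. -/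
theorem dvd_orderOf_mul {K : Subgroup G} [hKn : K.Normal] (hK : ¬ p ∣ Nat.card K) {k g : G} (hk : k ∈ K)
    (hg : p ∣ orderOf g) : p ∣ orderOf (k * g) := by
  by_contra hcon
  have h0 : QuotientGroup.mk' K k = 1 := (QuotientGroup.eq_one_iff k).2 hk
  have h1 : QuotientGroup.mk' K (k * g) = QuotientGroup.mk' K g := by
    rw [map_mul, h0, one_mul]
  have h2 : (QuotientGroup.mk' K g) ^ orderOf (k * g) = 1 := by
    rw [← h1, ← map_pow, pow_orderOf_eq_one, map_one]
  have h3 : g ^ orderOf (k * g) ∈ K := by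
    rw [← map_pow] at h2
    exact (QuotientGroup.eq_one_iff _).1 h2
  have h4 : g ^ (orderOf (k * g) * Nat.card K) = 1 := by
    rw [pow_mul]
    have h5 : (⟨_, h3⟩ : K) ^ Nat.card K = 1 := pow_card_eq_one'
    have h6 := congrArg Subtype.val h5
    simpa only [Subgroup.coe_pow, OneMemClass.coe_one] using h6
  have h7 := orderOf_dvd_of_pow_eq_one h4
  rcases (Nat.Prime.dvd_mul hp.out).1 (hg.trans h7) with h8 | h8
  · exact hcon h8
  · exact hK h8

end Ord

section Induce

variable {G : Type*} [Group G] [Fintype G] {T : Subgroup G} [Fintype T] {O : Set (IrrCharacter T)}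

/-- Cutting the induced idempotent back down to `T`. -/
theorem incl_mul_indSetOf
    (hdisj : ∀ x : G, x ∉ T → incl T (blockElt O) * conjElt x⁻¹ (incl T (blockElt O)) = 0)
    {W : Set (IrrCharacter T)} (hW : W ⊆ O) :
    incl T (blockElt O) * blockElt (indSetOf W : Set (IrrCharacter G)) = incl T (blockElt W) := by
  classical
  have hEA : incl T (blockElt O) * incl T (blockElt W) = incl T (blockElt W) := by
    rw [← map_mul, blockElt_mul_blockElt, Set.inter_eq_right.2 hW]
  apply ext_coeff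
  intro g
  have h1 : ∀ x : G, (incl T (blockElt O) * conjElt x (incl T (blockElt W))).coeff g =
      ∑ h : G, (incl T (blockElt O)).coeff h * (incl T (blockElt W)).coeff (x⁻¹ * (h⁻¹ * g) * x) := by
    intro x
    rw [coeff_mul_eq]
    refine Finset.sum_congr rfl fun h _ => ?_
    rw [coeff_conjElt]
  have h2 : ∀ x : G, (incl T (blockElt O) * conjElt x (incl T (blockElt W))).coeff g =
      if x ∈ T then (incl T (blockElt W)).coeff g else 0 := by
    intro x
    split_ifs with hx
    · have h3 : conjElt x (incl T (blockElt W)) = incl T (blockElt W) := by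
        apply ext_coeff
        intro u
        rw [coeff_conjElt]
        exact coeff_incl_conj_of_central (isCentralElt_blockElt W) x hx u
      rw [h3, hEA]
    · have h3 : incl T (blockElt O) * conjElt x (incl T (blockElt O)) = 0 := by
        have h4 := hdisj x⁻¹ (fun hc => hx (by simpa using T.inv_mem hc))
        rwa [inv_inv] at h4
      have h5 : conjElt x (incl T (blockElt W)) =
          conjElt x (incl T (blockElt O)) * conjElt x (incl T (blockElt W)) := by
        rw [← conjElt_mul_distrib, hEA]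
      rw [h5, ← mul_assoc, h3, zero_mul]
      rfl
  rw [coeff_mul_eq]
  simp only [coeff_blockElt]
  rw [show ∑ h : G, (incl T (blockElt O)).coeff h * blockCoeff (indSetOf W : Set (IrrCharacter G)) (h⁻¹ * g) =
      (Nat.card T : ℂ)⁻¹ * ∑ x : G, (incl T (blockElt O) * conjElt x (incl T (blockElt W))).coeff g from ?_]
  · simp only [h2]
    rw [sum_eq_sum_subgroup T _ (fun k hk => by rw [if_neg hk])]
    have h6 : ∀ x : T, (if (x : G) ∈ T then (incl T (blockElt W)).coeff g else 0) = (incl T (blockElt W)).coeff g :=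
      fun x => if_pos x.2
    simp only [h6, Finset.sum_const, Finset.card_univ, nsmul_eq_mul, Fintype.card_eq_nat_card]
    have h7 : (Nat.card T : ℂ) ≠ 0 := by exact_mod_cast Nat.card_pos.ne'
    field_simp
  · simp only [h1, blockCoeff_indSetOf hdisj hW]
    rw [Finset.sum_comm, Finset.mul_sum]
    refine Finset.sum_congr rfl fun h _ => ?_
    rw [← Finset.mul_sum]
    ring

/-- The characters of `T` in `O` inducing a member of `U`. -/
def cutSet (O : Set (IrrCharacter T)) (U : Set (IrrCharacter G)) : Set (IrrCharacter T) :=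
  {τ | τ ∈ O ∧ ∃ χ ∈ U, (χ : G → ℂ) = indFun T (τ : T → ℂ)}

theorem incl_cutSet
    (hdisj : ∀ x : G, x ∉ T → incl T (blockElt O) * conjElt x⁻¹ (incl T (blockElt O)) = 0)
    (U : Set (IrrCharacter G)) :
    incl T (blockElt O) * blockElt U = incl T (blockElt (cutSet O U)) := by
  classical
  have h1 : incl T (blockElt O) * blockElt (indSetOf O : Set (IrrCharacter G)) = incl T (blockElt O) :=
    incl_mul_indSetOf hdisj (le_refl O)
  have h2 : (indSetOf O : Set (IrrCharacter G)) ∩ U = indSetOf (cutSet O U) := by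
    ext χ
    constructor
    · rintro ⟨⟨τ, hτ, hc⟩, hχ⟩
      exact ⟨τ, ⟨hτ, χ, hχ, hc⟩, hc⟩
    · rintro ⟨τ, ⟨hτ, χ', hχ', hc'⟩, hc⟩
      have : χ = χ' := Subtype.ext (hc.trans hc'.symm)
      rw [this] at hc ⊢
      exact ⟨⟨τ, hτ, hc⟩, hχ'⟩
  rw [← incl_mul_indSetOf hdisj (W := cutSet O U) (fun τ hτ => hτ.1), ← h2, ← blockElt_mul_blockElt,
    ← mul_assoc, h1]

end Induce

section Main

variable {G : Type u} [Group G] [Fintype G] {p : ℕ} [hp : Fact p.Prime] {M : Ideal AlgInt}

/-- The invariant case. -/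
theorem case_invariant [Fintype (pPrimeCore p G)] (hM : IsPModular p M) (hsolv : IsPSolvable p G)
    {θ : IrrCharacter (pPrimeCore p G)} (hinv : ∀ g : G, conjIrr (pPrimeCore p G) g θ = θ)
    (U : Set (IrrCharacter G)) (hU : ∀ g, p ∣ orderOf g → blockCoeff U g = 0)
    {χ : IrrCharacter G} (hχU : χ ∈ U)
    (hχ : classInner (fun n : pPrimeCore p G => (χ : G → ℂ) n) (θ : pPrimeCore p G → ℂ) ≠ 0)
    {ψ : IrrCharacter G} (hψ : SameBlock M (χ : G → ℂ) (ψ : G → ℂ)) : ψ ∈ U := by
  classical
  haveI hMp : M.IsPrime := isPModular_isPrime hM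
  haveI hLn : (pPrimePCore p G).Normal := by
    unfold pPrimePCore
    exact Subgroup.Normal.comap inferInstance _
  have hKL : pPrimeCore p G ≤ pPrimePCore p G := Cfsg.Agent.Lib.Techniques.pPrimeCore_le_pPrimePCore p
  have hK' : ¬ p ∣ Nat.card (pPrimeCore p G) := Cfsg.Agent.Lib.Core.not_dvd_card_pPrimeCore
  have hLp : ∀ l ∈ pPrimePCore p G, ∃ n : ℕ, l ^ p ^ n ∈ pPrimeCore p G := by
    intro l hl
    exact Cfsg.Agent.Lib.Techniques.exists_pow_mem_pPrimeCore hl
  have hregK : ∀ y ∈ pPrimePCore p G, ¬ p ∣ orderOf y → y ∈ pPrimeCore p G := by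
    intro y hyL hy
    obtain ⟨n, hn⟩ := hLp y hyL
    have hco : Nat.Coprime (p ^ n) (orderOf y) :=
      Nat.Coprime.pow_left _ ((Nat.Prime.coprime_iff_not_dvd hp.out).2 hy)
    obtain ⟨m, hm⟩ := exists_pow_eq_self_of_coprime hco
    rw [← hm]
    exact (pPrimeCore p G).pow_mem hn m
  have hC : ∀ y : G, ¬ p ∣ orderOf y →
      (∀ t : pPrimePCore p G, (t : G)⁻¹ * y * t * y⁻¹ ∈ pPrimeCore p G) → y ∈ pPrimeCore p G := by
    intro y hy ht
    apply hregK y _ hy
    have hstep : Cfsg.Agent.Lib.PSolv.PStep p (G ⧸ pPrimeCore p G) :=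
      (Cfsg.Agent.Lib.PSolv.pStep_of_isPSolvable hp.out hsolv).quotient _
    have hO : pPrimeCore p (G ⧸ pPrimeCore p G) = ⊥ := Cfsg.Agent.Lib.Core.pPrimeCore_quotient_eq_bot
    have hle := Cfsg.Agent.Lib.PSolv.centralizer_pCore_le hstep hO
    show QuotientGroup.mk' (pPrimeCore p G) y ∈ pCore p (G ⧸ pPrimeCore p G)
    apply hle
    rw [Subgroup.mem_centralizer_iff]
    intro z hz
    obtain ⟨f, rfl⟩ := QuotientGroup.mk'_surjective (pPrimeCore p G) z
    have hf : f ∈ pPrimePCore p G := hz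
    have h1 := ht ⟨f, hf⟩
    have h2 : QuotientGroup.mk' (pPrimeCore p G) (f⁻¹ * y * f * y⁻¹) = 1 := (QuotientGroup.eq_one_iff _).2 h1
    simp only [map_mul, map_inv] at h2
    have h3 : (QuotientGroup.mk' (pPrimeCore p G) f)⁻¹ * QuotientGroup.mk' (pPrimeCore p G) y *
        QuotientGroup.mk' (pPrimeCore p G) f = QuotientGroup.mk' (pPrimeCore p G) y := mul_inv_eq_one.1 h2
    rw [mul_assoc, inv_mul_eq_iff_eq_mul] at h3
    exact h3.symm
  haveI : Fintype (pPrimePCore p G) := Fintype.ofFinite _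
  obtain ⟨Θ, hres, hΘinv⟩ := exists_invariant_ext hKL hK' index_subgroupOf_pPrimePCore θ hinv
  -- the idempotent over `θ`
  let V : Set (IrrCharacter G) := U ∩ overSet (pPrimeCore p G) ({θ} : Set (IrrCharacter (pPrimeCore p G)))
  have hV : V ⊆ overSet (pPrimeCore p G) ({θ} : Set (IrrCharacter (pPrimeCore p G))) := Set.inter_subset_right
  have hEV : blockElt V = incl (pPrimeCore p G) (blockElt ({θ} : Set (IrrCharacter (pPrimeCore p G)))) * blockElt U := by
    rw [incl_blockElt_eq_over _ (isStable_singleton _ hinv), blockElt_mul_blockElt, Set.inter_comm]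
  have hreg : ∀ g, p ∣ orderOf g → blockCoeff V g = 0 := by
    intro g hg
    rw [← coeff_blockElt, hEV, coeff_incl_singleton_mul]
    apply mul_eq_zero_of_right
    apply Finset.sum_eq_zero
    intro k _
    rw [coeff_blockElt, hU _ (dvd_orderOf_mul hK' k.2 hg), mul_zero]
  have hsupp : ∀ {y : G}, blockCoeff V y ≠ 0 → y ∈ pPrimeCore p G := fun hy =>
    blockCoeff_mem_of_ne_zero hKL hLp hC θ hinv Θ hres hΘinv V hV hreg hy
  -- Fong's theorem
  obtain ⟨B, hB, hmem, -, -⟩ := fong_general (pPrimeCore p G) (pPrimePCore p G) hM hKL hK'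
    index_subgroupOf_pPrimePCore (fun Q h1 h2 h3 => centralizer_le_pPrimePCore_of_psolvable hsolv h1 h2 h3) hinv
  have hχB : χ ∈ B := (hmem χ).2 hχ
  have hBe : B = blockOf M (χ : G → ℂ) := blockOf_eq_of_mem hB hχB
  have hψB : ψ ∈ B := by
    rw [hBe]
    exact hψ
  have hψθ := (hmem ψ).1 hψB
  have hχV : χ ∈ V := ⟨hχU, θ, rfl, hχ⟩
  haveI : Fintype (ConjClasses G) := Fintype.ofFinite _
  have hcl : ∀ ξ : IrrCharacter G, IsClassFunction G (ξ : G → ℂ) := fun ξ =>
    IsCharacter.isClassFunction (IsIrrCharacter.isCharacter ξ.2)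
  have hom : om (ψ : G → ℂ) (blockElt V) = om (χ : G → ℂ) (blockElt V) := by
    rw [om_eq_sum_conjClasses (isCentralElt_blockElt V) (hcl ψ),
      om_eq_sum_conjClasses (isCentralElt_blockElt V) (hcl χ)]
    refine Finset.sum_congr rfl fun c _ => ?_
    by_cases hc : blockCoeff V c.out = 0
    · rw [coeff_blockElt, hc, zero_mul, zero_mul]
    · have hcK := hsupp hc
      have e1 := (constituent_iff_centralChar (pPrimeCore p G) χ θ).1 hχ ⟨c.out, hcK⟩
      have e2 := (constituent_iff_centralChar (pPrimeCore p G) ψ θ).1 hψθ ⟨c.out, hcK⟩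
      simp only at e1 e2
      rw [e1, e2]
  rw [om_blockElt_of_mem hχV] at hom
  by_contra hcon
  have : ψ ∉ V := fun h => hcon h.1
  rw [om_blockElt_of_notMem this] at hom
  exact zero_ne_one hom

/-- The main induction. -/
theorem regular_support_main : ∀ (n : ℕ) (G : Type u) [Group G] [Fintype G], Nat.card G = n →
    IsPSolvable p G → ∀ (U : Set (IrrCharacter G)), (∀ g, p ∣ orderOf g → blockCoeff U g = 0) →
    ∀ (χ : IrrCharacter G), χ ∈ U → ∀ (ψ : IrrCharacter G), SameBlock M (χ : G → ℂ) (ψ : G → ℂ) →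
    IsPModular p M → ψ ∈ U := by
  intro n
  induction n using Nat.strong_induction_on with
  | _ n ih =>
    intro G _ _ hn hsolv U hU χ hχU ψ hψ hM
    classical
    haveI hMp : M.IsPrime := isPModular_isPrime hM
    haveI : Fintype (pPrimeCore p G) := Fintype.ofFinite _
    obtain ⟨θ, hθ⟩ := exists_constituent (pPrimeCore p G) χ
    by_cases hinv : ∀ g : G, conjIrr (pPrimeCore p G) g θ = θ
    · exact case_invariant hM hsolv hinv U hU hχU hθ hψ
    · have hK' : ¬ p ∣ Nat.card (pPrimeCore p G) := Cfsg.Agent.Lib.Core.not_dvd_card_pPrimeCore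
      have hN : (pPrimeCore p G).Normal := inferInstance
      obtain ⟨T, hTdef⟩ : ∃ T : Subgroup G, T = inertia hN (θ : pPrimeCore p G → ℂ) := ⟨_, rfl⟩
      haveI : Fintype T := Fintype.ofFinite _
      have hKT : pPrimeCore p G ≤ T := by
        rw [hTdef]
        exact le_inertia hN (IsCharacter.isClassFunction (IsIrrCharacter.isCharacter θ.2))
      have hTm : ∀ g : G, g ∈ T ↔ conjIrr (pPrimeCore p G) g θ = θ := by
        intro g
        rw [hTdef, mem_inertia]
        exact ⟨fun h => Subtype.ext h, fun h => congrArg Subtype.val h⟩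
      have hTne : T ≠ ⊤ := by
        intro htop
        apply hinv
        intro g
        apply (hTm g).1
        rw [htop]
        trivial
      have hlt : Nat.card T < n := by
        rw [← hn]
        have h1 := Subgroup.card_mul_index T
        have h2 := Subgroup.one_lt_index_of_ne_top hTne
        have h3 : 0 < Nat.card T := Nat.card_pos
        nlinarith
      have hb : IsPBlock M ({θ} : Set (IrrCharacter (pPrimeCore p G))) := by
        rw [← blockOf_singleton_of_coprime _ hM hK' θ]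
        exact isPBlock_blockOf θ
      have hT' : ∀ g : G, g ∈ T ↔ ∀ θ' ∈ ({θ} : Set (IrrCharacter (pPrimeCore p G))),
          conjIrr (pPrimeCore p G) g θ' ∈ ({θ} : Set (IrrCharacter (pPrimeCore p G))) := by
        intro g
        rw [hTm]
        simp
      have hst : ∀ t ∈ T, ∀ θ' ∈ ({θ} : Set (IrrCharacter (pPrimeCore p G))),
          conjIrr (pPrimeCore p G) t θ' ∈ ({θ} : Set (IrrCharacter (pPrimeCore p G))) :=
        fun t ht => (hT' t).1 ht
      have hdisj := hdisj_overIn (M := M) hKT hb hT'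
      obtain ⟨B', hB', hsub, -, hBeq⟩ := exists_block_stab hM hKT hb hT' (isPBlock_blockOf (M := M) χ)
        ⟨χ, mem_blockOf_self χ, θ, rfl, hθ⟩
      -- the set over `T`
      let O : Set (IrrCharacter T) := OverIn hKT ({θ} : Set (IrrCharacter (pPrimeCore p G)))
      have hcut := incl_cutSet hdisj U
      rw [incl_blockElt_overIn hKT hst] at hcut
      have hregT : ∀ t : T, p ∣ orderOf t → blockCoeff (cutSet O U) t = 0 := by
        intro t ht
        have ht' : p ∣ orderOf (t : G) := by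
          rwa [Subgroup.orderOf_coe]
        have e1 := coeff_incl_coe T (blockElt (cutSet O U)) t
        rw [← hcut, coeff_blockElt] at e1
        rw [← e1, coeff_incl_singleton_mul]
        apply mul_eq_zero_of_right
        apply Finset.sum_eq_zero
        intro k _
        rw [coeff_blockElt, hU _ (dvd_orderOf_mul hK' k.2 ht'), mul_zero]
      -- transport through the block
      have hχm : χ ∈ (indSetOf B' : Set (IrrCharacter G)) := by
        rw [← hBeq]
        exact mem_blockOf_self χ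
      have hψm : ψ ∈ (indSetOf B' : Set (IrrCharacter G)) := by
        rw [← hBeq]
        exact hψ
      obtain ⟨τ₁, hτ₁, hc₁⟩ := hχm
      obtain ⟨τ₂, hτ₂, hc₂⟩ := hψm
      have hτ₁U : τ₁ ∈ cutSet O U := ⟨hsub hτ₁, χ, hχU, hc₁⟩
      have hsame := sameBlock_of_mem hB' hτ₁ hτ₂
      have hsolvT : IsPSolvable p T := Cfsg.Agent.Lib.GS1.isPSolvable_subgroup hp.out hsolv T
      have hτ₂U := ih _ hlt T rfl hsolvT (cutSet O U) hregT τ₁ hτ₁U τ₂ hsame hM
      obtain ⟨-, χ', hχ', hc'⟩ := hτ₂U
      have : ψ = χ' := Subtype.ext (hc₂.trans hc'.symm)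
      rw [this]
      exact hχ'

end Main

end Cfsg.Agent.Lib.Block.RegSupp
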