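import Mathlib

/-!
# Counting fixed points by means of two bases

A linear map permuting one basis, and acting on the coordinates of another basis by a map of the index set, has
the same number of fixed points in each case.
-/

set_option autoImplicit false
set_option linter.unusedSectionVars false
set_option linter.unusedSimpArgs false
set_option linter.unusedVariables false
set_option linter.style.haveILetI false
set_option linter.unnecessarySimpa false

namespace Cfsg.Agent.Lib.Block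

open Module

section Trace

variable {V I J : Type*} [AddCommGroup V] [Module ℂ V] [Finite I] [Finite J]

theorem card_fixed_eq_of_bases (T : V →ₗ[ℂ] V) (b₁ : Basis I ℂ V) (b₂ : Basis J ℂ V) (π : I → I) (ρ : J → J)
    (h₁ : ∀ i, T (b₁ i) = b₁ (π i)) (h₂ : ∀ v j, b₂.repr (T v) j = b₂.repr v (ρ j)) :
    Nat.card {i // π i = i} = Nat.card {j // ρ j = j} := by
  classical
  haveI := Fintype.ofFinite I
  haveI := Fintype.ofFinite J
  have t1 := LinearMap.trace_eq_matrix_trace ℂ b₁ T
  have t2 := LinearMap.trace_eq_matrix_trace ℂ b₂ T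
  have e1 : Matrix.trace (LinearMap.toMatrix b₁ b₁ T) = (Nat.card {i // π i = i} : ℂ) := by
    rw [Matrix.trace]
    simp only [Matrix.diag_apply, LinearMap.toMatrix_apply, h₁, Basis.repr_self_apply]
    rw [Nat.card_eq_fintype_card, Fintype.card_subtype, Finset.card_filter]
    push_cast
    rfl
  have e2 : Matrix.trace (LinearMap.toMatrix b₂ b₂ T) = (Nat.card {j // ρ j = j} : ℂ) := by
    rw [Matrix.trace]
    simp only [Matrix.diag_apply, LinearMap.toMatrix_apply, h₂, Basis.repr_self_apply]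
    rw [Nat.card_eq_fintype_card, Fintype.card_subtype, Finset.card_filter]
    push_cast
    refine Finset.sum_congr rfl fun j _ => ?_
    simp only [eq_comm]
  rw [e1] at t1
  rw [e2] at t2
  exact_mod_cast t1.symm.trans t2

theorem repr_map_of_inverse {I' W W' : Type*} [AddCommGroup W] [Module ℂ W] [AddCommGroup W'] [Module ℂ W']
    (b : Basis I ℂ W) (b' : Basis I' ℂ W') (L : W →ₗ[ℂ] W') (σ : I → I') (τ : I' → I) (hL : ∀ i, L (b i) = b' (σ i))
    (h1 : ∀ i, τ (σ i) = i) (h2 : ∀ i', σ (τ i') = i') (w : W) (i' : I') :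
    b'.repr (L w) i' = b.repr w (τ i') := by
  classical
  have key : ((Finsupp.lapply i') ∘ₗ b'.repr.toLinearMap ∘ₗ L) = (Finsupp.lapply (τ i')) ∘ₗ b.repr.toLinearMap := by
    refine b.ext fun i => ?_
    simp only [LinearMap.comp_apply, LinearEquiv.coe_coe, Finsupp.lapply_apply, hL, Basis.repr_self_apply]
    by_cases h : i = τ i'
    · rw [if_pos h, if_pos (by rw [h, h2])]
    · rw [if_neg h, if_neg fun h3 => h (by rw [← h3, h1])]
  exact LinearMap.congr_fun key w

end Trace

section Sections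

variable {I X V : Type*} [AddCommGroup V] [Module ℂ V] [Finite I] [Fintype X] [DecidableEq X]
  (C : X → Type*) (R : ∀ x, Submodule ℂ (C x → ℂ)) (S : ∀ x, Set (C x → ℂ))

/-- The count of the fixed points of a linear map by means of sections. -/
theorem card_fixed_of_sections
    (hSf : ∀ x, (S x).Finite) (hSi : ∀ x, LinearIndepOn ℂ id (S x)) (hSR : ∀ x, S x ⊆ R x)
    (hSs : ∀ x, Submodule.span ℂ (S x) = R x)
    (T : V →ₗ[ℂ] V) (Ψ : V ≃ₗ[ℂ] ∀ x, R x) (b₁ : Basis I ℂ V) (π : I → I) (hπ : ∀ i, T (b₁ i) = b₁ (π i))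
    (sh : X → X) (ι : ∀ x, C x ≃ C (sh x))
    (hcompat : ∀ v x, ((Ψ (T v) x : R x) : C x → ℂ) = ((Ψ v (sh x) : R (sh x)) : C (sh x) → ℂ) ∘ ι x)
    (h1 : ∀ x, ∀ f ∈ S (sh x), f ∘ ι x ∈ S x) (h2 : ∀ x, ∀ g ∈ S x, g ∘ (ι x).symm ∈ S (sh x))
    (x₁ : X) (hfix : ∀ g : S x₁, (⟨sh x₁, ⟨g.1 ∘ (ι x₁).symm, h2 _ _ g.2⟩⟩ : Σ x, S x) = ⟨x₁, g⟩) :
    Nat.card (S x₁) ≤ Nat.card {i // π i = i} := by
  classical
  haveI : ∀ x, Fintype (S x) := fun x => (hSf x).fintype
  have hbli : ∀ x, LinearIndependent ℂ (fun g : S x => (⟨g.1, hSR x g.2⟩ : R x)) := by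
    intro x
    refine LinearIndependent.of_comp (R x).subtype ?_
    exact hSi x
  have hbsp : ∀ x, ⊤ ≤ Submodule.span ℂ (Set.range fun g : S x => (⟨g.1, hSR x g.2⟩ : R x)) := by
    intro x
    have claim : ∀ y, y ∈ Submodule.span ℂ (S x) → ∀ hy' : y ∈ R x,
        (⟨y, hy'⟩ : R x) ∈ Submodule.span ℂ (Set.range fun g : S x => (⟨g.1, hSR x g.2⟩ : R x)) := by
      intro y hy
      induction hy using Submodule.span_induction with
      | mem y hy =>
        intro hy'
        exact Submodule.subset_span ⟨⟨y, hy⟩, rfl⟩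
      | zero =>
        intro _
        exact Submodule.zero_mem _
      | add a b ha' hb' ha hb =>
        intro hy'
        exact Submodule.add_mem _ (ha (by rw [← hSs x]; exact ha')) (hb (by rw [← hSs x]; exact hb'))
      | smul c a ha' ha =>
        intro hy'
        exact Submodule.smul_mem _ c (ha (by rw [← hSs x]; exact ha'))
    rintro ⟨w, hw⟩ -
    exact claim w (by rw [hSs x]; exact hw) hw
  let b : ∀ x, Basis (S x) ℂ (R x) := fun x => Basis.mk (hbli x) (hbsp x)
  have hbapp : ∀ x (g : S x), ((b x g : R x) : C x → ℂ) = g.1 := by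
    intro x g
    have := Basis.mk_apply (hbli x) (hbsp x) g
    rw [show Basis.mk (hbli x) (hbsp x) g = b x g from rfl] at this
    rw [this]
  let b₂ : Basis (Σ x, S x) ℂ V := (Pi.basis b).map Ψ.symm
  have hb₂ : ∀ v (j : Σ x, S x), b₂.repr v j = (b j.1).repr (Ψ v j.1) j.2 := by
    intro v j
    simp [b₂, Pi.basis_repr]
  have hLmem : ∀ x, ∀ w ∈ R (sh x), w ∘ ι x ∈ R x := by
    intro x w hw
    rw [← hSs (sh x)] at hw
    induction hw using Submodule.span_induction with
    | mem w hw => exact hSR x (h1 x w hw)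
    | zero => exact Submodule.zero_mem _
    | add a b _ _ ha hb => exact Submodule.add_mem _ ha hb
    | smul c a _ ha => exact Submodule.smul_mem _ c ha
  let L : ∀ x, R (sh x) →ₗ[ℂ] R x := fun x =>
    ((LinearMap.funLeft ℂ ℂ (ι x)).restrict (p := R (sh x)) (q := R x) fun w hw => hLmem x w hw)
  have hLapp : ∀ x (w : R (sh x)), ((L x w : R x) : C x → ℂ) = (w : C (sh x) → ℂ) ∘ ι x := fun x w => rfl
  let σ : ∀ x, S (sh x) → S x := fun x f => ⟨f.1 ∘ ι x, h1 x f.1 f.2⟩
  let τ : ∀ x, S x → S (sh x) := fun x g => ⟨g.1 ∘ (ι x).symm, h2 x g.1 g.2⟩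
  let ρ : (Σ x, S x) → (Σ x, S x) := fun j => ⟨sh j.1, τ j.1 j.2⟩
  have hρ : ∀ v j, b₂.repr (T v) j = b₂.repr v (ρ j) := by
    rintro v ⟨x, g⟩
    rw [hb₂, hb₂]
    have e : Ψ (T v) x = L x (Ψ v (sh x)) := Subtype.ext (hcompat v x)
    show (b x).repr (Ψ (T v) x) g = (b (sh x)).repr (Ψ v (sh x)) (τ x g)
    rw [e]
    refine repr_map_of_inverse (b (sh x)) (b x) (L x) (σ x) (τ x) ?_ ?_ ?_ _ _
    · intro f
      apply Subtype.ext
      rw [hLapp, hbapp, hbapp]
    · intro f
      apply Subtype.ext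
      funext c
      simp [τ, σ]
    · intro g
      apply Subtype.ext
      funext c
      simp [τ, σ]
  haveI : Finite (Σ x, S x) := inferInstance
  have hcard := card_fixed_eq_of_bases T b₁ b₂ π ρ hπ hρ
  rw [hcard]
  refine Nat.card_le_card_of_injective (fun g : S x₁ => (⟨⟨x₁, g⟩, hfix g⟩ : {j // ρ j = j})) ?_
  intro g g' h
  have h3 := congrArg Subtype.val h
  simpa using h3

end Sections

end Cfsg.Agent.Lib.Block
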